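import Mathlib
import Cfsg.Agent.H12.FldB
import Cfsg.Agent.H12.SubC

/-!
Forms that are traces of forms over an extension field.
-/

set_option autoImplicit false

namespace Cfsg.Agent.H12

open Module

variable {F V : Type*} [Field F] [AddCommGroup V] [Module F V] {σ : F →+* F}
  {B : V →ₛₗ[σ] V →ₗ[F] F} {M : Subgroup (UG B)}
  {K : Type*} [Field K] [Algebra F K] [Module K V] [IsScalarTower F K V] {τ : K →+* K}
  {β : V →ₛₗ[τ] V →ₗ[K] K} {l : Dual F K}

/-- `B` is obtained from the form `β` over the extension field by the functional `l`. -/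
structure CF (B : V →ₛₗ[σ] V →ₗ[F] F) (β : V →ₛₗ[τ] V →ₗ[K] K) (l : Dual F K) : Prop where
  sd : SD B
  sdK : SD β
  map : ∀ x y, B x y = l (β x y)
  ne : l ≠ 0
  conj : ∀ c, τ (algebraMap F K c) = algebraMap F K (σ c)

theorem exists_CF [Finite K] (D : SD B) (h1 : ∀ a, τ (τ a) = a)
    (h2 : ∀ c, τ (algebraMap F K c) = algebraMap F K (σ c))
    (h3 : ∀ (k : K) x y, B (k • x) y = B x (τ k • y))
    (h4 : τ ≠ RingHom.id K ∨ ∀ (k : K) x, B x (k • x) = 0) :
    ∃ β : V →ₛₗ[τ] V →ₗ[K] K, CF B β (Algebra.trace F K) := by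
  haveI : Finite F := Finite.of_injective _ (algebraMap F K).injective
  have hb := traceForm_nondegenerate F K
  have a1 : ∀ u v : V, ∃ x : K, ∀ k : K, Algebra.trace F K (x * k) = B u (k • v) := fun u v =>
    ⟨((Algebra.traceForm F K).toDual hb).symm
      (B u ∘ₗ (LinearMap.toSpanSingleton K V v).restrictScalars F),
      fun k => LinearMap.BilinForm.apply_toDual_symm_apply (hB := hb) _ k⟩
  choose β hβ using a1
  have a2 : ∀ x y : K, (∀ k, Algebra.trace F K (x * k) = Algebra.trace F K (y * k)) → x = y :=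
    fun x y h => sub_eq_zero.mp (hb.1 _ fun k => by
      rw [Algebra.traceForm_apply, sub_mul, map_sub, h, sub_self])
  have a3 : ∀ k, Algebra.trace F K (τ k) = σ (Algebra.trace F K k) := fun k => by
    have := Algebra.trace_eq_of_equiv_equiv
      (RingEquiv.ofBijective σ (Function.Involutive.bijective D.invol))
      (RingEquiv.ofBijective τ (Function.Involutive.bijective h1))
      (RingHom.ext fun c => (h2 c).symm) k
    rw [this]; exact ((RingEquiv.ofBijective σ _).apply_symm_apply _).symm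
  have a4 : ∀ x y, β y x = -τ (β x y) := fun x y => a2 _ _ fun k => by
    rw [hβ, D.skew, h3, ← hβ, ← a3, neg_mul, map_neg, map_mul, h1]
  refine ⟨LinearMap.mk₂'ₛₗ _ _ β (fun _ _ _ => a2 _ _ fun k => by simp [add_mul, hβ])
    (fun c x y => a2 _ _ fun k => by rw [smul_eq_mul, mul_comm (τ c), mul_assoc, hβ, hβ, h3, smul_smul])
    (fun _ _ _ => a2 _ _ fun k => by simp [add_mul, hβ])
    (fun c x y => a2 _ _ fun k => by
      rw [smul_eq_mul, RingHom.id_apply, mul_comm c, mul_assoc, hβ, hβ, smul_smul, mul_comm]),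
    D, ⟨h1, a4, fun x hx => D.sep x fun y => ?_, fun x => ?_⟩, fun x y => by simpa using (hβ x y 1).symm,
    Algebra.trace_ne_zero F K, h2⟩
  · rw [← one_smul K y, ← hβ, show β x y = 0 from hx y, zero_mul, map_zero]
  · rcases h4 with h4 | h4
    · obtain ⟨θ, hθ⟩ := DFunLike.ne_iff.mp h4
      have h5 := sub_ne_zero.mpr hθ
      have h6 := sub_ne_zero.mpr hθ.symm
      refine ⟨β x x * θ / (θ - τ θ), ?_⟩
      rw [map_div₀, map_mul, map_sub, h1, show τ (β x x) = -β x x from neg_eq_iff_eq_neg.mp (a4 x x).symm]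
      simp only [RingHom.id_apply] at h5 h6
      change _ = β x x
      field_simp
      ring
    · exact ⟨0, by simpa using (a2 _ 0 fun k => by simp [hβ, h4]).symm⟩

namespace CF
variable (h : CF B β l)
include h

/-- An isometry over the extension field as an isometry over the small field. -/
def res : UG β →* UG B := MonoidHom.mk' (fun g => ⟨g.1.restrictScalars F, fun x y => by
  rw [h.map, h.map]; exact congrArg l (UG_map g x y)⟩) fun _ _ => rfl

@[simp] theorem res_apply (g : UG β) (x : V) : (h.res g).1 x = g.1 x := rfl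

theorem exists_eq {k : K} (hk : k ≠ 0) (c : F) : ∃ a, l (a * k) = c := by
  obtain ⟨a, ha⟩ := l.surjective_iff_ne_zero.mpr h.ne c
  exact ⟨a / k, by rwa [div_mul_cancel₀ _ hk]⟩

theorem zero {x y : V} (H : β x y = 0) : B x y = 0 := by rw [h.map, H, map_zero]

theorem smul_right (x y : V) (k : K) : B x (k • y) = l (k * β x y) := by
  rw [h.map, map_smul, smul_eq_mul]

theorem smul_left (x y : V) (k : K) : B (k • x) y = l (τ k * β x y) := by
  rw [h.map, LinearMap.map_smulₛₗ₂, smul_eq_mul]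

end CF

section near
variable (D : SD B) {L : Submodule F V} (hL : ∀ x ∈ L, ∀ y ∈ L, B x y = 0) {b : UG B}
  (h1 : ∀ x, x - b.1 x ∈ L)
include D hL h1

omit D in
theorem near_skew (x y : V) : B x (y - b.1 y) = -B (x - b.1 x) y := by
  have h2 := UG_map b x y
  have h3 := hL _ (h1 x) _ (h1 y)
  simp only [map_sub, LinearMap.sub_apply] at h3 ⊢
  linear_combination h3 - h2

theorem SD.near_fix {z : V} (hz : ∀ y ∈ L, B y z = 0) : b.1 z = z :=
  (sub_eq_zero.mp (D.ext_right fun y => by
    rw [near_skew hL h1, hz _ (h1 y), neg_zero, map_zero])).symm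

theorem SD.comm_near {k : UG B} {e z : V} (he : e ∈ L) (hk : ∀ x ∈ L, k.1 x = x + B z x • e) :
    Adm B e (z - b.1 z) (B z (z - b.1 z)) ∧
      k * b * k⁻¹ * b⁻¹ = rho B e (z - b.1 z) (B z (z - b.1 z)) := by
  have a1 : Adm B e (z - b.1 z) (B z (z - b.1 z)) := ⟨hL _ he _ he, hL _ he _ (h1 z), by
    rw [D.σ_map, hL _ (h1 z) _ (h1 z), near_skew hL h1, sub_self]⟩
  refine ⟨a1, mul_inv_eq_iff_eq_mul.mpr (UG_ext fun x => ?_)⟩
  have a2 := D.near_fix hL h1 (z := (k⁻¹).1 x - x + B e x • z) fun y hy => by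
    rw [map_add, map_sub, ← UG_map_left, hk y hy, map_smul]
    simp [D.σ_map, mul_comm]
  have a3 : b.1 ((k⁻¹).1 x) = (k⁻¹).1 x - ((x - b.1 x) - B e x • (z - b.1 z)) := by
    rw [map_add, map_sub, map_smul] at a2
    linear_combination (norm := module) a2
  have a4 : ∀ y ∈ L, B y (b.1 x) = B y x := fun y hy => by
    have := hL y hy _ (h1 x)
    rwa [map_sub, sub_eq_zero, eq_comm] at this
  rw [UG_mul_apply, UG_mul_apply, UG_mul_apply, a3, map_sub, UG_apply_inv,
    hk _ (sub_mem (h1 x) (L.smul_mem _ (h1 z))), rho_apply D a1, a4 e he, a4 _ (h1 z), map_sub (B z),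
    near_skew hL h1 z x, map_smul, smul_eq_mul]
  module

end near

theorem AddSubgroup.eq_top_of_sq [Finite F] {S : AddSubgroup F} {c : F} (hc : c ≠ 0)
    (h : ∀ a, c * (a * a) ∈ S) (x : F) : x ∈ S := by
  by_cases h2 : (2 : F) = 0
  · haveI : CharP F 2 := CharTwo.of_one_ne_zero_of_two_eq_zero one_ne_zero h2
    obtain ⟨a, ha⟩ := FiniteField.isSquare_of_char_two (ringChar.eq F 2) (x / c)
    convert h a using 1
    rw [← ha]; field_simp
  · convert sub_mem (h ((x / c + 1) / 2)) (h ((x / c - 1) / 2)) using 1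
    field_simp; ring

end Cfsg.Agent.H12
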