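import Mathlib
import Cfsg.Agent.H12.FldA

/-!
Tensor decompositions: contractions, block transvections, and subalgebras of endomorphisms that are
invariant under the special linear group.
-/

set_option autoImplicit false

namespace Cfsg.Agent.H12

open Module

variable {F V : Type*} [Field F] [AddCommGroup V] [Module F V] {M : Subgroup (V ≃ₗ[F] V)}

theorem EN.of_sq [FiniteDimensional F V] {P : (V ≃ₗ[F] V) → Prop}
    (hM : ∀ g ∈ SLV F V, P g → g ∈ M) {N : End F V} (h : ∀ x, N (N x) = 0)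
    (hP : ∀ g : V ≃ₗ[F] V, (∀ x, g x = x + N x) → P g) : EN M N := by
  refine ⟨LinearEquiv.ofLinearMap (1 + N) (1 - N) (by ext; simp [h]) (by ext; simp [h]),
    hM _ (mem_SLV.mpr ?_) (hP _ fun _ => rfl), fun _ => rfl⟩
  have := LinearMap.eval_charpoly (-N) 1
  rw [(IsNilpotent.neg ⟨2, by ext; simp [sq, h]⟩).charpoly_eq_X_pow_finrank] at this
  simpa using this.symm

theorem TR.of_coann [FiniteDimensional F V] {w : V} {S : Set (Dual F V)}
    (h : ∀ β ∈ S, ∀ c : F, TR M w (c • β)) {γ : Dual F V} (H : ∀ u, (∀ β ∈ S, β u = 0) → γ u = 0) :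
    TR M w γ := by
  let A : Submodule F (Dual F V) :=
    { carrier := {β | ∀ c : F, TR M w (c • β)}
      zero_mem' := fun c => by simpa using TR.zero_right w
      add_mem' := fun ha hb c => by simpa using (ha c).add_right (hb c)
      smul_mem' := fun a β hβ c => by simpa [smul_smul] using hβ (c * a) }
  suffices γ ∈ A by simpa using this 1
  rw [← Subspace.dualCoannihilator_dualAnnihilator_eq (W := A), Submodule.mem_dualAnnihilator]
  exact fun u hu => H u fun β hβ => (Submodule.mem_dualCoannihilator _).mp hu β (h β hβ)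

theorem exists_smul_of_mem_span {a : V →ₗ[F] V} (h : ∀ x, a x ∈ F ∙ x) : ∃ c : F, ∀ x, a x = c • x := by
  obtain ⟨c, rfl⟩ := LinearMap.exists_eq_smul_id_of_forall_notLinearIndependent (f := a) fun x H => by
    obtain ⟨c, hc⟩ := Submodule.mem_span_singleton.mp (h x)
    simpa using (LinearIndependent.pair_iff.mp H c (-1) (by simp [hc])).2
  exact ⟨c, fun _ => rfl⟩

section alg
variable {R : Subalgebra F (End F V)}
  (hR : ∀ θ ∈ R, ∀ (u : V) (l : Dual F V), l u = 0 → (1 + l.smulRight u) * θ * (1 - l.smulRight u) ∈ R)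
include hR

theorem smulRight_mem_of_mem {x : V} {l : Dual F V} (h : l.smulRight x ∈ R) (h0 : l x = 0) (hx : x ≠ 0)
    (hl : l ≠ 0) (v : V) (ν : Dual F V) : ν.smulRight v ∈ R := by
  have a0 : ∀ u, l u ≠ 0 → ∃ μ : Dual F V, μ x = 1 ∧ μ u = 0 := fun u hu =>
    exists_dual_one_zero fun e => by
      obtain ⟨c, rfl⟩ := Submodule.mem_span_singleton.mp e
      simp [hu] at h0; simp [h0] at hx
  have a1 : ∀ u, l u ≠ 0 → l.smulRight u ∈ R := fun u hu => by
    obtain ⟨μ, b1, b2⟩ := a0 u hu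
    convert R.smul_mem (add_mem (mul_mem (hR _ h u μ b2) h) (R.smul_mem h (l u))) (-(l u)⁻¹) using 1
    ext z; simp [b1, h0]; match_scalars <;> field_simp <;> simp
  obtain ⟨u, hu⟩ : ∃ u, l u = 1 := l.surjective_iff_ne_zero.mpr hl 1
  have a2 : ∀ v, l.smulRight v ∈ R := fun v => by
    by_cases hv : l v = 0
    · convert sub_mem (a1 (v + u) (by simp [hv, hu])) (a1 u (by simp [hu])) using 1
      ext z; simp
    · exact a1 v hv
  have a3 : ∀ μ : Dual F V, μ x = 1 → μ u = 0 → μ.smulRight x ∈ R ∧ μ.smulRight u ∈ R :=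
    fun μ b1 b2 => by
      have c1 : μ.smulRight x ∈ R := by
        convert sub_mem h (mul_mem h (hR _ h u μ b2)) using 1
        ext z; simp [b1, h0, hu]; module
      refine ⟨c1, ?_⟩
      convert sub_mem (sub_mem (add_mem h (a2 u)) c1) (hR _ h u μ b2) using 1
      ext z; simp [b1, hu]; module
  obtain ⟨μ, b1, b2⟩ := a0 u (by simp [hu])
  have a4 : ν.smulRight x ∈ R := by
    convert add_mem (add_mem (a3 (ν - ν u • l + (1 - ν x) • μ) (by simp [b1, h0]) (by simp [b2, hu])).1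
      (R.smul_mem h (ν u))) (R.smul_mem (a3 μ b1 b2).1 (ν x - 1)) using 1
    ext z; simp; module
  convert mul_mem (mul_mem (a2 v) (a3 μ b1 b2).2) a4 using 1
  ext z; simp [b1, hu]

theorem smulRight_mem_of_nonscalar [FiniteDimensional F V] {θ : End F V} (h : θ ∈ R)
    (h0 : ¬ ∃ c : F, ∀ x, θ x = c • x) (hn : 3 ≤ finrank F V ∨ ∃ c : F, c ≠ 0 ∧ c ≠ 1)
    (v : V) (ν : Dual F V) : ν.smulRight v ∈ R := by
  obtain ⟨u, hu⟩ : ∃ u, θ u ∉ F ∙ u := by
    by_contra H; push Not at H; exact h0 (exists_smul_of_mem_span H)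
  obtain ⟨l, a1, a2⟩ := exists_dual_one_zero hu
  have hl : l ≠ 0 := by rintro rfl; simp at a1
  rcases hn with hn | ⟨c, c0, c1⟩
  · obtain ⟨w, b1, b2, b3⟩ := exists_mem_ker₂ hn l (l ∘ₗ θ)
    refine smulRight_mem_of_mem hR ?_ b2 b1 hl v ν
    convert sub_mem (sub_mem (add_mem (hR _ h u l a2) (hR _ h w l b2)) h)
      (hR _ h (u + w) l (by simp [a2, b2])) using 1
    ext z; simp at b3; simp [a1, b3]; module
  · refine smulRight_mem_of_mem hR ?_ a2 (by rintro rfl; simp at a1) hl v ν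
    convert R.smul_mem (sub_mem (sub_mem (R.smul_mem (hR _ h u l a2) c)
      (hR _ h (c • u) l (by simp [a2]))) (R.smul_mem h (c - 1))) (c * (c - 1))⁻¹ using 1
    have := sub_ne_zero.mpr c1
    ext z; simp [a1]; match_scalars <;> field_simp <;> ring

end alg

variable {V₁ V₂ : Type*} [AddCommGroup V₁] [Module F V₁] [AddCommGroup V₂] [Module F V₂]
  {τ : V₁ →ₗ[F] V₂ →ₗ[F] V} (h : IsTensorProduct τ)
include h

theorem ten_ext {W : Type*} [AddCommGroup W] [Module F W] {f g : V →ₗ[F] W}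
    (H : ∀ x z, f (τ x z) = g (τ x z)) : f = g :=
  LinearMap.ext fun v => h.inductionOn v (by simp) H fun _ _ h₁ h₂ => by simp [h₁, h₂]

/-- Contraction of the second factor with a functional. -/
noncomputable def cR : Dual F V₂ →ₗ[F] V →ₗ[F] V₁ where
  toFun φ := h.lift (φ.smulRight LinearMap.id).flip
  map_add' φ ψ := ten_ext h fun x z => by simp [h.lift_eq, add_smul]
  map_smul' c φ := ten_ext h fun x z => by simp [h.lift_eq, mul_smul]

/-- Contraction of the first factor with a functional. -/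
noncomputable def cL : Dual F V₁ →ₗ[F] V →ₗ[F] V₂ where
  toFun l := h.lift (l.smulRight LinearMap.id)
  map_add' φ ψ := ten_ext h fun x z => by simp [h.lift_eq, add_smul]
  map_smul' c φ := ten_ext h fun x z => by simp [h.lift_eq, mul_smul]

@[simp] theorem cR_ten (φ : Dual F V₂) (x : V₁) (z : V₂) : cR h φ (τ x z) = φ z • x := by
  simp [cR, h.lift_eq]

@[simp] theorem cL_ten (l : Dual F V₁) (x : V₁) (z : V₂) : cL h l (τ x z) = l x • z := by
  simp [cL, h.lift_eq]

theorem cL_cR (l : Dual F V₁) (φ : Dual F V₂) (v : V) : φ (cL h l v) = l (cR h φ v) :=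
  LinearMap.congr_fun (ten_ext h (f := φ ∘ₗ cL h l) (g := l ∘ₗ cR h φ) fun x z => by
    simp [mul_comm]) v

theorem ten_ne_zero {x : V₁} {z : V₂} (hx : x ≠ 0) (hz : z ≠ 0) : τ x z ≠ 0 := fun e => by
  obtain ⟨φ, hφ⟩ := Module.Projective.exists_dual_eq_one F hz
  simpa [hφ, hx] using congrArg (cR h φ) e

theorem ten_left_inj {x x' : V₁} {z : V₂} (hz : z ≠ 0) (e : τ x z = τ x' z) : x = x' := by
  by_contra H
  exact ten_ne_zero h (sub_ne_zero.mpr H) hz (by simp [e])

theorem ten_right_inj {x : V₁} {z z' : V₂} (hx : x ≠ 0) (e : τ x z = τ x z') : z = z' := by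
  by_contra H
  exact ten_ne_zero h hx (sub_ne_zero.mpr H) (by simp [e])

variable [FiniteDimensional F V₂]

theorem eq_zero_of_cR {v : V} (H : ∀ φ, cR h φ v = 0) : v = 0 := by
  have : LinearMap.id = ∑ j, τ.flip (finBasis F V₂ j) ∘ₗ cR h ((finBasis F V₂).coord j) :=
    ten_ext h fun x z => by
      conv_lhs => rw [← (finBasis F V₂).sum_repr z, map_sum]
      simp
  simpa [H] using LinearMap.congr_fun this v

theorem ten_fin [FiniteDimensional F V₁] : FiniteDimensional F V := h.equiv.finiteDimensional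

theorem ten_eq_of_ann {v : V} {y : V₂} (H : ∀ φ, φ y = 0 → cR h φ v = 0) {ψ : Dual F V₂}
    (hψ : ψ y = 1) : v = τ (cR h ψ v) y :=
  sub_eq_zero.mp <| eq_zero_of_cR h fun χ => by
    simpa using H (χ - χ y • ψ) (by simp [hψ])

theorem ten_of_scalar {A : V₁ → V} {a : V₁ → V₁} {x₀ : V₁} {l : Dual F V₁} (hl : l (a x₀) = 1)
    (H : ∀ χ, ∃ c : F, ∀ x, cR h χ (A x) = c • a x) (x : V₁) : A x = τ (a x) (cL h l (A x₀)) :=
  sub_eq_zero.mp <| eq_zero_of_cR h fun χ => by
    obtain ⟨c, hc⟩ := H χ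
    simp [cL_cR, hc, hl]

end Cfsg.Agent.H12
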