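import Mathlib
import Cfsg.Agent.H12.TenA

/-!
Overgroups of the stabiliser of a tensor decomposition with factors of different dimensions.
-/

set_option autoImplicit false

namespace Cfsg.Agent.H12

open Module

variable {F V : Type*} [Field F] [AddCommGroup V] [Module F V] {M : Subgroup (V ≃ₗ[F] V)}
  {V₁ V₂ : Type*} [AddCommGroup V₁] [Module F V₁] [AddCommGroup V₂] [Module F V₂]
  {τ : V₁ →ₗ[F] V₂ →ₗ[F] V}

/-- `g` is a tensor product of two maps. -/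
def TN (τ : V₁ →ₗ[F] V₂ →ₗ[F] V) (g : V ≃ₗ[F] V) : Prop :=
  ∃ (a : End F V₁) (b : End F V₂), ∀ x z, g (τ x z) = τ (a x) (b z)

variable (h : IsTensorProduct τ)

/-- The map `θ ⊗ y φ`. -/
noncomputable def bt (θ : End F V₁) (y : V₂) (φ : Dual F V₂) : End F V := τ.flip y ∘ₗ θ ∘ₗ cR h φ

@[simp] theorem bt_apply (θ : End F V₁) (y : V₂) (φ : Dual F V₂) (v : V) :
    bt h θ y φ v = τ (θ (cR h φ v)) y := rfl

/-- The block of `g` at `(φ, y)`. -/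
noncomputable def blk (g : V ≃ₗ[F] V) (φ : Dual F V₂) (y : V₂) : End F V₁ :=
  cR h φ ∘ₗ g.toLinearMap ∘ₗ τ.flip y

@[simp] theorem blk_apply (g : V ≃ₗ[F] V) (φ : Dual F V₂) (y : V₂) (x : V₁) :
    blk h g φ y x = cR h φ (g (τ x y)) := rfl

theorem exists_smul_of_ker {φ ψ : Dual F V} (H : ∀ x, ψ x = 0 → φ x = 0) : ∃ c : F, φ = c • ψ := by
  obtain ⟨c, hc⟩ := Submodule.mem_span_singleton.mp <| by
    simpa using mem_span_of_iInf_ker_le_ker (L := fun _ : Unit => ψ) (K := φ) (by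
      simpa [SetLike.le_def] using H)
  exact ⟨c, hc.symm⟩

variable [FiniteDimensional F V₁] [FiniteDimensional F V₂]
  (hM : ∀ g ∈ SLV F V, TN τ g → g ∈ M) (h3 : 3 ≤ finrank F V₂)
include hM

theorem en_bt_one {y : V₂} {φ : Dual F V₂} (h0 : φ y = 0) : EN M (bt h 1 y φ) :=
  haveI := ten_fin h
  EN.of_sq hM (by simp [h0]) fun g hg => ⟨1, 1 + φ.smulRight y, by simp [hg]⟩

theorem en_left {u : V₁} {l : Dual F V₁} (h0 : l u = 0) : EN M (τ u ∘ₗ cL h l) :=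
  haveI := ten_fin h
  EN.of_sq hM (by simp [h0]) fun g hg => ⟨1 + l.smulRight u, 1, by simp [hg]⟩

include h3

omit [FiniteDimensional F V₁] hM in
theorem exists_ker_notMem (φ : Dual F V₂) (y : V₂) : ∃ z, φ z = 0 ∧ z ∉ F ∙ y := by
  rcases eq_or_ne y 0 with rfl | hy
  · obtain ⟨z, a1, a2, -⟩ := exists_mem_ker₂ h3 φ φ
    exact ⟨z, a2, by simpa using a1⟩
  obtain ⟨χ, hχ⟩ := Module.Projective.exists_dual_eq_one F hy
  obtain ⟨z, a1, a2, a3⟩ := exists_mem_ker₂ h3 φ χ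
  refine ⟨z, a2, fun e => ?_⟩
  obtain ⟨c, rfl⟩ := Submodule.mem_span_singleton.mp e
  simp [hχ] at a3; simp [a3] at a1

theorem en_bt_left {θ : End F V₁} {y z : V₂} {φ : Dual F V₂} (H : EN M (bt h θ y φ)) (h0 : φ y = 0)
    (hy : y ≠ 0) (hz : φ z = 0) : EN M (bt h θ z φ) := by
  have a1 : ∀ {y z}, EN M (bt h θ y φ) → φ y = 0 → y ∉ F ∙ z → φ z = 0 → EN M (bt h θ z φ) :=
    fun {y z} H h0 hy hz => by
      obtain ⟨χ, b1, b2⟩ := exists_dual_one_zero hy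
      convert (en_bt_one h hM b2).comm H (by simp [b2]) (by simp [h0]) (by simp [hz]) using 1
      ext; simp [b1]
  by_cases e : y ∈ F ∙ z
  · obtain ⟨w, b1, b2⟩ := exists_ker_notMem h3 φ z
    refine a1 (a1 H h0 (fun e' => b2 ?_) b1) b1 b2 hz
    obtain ⟨c, rfl⟩ := Submodule.mem_span_singleton.mp e'
    exact (Submodule.smul_mem_iff _ (left_ne_zero_of_smul hy)).mp e
  · exact a1 H h0 e hz

/-- The algebra of the `θ` with all `1 + θ ⊗ y φ` in `M`. -/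
def BR : Subalgebra F (End F V₁) where
  carrier := {θ | ∀ y φ, φ y = 0 → EN M (bt h θ y φ)}
  add_mem' {θ θ'} ha hb y φ h0 := by
    convert (ha y φ h0).add (hb y φ h0) (by simp [h0]) using 1
    ext; simp
  mul_mem' {θ θ'} ha hb y φ h0 := by
    obtain ⟨w, b1, b2⟩ := exists_ker_notMem h3 φ y
    obtain ⟨χ, b3, b4⟩ := exists_dual_one_zero b2
    convert (ha y χ b4).comm (hb w φ b1) (by simp [b4]) (by simp [b1]) (by simp [h0]) using 1
    ext; simp [b3]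
  algebraMap_mem' c y φ h0 := by
    convert en_bt_one h hM (y := c • y) (φ := φ) (by simp [h0]) using 1
    ext; simp [Algebra.algebraMap_eq_smul_one]

theorem mem_BR_of {θ : End F V₁} {y : V₂} {φ : Dual F V₂} (H : EN M (bt h θ y φ)) (h0 : φ y = 0)
    (hy : y ≠ 0) (hφ : φ ≠ 0) : θ ∈ BR h hM h3 := fun z ψ hz => by
  obtain ⟨w, a1, a2, a3⟩ := exists_mem_ker₂ h3 φ ψ
  have a4 := en_bt_left h hM h3 H h0 hy a2
  by_cases e : ∀ x, ψ x = 0 → φ x = 0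
  · obtain ⟨c, rfl⟩ := exists_smul_of_ker e
    refine en_bt_left h hM h3 (y := c • w) ?_ (by simp [a3])
      (smul_ne_zero (by rintro rfl; simp at hφ) a1) hz
    convert a4 using 1
    ext; simp
  · push Not at e
    obtain ⟨x, b1, b2⟩ := e
    refine en_bt_left h hM h3 ?_ a3 a1 hz
    convert a4.comm (en_bt_one h hM (y := (φ x)⁻¹ • x) (φ := ψ) (by simp [b1])) (by simp [a2])
      (by simp [b1]) (by simp [a3]) using 1
    ext; simp [smul_smul, b2]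

theorem SLV_le_of_BR (hn : 3 ≤ finrank F V₁ ∨ ∃ c : F, c ≠ 0 ∧ c ≠ 1) {θ : End F V₁}
    (H : θ ∈ BR h hM h3) (h0 : ¬ ∃ c : F, ∀ x, θ x = c • x) : SLV F V ≤ M := by
  haveI := ten_fin h
  have a1 := smulRight_mem_of_nonscalar (R := BR h hM h3) (fun θ hθ u l h0 y φ h1 => by
    convert (hθ y φ h1).conj_en (en_left h hM h0) (by simp [h0]) using 1
    exact ten_ext h fun x z => by simp; module) H h0 hn
  have a2 : ∀ x y (l : Dual F V₁) (φ : Dual F V₂), φ y = 0 → TR M (τ x y) (l ∘ₗ cR h φ) :=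
    fun x y l φ h0 => (a1 x l y φ h0).tr (by simp [h0]) (by simp)
  refine SLV_le_of_PS (eq_top_iff.mpr fun v _ => h.inductionOn v (zero_mem _) (fun x y γ hγ => ?_)
    fun _ _ => add_mem)
  rcases eq_or_ne y 0 with rfl | hy
  · simpa using TR.zero_left γ
  rcases eq_or_ne x 0 with rfl | hx
  · simpa using TR.zero_left γ
  obtain ⟨ψ, hψ⟩ := Module.Projective.exists_dual_eq_one F hy
  obtain ⟨μ, hμ⟩ := Module.Projective.exists_dual_eq_one F hx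
  refine TR.of_coann (S := {β | ∃ l φ, l x * φ y = 0 ∧ β = l ∘ₗ cR h φ}) ?_ fun u hu => ?_
  · rintro _ ⟨l, φ, b1, rfl⟩ c
    rw [← LinearMap.smul_comp]
    obtain ⟨w, b2, b3⟩ := exists_ker_notMem h3 φ y
    obtain ⟨χ, b4, b5⟩ := exists_dual_one_zero b3
    simpa [b4, hμ] using (a2 x y μ χ b5).comm (a2 x w (c • l) φ b2) (by simp [mul_comm, b1])
  · have b1 := ten_eq_of_ann h (v := u) (fun φ h0 => (forall_dual_apply_eq_zero_iff F _).mp fun l =>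
      hu _ ⟨l, φ, by simp [h0], rfl⟩) hψ
    obtain ⟨c, hc⟩ := Submodule.mem_span_singleton.mp <| show cR h ψ u ∈ F ∙ x by
      by_contra e
      obtain ⟨l, c1, c2⟩ := exists_dual_one_zero e
      simpa [c1] using hu _ ⟨l, ψ, by simp [c2], rfl⟩
    rw [b1, ← hc]; simp [hγ]

theorem blk_mem {g : V ≃ₗ[F] V} (hg : g ∈ M) {y z : V₂} {ψ φ : Dual F V₂} (hψ : ψ ≠ 0)
    (H : ∀ x, cR h ψ (g (τ x y)) = 0) (h1 : φ y = 0) (h2 : ψ z = 0) (χ : Dual F V₂) :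
    blk h g χ y * blk h g⁻¹ φ z ∈ BR h hM h3 := by
  obtain ⟨w, a1, a2, a3⟩ := exists_mem_ker₂ h3 ψ χ
  have a4 : EN M (g.toLinearMap ∘ₗ bt h 1 y φ ∘ₗ g.symm.toLinearMap) :=
    (en_bt_one h hM h1).conj hg (by simp)
  have a5 := a4.comm (en_bt_one h hM h2) (by simp [h1]) (by simp [h2]) (by simp [H])
  refine mem_BR_of h hM h3 ?_ a2 a1 hψ
  convert (en_bt_one h hM a3).comm a5 (by simp [a3]) (by simp [H]) (by simp [a2]) using 1
  rfl

section Z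
variable (hs : ∀ θ ∈ BR h hM h3, ∃ c : F, ∀ x, θ x = c • x) [Nontrivial V₁]
include hs

theorem ten_of_zero_blk {g : V ≃ₗ[F] V} (hg : g ∈ M) {y : V₂} {ψ : Dual F V₂} (hy : y ≠ 0)
    (hψ : ψ ≠ 0) (H : ∀ x, cR h ψ (g (τ x y)) = 0) :
    ∃ (a : V₁ ≃ₗ[F] V₁) (w : V₂), ∀ x, g (τ x y) = τ (a x) w := by
  obtain ⟨x₀, hx₀⟩ := exists_ne (0 : V₁)
  obtain ⟨φ, z, x₁, a1, a2, a3⟩ : ∃ φ z x₁, φ y = 0 ∧ ψ z = 0 ∧ blk h g⁻¹ φ z x₁ ≠ 0 := by
    by_contra e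
    push Not at e
    obtain ⟨χ, hχ⟩ := Module.Projective.exists_dual_eq_one F hy
    have b1 : ∀ z, ψ z = 0 → ∀ x, g⁻¹ (τ x z) = τ (blk h g⁻¹ χ z x) y := fun z hz x =>
      ten_eq_of_ann h (fun φ h0 => e φ z x h0 hz) hχ
    obtain ⟨z, b2, b3, -⟩ := exists_mem_ker₂ h3 ψ ψ
    obtain ⟨z', b4, b5⟩ := exists_ker_notMem h3 ψ z
    obtain ⟨x, hx⟩ := (LinearMap.injective_iff_surjective (f := blk h g⁻¹ χ z)).mp (fun x x' e =>
      ten_left_inj h b2 (g⁻¹.injective (by rw [b1 z b3, b1 z b3, e]))) (blk h g⁻¹ χ z' x₀)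
    obtain ⟨κ, c1, c2⟩ := exists_dual_one_zero b5
    have := congrArg (cR h κ) (g⁻¹.injective ((b1 z b3 x).trans (hx ▸ (b1 z' b4 x₀).symm)))
    simp [c1, c2, hx₀.symm] at this
  have a4 := fun χ => hs _ (blk_mem h hM h3 hg hψ H a1 a2 χ)
  obtain ⟨χ, hχ⟩ : ∃ χ, cR h χ (g (τ (blk h g⁻¹ φ z x₁) y)) ≠ 0 := by
    by_contra e
    push Not at e
    exact ten_ne_zero h a3 hy (g.map_eq_zero_iff.mp (eq_zero_of_cR h e))
  obtain ⟨c, hc⟩ := a4 χ
  have a5 : Function.Injective (blk h g⁻¹ φ z) := (injective_iff_map_eq_zero _).mpr fun x hx => by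
    have b1 : c ≠ 0 := fun e => hχ (by simpa [e] using hc x₁)
    simpa [End.mul_apply, hx, b1] using (hc x).symm
  let b := LinearEquiv.ofInjectiveEndo _ a5
  obtain ⟨l, hl⟩ := Module.Projective.exists_dual_eq_one F (b.symm.map_ne_zero_iff.mpr hx₀)
  refine ⟨b.symm, _, ten_of_scalar h (A := fun x => g (τ x y)) hl fun κ => ?_⟩
  obtain ⟨d, hd⟩ := a4 κ
  refine ⟨d, fun x => ?_⟩
  rw [← hd, End.mul_apply, show blk h g⁻¹ φ z (b.symm x) = x from b.apply_symm_apply x, blk_apply]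

theorem TN_of_zero_blk {g : V ≃ₗ[F] V} (hg : g ∈ M) {y : V₂} {ψ : Dual F V₂} (hy : y ≠ 0)
    (hψ : ψ ≠ 0) (H : ∀ x, cR h ψ (g (τ x y)) = 0) : TN τ g := by
  obtain ⟨a, w, ha⟩ := ten_of_zero_blk h hM h3 hs hg hy hψ H
  obtain ⟨x₀, hx₀⟩ := exists_ne (0 : V₁)
  obtain ⟨l, hl⟩ := Module.Projective.exists_dual_eq_one F (a.map_ne_zero_iff.mpr hx₀)
  obtain ⟨χ, hχ⟩ := Module.Projective.exists_dual_eq_one F hy
  have a0 : ∀ x, g⁻¹ (τ x w) = τ (a.symm x) y := fun x => by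
    rw [LinearEquiv.coe_inv, LinearEquiv.symm_apply_eq, ha, a.apply_symm_apply]
  have a1 : ∀ φ z, φ w = 0 → ∃ c : F, ∀ x, cR h φ (g (τ x z)) = c • a x := fun φ z h0 => by
    obtain ⟨ψ, b1, b2, b3⟩ := exists_dual_ker₂ h3 y z
    obtain ⟨c, hc⟩ := hs _ (blk_mem h hM h3 (inv_mem hg) b1 (by simp [a0, b2]) h0 b3 χ)
    exact ⟨c, fun x => by simpa [a0, hχ, LinearEquiv.symm_apply_eq] using hc x⟩
  have a2 : ∀ z, ∃ w', ∀ x, g (τ x z) = τ (a x) w' := fun z => by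
    by_cases e : z ∈ F ∙ y
    · obtain ⟨c, rfl⟩ := Submodule.mem_span_singleton.mp e
      exact ⟨c • w, by simp [ha]⟩
    obtain ⟨φ, b1, b2, b3⟩ := exists_dual_ker₂ h3 w (cL h l (g (τ x₀ z)))
    obtain ⟨c, hc⟩ := a1 φ z b2
    obtain rfl : c = 0 := by simpa [cL_cR, hc, hl] using b3
    obtain ⟨a', w', ha'⟩ := ten_of_zero_blk h hM h3 hs hg (y := z) (by rintro rfl; simp at e) b1
      (by simpa using hc)
    obtain ⟨κ, c1, c2⟩ := exists_dual_one_zero (F := F) (v := w') (w := w) fun e' => by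
      obtain ⟨d, rfl⟩ := Submodule.mem_span_singleton.mp e'
      obtain ⟨κ, c1, c2⟩ := exists_dual_one_zero e
      have : τ x₀ z = τ (a.symm (d • a' x₀)) y := g.injective (by simp [ha, ha'])
      simpa [c1, c2, hx₀] using congrArg (cR h κ) this
    obtain ⟨d, hd⟩ := a1 κ z c2
    refine ⟨d • w', fun x => ?_⟩
    have := hd x
    simp only [ha', cR_ten, c1, one_smul] at this
    simp [ha', this]
  refine ⟨a, cL h l ∘ₗ g.toLinearMap ∘ₗ τ x₀, fun x z => ?_⟩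
  obtain ⟨w', hw⟩ := a2 z
  simp [hw, hl]

end Z

include h

omit hM h3 in
theorem fix_of_small (hn : finrank F V₁ < finrank F V₂) {g : V ≃ₗ[F] V} (hg : TN τ g)
    {B : V →ₗ[F] V₁} (hB : ∀ v, B v = 0 → g v = v) {x₀ : V₁} {y : V₂} (h0 : x₀ ≠ 0)
    (H : g (τ x₀ y) = τ x₀ y) (x : V₁) : g (τ x y) = τ x y := by
  obtain ⟨a, b, hg⟩ := hg
  obtain ⟨c, hc⟩ := exists_smul_of_mem_span (a := a) fun x => by
    by_contra e
    obtain ⟨l, a1, a2⟩ := exists_dual_one_zero e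
    obtain ⟨z, a3, a4⟩ := (Submodule.ne_bot_iff _).mp
      (LinearMap.ker_ne_bot_of_finrank_lt (f := B ∘ₗ τ x) hn)
    have a5 := (hg x z).symm.trans (hB _ a3)
    have a6 : b z = 0 := by simpa [a1, a2] using congrArg (cL h l) a5
    exact ten_ne_zero h (x := x) (by rintro rfl; simp at a1) a4 (by simpa [a6] using a5.symm)
  have : c • b y = y := ten_right_inj h h0 (by simpa [hg, hc] using H)
  rw [hg, hc, map_smul, LinearMap.smul_apply, ← map_smul, this]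

omit h3 in
theorem SLV_le_of_ten (h2 : 2 ≤ finrank F V₁) (hlt : finrank F V₁ < finrank F V₂)
    (hn : 3 ≤ finrank F V₁ ∨ ∃ c : F, c ≠ 0 ∧ c ≠ 1) {g : V ≃ₗ[F] V} (hg : g ∈ M)
    (hg' : ¬ TN τ g) : SLV F V ≤ M := by
  have h3 : 3 ≤ finrank F V₂ := by omega
  haveI : Nontrivial V₁ := Module.nontrivial_of_finrank_pos (R := F) (by omega)
  haveI : Nontrivial V₂ := Module.nontrivial_of_finrank_pos (R := F) (by omega)
  by_contra hc
  have hs : ∀ θ ∈ BR h hM h3, ∃ c : F, ∀ x, θ x = c • x := fun θ hθ => by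
    by_contra e; exact hc (SLV_le_of_BR h hM h3 hn hθ e)
  obtain ⟨x₀, hx₀⟩ := exists_ne (0 : V₁)
  let S : Set (Submodule F V₁) := {K | x₀ ∈ K ∧ ∃ g ∈ M, ¬ TN τ g ∧ ∃ y φ, y ≠ 0 ∧ φ ≠ 0 ∧
    ∀ x ∈ K, cR h φ (g (τ x y)) = 0}
  obtain ⟨K, ⟨k0, g, hg, hg', y, φ, hy, hφ, H⟩, hK⟩ := set_has_maximal_iff_noetherian.mpr
    (inferInstance : IsNoetherian F V₁) S (by
      obtain ⟨y, hy⟩ := exists_ne (0 : V₂)
      obtain ⟨φ, a3, a4⟩ := (Submodule.ne_bot_iff _).mp (LinearMap.ker_ne_bot_of_finrank_lt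
        (f := (cR h).flip (g (τ x₀ y))) (by simpa using hlt))
      exact ⟨LinearMap.ker (blk h g φ y), a3, g, hg, hg', y, φ, hy, a4, fun x hx => hx⟩)
  have a0 : ∀ g ∈ M, ¬ TN τ g → ∀ φ : Dual F V₂, φ ≠ 0 → (∀ x ∈ K, cR h φ (g (τ x y)) = 0) →
      ∀ x, cR h φ (g (τ x y)) = 0 → x ∈ K := fun g hg hg' φ hφ H x hx => by
    by_contra e
    exact hK (LinearMap.ker (blk h g φ y)) ⟨H _ k0, g, hg, hg', y, φ, hy, hφ, fun x hx => hx⟩
      (lt_of_le_of_ne H fun e' => e (e' ▸ hx))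
  obtain ⟨x₁, hx₁⟩ : ∃ x, x ∉ K := by
    by_contra e
    push Not at e
    exact hg' (TN_of_zero_blk h hM h3 hs hg hy hφ fun x => H x (e x))
  have a1 : ∀ g ∈ M, ∀ (φ : Dual F V₂) (z : V₂), φ z = 0 → ∃ k ∈ M, ∀ v,
      k v = v + g.symm (τ (cR h φ (g v)) z) := fun g hg φ z h0 => by
    obtain ⟨t, b1, b2⟩ := en_bt_one h hM h0
    exact ⟨g⁻¹ * t * g, mul_mem (mul_mem (inv_mem hg) b1) hg, fun v => by simp [b2]⟩
  obtain ⟨z, b1, b2, -⟩ := exists_mem_ker₂ h3 φ φ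
  obtain ⟨k, b3, b4⟩ := a1 g hg φ z b2
  have b5 : ∀ x ∈ K, k (τ x y) = τ x y := fun x hx => by simp [b4, H x hx]
  have b6 : ¬ TN τ k := fun e => hx₁ <| a0 g hg hg' φ hφ H x₁ <| by
    have := fix_of_small h hlt e (B := cR h φ ∘ₗ g.toLinearMap) (fun v hv => by
      simp at hv; simp [b4, hv]) hx₀ (b5 _ k0) x₁
    by_contra e
    exact ten_ne_zero h e b1 (by simpa [b4] using this)
  obtain ⟨ψ, c1, c2⟩ := (Submodule.ne_bot_iff _).mp (LinearMap.ker_ne_bot_of_finrank_lt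
    (f := ((F ∙ x₀).mkQ ∘ₗ (cR h).flip (k (τ x₁ y))).prod (Dual.eval F V₂ y)) (by
      have := (F ∙ x₀).finrank_quotient_add_finrank
      rw [finrank_span_singleton hx₀] at this
      simp; omega))
  replace c1 : cR h ψ (k (τ x₁ y)) ∈ F ∙ x₀ ∧ ψ y = 0 :=
    ⟨(Submodule.Quotient.mk_eq_zero _).mp (congrArg Prod.fst c1), congrArg Prod.snd c1⟩
  obtain ⟨c, hc⟩ := Submodule.mem_span_singleton.mp c1.1
  by_cases c0 : c = 0
  · exact hx₁ (a0 k b3 b6 ψ c2 (fun x hx => by simp [b5 x hx, c1.2]) x₁ (by simp [← hc, c0]))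
  obtain ⟨k', d1, d2⟩ := a1 k b3 ψ y c1.2
  have d3 : ∀ x ∈ K, k' (τ x y) = τ x y := fun x hx => by simp [d2, b5 x hx, c1.2]
  have d4 : k' (τ x₁ y) = τ (x₁ + c • x₀) y := by
    simp [d2, ← hc, k.symm_apply_eq.mpr (b5 _ k0).symm]
  refine hx₁ (a0 k' d1 (fun e => ?_) ψ c2 (fun x hx => by simp [d3 x hx, c1.2]) x₁
    (by simp [d4, c1.2]))
  have := fix_of_small h hlt e (B := cR h ψ ∘ₗ k.toLinearMap) (fun v hv => by
    simp at hv; simp [d2, hv]) hx₀ (d3 _ k0) x₁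
  simp [d4, c0, ten_ne_zero h hx₀ hy] at this

end Cfsg.Agent.H12
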