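import Mathlib
import Cfsg.Agent.H12.CfA
import Cfsg.Agent.H12.TenB

/-!
Overgroups of symplectic groups over extension fields in symplectic groups.
-/

set_option autoImplicit false

namespace Cfsg.Agent.H12

open Module

variable {F V : Type*} [Field F] [AddCommGroup V] [Module F V]
  {B : V →ₛₗ[RingHom.id F] V →ₗ[F] F} {M : Subgroup (UG B)}

theorem SD.tv_mem_of_rho (D : SD B) {e u : V} {c c' : F} (h : B e u = 0) (h1 : rho B e u c ∈ M)
    (h2 : rho B e u c' ∈ M) : tv B e (c' - c) ∈ M := by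
  have h3 : ∀ c, Adm B e u c := fun c => ⟨D.self_eq_zero rfl e, h, by simp [D.self_eq_zero rfl u]⟩
  rwa [rho_eq_tv_mul_rho D (h3 c) (h3 c'), Subgroup.mul_mem_cancel_right _ h1] at h2

theorem SD.adm_sp (D : SD B) {e u : V} (h : B e u = 0) (c : F) : Adm B e u c :=
  ⟨D.self_eq_zero rfl e, h, by simp [D.self_eq_zero rfl u]⟩

theorem SD.rho_map_mem {σ : F →+* F} {B : V →ₛₗ[σ] V →ₗ[F] F} {M : Subgroup (UG B)} (D : SD B)
    {e u : V} {c : F} (h : rho B e u c ∈ M) {k : UG B} (hk : k ∈ M) : rho B (k.1 e) (k.1 u) c ∈ M :=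
  conj_rho D k e u c ▸ mul_mem (mul_mem hk h) (inv_mem hk)

variable {K : Type*} [Field K] [Algebra F K] [Module K V] [IsScalarTower F K V]
  {β : V →ₛₗ[RingHom.id K] V →ₗ[K] K} {l : Dual F K} (h : CF B β l) [FiniteDimensional K V] [Finite K]
  (hM : ∀ g, h.res g ∈ M)
include hM

namespace CF

theorem sp_of_tv {w : V} {c : F} (H : tv B w c ∈ M) (hw : w ≠ 0) (hc : c ≠ 0) : SUG B ≤ M := by
  haveI : Finite F := Finite.of_injective _ (algebraMap F K).injective
  haveI := Module.Finite.of_finite (R := F) (M := K)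
  haveI := Module.Finite.trans (R := F) K V
  have D := h.sd
  refine D.SUG_le_of_IS ns_id (Or.inr (Or.inl rfl)) fun z hz => ⟨hz, fun x => ?_⟩
  let S : AddSubgroup F :=
    { carrier := {c | tv B z c ∈ M}
      zero_mem' := by simpa [tv_zero D] using one_mem M
      add_mem' := fun ha hb => by simpa [tv_mul D hz] using M.mul_mem ha hb
      neg_mem' := fun ha => by simpa [tv_inv D] using M.inv_mem ha }
  refine AddSubgroup.eq_top_of_sq (S := S) hc (fun a => ?_) x
  by_cases e : a • z = 0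
  · have := tv_smul D hz (c := c) rfl a
    rw [e, tv_zero_left D] at this
    exact (this ▸ one_mem M : tv B z (c * (a * a)) ∈ M)
  obtain ⟨k, hk⟩ := h.sdK.witt_one hw e (by rw [h.sdK.self_eq_zero rfl, h.sdK.self_eq_zero rfl])
  have := D.rho_map_mem H (hM k)
  rw [res_apply, hk, map_zero] at this
  exact (tv_smul D hz (c := c) rfl a ▸ this : tv B z (c * (a * a)) ∈ M)

theorem sp_of_rho (h3 : 3 ≤ finrank K V) (hr : 2 ≤ finrank F K) {w v : V} {c : F}
    (H : rho B w v c ∈ M) (hw : w ≠ 0) (h0 : B w v = 0) (hv : v ∉ K ∙ w) : SUG B ≤ M := by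
  have D := h.sd
  have E := h.sdK
  have e0 := E.self_eq_zero rfl
  obtain ⟨u, c, a1, a2, a3⟩ : ∃ u c, β w u = 0 ∧ u ∉ K ∙ w ∧ rho B w u c ∈ M := by
    by_cases e : β w v = 0
    · exact ⟨v, c, e, hv, H⟩
    obtain ⟨u, b1, b2⟩ := exists_ker_notMem h3 (β w) w
    have b3 := D.rho_map_mem H (hM (rho β w u 0))
    rw [res_apply, res_apply, rho_apply_self E, rho_apply E (E.adm_sp b1 0)] at b3
    have b4 : β w (β w v • u + β u v • w) = 0 := by simp [b1, e0]
    have b5 := mul_mem (inv_mem H) b3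
    rw [rho_inv D (D.adm_sp h0 c), rho_mul D (D.adm_sp (by simp [h0]) _)
      (D.adm_sp (by simp [h0, h.smul_right, b1, e0]) _)] at b5
    refine ⟨_, _, b4, fun e' => b2 ?_, by simpa [add_assoc] using b5⟩
    rwa [Submodule.add_mem_iff_left _ (Submodule.smul_mem _ _ (Submodule.mem_span_singleton_self w)),
      Submodule.smul_mem_iff _ e] at e'
  have a4 : ∀ u', β w u' = 0 → u' ∉ K ∙ w → rho B w u' c ∈ M := fun u' b1 b2 => by
    obtain ⟨k, -, b3, b4⟩ := E.witt_SUG_two (li_pair_of_notMem hw a2) (li_pair_of_notMem hw b2) rfl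
      (b1.trans a1.symm) (by rw [e0, e0]) (Or.inl rfl)
    simpa [b3, b4] using D.rho_map_mem a3 (hM k)
  have a5 : ∀ u', β w u' = 0 → u' ∉ K ∙ w → u + u' ∉ K ∙ w → c + B u u' = 0 ∨ SUG B ≤ M :=
    fun u' b1 b2 b3 => or_iff_not_imp_left.mpr fun e => by
      have b4 := mul_mem a3 (a4 u' b1 b2)
      rw [rho_mul D (D.adm_sp (h.zero a1) _) (D.adm_sp (h.zero b1) _)] at b4
      refine h.sp_of_tv hM (D.tv_mem_of_rho (h.zero ?_) (a4 _ ?_ b3) b4) hw (by simpa [add_assoc]) <;>
        simp [a1, b1]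
  obtain ⟨o, ho⟩ := exists_notMem_span hr (1 : K)
  have o0 : o ≠ 0 := by rintro rfl; simp at ho
  have o1 : 1 + o ≠ 0 := fun e => ho (by
    rw [eq_neg_of_add_eq_zero_right e]; exact neg_mem (Submodule.mem_span_singleton_self _))
  obtain ⟨b, b1, b2⟩ := E.exists_perp_one _ a2
  obtain ⟨a, ha⟩ := h.exists_eq one_ne_zero 1
  have b3 : ∀ x, β u x ≠ 0 → x ∉ K ∙ w := fun x hx e => by
    obtain ⟨k, rfl⟩ := Submodule.mem_span_singleton.mp e
    simp [E.comm0 a1] at hx
  have a0 : a ≠ 0 := by rintro rfl; simp at ha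
  have c1 := a5 (o • u) (by simp [a1]) (by rwa [Submodule.smul_mem_iff _ o0])
    (by rwa [show u + o • u = (1 + o) • u by module, Submodule.smul_mem_iff _ o1])
  have c2 := a5 (a • b) (by simp [b1 w (Submodule.mem_span_singleton_self w)]) (b3 _ (by simp [b2, a0]))
    (b3 _ (by simp [b2, a0, e0]))
  simp only [h.smul_right, e0, b2, ha, mul_zero, map_zero, add_zero] at c1 c2
  exact c1.elim (fun e => c2.resolve_left (by simp [e])) id

theorem sp_of_line (hq : ∀ c : F, c = 0 ∨ c = 1) (hr : (finrank F K).Prime) (h3 : 3 ≤ finrank F K)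
    {w : V} {d : K} (H : rho B w (d • w) 0 ∈ M) (hw : w ≠ 0) (hd : d ∉ (algebraMap F K).range) :
    SUG B ≤ M := by
  haveI := Module.Finite.of_finite (R := F) (M := K)
  have D := h.sd
  have E := h.sdK
  have e0 := E.self_eq_zero rfl
  have e1 : ∀ (x : V) (j k : K), B (j • x) (k • x) = 0 := fun x j k => h.zero (by simp [e0])
  have e2 : ∀ (x : V) (k : K), B x (k • x) = 0 := fun x k => by simpa using e1 x 1 k
  have e3 : (2 : K) = 0 := two_eq_zero_of_zero_or_one hq
  let S : AddSubgroup K :=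
    { carrier := {k | ∀ x, rho B x (k • x) 0 ∈ M}
      zero_mem' := fun x => by simpa [rho_zero D] using one_mem M
      add_mem' := fun ha hb x => by
        simpa [rho_mul D (D.adm_sp (e2 _ _) _) (D.adm_sp (e2 _ _) _), e1, add_smul] using
          mul_mem (ha x) (hb x)
      neg_mem' := fun ha x => by simpa [rho_inv D (D.adm_sp (e2 _ _) _)] using inv_mem (ha x) }
  have a1 : ∀ k ∈ S, k⁻¹ ∈ S := fun k hk x => by
    by_cases k0 : k = 0
    · exact (by simpa [k0] using zero_mem S : k⁻¹ ∈ S) x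
    convert hk (k⁻¹ • x) using 1
    refine UG_ext fun z => ?_
    rw [rho_apply D (D.adm_sp (e2 _ _) _), rho_apply D (D.adm_sp (e2 _ _) _), smul_inv_smul₀ k0]
    module
  have a2 : ∀ a ∈ S, ∀ b ∈ S, a * a * b ∈ S := fun a ha b hb => by
    by_cases a0 : a = 0
    · simpa [a0] using zero_mem S
    by_cases b0 : b = 0
    · simpa [b0] using zero_mem S
    by_cases e : 1 - a * b = 0
    · rwa [mul_assoc, ← sub_eq_zero.mp e, mul_one]
    convert sub_mem ha (a1 _ (add_mem (a1 a ha) (a1 _ (sub_mem (a1 b hb) ha)))) using 1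
    rw [show b⁻¹ - a = (1 - a * b) / b by field_simp, show a⁻¹ + ((1 - a * b) / b)⁻¹ =
      (a * (1 - a * b))⁻¹ by field_simp; ring, inv_inv]
    ring
  have a3 : d ∈ S := fun x => by
    by_cases e : x = 0
    · simpa [e, rho_zero D] using one_mem M
    obtain ⟨k, rfl⟩ := E.witt_one hw e (by rw [e0, e0])
    simpa using D.rho_map_mem H (hM k)
  have a4 : (1 : K) ∈ S := fun x => by
    have := rho_add_smul D (D.adm_sp (e := x) (u := 0) (by simp) 0) 1
    have e4 : (1 : F) + 1 = 0 := (algebraMap F K).injective (by simp [← e3]; norm_num)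
    simp only [zero_add, one_smul, map_one, e4, rho_zero D] at this
    simpa [this] using one_mem M
  let Z : Subring K :=
    { carrier := {c | ∀ b ∈ S, c * c * b ∈ S}
      mul_mem' := fun ha hb x hx => by convert ha _ (hb x hx) using 1; ring
      one_mem' := fun x hx => by simpa
      add_mem' := fun {a b} ha hb x hx => by
        convert add_mem (ha x hx) (hb x hx) using 1; linear_combination a * b * x * e3
      zero_mem' := fun x hx => by simp
      neg_mem' := fun ha x hx => by simpa using ha x hx }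
  have a5 := eq_top_of_finrank_prime hr (S := Z) (fun c => by
    rcases hq c with rfl | rfl
    exacts [map_zero (algebraMap F K) ▸ zero_mem Z, map_one (algebraMap F K) ▸ one_mem Z]) (a2 d a3) hd
  have a6 : ∀ k, k ∈ S := fun k => by
    haveI : CharP K 2 := CharTwo.of_one_ne_zero_of_two_eq_zero one_ne_zero e3
    obtain ⟨a, rfl⟩ := FiniteField.isSquare_of_char_two (ringChar.eq K 2) k
    simpa using a5.ge (Subring.mem_top a) 1 a4
  obtain ⟨s, b1, b2, -⟩ := exists_mem_ker₂ h3 l l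
  obtain ⟨j, k, b3, b4, b5⟩ : ∃ j k, l (j * s) = 0 ∧ l (k * s) = 0 ∧ l (k * (j * s)) ≠ 0 := by
    by_contra! e
    let T : Subring K :=
      { carrier := {c | l (c * s) = 0}
        mul_mem' := fun ha hb => by simpa [mul_assoc] using e _ _ hb ha
        one_mem' := by simpa
        add_mem' := fun ha hb => by simp_all [add_mul]
        zero_mem' := by simp
        neg_mem' := fun ha => by simpa using ha }
    obtain ⟨o, c1, c2⟩ := exists_ker_notMem h3 (l ∘ₗ LinearMap.mulRight F s) 1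
    obtain ⟨a, ha⟩ := h.exists_eq b1 1
    have := (eq_top_of_finrank_prime hr (S := T) (fun c => by
      change l _ = 0; rw [← Algebra.smul_def, map_smul, b2, smul_zero]) c1 (fun ⟨c, hc⟩ => c2
        (Submodule.mem_span_singleton.mpr ⟨c, by simp [← hc, Algebra.smul_def]⟩))).ge (Subring.mem_top a)
    exact one_ne_zero (ha.symm.trans this)
  obtain ⟨z, hz⟩ : ∃ z, β z w = s := by
    obtain ⟨b, -, hb⟩ := E.exists_perp_one ⊥ (x := w) (by simpa)
    exact ⟨-s • b, by simp [E.skew w b, hb]⟩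
  have c1 := D.rho_map_mem (a6 j w) (a6 k z)
  rw [rho_apply D (D.adm_sp (e2 _ _) _), rho_apply D (D.adm_sp (e2 _ _) _)] at c1
  simp only [h.map, map_smul, LinearMap.smul_apply, hz, smul_eq_mul, b2, b3, b4, zero_smul, add_zero,
    mul_zero, zero_add, zero_mul] at c1
  set u := j • w + l (j * (k * s)) • z with hu
  have c2 : β w u ≠ 0 := by
    rw [hu, ← algebraMap_smul K (l _), map_add, map_smul, map_smul, e0, E.skew, hz]
    simpa [b1, mul_left_comm j] using b5
  have c3 : B w u = 0 := by simp [hu, e2, D.comm0 (show B z w = 0 by rw [h.map, hz, b2])]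
  obtain ⟨a, ha⟩ := h.exists_eq (E.ne0 c2) 1
  have c4 := D.rho_map_mem c1 (hM (tv β w (a / β w u)))
  rw [res_apply, res_apply, tv_apply_of_perp E _ (e0 w), tv_apply E (e0 w) rfl, div_mul_cancel₀ _ c2] at c4
  have c5 := mul_mem c1 (a6 a w)
  rw [rho_mul D (D.adm_sp c3 _) (D.adm_sp (e2 _ _) _)] at c5
  exact h.sp_of_tv hM (D.tv_mem_of_rho (by simp [c3, e2]) c4 c5) hw (by simp [h.smul_right, ha])

theorem sp_map_line (hr : (finrank F K).Prime)
    (hx : 3 ≤ finrank K V ∨ (∃ c : F, c ≠ 0 ∧ c ≠ 1) ∨ 3 ≤ finrank F K) (H : ¬ SUG B ≤ M) {g : UG B}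
    (hg : g ∈ M) (k : K) (y : V) : g.1 (k • y) ∈ K ∙ g.1 y := by
  haveI := Module.Finite.of_finite (R := F) (M := K)
  haveI := Module.Finite.trans (R := F) K V
  have D := h.sd
  have E := h.sdK
  have e0 := E.self_eq_zero rfl
  let T : UG B → V → Submodule F K := fun g y => ((K ∙ g.1 y).restrictScalars F).comap
    (g.1.toLinearMap ∘ₗ (LinearMap.toSpanSingleton K V y).restrictScalars F)
  have hT : ∀ g y k, k ∈ T g y ↔ g.1 (k • y) ∈ K ∙ g.1 y := fun _ _ _ => Iff.rfl
  by_contra h0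
  obtain ⟨_, ⟨a1, g, hg, y, rfl⟩, a2⟩ := (wellFounded_gt (α := Submodule F K)).has_min
    {E | E ≠ ⊤ ∧ ∃ g ∈ M, ∃ y, E = T g y} ⟨T g y, fun e => h0 (e.ge (Submodule.mem_top (x := k))),
      g, hg, y, rfl⟩
  obtain ⟨k₀, a3⟩ : ∃ k, g.1 (k • y) ∉ K ∙ g.1 y := by simpa [Submodule.eq_top_iff', hT] using a1
  have y0 : y ≠ 0 := by rintro rfl; simp at a3
  set w := g.1 y with hw
  have w0 : w ≠ 0 := UG_ne_zero g y0
  let L : Submodule F V := ((K ∙ y).restrictScalars F).map g.1.toLinearMap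
  have hl : ∀ k : K, g.1 (k • y) ∈ L := fun k => ⟨_, Submodule.mem_span_singleton.mpr ⟨k, rfl⟩, rfl⟩
  have hl' : ∀ x ∈ L, ∃ k : K, x = g.1 (k • y) := by
    rintro _ ⟨x, hx, rfl⟩
    obtain ⟨k, rfl⟩ := Submodule.mem_span_singleton.mp hx
    exact ⟨k, rfl⟩
  have hwL : w ∈ L := by simpa using hl 1
  have hL : ∀ x ∈ L, ∀ z ∈ L, B x z = 0 := fun x hx z hz => by
    obtain ⟨j, rfl⟩ := hl' x hx
    obtain ⟨k, rfl⟩ := hl' z hz
    rw [UG_map]; exact h.zero (by simp [e0])
  obtain ⟨o, a4⟩ : ∃ o : K, o • w ∉ L := by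
    by_contra! a4
    exact a3 ((Submodule.eq_of_le_of_finrank_eq (S₁ := (K ∙ w).restrictScalars F) (S₂ := L)
      (fun x hx => by obtain ⟨c, rfl⟩ := Submodule.mem_span_singleton.mp hx; exact a4 c)
      (by rw [LinearEquiv.finrank_map_eq, finrank_KL y0, finrank_KL w0])).ge (hl k₀))
  obtain ⟨ψ, k, c1, c2, c3⟩ : ∃ (ψ : Dual K V) (k : K), ψ w = 0 ∧ ψ (g.1 (k • y)) = 1 ∧ ∀ d : K,
      ∃ t ∈ M, (∀ j : K, t.1 (j • w) = j • w) ∧ ∀ x ∈ L, t.1 x = x + ψ x • d • w := by
    by_cases e : ∀ x ∈ L, β w x = 0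
    · obtain ⟨u, b1, b2⟩ := E.exists_perp_one _ a3
      have b3 := b1 w (Submodule.mem_span_singleton_self w)
      refine ⟨-β u, k₀, by simp [E.comm0 b3], by simp [E.skew _ u, b2], fun d =>
        ⟨_, hM (rho β w (-d • u) 0), fun j => by simp [rho_apply_self E], fun x hx => ?_⟩⟩
      rw [res_apply, rho_apply E (E.adm_sp (by simp [b3]) _)]
      simp [e x hx, smul_smul, mul_comm]
    · push Not at e
      obtain ⟨x, b1, b2⟩ := e
      obtain ⟨k, rfl⟩ := hl' x b1
      refine ⟨(β w (g.1 (k • y)))⁻¹ • β w, k, by simp [e0], by simp [b2], fun d =>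
        ⟨_, hM (tv β w (d / β w (g.1 (k • y)))), fun j => by simp [tv_apply_of_perp E _ (e0 w)],
          fun x _ => ?_⟩⟩
      rw [res_apply, tv_apply E (e0 w) rfl, smul_smul]
      congr 2; simp; ring
  have a5 : ∀ x ∈ L, ∃ c : F, algebraMap F K c = ψ x := fun x hx => by
    let S : Subring K :=
      { carrier := {c | ∀ d : K, d • w ∈ L → (c * d) • w ∈ L}
        mul_mem' := fun ha hb d h => by rw [mul_assoc]; exact ha _ (hb d h)
        one_mem' := fun d h => by rwa [one_mul]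
        add_mem' := fun ha hb d h => by rw [add_mul, add_smul]; exact add_mem (ha d h) (hb d h)
        zero_mem' := fun d h => by simp
        neg_mem' := fun ha d h => by rw [neg_mul, neg_smul]; exact neg_mem (ha d h) }
    by_contra b1
    refine a4 (mul_one o ▸ (eq_top_of_finrank_prime hr (S := S) (fun c d h => by
      rw [mul_smul, algebraMap_smul]; exact L.smul_mem c h) (fun d hd => ?_) b1).ge
        (Subring.mem_top o) 1 (by simpa))
    obtain ⟨t, ht, b2, b3⟩ := c3 d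
    have b4 : (g⁻¹ * t * g).1 y = y := UG_inv_apply_eq (by simpa using (b2 1).symm)
    have b5 : ∀ j, j ∈ T (g⁻¹ * t * g) y ↔ t.1 (g.1 (j • y)) ∈ L := fun j => by
      rw [hT, b4]
      exact ⟨fun e => ⟨_, e, by simp⟩, fun e => by
        obtain ⟨i, hi⟩ := hl' _ e
        simpa [hi] using Submodule.smul_mem _ i (Submodule.mem_span_singleton_self y)⟩
    have b7 : T (g⁻¹ * t * g) y = ⊤ := by
      by_contra b7
      refine a2 _ ⟨b7, _, mul_mem (mul_mem (inv_mem hg) ht) hg, y, rfl⟩ ⟨fun c hc => ?_, fun e => ?_⟩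
      · obtain ⟨e, he⟩ := Submodule.mem_span_singleton.mp ((hT _ _ _).mp hc)
        rw [b5, ← he, b2, he]; exact hl c
      · obtain ⟨i, hi⟩ := Submodule.mem_span_singleton.mp ((hT _ _ _).mp (e ((b5 k).mpr (by
          rw [b3 _ (hl k), c2, one_smul]; exact add_mem (hl k) hd))))
        simp [← hi, ← hw, c1] at c2
    obtain ⟨c, rfl⟩ := hl' x hx
    have b9 := (b5 c).mp (b7.ge Submodule.mem_top)
    rwa [b3 _ hx, L.add_mem_iff_right hx, smul_smul] at b9
  obtain ⟨π, d2, -⟩ := exists_dual_one_zero (F := F) (v := (1 : K)) (w := 0) (by simp)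
  obtain ⟨z, hz⟩ := D.exists_repr (π ∘ₗ ψ.restrictScalars F)
  have d3 : ∀ x ∈ L, algebraMap F K (B z x) = ψ x := fun x hx => by
    obtain ⟨c, hc⟩ := a5 x hx
    simp [hz, ← hc, Algebra.algebraMap_eq_smul_one, d2]
  set s := β y ((g⁻¹).1 z) with hs
  have d4 : s ≠ 0 := fun e => by
    have := d3 _ (hl k)
    rw [UG_map_right, h.smul_right, E.comm0 e, c2] at this
    simp at this
  obtain ⟨a, ha⟩ := h.exists_eq (mul_ne_zero d4 d4) 1
  set p := g.1 ((a * s) • y) with hp
  have d5 : B z p = -1 := by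
    rw [hp, UG_map_right, h.smul_right, E.skew, ← hs, ← ha, ← map_neg]; simp [mul_assoc]
  have d6 : ∀ (c : F) (d : K), d • w ∈ L → rho B (d • w) (c • p) (-c) ∈ M := fun c d hd => by
    obtain ⟨t, ht, -, b3⟩ := c3 d
    let b := g * h.res (tv β y (-(algebraMap F K c * a))) * g⁻¹
    have b4 : ∀ x, x - b.1 x = g.1 ((algebraMap F K c * a * β y ((g⁻¹).1 x)) • y) := fun x => by
      simp [b, tv_apply E (e0 y)]
    have b5 := (D.comm_near hL (b := b) (fun x => b4 x ▸ hl _) hd (k := t) (z := z) fun x hx => by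
      rw [b3 x hx, ← d3 x hx, algebraMap_smul]).2
    have b6 : z - b.1 z = c • p := by rw [b4, hp, ← map_smul, mul_assoc, mul_smul, algebraMap_smul]
    have b7 : b ∈ M := mul_mem (mul_mem hg (hM _)) (inv_mem hg)
    rw [b6, map_smul, d5, smul_neg, smul_eq_mul, mul_one] at b5
    exact b5 ▸ mul_mem (mul_mem (mul_mem ht b7) (inv_mem ht)) (inv_mem b7)
  have d7 : B w p = 0 := hL _ hwL _ (hl _)
  have d8 : ψ p = -1 := by rw [← d3 _ (hl _), d5]; simp
  by_cases h3 : 3 ≤ finrank K V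
  · refine H (h.sp_of_rho hM h3 hr.two_le (by simpa using d6 1 1 (by simpa)) w0 d7 fun e => ?_)
    obtain ⟨i, hi⟩ := Submodule.mem_span_singleton.mp e
    simp [← hi, c1] at d8
  by_cases hq : ∀ c : F, c = 0 ∨ c = 1
  swap
  · push Not at hq
    obtain ⟨c, e1, e2⟩ := hq
    have e3 := d6 1 (algebraMap F K c) (by rw [algebraMap_smul]; exact L.smul_mem c hwL)
    rw [algebraMap_smul, one_smul, rho_smul D (D.adm_sp d7 _)] at e3
    refine H (h.sp_of_tv hM (D.tv_mem_of_rho (by simp [d7]) e3 (by simpa using d6 c 1 (by simpa))) w0 ?_)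
    exact fun e => mul_ne_zero e1 (sub_ne_zero.mpr e2) (by simp at e; linear_combination e)
  have h4 : 3 ≤ finrank F K := (hx.resolve_left h3).resolve_left fun ⟨c, e1, e2⟩ => (hq c).elim e1 e2
  obtain ⟨j, e1, e2⟩ := exists_ker_notMem h4 (B z ∘ₗ g.1.toLinearMap ∘ₗ
    (LinearMap.toSpanSingleton K V y).restrictScalars F) 1
  obtain ⟨d, e3⟩ := Submodule.mem_span_singleton.mp (mem_span_of_ker (by omega) (χ := ψ)
    (fun e => by simp [e] at c2) w0 c1 (x := g.1 (j • y)) (by
      rw [← d3 _ (hl j), show B z (g.1 (j • y)) = 0 from e1, map_zero]))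
  have e4 : d • w ∈ L := e3 ▸ hl j
  refine H (h.sp_of_line hM hq hr h4 (d := d) ?_ w0 ?_)
  · have e5 := mul_mem (mul_mem (d6 1 1 (by simpa)) (d6 1 d e4))
      (inv_mem (d6 1 (1 + d) (by rw [add_smul, one_smul]; exact add_mem hwL e4)))
    have e6 : B (d • w) p = 0 := hL _ e4 _ (hl _)
    have e7 : B w (d • w) = 0 := hL _ hwL _ e4
    convert e5 using 1
    refine eq_mul_inv_of_mul_eq (UG_ext fun x => ?_)
    simp only [one_smul, add_smul, UG_mul_apply]
    rw [rho_apply D (D.adm_sp e7 _), rho_apply D (D.adm_sp d7 _), rho_apply D (D.adm_sp e6 _),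
      rho_apply D (D.adm_sp (by simp [d7, e6]) _)]
    simp only [map_add, map_smul, LinearMap.add_apply, d7, e6, e7, D.comm0 e6, D.comm0 e7, D.comm0 d7,
      D.self_eq_zero rfl]
    generalize d • w = w'
    module
  · rintro ⟨c, rfl⟩
    rw [algebraMap_smul, hw, ← map_smul, g.1.injective.eq_iff, ← algebraMap_smul K] at e3
    exact e2 (Submodule.mem_span_singleton.mpr ⟨c, by
      rw [← smul_left_injective K y0 e3, Algebra.algebraMap_eq_smul_one]⟩)

theorem sp_le (hr : (finrank F K).Prime) (hm : 2 ≤ finrank K V)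
    (hx : 3 ≤ finrank K V ∨ (∃ c : F, c ≠ 0 ∧ c ≠ 1) ∨ 3 ≤ finrank F K) {g : UG B} (hg : g ∈ M)
    (hg' : ¬ NK K g.1) : SUG B ≤ M := by
  by_contra H
  exact hg' (NK.of_lines hm (h.sp_map_line hM hr hx H hg))

end CF

end Cfsg.Agent.H12
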