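import Mathlib
import Cfsg.Agent.H12.CfB

/-!
Overgroups of unitary groups in symplectic groups of odd characteristic.
-/

set_option autoImplicit false

namespace Cfsg.Agent.H12

open Module

variable {F V : Type*} [Field F] [AddCommGroup V] [Module F V]
  {K : Type*} [Field K] [Algebra F K] [Module K V] [IsScalarTower F K V] {τ : K →+* K}
  {β : V →ₛₗ[τ] V →ₗ[K] K}

theorem mem_span_of_map_line [FiniteDimensional F K] {g : V ≃ₗ[F] V} {x z : V} (hx : x ≠ 0)
    (h : ∀ k : K, g (k • x) ∈ K ∙ g x) (hz : g z ∈ K ∙ g x) : z ∈ K ∙ x := by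
  haveI : FiniteDimensional F ((K ∙ g x).restrictScalars F) :=
    ((LinearEquiv.toSpanNonzeroSingleton K V _ (g.map_ne_zero_iff.mpr hx)).restrictScalars F).finiteDimensional
  obtain ⟨w, hw, e⟩ := (Submodule.eq_of_le_of_finrank_eq (S₂ := (K ∙ g x).restrictScalars F)
    (S₁ := ((K ∙ x).restrictScalars F).map g.toLinearMap) (by
      rintro _ ⟨w, hw, rfl⟩
      obtain ⟨c, rfl⟩ := Submodule.mem_span_singleton.mp hw
      exact h c) (by rw [LinearEquiv.finrank_map_eq, finrank_KL hx, finrank_KL (by simpa)])).ge hz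
  exact g.injective e ▸ hw

theorem NK.of_iso [FiniteDimensional K V] [Finite K] (E : SD β) (h3 : 3 ≤ finrank K V)
    {g : V ≃ₗ[F] V} (h : ∀ (k : K) v, β v v = 0 → g (k • v) ∈ K ∙ g v) : NK K g := fun k => by
  haveI := Module.Finite.of_finite (R := F) (M := K)
  let R : V → V → Prop := fun x z => ∀ a : K, g (k • x) = a • g x → g (k • z) = a • g z
  have a1 : ∀ x z, β x x = 0 → β z z = 0 → β x z = 1 ∨ β x z = -1 → R x z := fun x z hx hz e a ha => by
    have b0 : β x z ≠ 0 := by rcases e with e | e <;> simp [e]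
    obtain ⟨b, hb⟩ := Submodule.mem_span_singleton.mp (h k z hz)
    obtain ⟨c, hc⟩ := Submodule.mem_span_singleton.mp (h k (x + z) (by
      rcases e with e | e <;> simp [hx, hz, E.skew x z, e]))
    obtain ⟨φ, b1, b2⟩ := exists_dual_one_zero (F := K) (v := g z) (w := g x) fun e' => by
      obtain ⟨i, rfl⟩ := Submodule.mem_span_singleton.mp
        (mem_span_of_map_line (by rintro rfl; simp at b0) (h · x hx) e')
      simp [hx] at b0
    rw [smul_add, map_add, map_add, ha, ← hb] at hc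
    obtain rfl : c = b := by simpa [b1, b2] using congrArg φ hc
    rw [smul_add, add_left_inj] at hc
    rw [← hb, smul_left_injective K (g.map_ne_zero_iff.mpr (by rintro rfl; simp at b0)) hc]
  have a2 : ∀ e (j : K), β e e = 0 → e ≠ 0 → j ≠ 0 → R e (j • e) := fun e j he h0 hj a ha => by
    obtain ⟨f, hf⟩ := E.exists_SP he h0
    obtain ⟨u, hu⟩ := (hf.sd E).exists_self_eq E.ns (Or.inr (hf.nontrivial_spp E h3)) j
    have b1 := E.σ_ne_zero hj
    have b2 : β ((τ j)⁻¹ • f) ((τ j)⁻¹ • f) = 0 := by simp [hf.ff]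
    have b3 : β (j • e + (1 : K) • f + u) (j • e + (1 : K) • f + u) = 0 := by
      rw [hf.self_comb E, show β u u = _ from hu]; simp
    refine a1 _ _ b2 (by simp [he]) (Or.inr ?_) a (a1 _ _ b3 b2 (Or.inl ?_) a (a1 _ _ he b3 (Or.inl ?_) a ha))
    · simp [hf.fe E, E.invol, hj]
    · simp [hf.ef, hf.ff, E.spp_right', b1]
    · simp [he, hf.ef, spp_left]
  obtain ⟨x, x0, hx⟩ := E.exists_iso E.ns (by omega)
  obtain ⟨a, ha⟩ := Submodule.mem_span_singleton.mp (h k x hx)
  refine ⟨a, E.iso_induction' E.ns (Or.inr (by omega)) (fun z hz => ?_) fun y z h1 h2 => by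
    simp [h1, h2]⟩
  by_cases z0 : z = 0
  · simp [z0]
  obtain ⟨t, b1, b2, b3⟩ := E.exists_iso_ne₂ E.ns (Or.inr (by omega)) x0 z0
  have b4 : ∀ j : K, β (j • t) (j • t) = 0 := fun j => by simp [b1]
  have b5 := a2 _ (β x t / β z t) (b4 (β x t)⁻¹) (smul_ne_zero (inv_ne_zero b2)
    (by rintro rfl; simp at b2)) (div_ne_zero b2 b3) a
    (a1 _ _ hx (b4 (β x t)⁻¹) (Or.inl (by simp [b2])) a ha.symm)
  rw [smul_smul (β x t / β z t), show β x t / β z t * (β x t)⁻¹ = (β z t)⁻¹ by field_simp] at b5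
  exact a1 _ _ (b4 _) hz (Or.inr (by rw [E.skew]; simp [b3])) a b5

variable {B : V →ₛₗ[RingHom.id F] V →ₗ[F] F} {M : Subgroup (UG B)}

/-- The transvections with centres `x` and `y` agree modulo `M`. -/
def TE (M : Subgroup (UG B)) (x y : V) : Prop := ∀ c, tv B x (-c) * tv B y c ∈ M

section TE
variable (D : SD B) {x y z : V}
include D

theorem TE.symm (h : TE M x y) : TE M y x := fun c => by simpa [tv_inv D] using inv_mem (h c)

theorem TE.trans (h : TE M x y) (h' : TE M y z) : TE M x z := fun c => by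
  simpa [mul_assoc, ← tv_inv D] using mul_mem (h c) (h' c)

theorem TE.map (h : TE M x y) {k : UG B} (hk : k ∈ M) : TE M (k.1 x) (k.1 y) := fun c => by
  simpa [← conj_tv D, mul_assoc] using mul_mem (mul_mem hk (h c)) (inv_mem hk)

theorem TE.add (h : TE M x y) (h0 : B x y ≠ 0) (a : F) : TE M x (y + a • x) := fun c => by
  have e0 := D.self_eq_zero rfl
  have := conj_tv D (tv B x (a / B x y)) y c
  rw [tv_apply D (e0 x) rfl, div_mul_cancel₀ _ h0] at this
  convert mul_mem (h (c - a / B x y)) (h.symm D (-(a / B x y))) using 1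
  rw [← this, tv_inv D, neg_neg, mul_assoc (tv B x (-(c - _))), ← mul_assoc (tv B y _), ← mul_assoc,
    ← mul_assoc, tv_mul D (e0 x) rfl rfl, tv_mul D (e0 y) rfl rfl, sub_add_cancel, mul_assoc,
    neg_sub, neg_add_eq_sub]

theorem TE.is (h2 : (2 : F) ≠ 0) (h0 : B x y = 0) (h : TE M x (x + y)) (h' : TE M x (x - y)) :
    IS M y := by
  have e0 := D.self_eq_zero rfl
  refine ⟨e0 y, fun c => ?_⟩
  convert mul_mem (h (c / 2)) (h' (c / 2)) using 1
  refine UG_ext fun v => ?_
  simp [tv_apply D (e0 _), e0, h0, D.comm0 h0]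
  match_scalars <;> field_simp <;> ring

end TE

variable {l : Dual F K} (h : CF B β l) [FiniteDimensional K V] [Finite K] (hM : ∀ g, h.res g ∈ M)
  (hr : finrank F K = 2) (h2 : (2 : F) ≠ 0) (hτ : τ ≠ RingHom.id K)

namespace CF
include h hr h2 hτ

omit [FiniteDimensional K V] in
theorem exists_skew [Nontrivial V] : ∃ δ : K, δ ≠ 0 ∧ τ δ = -δ ∧ l δ = 0 ∧ l 1 ≠ 0 ∧
    ∀ k, ∃ c d : F, c • 1 + d • δ = k := by
  obtain ⟨θ, hθ⟩ := DFunLike.ne_iff.mp hτ
  have a1 : τ (τ θ - θ) = -(τ θ - θ) := by simp [h.sdK.invol]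
  have a2 : τ θ - θ ≠ 0 := sub_ne_zero.mpr hθ
  have a3 : (2 : K) ≠ 0 := fun e => h2 ((algebraMap F K).injective (by simpa [map_ofNat]))
  have a4 := exists_add_smul_of_two hr.le (o := τ θ - θ) fun ⟨c, hc⟩ => mul_ne_zero a3 a2 (by
    have := h.conj c; rw [hc, a1, RingHom.id_apply, hc] at this; linear_combination -this)
  have a5 : l (τ θ - θ) = 0 := by
    obtain ⟨x, hx⟩ := exists_ne (0 : V)
    obtain ⟨y, hy⟩ := h.sdK.exists_ne hx
    have := h.sd.skew x ((θ / β x y) • y)
    rw [h.map, h.map, h.sdK.skew, map_smul, smul_eq_mul, div_mul_cancel₀ _ hy] at this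
    simpa [sub_eq_zero] using this
  refine ⟨_, a2, a1, a5, fun e => h.ne (LinearMap.ext fun k => ?_), a4⟩
  obtain ⟨c, d, rfl⟩ := a4 k
  simp only [map_add, map_smul, e, a5, smul_zero, add_zero, LinearMap.zero_apply]

include hM

theorem su_of_IS (hm : 2 ≤ finrank K V) {x : V} (H : IS M x) (h0 : x ≠ 0) : SUG B ≤ M := by
  haveI : Finite F := Finite.of_injective _ (algebraMap F K).injective
  haveI := Module.Finite.of_finite (R := F) (M := K)
  haveI := Module.Finite.trans (R := F) K V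
  haveI : Nontrivial V := ⟨x, 0, h0⟩
  have D := h.sd
  have E := h.sdK
  have e0 := D.self_eq_zero rfl
  obtain ⟨δ, -, -, -, d4, -⟩ := h.exists_skew hr h2 hτ
  have a0 : ∀ {x y}, IS M x → x ≠ 0 → y ≠ 0 → β y y = β x x → IS M y := fun hx h1 h2 h3 => by
    obtain ⟨k, rfl⟩ := E.witt_one h1 h2 h3
    exact hx.map D (hM k)
  have a1 : ∀ z, z ≠ 0 → ∀ s, s ≠ 0 → ∃ e, β e e = 0 ∧ β z e = s := fun z hz s _ => by
    obtain ⟨e, b1, b2⟩ := E.exists_iso_ne E.ns (Or.inr hm) hz
    exact ⟨(s / β z e) • e, by simp [b1], by simp [E.ne0 b2]⟩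
  obtain ⟨e, b1, b2⟩ := a1 x h0 1 one_ne_zero
  have b3 : B x (e - x) ≠ 0 := by rwa [map_sub, e0, sub_zero, h.map, b2]
  have b4 : IS M e := by
    simpa using H.add D (a0 H h0 (by intro e'; simp [e'] at b3) (by simp [E.skew x e, b2, b1])) b3 (e0 _)
  have b5 : ∀ y, β y y = 0 → IS M y := fun y hy => by
    by_cases y0 : y = 0
    · exact y0 ▸ IS.zero D
    · exact a0 b4 (by rintro rfl; simp at b2) y0 (hy.trans b1.symm)
  refine D.SUG_le_of_IS ns_id (Or.inr (Or.inl rfl)) fun z _ => ?_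
  by_cases z0 : z = 0
  · exact z0 ▸ IS.zero D
  obtain ⟨s, hs⟩ := E.trace z
  obtain ⟨s, c1, c2⟩ : ∃ s, s - τ s = β z z ∧ l s ≠ 0 := by
    by_cases e' : l s = 0
    · exact ⟨s + 1, by simp [← hs], by simpa [e']⟩
    · exact ⟨s, hs, e'⟩
  obtain ⟨f, c3, c4⟩ := a1 z z0 s (by rintro rfl; simp at c2)
  simpa using (b5 (z - f) (by simp [E.skew z f, c3, c4, ← c1])).add D (b5 f c3)
    (by rwa [map_sub, LinearMap.sub_apply, e0, sub_zero, h.map, c4]) (e0 _)

theorem su_map_line (h3 : 3 ≤ finrank K V) (H : ¬ SUG B ≤ M) {g : UG B} (hg : g ∈ M) (k : K) (y : V)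
    (hy : β y y = 0) : g.1 (k • y) ∈ K ∙ g.1 y := by
  haveI := Module.Finite.of_finite (R := F) (M := K)
  haveI : Nontrivial V := Module.nontrivial_of_finrank_pos (R := K) (by omega)
  have D := h.sd
  have E := h.sdK
  have e0 := D.self_eq_zero rfl
  obtain ⟨δ, d1, d2, d3, d4, d5⟩ := h.exists_skew hr h2 hτ
  have d6 : ∀ s, l s = 0 → τ s = -s := fun s hs => by
    obtain ⟨c, d, rfl⟩ := d5 s
    obtain rfl : c = 0 := by simpa [d3, d4] using hs
    simp [Algebra.smul_def, h.conj, d2]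
  obtain ⟨n, hn⟩ : ∃ n : F, algebraMap F K n = δ * δ := by
    obtain ⟨c, d, e⟩ := d5 (δ * δ)
    have := congrArg τ e
    simp only [Algebra.smul_def, map_add, map_mul, h.conj, d2, map_one, RingHom.id_apply] at this e
    refine ⟨c, mul_left_cancel₀ (a := algebraMap F K 2) (by simpa) ?_⟩
    rw [map_ofNat]; linear_combination e + this
  have n0 : n ≠ 0 := by rintro rfl; simp [d1] at hn
  have key : ∀ y, β y y = 0 → y ≠ 0 → (β (g.1 y) (g.1 y) ≠ 0 ∨ β (g.1 (δ • y)) (g.1 (δ • y)) = 0 ∧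
      β (g.1 y) (g.1 (δ • y)) = 0) → g.1 (δ • y) ∈ K ∙ g.1 y := fun y hy y0 hc => by
    by_contra hv
    set w := g.1 y with hw
    set v := g.1 (δ • y) with hv'
    have w0 : w ≠ 0 := UG_ne_zero g y0
    have a1 : ∀ a, tv B w (-n * a) * tv B v a ∈ M := fun a => by
      rw [hw, hv', ← conj_tv D, ← conj_tv D, conj_mul]
      refine mul_mem (mul_mem hg ?_) (inv_mem hg)
      convert hM (tv β y (algebraMap F K (-n * a * l 1))) using 1
      refine UG_ext fun x => ?_
      obtain ⟨c, d, e⟩ := d5 (β y x)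
      have b1 : B y (δ • y) = 0 := h.zero (by simp [hy])
      rw [UG_mul_apply, tv_apply D (e0 _) rfl, tv_apply D (e0 _) rfl, res_apply, tv_apply E hy (h.conj _),
        map_add, map_smul (B y), b1, h.smul_left, h.map, ← e, d2, ← Algebra.smul_def, smul_assoc]
      simp only [mul_add, mul_smul_comm, neg_mul, ← hn, Algebra.algebraMap_eq_smul_one, map_add,
        map_smul, map_neg, d3, mul_one, add_smul, smul_assoc, one_smul]
      generalize δ • y = y'
      module
    have a2 : ∀ k : UG β, k.1 w = w → TE M v (k.1 v) := fun k hk c => by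
      have := mul_mem (mul_mem (hM k) (a1 c)) (inv_mem (hM k))
      rw [← conj_mul, conj_tv D, conj_tv D, res_apply, res_apply, hk] at this
      have := mul_mem (inv_mem (a1 c)) this
      rwa [mul_inv_rev, mul_assoc, inv_mul_cancel_left, tv_inv D] at this
    obtain ⟨e, b1, b2, b3, b4⟩ : ∃ e, β e e = 0 ∧ β v e = 1 ∧ β w e = 0 ∧ e ∉ K ∙ w := by
      rcases hc with hc | ⟨c1, c2⟩
      · have c1 : Disjoint (K ∙ w) (sperp β (K ∙ w)) := E.disjoint_iff.mpr fun u hu h0 => by
          obtain ⟨i, rfl⟩ := Submodule.mem_span_singleton.mp hu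
          simpa [hc, E.σ_eq_zero, w0] using h0 w (Submodule.mem_span_singleton_self w)
        have c2 := E.finrank_sperp (K ∙ w)
        rw [finrank_span_singleton w0] at c2
        obtain ⟨e, c3, c4⟩ := (E.restrict (E.disjoint_sperp c1)).exists_iso_ne E.ns (Or.inr (by omega))
          (u := ⟨v - (β w v / β w w) • w, mem_sperp_singleton.mpr (by simp [hc])⟩) fun e =>
            hv (Submodule.mem_span_singleton.mpr ⟨_, (sub_eq_zero.mp (congrArg Subtype.val e)).symm⟩)
        have c5 : β w e = 0 := mem_sperp_singleton.mp e.2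
        have c6 : β v e ≠ 0 := E.ne0 (by simpa [E.comm0 c5] using c4)
        refine ⟨(β v e)⁻¹ • e, by simpa [c6, E.σ_eq_zero] using c3, by simp [c6], by simp [c5], fun e' => ?_⟩
        have := (Submodule.disjoint_def.mp c1) _ e' (Submodule.smul_mem _ _ e.2)
        simp only [smul_eq_zero, inv_eq_zero, c6, false_or] at this
        simp [this] at c6
      · obtain ⟨e, c3, c4, c5⟩ := E.exists_partner _ c1 hv fun u hu => by
          obtain ⟨i, rfl⟩ := Submodule.mem_span_singleton.mp hu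
          simp [c2]
        refine ⟨e, c3, c4, c5 w (Submodule.mem_span_singleton_self w), fun e' => ?_⟩
        obtain ⟨i, rfl⟩ := Submodule.mem_span_singleton.mp e'
        simp [E.comm0 c2] at c4
    have a3 : TE M v e := by
      obtain ⟨k, c⟩ := E.witt (li_pair_of_notMem w0 hv) (li_pair_of_notMem w0 (y := v + e) fun e' => by
        obtain ⟨i, hi⟩ := Submodule.mem_span_singleton.mp e'
        simpa [b1, b2, b3] using congrArg (β · e) hi) (by
          simp [Fin.forall_fin_two, b1, b2, b3, E.comm0 b3, E.skew v e])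
      have := ((show k.1 v = v + e from c 1) ▸ a2 k (c 0)).add D
        (by rwa [map_add, e0, zero_add, h.map, b2]) (-1)
      rwa [neg_one_smul, add_neg_cancel_comm] at this
    have a4 : ∀ j : K, j ≠ 0 → TE M e (j • e) := fun j hj => by
      obtain ⟨k, c⟩ := E.witt (li_pair_of_notMem w0 b4) (li_pair_of_notMem w0 (y := j • e)
        (by rwa [Submodule.smul_mem_iff _ hj])) (by simp [Fin.forall_fin_two, b1, b3, E.comm0 b3])
      exact ((a3.symm D).trans D (a2 k (c 0))).trans D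
        ((show k.1 e = j • e from c 1) ▸ a3.map D (hM k))
    have a5 : ∀ s : F, 1 + s • δ ≠ 0 := fun s e' => d4 (by simpa [d3] using congrArg l e')
    refine H (h.su_of_IS hM hr h2 hτ (by omega) (TE.is D h2 (x := e) (y := δ • e) (h.zero (by simp [b1]))
      ?_ ?_) (smul_ne_zero d1 (by rintro rfl; simp at b2)))
    · simpa [add_smul] using a4 _ (a5 1)
    · simpa [add_smul, sub_eq_add_neg] using a4 _ (a5 (-1))
  have a1 : ∀ y, g.1 (δ • y) ∈ K ∙ g.1 y → ∀ k : K, g.1 (k • y) ∈ K ∙ g.1 y := fun y hy k => by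
    obtain ⟨c, d, rfl⟩ := d5 k
    simpa [add_smul] using add_mem (Submodule.smul_of_tower_mem _ c (Submodule.mem_span_singleton_self _))
      (Submodule.smul_of_tower_mem _ d hy)
  by_cases y0 : y = 0
  · simp [y0]
  by_cases e : ∀ j : K, β (g.1 (j • y)) (g.1 (j • y)) = 0
  · refine a1 y (key y hy y0 (Or.inr ⟨e δ, ?_⟩)) k
    have b1 := d6 _ ((h.map _ _).symm.trans ((UG_map g y (δ • y)).trans (h.zero (by simp [hy]))))
    have b2 := e (1 + δ)
    have b3 := e 1
    rw [one_smul] at b3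
    simp only [add_smul, one_smul, map_add, LinearMap.add_apply, b3, e δ, E.skew (g.1 y), b1] at b2
    refine mul_left_cancel₀ (a := algebraMap F K 2) (by simpa) ?_
    rw [map_ofNat]; linear_combination b2
  push Not at e
  obtain ⟨j, hj⟩ := e
  have j0 : j ≠ 0 := by rintro rfl; simp at hj
  have b1 := a1 _ (key (j • y) (by simp [hy]) (smul_ne_zero j0 y0) (Or.inl hj))
  obtain ⟨i, hi⟩ := Submodule.mem_span_singleton.mp (b1 j⁻¹)
  rw [inv_smul_smul₀ j0] at hi
  have b2 := b1 (k * j⁻¹)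
  rw [mul_smul, inv_smul_smul₀ j0] at b2
  rwa [← hi, Submodule.span_singleton_smul_eq (Ne.isUnit (by
    rintro rfl; exact UG_ne_zero g y0 (by simp [← hi])))]

theorem su_le (h3 : 3 ≤ finrank K V) {g : UG B} (hg : g ∈ M) (hg' : ¬ NK K g.1) : SUG B ≤ M := by
  by_contra H
  exact hg' (NK.of_iso h.sdK h3 (h.su_map_line hM hr h2 hτ h3 H hg))

end CF

end Cfsg.Agent.H12
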