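import Mathlib
import Cfsg.Agent.H12.MaxB
import Cfsg.Agent.H12.MaxU

/-!
Maximality of subspace and decomposition stabilisers in symplectic and unitary matrix groups.
-/

set_option autoImplicit false

namespace Cfsg.Agent.H12

open Module Cfsg.Geo Matrix

variable {ι : Type} [Fintype ι] [DecidableEq ι] {F : Type*} [Field F] {σ : F →+* F} {ε a : F}
  {f : (ι → F) → (ι → F) → F}

omit [DecidableEq ι] [Fintype ι] in
theorem disjoint_of_nondegOn (hf : H18.TvF σ ε f a) {W : Submodule F (ι → F)}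
    (hW : IsNondegenerateOn f W) : Disjoint W (sperp (tB hf) W) :=
  (sd_tB hf).disjoint_iff.mpr fun u hu h => by
    by_contra h0
    obtain ⟨x, hx, h1⟩ := (hW u hu h0).1
    exact h1 ((tB_eq_zero hf).mp (h x hx))

omit [DecidableEq ι] [Fintype ι] in
theorem od_of_decomp (hf : H18.TvF σ ε f a) {t k : ℕ} {D : Fin t → Submodule F (ι → F)}
    (hD : IsNondegenerateMDecomposition f k D) : OD (tB hf) D :=
  ⟨fun i => disjoint_of_nondegOn hf (hD.nondegenerate i),
    fun i j hij x hx w hw => (tB_eq_zero' hf).mpr (hD.orthogonal i j hij w hw x hx),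
    hD.decomp.iSup_eq_top⟩

theorem stab_iff {B : (ι → F) →ₛₗ[σ] (ι → F) →ₗ[F] F} {W : Submodule F (ι → F)} {g : UG B} :
    (∀ v, v ∈ W ↔ g.1 v ∈ W) ↔ g ∈ stabW B W := forall_congr' fun _ => Iff.comm

variable [Finite F]

theorem max_iso_ti (hf : H18.TvF σ ε f a) {W : Submodule F (ι → F)} (h0 : W ≠ ⊥)
    (hW : IsTotallySingularFor f W) : IsMaximalIn (H18.isoG f ⊓ specialLinear ι F)
      (subspaceStabilizer W ⊓ (H18.isoG f ⊓ specialLinear ι F)) := by
  have h1 : ∀ u ∈ W, ∀ v ∈ W, tB hf u v = 0 := fun u hu v hv =>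
    (tB_eq_zero' hf).mpr (hW u hu v hv)
  refine isMaximalIn_iso hf (fun g => ∀ v, v ∈ W ↔ g v ∈ W) (fun _ => Iff.rfl)
    ((has_SU hf).not_le_stab h0 fun h => ?_) fun M hM _ g hg hg' =>
      (sd_tB hf).SUG_le_of_stab_ti (sd_tB hf).ns h1 (fun k hk H => hM k hk (stab_iff.mpr H)) hg
        (mt stab_iff.mpr hg')
  obtain ⟨w, hw, h2⟩ := W.ne_bot_iff.mp h0
  exact h2 ((sd_tB hf).sep w fun y => h1 w hw y (h.ge Submodule.mem_top))

theorem max_iso_nd (hf : H18.TvF σ ε f a) {W : Submodule F (ι → F)} (h0 : W ≠ ⊥)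
    (hW : IsNondegenerateOn f W) (h2 : 2 * finrank F W < Fintype.card ι)
    (h3 : finrank F W + 3 ≤ Fintype.card ι) : IsMaximalIn (H18.isoG f ⊓ specialLinear ι F)
      (subspaceStabilizer W ⊓ (H18.isoG f ⊓ specialLinear ι F)) := by
  have h1 := (sd_tB hf).finrank_sperp W
  rw [finrank_fintype_fun_eq_card] at h1
  refine isMaximalIn_iso hf (fun g => ∀ v, v ∈ W ↔ g v ∈ W) (fun _ => Iff.rfl)
    ((has_SU hf).not_le_stab h0 fun h => ?_) fun M hM _ g hg hg' =>
      (sd_tB hf).SUG_le_of_stab_nd (sd_tB hf).ns (disjoint_of_nondegOn hf hW) h0 (by omega)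
        (by omega) (fun k hk H => hM k hk (stab_iff.mpr H)) hg (mt stab_iff.mpr hg')
  rw [h, finrank_top, finrank_fintype_fun_eq_card] at h3
  omega

theorem max_iso_dec (hf : H18.TvF σ ε f a) {t k : ℕ} {D : Fin t → Submodule F (ι → F)}
    (hD : IsNondegenerateMDecomposition f k D)
    (h3 : 3 ≤ k ∨ (2 ≤ k ∧ (∃ a, σ a = a ∧ a ≠ 0 ∧ a ≠ 1) ∧ (σ = RingHom.id F ∨ 3 ≤ t))) :
    IsMaximalIn (H18.isoG f ⊓ specialLinear ι F)
      (decompositionStabilizer D ⊓ (H18.isoG f ⊓ specialLinear ι F)) := by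
  refine isMaximalIn_iso hf (fun g => ∃ π : Equiv.Perm (Fin t), ∀ i, (D i).map g.toLinearMap = D (π i))
    (fun _ => Iff.rfl) ((has_SU hf).not_le_decomp hD.decomp (by omega)) fun M hM _ g hg hg' =>
      (od_of_decomp hf hD).SUG_le_of_perm (sd_tB hf) hD.decomp.finrank_eq
        (h3.imp_right fun h => ⟨h.1, h.2.1, h.2.2.imp_right fun h i j => ?_⟩) hM hg hg'
  by_contra! H
  have := Finset.card_le_card (show Finset.univ ⊆ {i, j} from fun l _ => by
    simpa [or_iff_not_imp_left] using H l)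
  have := this.trans Finset.card_le_two
  simp at this
  omega

theorem exists_ne_zero_one (h : Nat.card F ≠ 2) : ∃ a : F, RingHom.id F a = a ∧ a ≠ 0 ∧ a ≠ 1 :=
  exists_fix_ne_of_three_le (by have := two_le_q0 (σ := RingHom.id F); rw [q0_id] at *; omega)

theorem max_sp_ti {m : ℕ} (hm : 0 < m) {W : Submodule F (Fin m ⊕ Fin m → F)} (h0 : W ≠ ⊥)
    (hW : IsTotallySingularFor (sympForm m F) W) :
    IsMaximalIn (spGL m F) (subspaceStabilizer W ⊓ spGL m F) := by
  rw [spGL_eq_inf hm]; exact max_iso_ti (tvF_sp hm F) h0 hW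

theorem max_sp_nd {m : ℕ} (hm : 2 ≤ m) {W : Submodule F (Fin m ⊕ Fin m → F)} (h0 : W ≠ ⊥)
    (hW : IsNondegenerateOn (sympForm m F) W) (h : finrank F W < m) :
    IsMaximalIn (spGL m F) (subspaceStabilizer W ⊓ spGL m F) := by
  rw [spGL_eq_inf (by omega)]
  exact max_iso_nd (tvF_sp (by omega) F) h0 hW (by simp; omega) (by simp; omega)

theorem max_sp_dec {m : ℕ} (hm : 0 < m) {t k : ℕ} {D : Fin t → Submodule F (Fin m ⊕ Fin m → F)}
    (hD : IsNondegenerateMDecomposition (sympForm m F) k D) (h : ¬ (k = 2 ∧ Nat.card F = 2)) :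
    IsMaximalIn (spGL m F) (decompositionStabilizer D ⊓ spGL m F) := by
  rw [spGL_eq_inf hm]
  have h1 := (tvF_sp hm F).even_of_nondegOn (fun v _ => (H18.symplectic_sympForm m).alternating v)
    (hD.nondegenerate ⟨0, by have := hD.decomp.two_le; omega⟩)
  rw [hD.decomp.finrank_eq, Nat.even_iff] at h1
  have := hD.decomp.pos
  refine max_iso_dec (tvF_sp hm F) hD ?_
  by_cases h2 : k = 2
  · exact Or.inr ⟨h2.ge, exists_ne_zero_one fun h3 => h ⟨h2, h3⟩, Or.inl rfl⟩
  · omega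

section SU

variable {F : Type*} [Field F] [Fintype F] {n q : ℕ}

theorem max_su_ti (hF : Fintype.card F = q ^ 2) (hn : 2 ≤ n) {W : Submodule F (Fin n → F)}
    (h0 : W ≠ ⊥) (hW : IsTotallySingularFor (hermForm n F q) W) :
    IsMaximalIn (GU n F q ⊓ specialLinear (Fin n) F)
      (subspaceStabilizer W ⊓ (GU n F q ⊓ specialLinear (Fin n) F)) :=
  (exists_tvF_su hF hn).elim fun _ h => max_iso_ti h h0 hW

theorem max_su_nd (hF : Fintype.card F = q ^ 2) (hn : 4 ≤ n) {W : Submodule F (Fin n → F)}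
    (h0 : W ≠ ⊥) (hW : IsNondegenerateOn (hermForm n F q) W) (h2 : 2 * finrank F W < n) :
    IsMaximalIn (GU n F q ⊓ specialLinear (Fin n) F)
      (subspaceStabilizer W ⊓ (GU n F q ⊓ specialLinear (Fin n) F)) :=
  (exists_tvF_su hF (by omega)).elim fun _ h => max_iso_nd h h0 hW (by simpa) (by simp; omega)

theorem exists_fix_frobq (hF : Fintype.card F = q ^ 2) (h : q ≠ 2) :
    ∃ a, frobq hF a = a ∧ a ≠ 0 ∧ a ≠ 1 :=
  exists_fix_ne_of_three_le (by have := two_le_of_card_eq_sq hF; rw [q0_frobq]; omega)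

theorem max_su_dec (hF : Fintype.card F = q ^ 2) (hn : 5 ≤ n) {t k : ℕ}
    {D : Fin t → Submodule F (Fin n → F)} (hD : IsNondegenerateMDecomposition (hermForm n F q) k D)
    (h1 : k ≠ 1) (h : ¬ (k = 2 ∧ q = 2)) : IsMaximalIn (GU n F q ⊓ specialLinear (Fin n) F)
      (decompositionStabilizer D ⊓ (GU n F q ⊓ specialLinear (Fin n) F)) := by
  obtain ⟨_, hf⟩ := exists_tvF_su hF (n := n) (by omega)
  refine max_iso_dec hf hD ?_
  have h2 := H18.card_eq_of_isMDecomposition hD.decomp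
  have := hD.decomp.pos
  by_cases h3 : k = 2
  · subst h3
    simp at h2
    exact Or.inr ⟨le_rfl, exists_fix_frobq hF fun h3 => h ⟨rfl, h3⟩, Or.inr (by omega)⟩
  · omega

end SU

end Cfsg.Agent.H12
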