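import Mathlib
import Cfsg.Agent.H12.CfC
import Cfsg.Agent.H12.FldC
import Cfsg.Agent.H12.MaxC
import Cfsg.Agent.H18.SpCase

/-!
Normalisers of field subalgebras in symplectic groups are maximal.
-/

set_option autoImplicit false

namespace Cfsg.Agent.H12

open Module Cfsg.Geo Matrix

variable {ι : Type} [Fintype ι] [DecidableEq ι] {F : Type*} [Field F] {σ : F →+* F} {ε a : F}
  {f : (ι → F) → (ι → F) → F} {K : Subalgebra F (Matrix ι ι F)} {r : ℕ}

theorem iso_not_le_field (hf : H18.TvF σ ε f a) (hr : 2 ≤ r) (hK : IsFieldSubalgebra r K)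
    (h : 3 ≤ Fintype.card ι) : ¬ H18.isoG f ⊓ specialLinear ι F ≤ subalgebraNormalizer K := fun H => by
  obtain ⟨g, hg, U, h1, h2, h3⟩ := (has_SU hf).exists_small
  exact H18.not_mem_normalizer_of_small h h1 h2 h3 hr hK (H hg)

variable [Fintype F]

theorem exists_CF_adj [Nonempty ι] (hf : H18.TvF σ ε f a) (hK : IsFieldSubalgebra r K)
    (ha : ∀ x ∈ K, H18.adj σ f x ∈ K)
    (h4 : H18.adjHom hf.toHForm hK.comm ha ≠ RingHom.id K ∨ ∀ k ∈ K, ∀ v, f (k *ᵥ v) v = 0) :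
    letI := (H18.isField_of_inv K hK.comm hK.inv).toField
    ∃ β : (ι → F) →ₛₗ[H18.adjHom hf.toHForm hK.comm ha] (ι → F) →ₗ[K] K,
      CF (tB hf) β (Algebra.trace F K) := by
  let := (H18.isField_of_inv K hK.comm hK.inv).toField
  refine exists_CF (sd_tB hf) (fun x => Subtype.ext (hf.adj_adj _)) (fun c => Subtype.ext ?_)
    (fun k x y => ?_) (h4.imp id fun h k x => by rw [tB_apply, fld_smul, h k k.2, mul_zero])
  · change H18.adj _ f (algebraMap F _ c) = algebraMap F _ (σ c)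
    rw [Algebra.algebraMap_eq_smul_one, hf.adj_smul, hf.adj_one, Algebra.algebraMap_eq_smul_one]
  · rw [tB_apply, tB_apply, fld_smul, fld_smul]
    exact congrArg _ (hf.adj_spec' _ _ _)

theorem max_sp_field {m : ℕ} {K : Subalgebra F (Matrix (Fin m ⊕ Fin m) (Fin m ⊕ Fin m) F)}
    (hr : r.Prime) (hK : IsFieldSubalgebra r K) (hsa : IsSelfAdjointFor (sympForm m F) K)
    (halt : ∀ k ∈ K, ∀ v, sympForm m F (k *ᵥ v) v = 0) (hm : 0 < m)
    (hx : ¬ (m = 2 ∧ Fintype.card F = 2)) :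
    IsMaximalIn (spGL m F) (subalgebraNormalizer K ⊓ spGL m F) := by
  have : Nonempty (Fin m ⊕ Fin m) := ⟨.inl ⟨0, hm⟩⟩
  have hf := tvF_sp hm F
  obtain ⟨d, hd⟩ := hf.two_mul_dvd hK hsa halt
  have h2 := hr.two_le
  simp only [Fintype.card_sum, Fintype.card_fin] at hd
  have hd0 : 1 ≤ d := by by_contra h; interval_cases d; omega
  have hs := hf.selfAdj_iff.mp hsa
  have ha : ∀ x ∈ K, H18.adj (RingHom.id F) _ x ∈ K := fun x hx => (hs x hx).symm ▸ hx
  let := (H18.isField_of_inv K hK.comm hK.inv).toField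
  have h1 := finrank_mul_finrank F K (Fin m ⊕ Fin m → F)
  rw [hK.finrank_eq, finrank_fintype_fun_eq_card, Fintype.card_sum, Fintype.card_fin, hd] at h1
  have h3 : finrank K (Fin m ⊕ Fin m → F) = 2 * d := by
    apply Nat.eq_of_mul_eq_mul_left hr.pos; rw [h1]; ring
  obtain ⟨β, h⟩ := exists_CF_adj hf hK ha (Or.inr halt)
  have h4 : H18.adjHom hf.toHForm hK.comm ha = RingHom.id K := RingHom.ext fun x => Subtype.ext (hs x x.2)
  revert β
  rw [h4]
  intro β h
  rw [spGL_eq_inf hm]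
  refine isMaximalIn_iso hf _ (fun _ => mem_normalizer_iff)
    (iso_not_le_field hf h2 hK (by simp; nlinarith)) fun M hM _ g hg hg' =>
      h.sp_le (fun k => hM _ (((sd_tB hf).SUG_eq_top rfl).ge trivial) fun c => ⟨c, k.1.map_smul c⟩)
        (hK.finrank_eq ▸ hr) (by omega) ?_ hg hg'
  rw [hK.finrank_eq]
  by_contra! H
  obtain ⟨a1, a2, a3⟩ := H
  obtain rfl : r = 2 := by omega
  refine hx ⟨by omega, ?_⟩
  by_contra h5
  obtain ⟨c, -, h6, h7⟩ := exists_ne_zero_one (F := F) (by rwa [Nat.card_eq_fintype_card])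
  exact h7 (a2 c h6)

theorem max_sp_unit {m : ℕ} {K : Subalgebra F (Matrix (Fin m ⊕ Fin m) (Fin m ⊕ Fin m) F)}
    (hK : IsFieldSubalgebra 2 K) (hac : IsAdjointClosedFor (sympForm m F) K)
    (hnsa : ¬ IsSelfAdjointFor (sympForm m F) K) (hm : 3 ≤ m) (h2 : (2 : F) ≠ 0) :
    IsMaximalIn (spGL m F) (subalgebraNormalizer K ⊓ spGL m F) := by
  have : Nonempty (Fin m ⊕ Fin m) := ⟨.inl ⟨0, by omega⟩⟩
  have hf := tvF_sp (m := m) (by omega) F
  have ha := hf.adjClosed_iff.mp hac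
  let := (H18.isField_of_inv K hK.comm hK.inv).toField
  have h1 := finrank_mul_finrank F K (Fin m ⊕ Fin m → F)
  rw [hK.finrank_eq, finrank_fintype_fun_eq_card, Fintype.card_sum, Fintype.card_fin] at h1
  have h4 : H18.adjHom hf.toHForm hK.comm ha ≠ RingHom.id K := fun H =>
    hnsa (hf.selfAdj_iff.mpr fun x hx => congrArg Subtype.val (RingHom.congr_fun H ⟨x, hx⟩))
  obtain ⟨β, h⟩ := exists_CF_adj hf hK ha (Or.inl h4)
  rw [spGL_eq_inf (by omega)]
  exact isMaximalIn_iso hf _ (fun _ => mem_normalizer_iff)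
    (iso_not_le_field hf le_rfl hK (by simp; omega)) fun M hM _ g hg hg' =>
      h.su_le (fun k => hM _ (((sd_tB hf).SUG_eq_top rfl).ge trivial) fun c => ⟨c, k.1.map_smul c⟩)
        hK.finrank_eq h2 h4 (by omega) hg hg'

end Cfsg.Agent.H12
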