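import Mathlib
import Cfsg.Agent.H12.TenB

/-!
Overgroups of the stabiliser of a direct sum decomposition into subspaces of dimension at least two.
-/

set_option autoImplicit false

namespace Cfsg.Agent.H12

open Module

variable {F V : Type*} [Field F] [AddCommGroup V] [Module F V] {M : Subgroup (V ≃ₗ[F] V)}
  {κ : Type*} [Fintype κ] {E : κ → Submodule F V} {p : κ → End F V}

/-- `p` is the family of projections of the decomposition `E`. -/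
structure PD (E : κ → Submodule F V) (p : κ → End F V) : Prop where
  mem : ∀ i x, p i x ∈ E i
  zero : ∀ {i j}, i ≠ j → ∀ {x}, x ∈ E j → p i x = 0
  sum : ∀ x, ∑ i, p i x = x

theorem exists_PD (h1 : iSupIndep E) (h2 : iSup E = ⊤) : ∃ p, PD E p := by
  classical
  letI := (DirectSum.isInternal_submodule_of_iSupIndep_of_iSup_eq_top h1 h2).chooseDecomposition
  refine ⟨fun i => (E i).subtype ∘ₗ DirectSum.component F κ (fun i => E i) i ∘ₗ
    (DirectSum.decomposeLinearEquiv E).toLinearMap, fun i x => Subtype.prop _,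
    fun h x hx => DirectSum.decompose_of_mem_ne E hx h.symm, fun x => ?_⟩
  conv_rhs => rw [← DirectSum.sum_support_decompose E x]
  exact (Finset.sum_subset (Finset.subset_univ _) fun i _ hi => by
    have := DFinsupp.notMem_support_iff.mp hi
    exact congrArg Subtype.val this).symm

theorem PD.self (h : PD E p) {i : κ} {x : V} (hx : x ∈ E i) : p i x = x := by
  conv_rhs => rw [← h.sum x]
  exact (Finset.sum_eq_single i (fun j _ hj => h.zero hj hx) (by simp)).symm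

theorem PD.mem_of (h : PD E p) {i : κ} {x : V} (hx : ∀ j, j ≠ i → p j x = 0) : x ∈ E i := by
  rw [← h.sum x, Finset.sum_eq_single i (fun j _ hj => hx j hj) (by simp)]
  exact h.mem i x

theorem PD.exists_ne (h : PD E p) {ψ : Dual F V} (hψ : ψ ≠ 0) : ∃ i, ∃ x ∈ E i, ψ x ≠ 0 := by
  by_contra! H
  exact hψ (LinearMap.ext fun x => by
    rw [← h.sum x, map_sum]; exact Finset.sum_eq_zero fun i _ => H i _ (h.mem i x))

theorem PD.comp_eq (h : PD E p) {j : κ} {γ : Dual F V} (H : ∀ l, l ≠ j → ∀ x ∈ E l, γ x = 0) :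
    γ ∘ₗ p j = γ := LinearMap.ext fun x => by
  conv_rhs => rw [← h.sum x, map_sum]
  exact (Finset.sum_eq_single j (fun l _ hl => H l hl _ (h.mem l x)) (by simp)).symm

theorem exists_dil [FiniteDimensional F V] {φ : Dual F V} {u : V} (h : 1 + φ u ≠ 0) : ∃ k : V ≃ₗ[F] V,
    (∀ x, k x = x + φ x • u) ∧ LinearMap.det (k : V →ₗ[F] V) = 1 + φ u :=
  ⟨LinearEquiv.dilatransvection h.isUnit, fun _ => rfl, LinearMap.transvection.det φ u⟩

theorem exists_mem_notMem_span {W : Submodule F V} (h : 2 ≤ finrank F W) (w : V) :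
    ∃ v ∈ W, v ∉ F ∙ w := by
  by_contra! H
  haveI : FiniteDimensional F (F ∙ w) := inferInstance
  have := (Submodule.finrank_mono (show W ≤ F ∙ w from H)).trans (finrank_span_le_card _)
  simp at this; omega

theorem notMem_span_symm {v w : V} (h : v ∉ F ∙ w) (hw : w ≠ 0) : w ∉ F ∙ v := fun e => by
  obtain ⟨c, rfl⟩ := Submodule.mem_span_singleton.mp e
  exact h ((Submodule.smul_mem_iff _ (left_ne_zero_of_smul hw)).mp (Submodule.mem_span_singleton_self _))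

variable [FiniteDimensional F V] (h : PD E p)
  (hM : ∀ g ∈ SLV F V, (∀ i, ∃ j, ∀ x ∈ E i, g x ∈ E j) → g ∈ M) {m : ℕ}
  (hm : ∀ i, finrank F (E i) = m)
include h hM

theorem PD.tr {i : κ} {v : V} (hv : v ∈ E i) {φ : Dual F V} (h0 : φ v = 0) : TR M v (φ ∘ₗ p i) :=
  TR.of_SLV hM (by simp [h.self hv, h0]) fun g hg j => ⟨j, fun x hx => by
    rcases eq_or_ne i j with rfl | e
    · exact hg x ▸ add_mem hx (Submodule.smul_mem _ _ hv)
    · simpa [hg, h.zero e hx]⟩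

include hm

theorem PD.exists_swap (i j : κ) : ∃ k ∈ M, (∀ x ∈ E j, ∃ y ∈ E i, k y = x) ∧
    (∀ x ∈ E j, k x ∈ E i) ∧ ∀ l, l ≠ i → l ≠ j → ∀ x ∈ E l, k x = x := by
  rcases eq_or_ne i j with rfl | hij
  · exact ⟨1, one_mem _, fun x hx => ⟨x, hx, rfl⟩, fun x hx => hx, fun _ _ _ _ _ => rfl⟩
  let θ := LinearEquiv.ofFinrankEq (E i) (E j) ((hm i).trans (hm j).symm)
  let A := (E j).subtype ∘ₗ θ.toLinearMap ∘ₗ (p i).codRestrict _ (h.mem i)
  let B := (E i).subtype ∘ₗ θ.symm.toLinearMap ∘ₗ (p j).codRestrict _ (h.mem j)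
  have a1 : ∀ x, A x ∈ E j := fun x => Subtype.prop _
  have a2 : ∀ x, B x ∈ E i := fun x => Subtype.prop _
  have a3 : ∀ {l}, i ≠ l → ∀ x ∈ E l, A x = 0 := fun hl x hx => by
    simp [A, show (p i).codRestrict _ (h.mem i) x = 0 from Subtype.ext (h.zero hl hx)]
  have a4 : ∀ {l}, j ≠ l → ∀ x ∈ E l, B x = 0 := fun hl x hx => by
    simp [B, show (p j).codRestrict _ (h.mem j) x = 0 from Subtype.ext (h.zero hl hx)]
  have a5 : ∀ x ∈ E i, B (A x) = x := fun x hx => by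
    simp [B, show (p j).codRestrict _ (h.mem j) (A x) = θ ⟨x, hx⟩ from Subtype.ext
      ((h.self (a1 x)).trans (congrArg (fun y => (θ y : V)) (Subtype.ext (h.self hx))))]
  have a6 : ∀ x ∈ E j, A (B x) = x := fun x hx => by
    simp [A, show (p i).codRestrict _ (h.mem i) (B x) = θ.symm ⟨x, hx⟩ from Subtype.ext
      ((h.self (a2 x)).trans (congrArg (fun y => (θ.symm y : V)) (Subtype.ext (h.self hx))))]
  obtain ⟨s, b1, b2⟩ := EN.of_sq (M := SLV F V) (P := fun _ => True) (fun _ h _ => h)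
    (fun x => a3 hij _ (a1 x)) fun _ _ => trivial
  obtain ⟨t, b3, b4⟩ := EN.of_sq (M := SLV F V) (P := fun _ => True) (N := -B) (fun _ h _ => h)
    (fun x => by simp [a4 hij.symm _ (a2 x)]) fun _ _ => trivial
  have c1 : ∀ x ∈ E i, (s * t * s) x = A x := fun x hx => by
    simp [b2, b4, a5 x hx, a4 hij.symm x hx, a3 hij _ (a1 x)]
  have c2 : ∀ x ∈ E j, (s * t * s) x = -B x := fun x hx => by
    simp [b2, b4, a6 x hx, a3 hij x hx]
  have c3 : ∀ l, l ≠ i → l ≠ j → ∀ x ∈ E l, (s * t * s) x = x := fun l h1 h2 x hx => by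
    simp [b2, b4, a3 h1.symm x hx, a4 h2.symm x hx]
  refine ⟨s * t * s, hM _ (mul_mem (mul_mem b1 b3) b1) fun l => ?_,
    fun x hx => ⟨B x, a2 x, by rw [c1 _ (a2 x), a6 x hx]⟩,
    fun x hx => c2 x hx ▸ neg_mem (a2 x), c3⟩
  by_cases h1 : l = i
  · exact ⟨j, fun x hx => c1 x (h1 ▸ hx) ▸ a1 x⟩
  by_cases h2 : l = j
  · exact ⟨i, fun x hx => c2 x (h2 ▸ hx) ▸ neg_mem (a2 x)⟩
  · exact ⟨l, fun x hx => (c3 l h1 h2 x hx).symm ▸ hx⟩

theorem PD.SLV_le_of_hom (h2 : 2 ≤ m) {i j : κ} (hij : i ≠ j) {v x : V} (hv : v ∈ E i) (h0 : v ≠ 0)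
    {χ : Dual F V} (hx : x ∈ E j) (h1 : χ x ≠ 0) (H : TR M v (χ ∘ₗ p j)) : SLV F V ≤ M := by
  have a1 : ∀ {v u}, v ∈ E i → u ∈ E i → v ∉ F ∙ u → TR M v (χ ∘ₗ p j) → TR M u (χ ∘ₗ p j) :=
    fun {v u} hv hu e H => by
      obtain ⟨φ, b1, b2⟩ := exists_dual_one_zero e
      simpa [h.self hv, b1] using (h.tr hM hu b2).comm H (by simp [h.zero hij.symm hu])
  have a2 : ∀ u ∈ E i, TR M u (χ ∘ₗ p j) := fun u hu => by
    by_cases e : v ∈ F ∙ u
    · obtain ⟨w, b1, b2⟩ := exists_mem_notMem_span (hm i ▸ h2) u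
      refine a1 b1 hu b2 (a1 hv b1 (notMem_span_symm (fun e' => b2 ?_) h0) H)
      exact (Submodule.span_singleton_le_iff_mem _ _).mpr e e'
    · exact a1 hv hu e H
  have a3 : ∀ u ∈ E i, ∀ γ : Dual F V, TR M u (γ ∘ₗ p j) := fun u hu γ => by
    by_cases e : ∀ y, (γ ∘ₗ p j) y = 0 → (χ ∘ₗ p j) y = 0
    · obtain ⟨c, hc⟩ := exists_smul_of_ker e
      have c0 : c ≠ 0 := by
        rintro rfl; exact h1 (by simpa [h.self hx] using LinearMap.congr_fun hc x)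
      have := (hc ▸ a2 (c⁻¹ • u) (Submodule.smul_mem _ _ hu)).smul_of_right
      rwa [smul_inv_smul₀ c0] at this
    · push Not at e
      obtain ⟨y, b1, b2⟩ := e
      simpa [h.self (h.mem j y), smul_smul, show χ (p j y) ≠ 0 from b2] using
        (a2 ((χ (p j y))⁻¹ • u) (Submodule.smul_mem _ _ hu)).comm (h.tr hM (h.mem j y) b1)
          (by simp [h.zero hij.symm hu])
  have a4 : ∀ u ∈ E i, u ∈ PS M := fun u hu γ hγ => by
    have : γ = ∑ l, γ ∘ₗ p l := by ext y; simp [← map_sum, h.sum]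
    rw [this]
    refine Finset.sum_induction _ (TR M u) (fun _ _ => TR.add_right) (TR.zero_right u) fun l _ => ?_
    by_cases hl : l = i
    · exact hl ▸ h.tr hM hu hγ
    rcases eq_or_ne l j with rfl | hl'
    · exact a3 u hu γ
    obtain ⟨k, b1, -, b3, b4⟩ := h.exists_swap hM hm j l
    rw [← b4 i hij (Ne.symm hl) u hu]
    refine (a3 u hu (γ ∘ₗ p l ∘ₗ k.toLinearMap)).conj b1 fun y => ?_
    rw [h.comp_eq (j := j) (γ := γ ∘ₗ p l ∘ₗ k.toLinearMap) fun l' e x hx => ?_]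
    · rfl
    rcases eq_or_ne l' l with rfl | e'
    · simp [h.zero hl' (b3 x hx)]
    · simp [b4 l' e e' x hx, h.zero e'.symm hx]
  refine SLV_le_of_PS (eq_top_iff.mpr fun y _ => h.sum y ▸ sum_mem fun l _ => ?_)
  obtain ⟨k, b1, b2, -⟩ := h.exists_swap hM hm i l
  obtain ⟨z, c1, c2⟩ := b2 _ (h.mem l y)
  exact c2 ▸ map_mem_PS (a4 z c1) b1

theorem PD.SLV_le_of_ne (h2 : 2 ≤ m) {i j : κ} (hij : i ≠ j) {v x w : V} (hv : v ∈ E i)
    (h0 : v ∉ F ∙ p i w) (hw : p i w ≠ 0) {ψ : Dual F V} (h1 : ψ v = 0) (hx : x ∈ E j)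
    (h3 : ψ x ≠ 0) (H : TR M w ψ) : SLV F V ≤ M := by
  obtain ⟨φ, a1, a2⟩ := exists_dual_one_zero (notMem_span_symm h0 hw)
  obtain ⟨y, a3, a4⟩ := exists_mem_notMem_span (hm j ▸ h2) x
  obtain ⟨χ, a5, a6⟩ := exists_dual_one_zero a4
  refine h.SLV_le_of_hom hM hm h2 hij (Submodule.smul_mem _ (ψ x) hv)
    (smul_ne_zero h3 (by rintro rfl; simp at h0)) a3 (χ := χ) (by simp [a5]) ?_
  have := (h.tr hM hv a2).comm H h1
  simp only [LinearMap.comp_apply, a1, one_smul] at this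
  exact this.comm (h.tr hM hx a6) (by simp [h.zero hij.symm hv])

theorem PD.SLV_le_of_ann (h2 : 2 ≤ m) {i : κ} {w : V} (hw : p i w ≠ 0) {ψ : Dual F V} (h0 : ψ ≠ 0)
    (h1 : ∀ v ∈ E i, ψ v = 0) (H : TR M w ψ) : SLV F V ≤ M := by
  obtain ⟨j, x, a1, a2⟩ := h.exists_ne h0
  obtain ⟨v, a3, a4⟩ := exists_mem_notMem_span (hm i ▸ h2) (p i w)
  exact h.SLV_le_of_ne hM hm h2 (by rintro rfl; exact a2 (h1 x a1)) a3 a4 hw (h1 v a3) a1 a2 H

theorem PD.SLV_le_of_mixed (h3 : 3 ≤ m ∨ 2 ≤ m ∧ (∃ c : F, c ≠ 0 ∧ c ≠ 1) ∧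
    ∀ i j : κ, ∃ l, l ≠ i ∧ l ≠ j) {i j : κ} (hij : i ≠ j) {w : V} (hi : p i w ≠ 0) (hj : p j w ≠ 0)
    {ψ : Dual F V} (h0 : ψ ≠ 0) (H : TR M w ψ) : SLV F V ≤ M := by
  have h2 : 2 ≤ m := by omega
  by_cases e : ∀ v ∈ E j, ψ v = 0
  · exact h.SLV_le_of_ann hM hm h2 hj h0 e H
  push Not at e
  obtain ⟨x, a1, a2⟩ := e
  by_cases e : ∃ v ∈ E i, ψ v = 0 ∧ v ∉ F ∙ p i w
  · obtain ⟨v, b1, b2, b3⟩ := e
    exact h.SLV_le_of_ne hM hm h2 hij b1 b3 hi b2 a1 a2 H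
  rcases h3 with h3 | ⟨-, ⟨c, c0, c1⟩, h3⟩
  · obtain ⟨v, b1, b2⟩ := exists_ker_notMem (hm i ▸ h3) (ψ ∘ₗ (E i).subtype) ⟨_, h.mem i w⟩
    refine (e ⟨v, v.2, b1, fun e' => b2 ?_⟩).elim
    obtain ⟨d, hd⟩ := Submodule.mem_span_singleton.mp e'
    exact Submodule.mem_span_singleton.mpr ⟨d, Subtype.ext hd⟩
  obtain ⟨l, b1, b2⟩ := h3 i j
  have b3 : ∀ (r : κ) (d : F), d ≠ 0 → ∃ u ∈ E r, u ∉ F ∙ p r w ∧ ∃ (φ : Dual F V) (k : V ≃ₗ[F] V),
      φ u = 1 ∧ φ (p r w) = 0 ∧ (∀ x, k x = x + ((d - 1) * φ (p r x)) • u) ∧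
      LinearMap.det (k : V →ₗ[F] V) = d := fun r d hd => by
    obtain ⟨u, d1, d2⟩ := exists_mem_notMem_span (hm r ▸ h2) (p r w)
    obtain ⟨φ, d3, d4⟩ := exists_dual_one_zero d2
    obtain ⟨k, d5, d6⟩ := exists_dil (φ := (d - 1) • φ ∘ₗ p r) (u := u) (by simpa [h.self d1, d3])
    exact ⟨u, d1, d2, φ, k, d3, d4, d5, by simpa [h.self d1, d3] using d6⟩
  obtain ⟨u, d1, d2, φ, k, d3, d4, d5, d6⟩ := b3 i c c0
  obtain ⟨u', e1, -, φ', k', e3, e4, e5, e6⟩ := b3 l c⁻¹ (inv_ne_zero c0)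
  have b4 : k * k' ∈ M := hM _ (mem_SLV.mpr (by
    rw [LinearEquiv.coe_toLinearMap_mul, map_mul, d6, e6, mul_inv_cancel₀ c0])) fun r => ⟨r, fun y hy => by
      have f1 : k' y ∈ E r := by
        rcases eq_or_ne l r with rfl | e'
        · exact e5 y ▸ add_mem hy (Submodule.smul_mem _ _ e1)
        · simpa [e5, h.zero e' hy]
      rcases eq_or_ne i r with rfl | e'
      · exact (d5 (k' y)).symm ▸ add_mem f1 (Submodule.smul_mem _ _ d1)
      · simpa [d5, h.zero e' f1]⟩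
  have b5 : TR M w (ψ ∘ₗ (k * k').toLinearMap) := by
    have := H.conj' (inv_mem b4)
    rwa [show (k * k')⁻¹ w = w from (k * k').symm_apply_eq.mpr (by simp [d5, e5, d4, e4])] at this
  refine h.SLV_le_of_ann hM hm h2 hj (fun e' => ?_) (fun v hv => ?_) (b5.sub_right H)
  · have := LinearMap.congr_fun e' u
    simp [d5, e5, h.zero b1 d1, h.self d1, d3, sub_eq_zero, c1] at this
    exact e ⟨u, d1, this, d2⟩
  · simp [d5, e5, h.zero b2 hv, h.zero hij hv]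

theorem PD.SLV_le (h3 : 3 ≤ m ∨ 2 ≤ m ∧ (∃ c : F, c ≠ 0 ∧ c ≠ 1) ∧ ∀ i j : κ, ∃ l, l ≠ i ∧ l ≠ j)
    {g : V ≃ₗ[F] V} (hg : g ∈ M) (hg' : ¬ ∀ i, ∃ j, ∀ x ∈ E i, g x ∈ E j) : SLV F V ≤ M := by
  have h2 : 2 ≤ m := by omega
  push Not at hg'
  obtain ⟨i, hi⟩ := hg'
  have a0 : ∀ x j, x ∉ E j → ∃ l, l ≠ j ∧ p l x ≠ 0 := fun x j hx => by
    by_contra! e; exact hx (h.mem_of e)
  obtain ⟨w, a1, j, l, a2, a3, a4⟩ : ∃ w ∈ E i, ∃ j l, l ≠ j ∧ p l (g w) ≠ 0 ∧ p j (g w) ≠ 0 := by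
    obtain ⟨x, b1, b2⟩ := hi i
    obtain ⟨j, -, b3⟩ := a0 _ _ b2
    by_cases e : g x ∈ E j
    · obtain ⟨y, c1, c2⟩ := hi j
      obtain ⟨l, c3, c4⟩ := a0 _ _ c2
      by_cases e' : p j (g y) = 0
      · exact ⟨x + y, add_mem b1 c1, j, l, c3, by simpa [h.zero c3 e], by simpa [e']⟩
      · exact ⟨y, c1, j, l, c3, c4, e'⟩
    · obtain ⟨l, c3, c4⟩ := a0 _ _ e
      exact ⟨x, b1, j, l, c3, c4, b3⟩
  obtain ⟨y, b1, b2⟩ := exists_mem_notMem_span (hm i ▸ h2) w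
  obtain ⟨φ, b3, b4⟩ := exists_dual_one_zero b2
  refine h.SLV_le_of_mixed hM hm h3 a2 a3 a4 (fun e => ?_) ((h.tr hM a1 b4).conj' hg)
  simpa [h.self b1, b3] using LinearMap.congr_fun e (g y)

end Cfsg.Agent.H12
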