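import Mathlib
import Cfsg.Agent.H12.DecA

/-!
Overgroups of the monomial group: homologies, and the case of the general linear group.
-/

set_option autoImplicit false

namespace Cfsg.Agent.H12

open Module

variable {F V : Type*} [Field F] [AddCommGroup V] [Module F V] {M : Subgroup (V ≃ₗ[F] V)}

theorem exists_avoid [Finite F] (h5 : 5 ≤ Nat.card F) (r s : F) {A B D : F}
    (h : ¬ (A = 0 ∧ B = 0 ∧ D = 0)) : ∃ x, x ≠ r ∧ x ≠ s ∧ A * x ^ 2 + B * x + D ≠ 0 := by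
  open Polynomial in
  by_contra! H
  haveI := Fintype.ofFinite F
  have := eq_zero_of_natDegree_lt_card_of_eval_eq_zero
    ((X - C r) * (X - C s) * (C A * X ^ 2 + C B * X + C D)) Function.injective_id (fun x => by
      by_cases h1 : x = r
      · simp [h1]
      by_cases h2 : x = s
      · simp [h2]
      simp [H x h1 h2]) (lt_of_le_of_lt (b := 4) (by compute_degree)
        (by rw [← Nat.card_eq_fintype_card]; omega))
  simp only [mul_eq_zero, X_sub_C_ne_zero, false_or] at this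
  exact h ⟨by simpa using congrArg (coeff · 2) this, by simpa using congrArg (coeff · 1) this,
    by simpa using congrArg (coeff · 0) this⟩

theorem exists_avoid₄ [Finite F] (h5 : 5 ≤ Nat.card F) (r s t u : F) :
    ∃ x, x ≠ r ∧ x ≠ s ∧ x ≠ t ∧ x ≠ u := by
  obtain ⟨x, h1, h2, h3⟩ := exists_avoid h5 r s (A := 1) (B := -(t + u)) (D := t * u) (by simp)
  exact ⟨x, h1, h2, fun e => h3 (by rw [e]; ring), fun e => h3 (by rw [e]; ring)⟩

theorem TR.of_diff {t t' : V ≃ₗ[F] V} (h : t ∈ M) (h' : t' ∈ M) {w : V} {χ : Dual F V} (h0 : χ w = 0)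
    (H : ∀ x, t' x = t x + χ x • t w) : TR M w χ :=
  ⟨h0, t⁻¹ * t', mul_mem (inv_mem h) h', fun x => by simp [H]⟩

/-- All homologies with centre `u` and axis `φ` lie in `M`. -/
def HM (M : Subgroup (V ≃ₗ[F] V)) (u : V) (φ : Dual F V) : Prop :=
  φ u = 1 ∧ ∀ ε : F, ε ≠ 0 → ∃ k ∈ M, ∀ x, k x = x + ((ε - 1) * φ x) • u

variable {u u' : V} {φ φ' : Dual F V}

theorem HM.conj (h : HM M u φ) {k : V ≃ₗ[F] V} (hk : k ∈ M) (H : ∀ x, φ' (k x) = φ x) :
    HM M (k u) φ' := ⟨by rw [H, h.1], fun ε h0 => by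
  obtain ⟨t, a1, a2⟩ := h.2 ε h0
  exact ⟨k * t * k⁻¹, mul_mem (mul_mem hk a1) (inv_mem hk), fun x => by simp [a2, ← H]⟩⟩

theorem HM.conj_hm (h : HM M u φ) (h' : HM M u' φ') {ε : F} (h0 : ε ≠ 0) :
    HM M (u + ((ε - 1) * φ' u) • u') (φ + ((ε⁻¹ - 1) * φ u') • φ') := by
  obtain ⟨k, a1, a2⟩ := h'.2 ε h0
  exact a2 u ▸ h.conj a1 fun x => by simp [a2, h'.1]; field_simp; ring

theorem TR.conj_hm (h : TR M u φ) (h' : HM M u' φ') {ε : F} (h0 : ε ≠ 0) :
    TR M (u + ((ε - 1) * φ' u) • u') (φ + ((ε⁻¹ - 1) * φ u') • φ') := by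
  obtain ⟨k, a1, a2⟩ := h'.2 ε h0
  exact a2 u ▸ h.conj a1 fun x => by simp [a2, h'.1]; field_simp; ring

/-- `M` contains a full group of transvections with common centre and axis. -/
def FR (M : Subgroup (V ≃ₗ[F] V)) : Prop :=
  ∃ (w : V) (ψ : Dual F V), w ≠ 0 ∧ ψ ≠ 0 ∧ ∀ c : F, TR M w (c • ψ)

variable [Finite F] (h5 : 5 ≤ Nat.card F)

include h5 in
theorem HM.fr (h : HM M u φ) (h' : HM M u' φ') (h1 : φ' u = 0) (h2 : φ u' ≠ 0) : FR M := by
  refine ⟨u, φ', by rintro rfl; simpa using h.1, by rintro rfl; simpa using h'.1, fun c => ?_⟩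
  obtain ⟨δ, a1, a2, a3⟩ := exists_avoid h5 0 1 (A := 0) (B := -(c + φ u')) (D := φ u') (by simp [h2])
  have a4 := h.conj_hm h' a1
  set κ := (δ⁻¹ - 1) * φ u' with hκ
  have a5 : κ ≠ 0 := mul_ne_zero (sub_ne_zero.mpr (by simpa)) h2
  have a6 : κ - c ≠ 0 := fun e => a3 (by rw [hκ] at e; field_simp at e; linear_combination e)
  obtain ⟨t, b1, b2⟩ := h.2 _ (div_ne_zero a5 a6)
  obtain ⟨t', b3, b4⟩ := a4.2 _ (div_ne_zero a5 a6)
  refine TR.of_diff b1 b3 (by simp [h1]) fun x => ?_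
  simp [b2, b4, h1, h.1]; match_scalars <;> field_simp <;> ring

variable {ι : Type*} [Fintype ι] [DecidableEq ι] (b : Basis ι F V)

/-- `g` permutes the points of the frame `b`. -/
def Mon (g : V ≃ₗ[F] V) : Prop := ∀ i, ∃ (j : ι) (c : F), g (b i) = c • b j

variable {b}

omit [Finite F] [Fintype ι] [DecidableEq ι] in
theorem Mon.mul {g k : V ≃ₗ[F] V} (h : Mon b g) (h' : Mon b k) : Mon b (g * k) := fun i => by
  obtain ⟨j, c, a1⟩ := h' i
  obtain ⟨l, d, a2⟩ := h j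
  exact ⟨l, c * d, by simp [a1, a2, smul_smul]⟩

omit [Finite F] [Fintype ι] in
theorem eq_of_smul_basis {i j : ι} {c d : F} (hc : c ≠ 0) (h : c • b i = d • b j) : i = j := by
  by_contra e
  simpa [hc, Finsupp.single_apply, Ne.symm e] using congrArg (b.repr · i) h

omit [Finite F] in
theorem Mon.inv {g : V ≃ₗ[F] V} (h : Mon b g) : Mon b g⁻¹ := fun j => by
  choose π c hc using h
  have a1 : ∀ i, c i ≠ 0 := fun i e => b.ne_zero i (g.map_eq_zero_iff.mp (by simp [hc, e]))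
  obtain ⟨i, rfl⟩ := Finite.surjective_of_injective (f := π) (fun i i' e =>
    eq_of_smul_basis (b := b) (d := c i) (a1 i') (g.injective (by
      simp [hc, e, smul_smul, mul_comm]))) j
  exact ⟨i, (c i)⁻¹, g.symm_apply_eq.mpr (by simp [hc, a1])⟩

omit [Finite F] [DecidableEq ι] in
theorem exists_basis_ne {χ : Dual F V} (h : χ ≠ 0) : ∃ k, χ (b k) ≠ 0 := by
  by_contra! H; exact h (b.ext H)

omit [Finite F] [DecidableEq ι] in
theorem exists_repr_ne {w : V} (h : w ≠ 0) : ∃ k, b.repr w k ≠ 0 := by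
  by_contra! H; exact h (b.ext_elem (by simpa using H))

section gen
variable (hG : ∀ g, Mon b g → g ∈ M)
include hG

omit [Finite F] in
theorem HM.basis (i : ι) : HM M (b i) (b.coord i) := ⟨by simp, fun ε h0 => by
  haveI := Module.Finite.of_basis b
  obtain ⟨k, a1, -⟩ := exists_dil (φ := (ε - 1) • b.coord i) (u := b i) (by simpa)
  refine ⟨k, hG k fun j => ?_, a1⟩
  rcases eq_or_ne j i with rfl | e
  · exact ⟨j, ε, by simp [a1, sub_smul]⟩
  · exact ⟨j, 1, by simp [a1, e]⟩⟩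

include h5

theorem HM.fr_of_supp (h : HM M u φ) {l : ι} (H : ¬ (b.repr u l = 0 ↔ φ (b l) = 0)) : FR M := by
  by_cases e : φ (b l) = 0
  · exact (HM.basis hG l).fr h5 h e (by simpa [e] using H)
  · exact h.fr h5 (HM.basis hG l) (by simpa [e] using H) e

theorem HM.fr_of_three (h : HM M u φ) {i j k : ι} (hij : i ≠ j) (hik : i ≠ k) (hjk : j ≠ k)
    (hi : b.repr u i ≠ 0) (hj : b.repr u j ≠ 0) (hk : b.repr u k ≠ 0) : FR M := by
  by_contra H
  have a0 : ∀ l, b.repr u l ≠ 0 → b.repr u l * φ (b l) ≠ 0 := fun l hl => mul_ne_zero hl fun e =>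
    H (h.fr_of_supp h5 hG (l := l) (by simp [e, hl]))
  have a1 := a0 i hi
  have a2 := a0 j hj
  have a3 := a0 k hk
  set α := b.repr u i * φ (b i) with hα
  set β := b.repr u j * φ (b j) with hβ
  set γ := b.repr u k * φ (b k) with hγ
  obtain ⟨z, b1, -, b2⟩ := exists_avoid h5 0 0 (A := 0) (B := -γ) (D := α + β + γ - 1) (by simp [a3])
  set r := 0 * z ^ 2 + -γ * z + (α + β + γ - 1) with hr
  set t := 1 - α - β - γ + γ / z with ht
  obtain ⟨x, b3, b4, b5⟩ := exists_avoid h5 0 r (A := -t) (B := t * r - α ^ 2 + β ^ 2)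
    (D := α ^ 2 * r) (by simp [a1, b2])
  have b6 := sub_ne_zero.mpr b4.symm
  refine H ((((h.conj_hm (HM.basis hG i) (div_ne_zero b3 a1)).conj_hm (HM.basis hG j)
    (div_ne_zero b6 a2)).conj_hm (HM.basis hG k) b1).fr h5 h ?_ fun e => b5 ?_)
  · simp [hij, hik, hjk, h.1, mul_assoc, ← hα, ← hβ, ← hγ]
    field_simp; rw [hr]; ring
  · simp [hij, hik, hjk, hij.symm, hik.symm, hjk.symm, h.1, mul_assoc, mul_comm (φ _), ← hα, ← hβ,
      ← hγ] at e
    rw [ht]; field_simp at e ⊢; linear_combination e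

theorem HM.fr_of_two (h3 : 3 ≤ Fintype.card ι) (h : HM M u φ) {i j : ι} (hij : i ≠ j)
    (hi : b.repr u i ≠ 0) (hj : b.repr u j ≠ 0) : FR M := by
  by_contra H
  haveI := Module.Finite.of_basis b
  have a0 : ∀ l, b.repr u l = 0 ↔ φ (b l) = 0 := fun l => by
    by_contra e; exact H (h.fr_of_supp h5 hG e)
  have a1 : ∀ l, l ≠ i → l ≠ j → b.repr u l = 0 := fun l h1 h2 => by
    by_contra e; exact H (h.fr_of_three h5 hG hij h1.symm h2.symm hi hj e)
  obtain ⟨k, -, hk⟩ := Finset.exists_mem_notMem_of_card_lt_card (s := {i, j}) (t := Finset.univ)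
    (by rw [Finset.card_pair hij]; exact h3)
  simp only [Finset.mem_insert, Finset.mem_singleton, not_or] at hk
  have a2 := a1 k hk.1 hk.2
  have a3 := (a0 k).mp a2
  have a4 : 1 - b.repr u j * φ (b j) ≠ 0 := by
    have : u = b.repr u i • b i + b.repr u j • b j := b.ext_elem fun l => by
      by_cases h1 : l = i
      · simp [h1, hij]
      by_cases h2 : l = j
      · simp [h2, hij.symm]
      · simp [h1, h2, a1 l h1 h2]
    have h1 := h.1
    rw [this] at h1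
    simp only [map_add, map_smul, smul_eq_mul] at h1
    rw [← h1]; simpa [hi] using mt (a0 i).mpr hi
  obtain ⟨r, b1, -⟩ := exists_dil (φ := b.coord k - b.coord j) (u := b j - b k) (by simp [hk, Ne.symm hk.2])
  have b2 : r ∈ M := hG r fun l => by
    by_cases h1 : l = j
    · exact ⟨k, 1, by simp [b1, h1, Ne.symm hk.2]⟩
    by_cases h2 : l = k
    · exact ⟨j, 1, by simp [b1, h2, hk.2]⟩
    · exact ⟨l, 1, by simp [b1, h1, h2]⟩
  have b3 := h.conj b2 (φ' := φ ∘ₗ r.symm.toLinearMap) (by simp)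
  have b4 : φ (r.symm u) = 1 - b.repr u j * φ (b j) := by
    rw [show r.symm u = r u from r.symm_apply_eq.mpr (by simp [b1, a2, hk.2, Ne.symm hk.2])]
    simp [b1, a2, a3, h.1, sub_eq_add_neg]
  obtain ⟨ε, c1, c2, c3⟩ := exists_avoid h5 0 1 (A := 0) (B := 1 - b.repr u j * φ (b j))
    (D := b.repr u j * φ (b j)) (by simp [a4])
  refine H ((h.conj_hm b3 c1).fr_of_three h5 hG hij (Ne.symm hk.1) (Ne.symm hk.2) ?_ ?_ ?_)
  · simp [b4, b1, hij.symm, hk.1]
    exact fun e => mul_ne_zero c3 hi (by linear_combination e)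
  · simpa [b4, b1, a2, hk.2]
  · simp [b4, b1, a2, Ne.symm hk.2, sub_eq_zero, c2, hj, a4]

theorem FR.exists_basis (h : FR M) : ∃ (j k : ι) (c : F), j ≠ k ∧ c ≠ 0 ∧ TR M (b j) (c • b.coord k) := by
  obtain ⟨ε, a1, a2, -⟩ := exists_avoid₄ h5 0 1 0 0
  have a3 := sub_ne_zero.mpr a2
  have a4 : ε⁻¹ - 1 ≠ 0 := sub_ne_zero.mpr (by simpa)
  obtain ⟨j, χ, b1, b2⟩ : ∃ (j : ι) (χ : Dual F V), χ ≠ 0 ∧ TR M (b j) χ := by
    obtain ⟨w, ψ, b1, b2, b3⟩ := h
    obtain ⟨j, hj⟩ := exists_repr_ne (b := b) b1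
    have b4 : TR M w ψ := by simpa using b3 1
    have b5 := b4.conj_hm (HM.basis hG j) a1
    by_cases e : ψ (b j) = 0
    · refine ⟨j, _, smul_ne_zero (mul_ne_zero a3 hj) b2, TR.smul_of_left ?_⟩
      simp only [e, mul_zero, zero_smul, add_zero, Basis.coord_apply] at b5
      simpa using b5.sub_left b4
    · have b6 := (b3 (-((ε - 1) * b.repr w j * ψ (b j))⁻¹)).conj_tr b5
      have b7 := mul_ne_zero (mul_ne_zero a3 hj) e
      simp only [Basis.coord_apply, LinearMap.smul_apply, map_add ψ, map_smul ψ, b4.1, zero_add,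
        smul_eq_mul, neg_mul, inv_mul_cancel₀ b7, neg_smul, one_smul, add_neg_cancel_comm] at b6
      refine ⟨j, _, smul_ne_zero (mul_ne_zero a3 hj) fun e' => ?_, b6.smul_of_left⟩
      simpa [b4.1, a4, e, hj] using LinearMap.congr_fun e' w
  obtain ⟨k, hk⟩ := exists_basis_ne (b := b) b1
  have b3 : j ≠ k := by rintro rfl; exact hk b2.1
  have b4 := b2.conj_hm (HM.basis hG k) a1
  simp only [Basis.coord_apply, Basis.repr_self, Finsupp.single_eq_of_ne b3.symm, mul_zero, zero_smul,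
    add_zero] at b4
  exact ⟨j, k, _, b3, mul_ne_zero a4 hk, by simpa using b4.sub_right b2⟩

theorem exists_root_of_not_mon (h3 : 3 ≤ Fintype.card ι) {g : V ≃ₗ[F] V} (hg : g ∈ M)
    (hg' : ¬ Mon b g) : ∃ (j k : ι) (c : F), j ≠ k ∧ c ≠ 0 ∧ TR M (b j) (c • b.coord k) := by
  obtain ⟨i, hi⟩ := not_forall.mp hg'
  obtain ⟨j, hj⟩ := exists_repr_ne (b := b) (g.map_ne_zero_iff.mpr (b.ne_zero i))
  obtain ⟨k, a1, a2⟩ : ∃ k, k ≠ j ∧ b.repr (g (b i)) k ≠ 0 := by
    by_contra! H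
    refine hi ⟨j, b.repr (g (b i)) j, b.ext_elem fun l => ?_⟩
    by_cases e : l = j <;> simp [e, H, Finsupp.single_apply, eq_comm]
  exact (((HM.basis hG i).conj hg (φ' := b.coord i ∘ₗ g.symm.toLinearMap) (by simp)).fr_of_two h5 hG
    h3 a1 a2 hj).exists_basis h5 hG

end gen

end Cfsg.Agent.H12
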