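import Mathlib
import Cfsg.Agent.H12.DecB

/-!
Overgroups of the monomial subgroup of the special linear group.
-/

set_option autoImplicit false

namespace Cfsg.Agent.H12

open Module

variable {F V : Type*} [Field F] [AddCommGroup V] [Module F V] {M : Subgroup (V ≃ₗ[F] V)}
  {ι : Type*} [Fintype ι] [DecidableEq ι] {b : Basis ι F V}

theorem exists_ne₄ (h : 5 ≤ Fintype.card ι) (i j k l : ι) : ∃ m, m ≠ i ∧ m ≠ j ∧ m ≠ k ∧ m ≠ l := by
  obtain ⟨m, -, hm⟩ := Finset.exists_mem_notMem_of_card_lt_card (s := {i, j, k, l}) (t := Finset.univ)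
    (Finset.card_le_four.trans_lt h)
  exact ⟨m, by simpa using hm⟩

theorem exists_refl {j k : ι} (h : j ≠ k) {a a' : F} (ha : a ≠ 0) (ha' : a' ≠ 0) :
    ∃ r : V ≃ₗ[F] V, LinearMap.det (r : V →ₗ[F] V) = -1 ∧ Mon b r ∧
      ∀ x, r x = x + (a'⁻¹ * b.repr x k - a⁻¹ * b.repr x j) • (a • b j - a' • b k) := by
  haveI := Module.Finite.of_basis b
  obtain ⟨r, b1, b2⟩ := exists_dil (φ := a'⁻¹ • b.coord k - a⁻¹ • b.coord j) (u := a • b j - a' • b k)
    (by simp [h, h.symm, ha, ha'])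
  refine ⟨r, by simp [b2, h, h.symm, ha, ha'], fun l => ?_, b1⟩
  by_cases h1 : l = j
  · exact ⟨k, a⁻¹ * a', by simp [b1, h1, h.symm, smul_sub, smul_smul, ha]⟩
  by_cases h2 : l = k
  · exact ⟨j, a'⁻¹ * a, by simp [b1, h2, h, smul_sub, smul_smul, ha']⟩
  · exact ⟨l, 1, by simp [b1, h1, h2]⟩

variable (hM : ∀ g ∈ SLV F V, Mon b g → g ∈ M)
include hM

theorem exists_diag {t : ι → F} (ht : ∏ i, t i = 1) :
    ∃ d ∈ M, ∀ x i, b.repr (d x) i = t i * b.repr x i := by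
  have h0 : ∀ i, t i ≠ 0 := fun i => Finset.prod_ne_zero_iff.mp (ht ▸ one_ne_zero) i (Finset.mem_univ i)
  have h1 : ∀ (s : ι → F) x i, b.repr (Matrix.toLin b b (Matrix.diagonal s) x) i = s i * b.repr x i :=
    fun s x i => by rw [Matrix.repr_toLin, Matrix.mulVec_diagonal]
  refine ⟨LinearEquiv.ofLinearMap (Matrix.toLin b b (Matrix.diagonal t))
    (Matrix.toLin b b (Matrix.diagonal t⁻¹)) (LinearMap.ext fun x => b.ext_elem fun i => by simp [h1, h0])
    (LinearMap.ext fun x => b.ext_elem fun i => by simp [h1, h0]),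
    hM _ (mem_SLV.mpr (by simpa)) fun i => ⟨i, t i, b.ext_elem fun l => ?_⟩, h1 t⟩
  refine (h1 t _ l).trans ?_
  by_cases e : i = l <;> simp [e]

theorem exists_dd {j k : ι} (h : j ≠ k) {ε : F} (h0 : ε ≠ 0) : ∃ d ∈ M, ∀ x,
    d x = x + ((ε - 1) * b.repr x j) • b j + ((ε⁻¹ - 1) * b.repr x k) • b k := by
  obtain ⟨d, a1, a2⟩ := exists_diag hM (t := fun i => (if i = j then ε else 1) * if i = k then ε⁻¹ else 1)
    (by rw [Finset.prod_mul_distrib]; simp [h0])
  refine ⟨d, a1, fun x => b.ext_elem fun i => ?_⟩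
  by_cases h1 : i = j
  · simp [a2, h1, h]; ring
  by_cases h2 : i = k
  · simp [a2, h2, h.symm]; ring
  · simp [a2, h1, h2]

theorem exists_weyl (i j : ι) : ∃ k ∈ M, Mon b k ∧ k (b i) = b j ∧
    (∀ x, b.repr (k x) j = b.repr x i) ∧ ∀ l, l ≠ i → l ≠ j → k (b l) = b l := by
  rcases eq_or_ne i j with rfl | h
  · exact ⟨1, one_mem _, fun l => ⟨l, 1, by simp⟩, rfl, fun _ => rfl, fun _ _ _ => rfl⟩
  haveI := Module.Finite.of_basis b
  obtain ⟨r, a1, a2, a3⟩ := exists_refl (b := b) h one_ne_zero one_ne_zero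
  obtain ⟨s, b1, b2⟩ := exists_dil (φ := (-2 : F) • b.coord j) (u := b j) (by simp; norm_num)
  have b3 : Mon b (r * s) := a2.mul fun l => by
    by_cases e : l = j
    · exact ⟨j, -1, by simp [b1, e]; module⟩
    · exact ⟨l, 1, by simp [b1, e]⟩
  refine ⟨r * s, hM _ (mem_SLV.mpr ?_) b3, b3, by simp [a3, b1, h, h.symm],
    fun x => by simp [a3, b1, h, h.symm], fun l h1 h2 => by simp [a3, b1, h1, h2]⟩
  rw [LinearEquiv.coe_toLinearMap_mul, map_mul, a1, b2]; simp; norm_num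

theorem TR.dd {a j k : ι} {χ : Dual F V} (h : TR M (b a) χ) (h1 : j ≠ k) (h2 : j ≠ a) (h3 : k ≠ a)
    {ε : F} (h0 : ε ≠ 0) :
    TR M (b a) (((ε - 1) * χ (b j)) • b.coord j + ((ε⁻¹ - 1) * χ (b k)) • b.coord k) := by
  obtain ⟨d, a1, a2⟩ := exists_dd hM h1 h0
  have := h.conj' (inv_mem a1)
  rw [show d⁻¹ (b a) = b a from d.symm_apply_eq.mpr (by simp [a2, h2, h3])] at this
  convert this.sub_right h using 1
  ext x; change _ = χ (d x) - χ x; simp [a2]; ring

variable [Finite F] (h5 : 5 ≤ Nat.card F) (hn : 5 ≤ Fintype.card ι)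
include h5 hn

theorem SLV_le_of_tr_basis {a : ι} {χ : Dual F V} (h : TR M (b a) χ) (h0 : χ ≠ 0) : SLV F V ≤ M := by
  haveI := Module.Finite.of_basis b
  obtain ⟨m, hm⟩ := exists_basis_ne (b := b) h0
  have a1 : m ≠ a := by rintro rfl; exact hm h.1
  obtain ⟨k, k1, k2, -⟩ := exists_ne₄ hn a m m m
  obtain ⟨l, l1, l2, l3, -⟩ := exists_ne₄ hn a m k k
  obtain ⟨ε, e1, e2, -⟩ := exists_avoid₄ h5 0 1 0 0
  have a2 := (h.dd hM k2.symm a1 k1 e1).dd hM l2.symm a1 l1 e1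
  simp only [LinearMap.add_apply, LinearMap.smul_apply, Basis.coord_apply, Basis.repr_self,
    Finsupp.single_eq_same, Finsupp.single_eq_of_ne k2, Finsupp.single_eq_of_ne l2.symm,
    Finsupp.single_eq_of_ne l3.symm, smul_eq_mul, mul_zero, mul_one, add_zero, zero_smul] at a2
  have a3 : ∀ c : F, TR M (b a) (c • b.coord m) := fun c => by
    have e3 := mul_ne_zero (sub_ne_zero.mpr e2) (mul_ne_zero (sub_ne_zero.mpr e2) hm)
    by_cases hc : c = 0
    · simpa [hc] using TR.zero_right _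
    convert (a2.dd hM l2.symm a1 l1 (div_ne_zero hc e3)).add_right a2 using 1
    ext x; simp [l2.symm]; field_simp; ring
  have a4 : b a ∈ PS M := fun γ hγ => TR.of_coann (S := {β | ∃ i, i ≠ a ∧ β = b.coord i}) (by
    rintro _ ⟨i, hi, rfl⟩ c
    obtain ⟨w, b1, -, -, b2, b3⟩ := exists_weyl hM m i
    exact b3 a a1.symm hi.symm ▸ (a3 c).conj b1 fun x => by simp [b2]) fun u hu => by
      rw [show u = b.repr u a • b a from b.ext_elem fun i => by
        by_cases e : i = a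
        · simp [e]
        · simpa [e] using hu _ ⟨i, e, rfl⟩]
      simp [hγ]
  refine SLV_le_of_PS (eq_top_iff.mpr (b.span_eq ▸ Submodule.span_le.mpr ?_))
  rintro _ ⟨i, rfl⟩
  obtain ⟨w, b1, -, b2, -⟩ := exists_weyl hM a i
  exact b2 ▸ map_mem_PS a4 b1

theorem SLV_le_of_near {t : V ≃ₗ[F] V} (ht : t ∈ M) {a j k : ι} (h1 : j ≠ k) (h2 : j ≠ a) (h3 : k ≠ a)
    {c : F} (H : ∀ x i, i ≠ a → b.repr (t x) i = b.repr (x + (c * b.repr x k) • b j) i)
    (h0 : c ≠ 0 ∨ ¬ Mon b t) : SLV F V ≤ M := by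
  obtain ⟨χ, hχ⟩ : ∃ χ : Dual F V, ∀ x, t x = x + (c * b.repr x k) • b j + χ x • b a :=
    ⟨b.coord a ∘ₗ t.toLinearMap - b.coord a, fun x => b.ext_elem fun i => by
      by_cases e : i = a
      · simp [e, h2.symm]
      · simp [H x i e, e]⟩
  obtain ⟨l, l1, l2, l3, -⟩ := exists_ne₄ hn a j k k
  obtain ⟨ε, e1, e2, e3, -⟩ := exists_avoid₄ h5 0 1 (-1) 0
  have e4 := sub_ne_zero.mpr e2
  by_cases e : ∀ m, m ≠ a → χ (b m) = 0
  · rcases ne_or_eq c 0 with hc | hc
    · obtain ⟨d, a1, a2⟩ := exists_dd hM l2.symm e1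
      refine SLV_le_of_tr_basis hM h5 hn (TR.of_diff (mul_mem ht a1) (mul_mem a1 ht) (w := b j)
        (χ := ((ε - 1) * c / ε) • b.coord k) (by simp [h1.symm]) fun x => ?_) fun e' => ?_
      · simp [hχ, a2, e j h2, e l l1, h1.symm, l1, l2, l3.symm, h2]
        match_scalars <;> field_simp <;> ring
      · simpa [e1, e4, hc] using LinearMap.congr_fun e' (b k)
    · refine (h0.resolve_left (not_not.mpr hc) fun i => ?_).elim
      by_cases e' : i = a
      · exact ⟨a, 1 + χ (b a), by simp [hχ, hc, e', add_smul]⟩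
      · exact ⟨i, 1, by simp [hχ, hc, e i e']⟩
  push Not at e
  obtain ⟨m, m1, m2⟩ := e
  obtain ⟨d, a1, a2⟩ := exists_dd hM l1.symm e1
  have a3 : 1 + χ (b a) ≠ 0 := fun e => b.ne_zero a (t.map_eq_zero_iff.mp (by
    simpa [hχ, h3, add_smul] using congrArg (· • b a) e))
  refine SLV_le_of_tr_basis hM h5 hn (TR.of_diff (mul_mem ht a1) (mul_mem a1 ht) (w := b a)
    (χ := (ε * (1 + χ (b a)))⁻¹ • (ε • χ - χ ∘ₗ d.toLinearMap)) (by simp [a2, l1]; ring_nf; simp)
    fun x => ?_) fun e' => ?_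
  · simp [hχ, a2, l1, l2, l3.symm, h2.symm, h3]
    match_scalars <;> field_simp <;> ring
  · have := LinearMap.congr_fun e' (b m)
    by_cases e : m = l
    · simp [e1, a3, a2, e, l1.symm] at this
      exact mul_ne_zero (mul_ne_zero e4 (add_eq_zero_iff_eq_neg.not.mpr e3)) (e ▸ m2)
        (by field_simp at this; linear_combination this)
    · simp [e1, a3, a2, m1.symm, Ne.symm e] at this
      exact mul_ne_zero e4 m2 (by linear_combination this)

theorem SLV_le_of_fix {g : V ≃ₗ[F] V} (hg : g ∈ M) (hg' : ¬ Mon b g) {a : ι} {c : F}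
    (H : g (b a) = c • b a) : SLV F V ≤ M := by
  haveI := Module.Finite.of_basis b
  let π : V →ₗ[F] ({i // i ≠ a} → F) := LinearMap.pi fun i => b.coord i
  let s : ({i // i ≠ a} → F) →ₗ[F] V := Fintype.linearCombination F fun i => b i
  have p1 : ∀ x i, π x i = b.repr x i := fun _ _ => rfl
  have p2 : ∀ i, s (Pi.single i 1) = b i := fun i => by simp [s]
  have p3 : π (b a) = 0 := funext fun i => by simp [p1, i.2]
  have p4 : ∀ i : {i // i ≠ a}, π (b i) = Pi.single i 1 := fun i => funext fun j => by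
    simp [p1, Finsupp.single_apply, Pi.single_apply, Subtype.ext_iff, eq_comm]
  have p5 : ∀ y, π (s y) = y := LinearMap.congr_fun (show π ∘ₗ s = LinearMap.id from
    (Pi.basisFun F _).ext fun i => by simp [p2, p4])
  have p6 : ∀ y, b.repr (s y) a = 0 := LinearMap.congr_fun (show b.coord a ∘ₗ s = 0 from
    (Pi.basisFun F _).ext fun i => by simp [p2, i.2.symm])
  have p7 : ∀ x, b.repr x a • b a + s (π x) = x := fun x => b.ext_elem fun i => by
    by_cases e : i = a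
    · simp [e, p6]
    · simpa [e, p1] using congrFun (p5 (π x)) ⟨i, e⟩
  let N : Subgroup (({i // i ≠ a} → F) ≃ₗ[F] ({i // i ≠ a} → F)) :=
    { carrier := {k | ∃ g ∈ M, ∀ x, π (g x) = k (π x)}
      one_mem' := ⟨1, one_mem _, fun _ => rfl⟩
      mul_mem' := fun ⟨g, a1, a2⟩ ⟨g', a3, a4⟩ => ⟨g * g', mul_mem a1 a3, fun x => by simp [a2, a4]⟩
      inv_mem' := fun {k} ⟨g, a1, a2⟩ => ⟨g⁻¹, inv_mem a1, fun x =>
        k.eq_symm_apply.mpr (by simp [← a2])⟩ }
  have a1 : ∀ k, Mon (Pi.basisFun F _) k → ∃ h ∈ M, Mon b h ∧ ∀ x, π (h x) = k (π x) := fun k hk => by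
    let L : V ≃ₗ[F] V := LinearEquiv.ofLinearMap
      ((b.coord a).smulRight (b a) + s ∘ₗ k.toLinearMap ∘ₗ π)
      ((b.coord a).smulRight (b a) + s ∘ₗ k.symm.toLinearMap ∘ₗ π)
      (by ext; simp [p3, p5, p6, p7]) (by ext; simp [p3, p5, p6, p7])
    have b0 : ∀ x, L x = b.repr x a • b a + s (k (π x)) := fun _ => rfl
    obtain ⟨d, b1, b2⟩ := exists_dil (φ := ((LinearMap.det (L : V →ₗ[F] V))⁻¹ - 1) • b.coord a)
      (u := b a) (by simpa using L.isUnit_det'.ne_zero)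
    have b3 : Mon b (L * d) := fun i => by
      by_cases e : i = a
      · exact ⟨a, (LinearMap.det (L : V →ₗ[F] V))⁻¹, by simp [e, b0, b1, p3, sub_smul]⟩
      · obtain ⟨j, c, hc⟩ := hk ⟨i, e⟩
        simp only [Pi.basisFun_apply] at hc
        exact ⟨j, c, by simp [b0, b1, Ne.symm e, p4 ⟨i, e⟩, hc, p2]⟩
    refine ⟨L * d, hM _ (mem_SLV.mpr ?_) b3, b3, fun x => by simp [b0, b1, p3, p5]⟩
    rw [LinearEquiv.coe_toLinearMap_mul, map_mul, b2]
    simp [L.isUnit_det'.ne_zero]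
  have a2 : ∀ g : V ≃ₗ[F] V, ∀ c : F, g (b a) = c • b a → ∀ x, π (g (s (π x))) = π (g x) :=
    fun g c H x => by conv_rhs => rw [← p7 x]; simp [H, p3]
  have a3 : g.symm (b a) = c⁻¹ • b a := g.symm_apply_eq.mpr (by
    have : c ≠ 0 := fun e => b.ne_zero a (g.map_eq_zero_iff.mp (by simp [H, e]))
    simp [H, this])
  let k : ({i // i ≠ a} → F) ≃ₗ[F] ({i // i ≠ a} → F) := LinearEquiv.ofLinearMap
    (π ∘ₗ g.toLinearMap ∘ₗ s) (π ∘ₗ g.symm.toLinearMap ∘ₗ s)
    (LinearMap.ext fun y => by simp [a2 g c H, p5]) (LinearMap.ext fun y => by simp [a2 _ _ a3, p5])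
  have a4 : ∀ x, π (g x) = k (π x) := fun x => (a2 g c H x).symm
  by_cases e : Mon (Pi.basisFun F _) k
  · obtain ⟨h, b1, b2, b3⟩ := a1 k e
    obtain ⟨j, j1, -⟩ := exists_ne₄ hn a a a a
    obtain ⟨l, l1, l2, -⟩ := exists_ne₄ hn a j j j
    refine SLV_le_of_near hM h5 hn (mul_mem (inv_mem b1) hg) l2 l1 j1 (c := 0) (fun x i hi => ?_)
      (Or.inr fun e' => hg' (by simpa using b2.mul e'))
    have : π (h.symm (g x)) = π x := k.injective (by rw [← b3, h.apply_symm_apply, a4])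
    simpa [p1] using congrFun this ⟨i, hi⟩
  obtain ⟨j, l, c, b1, b2, -, t, ⟨t', b3, b4⟩, b5⟩ := exists_root_of_not_mon (M := N) h5
    (fun k hk => (a1 k hk).imp fun _ h => ⟨h.1, h.2.2⟩) (by simp; omega) ⟨g, hg, a4⟩ e
  refine SLV_le_of_near hM h5 hn b3 (Subtype.coe_ne_coe.mpr b1) j.2 l.2 (fun x i hi => ?_) (Or.inl b2)
  rw [← p1 _ ⟨i, hi⟩, ← p1 _ ⟨i, hi⟩, b4, b5]
  simp only [map_add, map_smul, p4, Pi.basisFun_apply, Basis.coord_apply, LinearMap.smul_apply,
    Pi.basisFun_repr, p1 x l, smul_eq_mul]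

section nf
variable (NF : ∀ g ∈ M, ∀ (a a' : ι) (c : F), g (b a) = c • b a' → Mon b g)
include NF

omit hn in
theorem nf_row {g : V ≃ₗ[F] V} (hg : g ∈ M) {a j k : ι} (h : j ≠ k) (h1 : b.repr (g (b a)) j = 0)
    (h2 : b.repr (g (b a)) k = 0) {i l : ι} (h3 : b.repr (g (b i)) j ≠ 0) (h4 : l ≠ j) (h6 : l ≠ k) :
    b.repr (g (b i)) l = 0 := by
  set A := b.repr (g (b i)) j * b.repr (g.symm (b j)) i with hA
  set B := b.repr (g (b i)) k * b.repr (g.symm (b k)) i with hB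
  obtain ⟨ε, e1, e2, e3⟩ := exists_avoid h5 0 1 (A := A) (B := 1 - A - B) (D := B)
    (by rintro ⟨a1, a2, a3⟩; simp [a1, a3] at a2)
  obtain ⟨d, a1, a2⟩ := exists_dd hM h e1
  obtain ⟨i', c, hc⟩ := NF _ (mul_mem (mul_mem (inv_mem hg) a1) hg) a a 1 (by simp [a2, h1, h2]) i
  by_contra h7
  rcases eq_or_ne i' i with rfl | e
  · have b1 : d (g (b i')) = c • g (b i') := by simpa [g.symm_apply_eq] using hc
    have b2 := congrArg (b.repr · l) b1
    have b3 := congrArg (b.repr · j) b1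
    simp [a2, h4, h6, h7, h] at b2 b3
    exact mul_ne_zero (sub_ne_zero.mpr e2) h3 (by rw [b2] at b3; linear_combination b3)
  · have b1 := congrArg (b.repr · i) hc
    simp [a2, e.symm, mul_assoc, ← hA, ← hB] at b1
    exact e3 (by field_simp at b1; linear_combination b1)

theorem nf_two {g : V ≃ₗ[F] V} (hg : g ∈ M) {a j k : ι} (h : j ≠ k) (h1 : b.repr (g (b a)) j = 0)
    (h2 : b.repr (g (b a)) k = 0) : Mon b g := by
  have a0 : ∀ j, ∃ i, b.repr (g (b i)) j ≠ 0 := fun j =>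
    exists_basis_ne (χ := b.coord j ∘ₗ g.toLinearMap) fun e => by
      simpa using LinearMap.congr_fun e (g.symm (b j))
  obtain ⟨i, hi⟩ := a0 j
  have a1 := fun l => nf_row hM h5 NF hg h h1 h2 hi (l := l)
  obtain ⟨j', j1, j2, -⟩ := exists_ne₄ hn j k k k
  obtain ⟨i', hi'⟩ := a0 j'
  refine NF g hg i' j' (b.repr (g (b i')) j') (b.ext_elem fun l => ?_)
  by_cases e : l = j'
  · simp [e]
  obtain ⟨k', k1, k2, k3, k4⟩ := exists_ne₄ hn j k j' l
  simpa [e] using nf_row hM h5 NF hg k3.symm (a1 j' j1 j2) (a1 k' k1 k2) hi' e k4.symm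

theorem nf_one {g : V ≃ₗ[F] V} (hg : g ∈ M) {i j : ι} (h : b.repr (g (b i)) j = 0) : Mon b g := by
  by_contra hg'
  set x := g (b i) with hx
  have a0 : ∀ l, l ≠ j → b.repr x l ≠ 0 := fun l hl e => hg' (nf_two hM h5 hn NF hg hl e h)
  obtain ⟨j₁, a1, -⟩ := exists_ne₄ hn j j j j
  obtain ⟨j₂, a2, a3, -⟩ := exists_ne₄ hn j j₁ j j
  obtain ⟨j₃, a4, a5, a6, -⟩ := exists_ne₄ hn j j₁ j₂ j
  obtain ⟨r, b1, b2, b3⟩ := exists_refl (b := b) a3.symm (a0 _ a1) (a0 _ a2)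
  obtain ⟨r', b4, b5, b6⟩ := exists_refl (b := b) a6.symm (a0 _ a2) (a0 _ a4)
  have c1 : r * r' ∈ M := hM _ (mem_SLV.mpr (by
    rw [LinearEquiv.coe_toLinearMap_mul, map_mul, b1, b4]; simp)) (b2.mul b5)
  have c2 : (r * r') x = x := by simp [b3, b6, a0 _ a1, a0 _ a2, a0 _ a4]
  have c3 : ∀ v l, l ≠ j₁ → l ≠ j₂ → l ≠ j₃ → b.repr ((r * r') v - v) l = 0 := fun v l h1 h2 h3 => by
    simp [b3, b6, h1, h2, h3]
  obtain ⟨m, hm⟩ : ∃ m, (r * r') (g (b m)) - g (b m) ≠ 0 := by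
    by_contra! H
    have := LinearMap.congr_fun (b.ext (f₁ := (r * r').toLinearMap ∘ₗ g.toLinearMap)
      (f₂ := g.toLinearMap) fun m => sub_eq_zero.mp (H m)) (g.symm (b j₁))
    simpa [b3, b6, a3, a5, a3.symm, a0 _ a1] using congrArg (b.repr · j₁) this
  obtain ⟨m', c, hc⟩ := NF _ (mul_mem (mul_mem (inv_mem hg) c1) hg) i i 1 (by
    rw [LinearEquiv.mul_apply, LinearEquiv.mul_apply, ← hx, c2]; simp [hx]) m
  replace hc : (r * r') (g (b m)) = c • g (b m') := by simpa [g.symm_apply_eq] using hc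
  have c4 : m ≠ i := by rintro rfl; exact hm (sub_eq_zero.mpr c2)
  have c5 : m' ≠ i := by
    rintro rfl
    exact c4 (eq_of_smul_basis (b := b) (d := c) one_ne_zero (g.injective ((r * r').injective
      (by rw [one_smul, hc, map_smul, map_smul, ← hx, c2]))))
  set w := (r * r') (g (b m)) - g (b m) with hw
  obtain ⟨μ, d1, d2, d3, d4⟩ := exists_avoid₄ h5 0 (-b.repr x j₁ / b.repr w j₁)
    (-b.repr x j₂ / b.repr w j₂) (-b.repr x j₃ / b.repr w j₃)
  have d5 : ∀ l, l ≠ j → b.repr (x + μ • w) l ≠ 0 := fun l hl e => by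
    have e1 : μ * b.repr w l = -b.repr x l := by simp at e; linear_combination e
    have e2 : b.repr w l ≠ 0 := fun e' => a0 l hl (by simpa [e'] using e1)
    have e3 : μ = -b.repr x l / b.repr w l := eq_div_of_mul_eq e2 e1
    exact e2 (c3 _ l (by rintro rfl; exact d2 e3) (by rintro rfl; exact d3 e3)
      (by rintro rfl; exact d4 e3))
  obtain ⟨d, e1, e2⟩ := exists_diag hM (t := Function.update (fun l => b.repr (x + μ • w) l / b.repr x l)
    j (∏ l ∈ Finset.univ \ {j}, b.repr (x + μ • w) l / b.repr x l)⁻¹) (by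
      rw [Finset.prod_update_of_mem (Finset.mem_univ j)]
      exact inv_mul_cancel₀ (Finset.prod_ne_zero_iff.mpr fun l hl =>
        div_ne_zero (d5 l (by simpa using hl)) (a0 l (by simpa using hl))))
  have e3 : d x = x + μ • w := b.ext_elem fun l => by
    by_cases e : l = j
    · simp [e2, e, h, show b.repr w j = 0 from c3 _ j a1.symm a2.symm a4.symm]
    · rw [e2, Function.update_of_ne e, div_mul_cancel₀ _ (a0 l e)]
  have e4 : (g⁻¹ * d * g) (b i) = b i + μ • (c • b m' - b m) := by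
    simp [← hx, e3, g.symm_apply_eq, hw, hc]
  obtain ⟨k, k1, k2, k3, -⟩ := exists_ne₄ hn i m m' i
  obtain ⟨l, l1, l2, l3, l4⟩ := exists_ne₄ hn i m m' k
  obtain ⟨i', c', e5⟩ := nf_two hM h5 hn NF (mul_mem (mul_mem (inv_mem hg) e1) hg) (a := i) l4
    (by simp [e4, l1, l2, l3]) (by simp [e4, k1, k2, k3]) i
  rw [e4] at e5
  have e6 := congrArg (b.repr · i) e5
  rcases eq_or_ne i' i with rfl | e
  · simp [c4.symm, c5.symm] at e6
    simp [← e6, d1] at e5
    exact hm (by rw [hw, hc, ← map_smul, ← map_sub, e5, map_zero])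
  · simp [c4.symm, c5.symm, e.symm] at e6

theorem nf_mon {g : V ≃ₗ[F] V} (hg : g ∈ M) : Mon b g := by
  by_contra hg'
  have a1 : ∀ i j, b.repr (g (b i)) j ≠ 0 := fun i j e => hg' (nf_one hM h5 hn NF hg e)
  have a2 : ∀ i j, b.repr (g.symm (b i)) j ≠ 0 := fun i j e =>
    hg' (by simpa using (nf_one hM h5 hn NF (inv_mem hg) e).inv)
  obtain ⟨i⟩ : Nonempty ι := Fintype.card_pos_iff.mp (by omega)
  have a3 : ∀ m, m ≠ i → ∀ j k, b.repr (g (b i)) j * b.repr (g.symm (b j)) m =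
      b.repr (g (b i)) k * b.repr (g.symm (b k)) m := fun m hm j k => by
    by_contra e
    have b0 : j ≠ k := by rintro rfl; exact e rfl
    have b1 := mul_ne_zero (a1 i j) (a2 j m)
    have b2 := div_ne_zero (mul_ne_zero (a1 i k) (a2 k m)) b1
    set ε := b.repr (g (b i)) k * b.repr (g.symm (b k)) m /
      (b.repr (g (b i)) j * b.repr (g.symm (b j)) m) with hε
    have b3 : ε - 1 ≠ 0 := sub_ne_zero.mpr fun e' => e (div_eq_one_iff_eq b1 |>.mp e').symm
    obtain ⟨d, b4, b5⟩ := exists_dd hM b0 b2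
    have b6 := nf_one hM h5 hn NF (mul_mem (mul_mem (inv_mem hg) b4) hg) (i := i) (j := m) (by
      have := a1 i j; have := a1 i k; have := a2 j m; have := a2 k m
      simp [b5, hm, hε]; field_simp; ring)
    have b7 : ∀ r, ∃ (r' : ι) (c : F), r' ≠ r ∧ b r + ((ε - 1) * b.repr (g (b r)) j) • g.symm (b j) +
        ((ε⁻¹ - 1) * b.repr (g (b r)) k) • g.symm (b k) = c • b r' := fun r => by
      obtain ⟨r', c, hc⟩ := b6 r
      refine ⟨r', c, ?_, by simpa [b5] using hc⟩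
      rintro rfl
      obtain ⟨l, l1, l2, -⟩ := exists_ne₄ hn j k k k
      have c1 : d (g (b r')) = c • g (b r') := by simpa [g.symm_apply_eq] using hc
      have c2 := congrArg (b.repr · l) c1
      have c3 := congrArg (b.repr · j) c1
      simp [b5, l1, l2, a1, b0] at c2 c3
      exact mul_ne_zero b3 (a1 r' j) (by rw [c2] at c3; linear_combination c3)
    obtain ⟨i', c, c1, c2⟩ := b7 i
    obtain ⟨r, r1, r2, -⟩ := exists_ne₄ hn i i' i i
    obtain ⟨r', c', c3, c4⟩ := b7 r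
    obtain ⟨l, l1, l2, l3, l4⟩ := exists_ne₄ hn i i' r r'
    have d1 := congrArg (b.repr · l) c2
    have d2 := congrArg (b.repr · l) c4
    have d3 := congrArg (b.repr · r) c2
    have d4 := congrArg (b.repr · r) c4
    simp [l1, l2, l3, l4, r1, r2, c3.symm] at d1 d2 d3 d4
    refine mul_ne_zero (a1 i k) (a2 j l) ?_
    linear_combination b.repr (g.symm (b j)) l * (b.repr (g (b i)) k * d4 - b.repr (g (b r)) k * d3) -
      b.repr (g.symm (b j)) r * (b.repr (g (b i)) k * d2 - b.repr (g (b r)) k * d1)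
  obtain ⟨m, m1, -⟩ := exists_ne₄ hn i i i i
  obtain ⟨m', m2, m3, -⟩ := exists_ne₄ hn i m i i
  have := LinearMap.congr_fun (b.ext (f₁ := b.repr (g.symm (b i)) m' • b.coord m ∘ₗ g.symm.toLinearMap)
    (f₂ := b.repr (g.symm (b i)) m • b.coord m' ∘ₗ g.symm.toLinearMap) fun l =>
      mul_left_cancel₀ (a1 i l) (by
        simp only [LinearMap.smul_apply, LinearMap.comp_apply, Basis.coord_apply, smul_eq_mul,
          LinearEquiv.coe_coe]
        linear_combination b.repr (g.symm (b i)) m' * a3 m m1 l i -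
          b.repr (g.symm (b i)) m * a3 m' m2 l i)) (g (b m))
  simp [m3, a2] at this

end nf

theorem SLV_le_of_not_mon {g : V ≃ₗ[F] V} (hg : g ∈ M) (hg' : ¬ Mon b g) : SLV F V ≤ M := by
  by_contra H
  refine hg' (nf_mon hM h5 hn (fun g hg a a' c h => ?_) hg)
  by_contra e
  obtain ⟨k, a1, a2, a3, -⟩ := exists_weyl hM a' a
  exact H (SLV_le_of_fix hM h5 hn (mul_mem a1 hg) (fun e' => e (by simpa using a2.inv.mul e'))
    (a := a) (c := c) (by simp [h, a3]))

end Cfsg.Agent.H12
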