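import Mathlib
import Cfsg.Agent.H12.MaxU
import Cfsg.Agent.H13.Simple

/-!
Maximality of stabilisers of pairs of totally isotropic subspaces, and of orthogonal groups in
symplectic groups of characteristic two.
-/

set_option autoImplicit false

namespace Cfsg.Agent.H12

open Module

variable {F V : Type*} [Field F] [AddCommGroup V] [Module F V] {σ : F →+* F}
  {B : V →ₛₗ[σ] V →ₗ[F] F} {M : Subgroup (UG B)} [FiniteDimensional F V]

theorem SD.exists_perp_mem (D : SD B) {W S : Submodule F V} (h : finrank F S < finrank F W) :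
    ∃ b ∈ W, b ≠ 0 ∧ b ∈ sperp B S := by
  have h1 := D.finrank_sperp S
  have h2 := Submodule.finrank_sup_add_finrank_inf_eq W (sperp B S)
  have h3 := Submodule.finrank_le (W ⊔ sperp B S)
  obtain ⟨b, hb, h0⟩ := (W ⊓ sperp B S).ne_bot_iff.mp fun h4 => by
    rw [h4, finrank_bot] at h2; omega
  exact ⟨b, hb.1, h0, hb.2⟩

theorem SD.exists_perp_mem₂ (D : SD B) {W : Submodule F V} (h : 3 ≤ finrank F W) (x y : V) :
    ∃ b ∈ W, b ≠ 0 ∧ B x b = 0 ∧ B y b = 0 := by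
  simpa only [mem_sperp_pair] using D.exists_perp_mem (W := W)
    ((finrank_span_pair_le x y).trans_lt h)

/-- A pair of complementary totally isotropic subspaces. -/
structure TP (B : V →ₛₗ[σ] V →ₗ[F] F) (W W' : Submodule F V) : Prop where
  ti : ∀ u ∈ W, ∀ v ∈ W, B u v = 0
  ti' : ∀ u ∈ W', ∀ v ∈ W', B u v = 0
  top : W ⊔ W' = ⊤

variable {W W' : Submodule F V}

omit [FiniteDimensional F V] in
theorem TP.symm (h : TP B W W') : TP B W' W := ⟨h.ti', h.ti, sup_comm W W' ▸ h.top⟩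

omit [FiniteDimensional F V] in
theorem TP.exists_add (h : TP B W W') (x : V) : ∃ w ∈ W, ∃ w' ∈ W', w + w' = x :=
  Submodule.mem_sup.mp (h.top.ge Submodule.mem_top)

omit [FiniteDimensional F V] in
theorem TP.eq_zero (h : TP B W W') (D : SD B) {x : V} (hx : x ∈ W') (h0 : ∀ w ∈ W, B w x = 0) :
    x = 0 := D.sep x fun y => by
  obtain ⟨w, h1, w', h2, rfl⟩ := h.exists_add y
  rw [map_add, D.comm0 (h0 w h1), h.ti' x hx w' h2, add_zero]

omit [FiniteDimensional F V] in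
theorem TP.mem_of_perp (h : TP B W W') (D : SD B) {x : V} (h0 : ∀ w ∈ W, B w x = 0) : x ∈ W := by
  obtain ⟨w, h1, w', h2, rfl⟩ := h.exists_add x
  rwa [h.eq_zero D h2 fun y hy => by simpa [h.ti y hy w h1] using h0 y hy, add_zero]

theorem TP.finrank_eq (h : TP B W W') (D : SD B) : finrank F W' = finrank F W := by
  have h1 := D.two_mul_finrank_le h.ti
  have h2 := D.two_mul_finrank_le h.ti'
  have h3 := Submodule.finrank_sup_add_finrank_inf_eq W W'
  rw [h.top, finrank_top] at h3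
  omega

theorem TP.exists_perp_one (h : TP B W W') (D : SD B) {x y : V} (hx : x ∈ W) (hy : y ∈ W)
    (h0 : x ∉ F ∙ y) : ∃ b ∈ W', B y b = 0 ∧ B x b = 1 := by
  obtain ⟨b, h1, h2⟩ := D.exists_perp_one _ h0
  obtain ⟨w, h3, w', h4, rfl⟩ := h.exists_add b
  exact ⟨w', h4, by simpa [h.ti y hy w h3] using h1 y (Submodule.mem_span_singleton_self y),
    by simpa [h.ti x hx w h3] using h2⟩

omit [FiniteDimensional F V] in
theorem TP.adm (h : TP B W W') {w w' : V} (h1 : w ∈ W) (h2 : w' ∈ W') (h3 : B w w' = 0) :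
    Adm B w w' 0 := ⟨h.ti w h1 w h1, h3, by simp [h.ti' w' h2 w' h2]⟩

omit [FiniteDimensional F V] in
theorem TP.rho_mem (h : TP B W W') (D : SD B)
    (hM : ∀ g ∈ SUG B, (∀ w ∈ W, g.1 w ∈ W) → (∀ w ∈ W', g.1 w ∈ W') → g ∈ M) {w w' : V}
    (h1 : w ∈ W) (h2 : w' ∈ W') (h3 : B w w' = 0) : rho B w w' 0 ∈ M :=
  hM _ (rho_mem_SUG D _ _ _) (fun x hx => by
    rw [rho_apply D (h.adm h1 h2 h3), h.ti w h1 x hx, zero_smul, add_zero]
    exact W.add_mem hx (W.smul_mem _ h1)) fun x hx => by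
    rw [rho_apply D (h.adm h1 h2 h3), h.ti' w' h2 x hx, zero_mul, add_zero, zero_smul, add_zero]
    exact W'.add_mem hx (W'.smul_mem _ h2)

theorem TP.SUG_le_of_IS (h : TP B W W') (D : SD B) (hN : NS σ)
    (hM : ∀ g ∈ SUG B, (∀ w ∈ W, g.1 w ∈ W) → (∀ w ∈ W', g.1 w ∈ W') → g ∈ M) {s : UG B}
    (hs : s ∈ M) (hs' : ∀ w ∈ W, s.1 w ∈ W') {w : V} (hw : w ∈ W) (h0 : w ≠ 0) (H : IS M w) :
    SUG B ≤ M := by
  have h1 : ∀ y ∈ W, IS M y := fun y hy => by
    by_cases h1 : y ∈ F ∙ w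
    · obtain ⟨a, rfl⟩ := Submodule.mem_span_singleton.mp h1
      exact H.smul D a
    have h2 := W.sub_mem hy hw
    obtain ⟨b, h3, h4, h5⟩ := h.exists_perp_one D hw h2 fun h3 => by
      obtain ⟨a, ha⟩ := Submodule.mem_span_singleton.mp h3
      have a0 : a ≠ 0 := by rintro rfl; exact h0 (by simpa using ha.symm)
      refine h1 (((F ∙ w).smul_mem_iff a0).mp ?_)
      rw [show a • y = (1 + a) • w by linear_combination (norm := module) ha]
      exact Submodule.smul_mem _ _ (Submodule.mem_span_singleton_self w)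
    have h6 : B (y - w) (-b) = 0 := by rw [map_neg, h4, neg_zero]
    have := H.map D (h.rho_mem D hM h2 (W'.neg_mem h3) h6)
    rw [rho_apply D (h.adm h2 (W'.neg_mem h3) h6), h.ti _ h2 w hw] at this
    simpa [D.skew w b, h5] using this
  have h2 : ∀ y ∈ W, ES M y := fun y hy => ES.of_AM D (h1 y hy) fun u hu => by
    obtain ⟨z, h2, z', h3, rfl⟩ := h.exists_add u
    have h4 := h.ti y hy z h2
    have h5 : B y z' = 0 := by simpa [h4] using hu
    exact (AM.of_IS D (h.ti y hy y hy) h4 (h1 z h2) (h1 _ (W.add_mem hy h2))).add D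
      ⟨0, h.adm hy h3 h5, h.rho_mem D hM hy h3 h5⟩
  obtain ⟨y, h3, h4⟩ : ∃ y ∈ W, B y (s.1 w) ≠ 0 := by
    by_contra! h3
    exact UG_ne_zero s h0 (h.eq_zero D (hs' w hw) h3)
  exact D.SUG_le_of_ES₂ hN (h2 y h3) ((h2 w hw).map D hs) h4

theorem TP.map_mem (h : TP B W W') (D : SD B) (htr : ∀ c, σ c = c → ∃ d, d + σ d = c)
    (hM : ∀ g ∈ SUG B, (∀ w ∈ W, g.1 w ∈ W) → (∀ w ∈ W', g.1 w ∈ W') → g ∈ M)
    (H : ∀ w ∈ W, w ≠ 0 → ¬ IS M w) {g : UG B} (hg : g ∈ M) {a b : V} (ha : a ∈ W) (h0 : a ≠ 0)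
    (ha' : g.1 a ∈ W) (hb : b ∈ W') (hab : B a b = 0) : g.1 b ∈ W' := by
  obtain ⟨u, h1, u', h2, h3⟩ := h.exists_add (g.1 b)
  have h4 : B (g.1 a) u' = 0 := by
    rw [← hab, ← UG_map g a b, ← h3, map_add, h.ti _ ha' u h1, zero_add]
  have h5 : ∀ t : F, Adm B (g.1 a) (t • u) (-B (t • u) (t • u')) ∧
      rho B (g.1 a) (t • u) (-B (t • u) (t • u')) ∈ M := fun t => by
    have h5 : B a (t • b) = 0 := by simp [hab]
    have h6 := (adm_conj g).mpr (h.adm ha (W'.smul_mem t hb) h5)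
    have h7 := mul_mem (mul_mem hg (h.rho_mem D hM ha (W'.smul_mem t hb) h5)) (inv_mem hg)
    have h8 : B (g.1 a) (-(t • u')) = 0 := by simp [h4]
    have h9 := W'.neg_mem (W'.smul_mem t h2)
    have e1 : g.1 (t • b) + -(t • u') = t • u := by rw [map_smul, ← h3]; module
    have e2 : 0 + 0 + B (g.1 (t • b)) (-(t • u')) = -B (t • u) (t • u') := by
      rw [map_smul, ← h3]; simp [h.ti' u' h2 u' h2, mul_left_comm]
    have e3 := h6.add D (h.adm ha' h9 h8)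
    have e4 := mul_mem h7 (h.rho_mem D hM ha' h9 h8)
    rw [conj_rho D, rho_mul D h6 (h.adm ha' h9 h8)] at e4
    rw [e1, e2] at e3 e4
    exact ⟨e3, e4⟩
  by_contra h6
  refine H _ ha' (UG_ne_zero g h0) (IS.of_fix (h.ti _ ha' _ ha') fun c hc => ?_)
  obtain ⟨d, rfl⟩ := htr c hc
  by_cases h7 : u ∈ F ∙ g.1 a
  · obtain ⟨t, rfl⟩ := Submodule.mem_span_singleton.mp h7
    have t0 : t ≠ 0 := by rintro rfl; exact h6 (by simpa [← h3] using h2)
    have := (h5 (d / t)).2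
    rw [smul_smul, div_mul_cancel₀ _ t0, ← zero_add (d • _), show -B _ _ = 0 by simp [h4],
      rho_add_smul D (adm_zero (h.ti _ ha' _ ha') (map_zero σ)), zero_add] at this
    exact this
  · obtain ⟨y, h8, h9, h10⟩ := h.exists_perp_one D h1 ha' h7
    have h11 : B (g.1 a) (d • y) = 0 := by simp [h9]
    have := AM.tv_mem D ⟨_, h5 1⟩ ⟨0, h.adm ha' (W'.smul_mem d h8) h11,
      h.rho_mem D hM ha' (W'.smul_mem d h8) h11⟩
    simpa [h10] using this

theorem TP.exists_swap (h : TP B W W') (D : SD B) (h0 : W ≠ ⊥) :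
    ∃ s ∈ SUG B, (∀ w ∈ W, s.1 w ∈ W') ∧ ∀ w ∈ W', s.1 w ∈ W := by
  classical
  let b := Module.finBasis F W
  have h1 : ∀ j, ∃ y ∈ W', ∀ i, B (b i) y = if i = j then 1 else 0 := fun j => by
    obtain ⟨y, hy⟩ := D.exists_eq_family (b.linearIndependent.map' W.subtype W.ker_subtype)
      fun i => if i = j then 1 else 0
    obtain ⟨w, h1, w', h2, rfl⟩ := h.exists_add y
    exact ⟨w', h2, fun i => by simpa [h.ti _ (b i).2 w h1] using hy i⟩
  choose f h1 h2 using h1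
  have h3 : ∀ i j, B (f i) (b j) = if i = j then -1 else 0 := fun i j => by
    rw [D.skew, h2]; by_cases h : i = j <;> simp [h, eq_comm]
  have h4 : ∀ i j, B (b i) (b j) = 0 := fun i j => h.ti _ (b i).2 _ (b j).2
  have h5 : ∀ i j, B (f i) (f j) = 0 := fun i j => h.ti' _ (h1 i) _ (h1 j)
  obtain ⟨g, hg⟩ := D.witt (e := Sum.elim (fun i => (b i : V)) f)
    (f := Sum.elim f fun i => -(b i : V))
    (H13.linearIndependent_of_dual_family B _ (Sum.elim (fun i => -f i) fun i => (b i : V)) (by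
      rintro (i | i) (j | j) <;> simp [h2, h3, h4, h5, neg_ite]))
    (H13.linearIndependent_of_dual_family B _ (Sum.elim (fun i => (b i : V)) f) (by
      rintro (i | i) (j | j) <;> simp [h2, h3, h4, h5, neg_ite]))
    (by rintro (i | i) (j | j) <;> simp [h2, h3, h4, h5, neg_ite])
  have h6 : ∀ w ∈ W, g.1 w ∈ W' := fun w hw => by
    have := congrArg (fun x : W => g.1 x) (b.sum_repr ⟨w, hw⟩)
    simp only [AddSubmonoidClass.coe_finsetSum, SetLike.val_smul, map_sum, map_smul] at this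
    rw [← this]
    exact sum_mem fun i _ => W'.smul_mem _ (by rw [show g.1 (b i) = f i from hg (.inl i)]; exact h1 i)
  have h7 : Submodule.span F (Set.range f) = W' := Submodule.eq_of_le_of_finrank_eq
    (Submodule.span_le.mpr (by rintro _ ⟨i, rfl⟩; exact h1 i)) (by
      rw [finrank_span_eq_card (H13.linearIndependent_of_dual_family B f _ fun i j => h2 j i), h.finrank_eq D]
      simp)
  have h8 : ∀ w ∈ W', g.1 w ∈ W := fun w hw => by
    rw [← h7] at hw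
    exact (Submodule.span_le (p := W.comap g.1.toLinearMap)).mpr (by
      rintro _ ⟨i, rfl⟩
      exact (show g.1 (f i) ∈ W by rw [show g.1 (f i) = -b i from hg (.inr i)]; simp)) hw
  by_cases hσ : σ = RingHom.id F
  · exact ⟨g, by rw [D.SUG_eq_top hσ]; trivial, h6, h8⟩
  obtain ⟨a, a0, ha⟩ := exists_div_conj_eq hσ D.invol (mem_N1.mp (D.udet_mem_N1 g⁻¹))
  let i : Fin (finrank F W) := ⟨0, Submodule.one_le_finrank_iff.mpr h0⟩
  have hp : SP B (b i) (f i) := ⟨h4 i i, h5 i i, by simp [h2]⟩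
  refine ⟨hp.torus D (Units.mk0 a a0) * g, ?_, fun w hw => ?_, fun w hw => ?_⟩
  · rw [SUG, MonoidHom.mem_ker, map_mul, mul_eq_one_iff_eq_inv, ← map_inv]
    exact Units.ext ((hp.det_torus D _).trans ha)
  · obtain ⟨x, y, z, h9⟩ := hp.exists_eq D (g.1 w)
    have h10 := h.ti' _ (h1 i) _ (h6 w hw)
    have h11 := h6 w hw
    rw [UG_mul_apply, h9] at *
    obtain rfl : x = 0 := by simpa [h3, h5, spp_right] using h10
    rw [hp.torus_comb D]
    simp only [zero_smul, zero_add, mul_zero] at h11 ⊢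
    rwa [W'.add_mem_iff_right (W'.smul_mem _ (h1 i))] at h11 ⊢
  · obtain ⟨x, y, z, h9⟩ := hp.exists_eq D (g.1 w)
    have h10 := h.ti _ (b i).2 _ (h8 w hw)
    have h11 := h8 w hw
    rw [UG_mul_apply, h9] at *
    obtain rfl : y = 0 := by simpa [h2, h4, spp_left] using h10
    rw [hp.torus_comb D]
    simp only [zero_smul, add_zero, mul_zero] at h11 ⊢
    rwa [W.add_mem_iff_right (W.smul_mem _ (b i).2)] at h11 ⊢

/-- Stabilisers of pairs of complementary totally isotropic subspaces are maximal. -/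
theorem TP.SUG_le (h : TP B W W') (D : SD B) (hN : NS σ) (htr : ∀ c, σ c = c → ∃ d, d + σ d = c)
    (h3 : 3 ≤ finrank F W)
    (hM : ∀ g ∈ SUG B, (∀ w ∈ W, g.1 w ∈ W) → (∀ w ∈ W', g.1 w ∈ W') → g ∈ M)
    (hM' : ∀ g ∈ SUG B, (∀ w ∈ W, g.1 w ∈ W') → (∀ w ∈ W', g.1 w ∈ W) → g ∈ M) {g : UG B}
    (hg : g ∈ M) (hg1 : ¬ ((∀ w ∈ W, g.1 w ∈ W) ∧ ∀ w ∈ W', g.1 w ∈ W'))
    (hg2 : ¬ ((∀ w ∈ W, g.1 w ∈ W') ∧ ∀ w ∈ W', g.1 w ∈ W)) : SUG B ≤ M := by
  by_contra H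
  have h3' : 3 ≤ finrank F W' := by rwa [h.finrank_eq D]
  obtain ⟨s, a1, a2, a3⟩ := h.exists_swap D (fun h0 => by rw [h0, finrank_bot] at h3; omega)
  have a4 := hM' s a1 a2 a3
  have k1 := fun {g} => h.map_mem D htr hM (g := g) fun w hw h0 H' => H (h.SUG_le_of_IS D hN hM a4 a2 hw h0 H')
  have k2 := fun {g} => h.symm.map_mem D htr (fun g hg h1 h2 => hM g hg h2 h1) (g := g) fun w hw h0 H' =>
    H (h.symm.SUG_le_of_IS D hN (fun g hg h1 h2 => hM g hg h2 h1) a4 a3 hw h0 H')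
  have key : ∀ g ∈ M, ∀ a ∈ W, a ≠ 0 → g.1 a ∈ W →
      (∀ w ∈ W, g.1 w ∈ W) ∧ ∀ w ∈ W', g.1 w ∈ W' := fun g hg a b1 b2 b3 => by
    have h1 : ∀ w ∈ W, g.1 w ∈ W := fun w hw => by
      obtain ⟨b, c1, c2, c3, c4⟩ := D.exists_perp_mem₂ h3' a w
      exact k2 hg c1 c2 (k1 hg b1 b2 b3 c1 c3) hw (D.comm0 c4)
    refine ⟨h1, fun w hw => ?_⟩
    obtain ⟨b, c1, c2, c3, -⟩ := D.exists_perp_mem₂ h3 w w
    exact k1 hg c1 c2 (h1 b c1) hw (D.comm0 c3)
  have b1 : ∀ a ∈ W, g.1 a ∈ W → a = 0 := fun a ha h1 => by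
    by_contra h0
    exact hg1 (key g hg a ha h0 h1)
  have b2 : ∀ a ∈ W, g.1 a ∈ W' → a = 0 := fun a ha h1 => by
    by_contra h0
    obtain ⟨h2, h4⟩ := key _ (mul_mem a4 hg) a ha h0 (a3 _ h1)
    exact hg2 ⟨fun w hw => h.symm.mem_of_perp D fun y hy => by
        rw [← UG_map s]; exact h.ti _ (a3 y hy) _ (h2 w hw),
      fun w hw => h.mem_of_perp D fun y hy => by
        rw [← UG_map s]; exact h.ti' _ (a2 y hy) _ (h4 w hw)⟩
  obtain ⟨w, c1, c2, -⟩ := D.exists_perp_mem₂ h3 0 0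
  have k3 : ∀ y ∈ W', y ≠ 0 → B w y = 0 → ∃ x ∈ W, ∃ s t : F, t ≠ 0 ∧ s ≠ 0 ∧
      g.1 x = s • w + t • y := fun y d1 d2 d3 => by
    obtain ⟨a, e1, e2, e3, e4⟩ := D.exists_perp_mem₂ h3 ((g⁻¹).1 w) ((g⁻¹).1 y)
    rw [← UG_map_right] at e3 e4
    have e5 := (key _ (mul_mem (inv_mem hg) (mul_mem (h.rho_mem D hM c1 d1 d3) hg)) a e1 e2 (by
      simpa [rho_apply_of_perp D _ e3 e4] using e1)).1
    obtain ⟨x, f1, f2⟩ : ∃ x ∈ W, B y (g.1 x) ≠ 0 := by
      by_contra! f1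
      exact d2 (by simpa using b2 _ (h.mem_of_perp D (x := (g⁻¹).1 y) fun x hx => by
        rw [← UG_map_left]; exact D.comm0 (f1 x hx)) (by simpa using d1))
    have f3 : g.1 ((g⁻¹ * (rho B w y 0 * g)).1 x - x) = B y (g.1 x) • w + B w (g.1 x) • y := by
      simp [rho_apply D (h.adm c1 d1 d3)]; module
    refine ⟨_, W.sub_mem (e5 x f1) f1, _, _, fun f4 => ?_, f2, f3⟩
    rw [b1 _ (W.sub_mem (e5 x f1) f1) (by rw [f3, f4]; simpa using W.smul_mem _ c1), f4] at f3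
    exact smul_ne_zero f2 c2 (by simpa using f3.symm)
  obtain ⟨y, d1, d2, d3, -⟩ := D.exists_perp_mem₂ h3' w w
  obtain ⟨z, d4⟩ := D.exists_ne d2
  obtain ⟨y', e1, e2, e3, e4⟩ := D.exists_perp_mem₂ h3' w z
  obtain ⟨x, f1, s, t, f2, f3, f4⟩ := k3 y d1 d2 d3
  obtain ⟨x', g1, s', t', g2, g3, g4⟩ := k3 y' e1 e2 e3
  have h1 : g.1 (s' • x - s • x') = (s' * t) • y - (s * t') • y' := by
    rw [map_sub, map_smul, map_smul, f4, g4]; module
  rw [b2 _ (W.sub_mem (W.smul_mem _ f1) (W.smul_mem _ g1))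
    (h1 ▸ W'.sub_mem (W'.smul_mem _ d1) (W'.smul_mem _ e1))] at h1
  simpa [e4, g3, f2, D.ne0 d4] using congrArg (B z) h1

/-- Orthogonal groups are maximal in symplectic groups of characteristic two. -/
theorem SD.top_le_of_quad [Finite F] {B : V →ₛₗ[RingHom.id F] V →ₗ[F] F} (D : SD B)
    {M : Subgroup (UG B)} (h2 : (2 : F) = 0) (h3 : 3 ≤ finrank F V) {Q : QuadraticForm F V}
    (hQ : ∀ x y, QuadraticMap.polar Q x y = B x y) (hM : ∀ g : UG B, g.1 ∈ H13.OG Q → g ∈ M)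
    {g : UG B} (hg : g ∈ M) (hg' : g.1 ∉ H13.OG Q) : SUG B ≤ M := by
  have hN : H13.ND Q := fun x hx => D.sep x fun y => by rw [← hQ, hx]
  have h1 : ∀ x y, x ≠ 0 → y ≠ 0 → Q y = Q x → ∃ k ∈ M, k.1 x = y := fun x y a1 a2 a3 => by
    obtain ⟨k, hk⟩ := hN.witt_one a1 a2 a3
    exact ⟨⟨k.1, fun x y => by rw [← hQ, ← hQ, H13.OG_polar]⟩, hM _ k.2, hk⟩
  obtain ⟨e, e0, he⟩ := H13.exists_singular Q h3
  obtain ⟨v, a1, a2⟩ : ∃ v, Q v = 0 ∧ Q ((g⁻¹).1 v) ≠ 0 := by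
    by_contra! H
    refine hg' ((H13.OG Q).inv_mem_iff.mp (hN.singular_induction_top he e0
      (p := fun v => Q ((g⁻¹).1 v) = Q v) (fun v hv => by rw [H v hv, hv]) fun x y hx hy => ?_))
    rw [map_add, H13.Q_add, H13.Q_add, hx, hy, hQ, hQ, UG_map]
  have v0 : v ≠ 0 := by rintro rfl; simp at a2
  have a3 : tv B v (Q ((g⁻¹).1 v))⁻¹ ∈ M := by
    have : tv B ((g⁻¹).1 v) (Q ((g⁻¹).1 v))⁻¹ ∈ M := hM _ fun x => by
      rw [tv_apply D (D.self_eq_zero rfl _) rfl, H13.Q_add, H13.Q_smul, hQ, map_smul, D.skew _ x]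
      simp only [RingHom.id_apply, smul_eq_mul]
      field_simp
      ring
    simpa [conj_tv D] using mul_mem (mul_mem hg this) (inv_mem hg)
  have a4 : IS M v := ⟨D.self_eq_zero rfl v, fun c => by
    by_cases hc : c = 0
    · rw [hc, tv_zero D]; exact one_mem _
    obtain ⟨x, hx⟩ := H13.exists_sq_eq_of_two_eq_zero h2 (c * Q ((g⁻¹).1 v))
    have x0 : x ≠ 0 := by rintro rfl; exact mul_ne_zero hc a2 (by rw [← hx]; simp)
    obtain ⟨k, b1, b2⟩ := h1 v (x • v) v0 (smul_ne_zero x0 v0) (by simp [H13.Q_smul, a1])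
    have := mul_mem (mul_mem b1 a3) (inv_mem b1)
    rw [conj_tv D, b2, tv_smul D (D.self_eq_zero rfl v) rfl, RingHom.id_apply, ← sq, hx] at this
    rwa [mul_comm c, inv_mul_cancel_left₀ a2] at this⟩
  obtain ⟨f, b1, b2⟩ := hN.exists_hyp a1 v0
  rw [hQ] at b2
  have f0 : f ≠ 0 := by rintro rfl; simp at b2
  obtain ⟨k, b3, rfl⟩ := h1 v f v0 f0 (by rw [a1, b1])
  refine D.SUG_le_of_IS ns_id (Or.inr (Or.inl rfl)) fun x _ => ?_
  by_cases x0 : x = 0
  · rw [x0]; exact IS.zero D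
  by_cases hx : Q x = 0
  · obtain ⟨k, b4, rfl⟩ := h1 v x v0 x0 (by rw [a1, hx])
    exact a4.map D b4
  have b5 := a4.add D ((a4.map D b3).smul D (Q x)) (by simp [b2, hx]) (D.self_eq_zero rfl _)
  have b6 : Q (v + Q x • k.1 v) = Q x := by simp [H13.Q_add, H13.Q_smul, a1, b1, hQ, b2]
  obtain ⟨k', b7, b8⟩ := h1 _ x (by rintro h; rw [h, map_zero] at b6; exact hx b6.symm) x0 b6.symm
  exact b8 ▸ b5.map D b7

end Cfsg.Agent.H12
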