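import Mathlib
import Cfsg.Agent.H12.MaxC
import Cfsg.Agent.H12.MaxV
import Cfsg.Agent.H18.OmAux

/-!
Maximality of stabilisers of complementary isotropic pairs, and of orthogonal groups in symplectic
groups of characteristic two.
-/

set_option autoImplicit false

namespace Cfsg.Agent.H12

open Module Cfsg.Geo Matrix

variable {ι : Type} [Fintype ι] [DecidableEq ι] {F : Type*} [Field F] {σ : F →+* F} {ε a : F}
  {f : (ι → F) → (ι → F) → F}

theorem map_eq_of_mapsTo {V : Type*} [AddCommGroup V] [Module F V] [FiniteDimensional F V]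
    (g : V ≃ₗ[F] V) {W W' : Submodule F V} (h : ∀ w ∈ W, g w ∈ W')
    (h1 : finrank F W' = finrank F W) : W.map g.toLinearMap = W' :=
  Submodule.eq_of_le_of_finrank_eq (Submodule.map_le_iff_le_comap.mpr h)
    (by rw [LinearEquiv.finrank_map_eq, h1])

variable [Finite F]

theorem max_iso_pair (hf : H18.TvF σ ε f a) (htr : ∀ c, σ c = c → ∃ d, d + σ d = c) {k : ℕ}
    (hk : 3 ≤ k) {D : Fin 2 → Submodule F (ι → F)} (hD : IsMDecomposition k D)
    (hts : ∀ i, IsTotallySingularFor f (D i)) : IsMaximalIn (H18.isoG f ⊓ specialLinear ι F)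
      (decompositionStabilizer D ⊓ (H18.isoG f ⊓ specialLinear ι F)) := by
  have h1 : ∀ i, ∀ u ∈ D i, ∀ v ∈ D i, tB hf u v = 0 := fun i u hu v hv =>
    (tB_eq_zero' hf).mpr (hts i u hu v hv)
  have h : TP (tB hf) (D 0) (D 1) := ⟨h1 0, h1 1, by
    rw [eq_top_iff, ← hD.iSup_eq_top]
    exact iSup_le (Fin.forall_fin_two.mpr ⟨le_sup_left, le_sup_right⟩)⟩
  have h2 : ∀ (g : UG (tB hf)) i j, (∀ w ∈ D i, g.1 w ∈ D j) → (D i).map g.1.toLinearMap = D j :=
    fun g i j H => map_eq_of_mapsTo _ H (by rw [hD.finrank_eq, hD.finrank_eq])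
  refine isMaximalIn_iso hf (fun g => ∃ π : Equiv.Perm (Fin 2), ∀ i, (D i).map g.toLinearMap = D (π i))
    (fun _ => Iff.rfl) ((has_SU hf).not_le_decomp hD (by omega)) fun M hM _ g hg hg' =>
      h.SUG_le (sd_tB hf) (sd_tB hf).ns htr (by rwa [hD.finrank_eq]) (fun g hg a1 a2 => hM g hg
        ⟨1, Fin.forall_fin_two.mpr ⟨h2 g _ _ a1, h2 g _ _ a2⟩⟩) (fun g hg a1 a2 => hM g hg
        ⟨Equiv.swap 0 1, Fin.forall_fin_two.mpr ⟨h2 g _ _ a1, h2 g _ _ a2⟩⟩) hg
        (fun H => hg' ⟨1, Fin.forall_fin_two.mpr ⟨h2 g _ _ H.1, h2 g _ _ H.2⟩⟩)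
        fun H => hg' ⟨Equiv.swap 0 1, Fin.forall_fin_two.mpr ⟨h2 g _ _ H.1, h2 g _ _ H.2⟩⟩

theorem max_sp_pair {m k : ℕ} (hk : 3 ≤ k) (hm : 0 < m) (h2 : (2 : F) ≠ 0)
    {D : Fin 2 → Submodule F (Fin m ⊕ Fin m → F)} (hD : IsMDecomposition k D)
    (hts : ∀ i, IsTotallySingularFor (sympForm m F) (D i)) :
    IsMaximalIn (spGL m F) (decompositionStabilizer D ⊓ spGL m F) := by
  rw [spGL_eq_inf hm]
  exact max_iso_pair (tvF_sp hm F) (fun c _ => ⟨c / 2, by rw [RingHom.id_apply]; field_simp; ring⟩) hk hD hts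

theorem max_su_pair {F : Type*} [Field F] [Fintype F] {n q k : ℕ} (hF : Fintype.card F = q ^ 2)
    (hn : 2 ≤ n) (hk : 3 ≤ k) {D : Fin 2 → Submodule F (Fin n → F)} (hD : IsMDecomposition k D)
    (hts : ∀ i, IsTotallySingularFor (hermForm n F q) (D i)) :
    IsMaximalIn (GU n F q ⊓ specialLinear (Fin n) F)
      (decompositionStabilizer D ⊓ (GU n F q ⊓ specialLinear (Fin n) F)) :=
  (exists_tvF_su hF hn).elim fun _ h => max_iso_pair h
    (fun c hc => H13.exists_add_conj_eq (frobq_ne_id hF) (frobq_frobq hF) hc) hk hD hts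

theorem max_sp_quad {m : ℕ} (hm : 2 ≤ m) (h2 : (2 : F) = 0) {Q : (Fin m ⊕ Fin m → F) → F}
    (hQ : IsNondegenerateQuadraticForm Q) (hpol : ∀ u v, QuadraticMap.polar Q u v = sympForm m F u v) :
    IsMaximalIn (spGL m F) (quadSimilarityGroup Q ⊓ spGL m F) := by
  have hf := tvF_sp (by omega : 0 < m) F
  have h1 : ∀ x y, QuadraticMap.polar (H18.mkQ hQ) x y = tB hf x y := fun x y => by
    rw [tB_apply, one_mul, ← hpol, QuadraticMap.polar_comm]; rfl
  rw [spGL_eq_inf (by omega)]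
  refine isMaximalIn_iso hf (fun g => ∃ c : Fˣ, ∀ v, Q (g v) = c * Q v) (fun _ => Iff.rfl)
    ((has_SU hf).not_le_quadSim (H18.symplectic_sympForm m).alternating (by simp; omega) hQ
      (by ext; exact hpol _ _)) fun M hM _ g hg hg' => (sd_tB hf).top_le_of_quad h2 (by simp; omega)
        h1 (fun g hg => hM g (((sd_tB hf).SUG_eq_top rfl).ge trivial)
          ⟨1, fun v => (hg v).trans (one_mul _).symm⟩) hg
        fun H => hg' ⟨1, fun v => (H v).trans (one_mul _).symm⟩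

end Cfsg.Agent.H12
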