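import Mathlib
import Cfsg.Agent.H12.DecC
import Cfsg.Agent.H12.MaxD

/-!
Stabilisers of direct sum decompositions in the special linear group are maximal.
-/

set_option autoImplicit false

namespace Cfsg.Agent.H12

open Module Cfsg.Geo Matrix

variable {ι : Type} [Fintype ι] [DecidableEq ι] {F : Type*} [Field F] {t m : ℕ}
  {D : Fin t → Submodule F (ι → F)}

omit [DecidableEq ι] in
theorem perm_iff_mapsTo (hD : IsMDecomposition m D) (g : (ι → F) ≃ₗ[F] (ι → F)) :
    (∃ π : Equiv.Perm (Fin t), ∀ i, (D i).map g.toLinearMap = D (π i)) ↔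
      ∀ i, ∃ j, ∀ x ∈ D i, g x ∈ D j := by
  refine ⟨fun ⟨π, h⟩ i => ⟨π i, fun x hx => h i ▸ Submodule.mem_map_of_mem hx⟩, fun h => ?_⟩
  choose π h using h
  have h1 := fun i => map_eq_of_mapsTo g (h i) ((hD.finrank_eq _).trans (hD.finrank_eq _).symm)
  refine ⟨Equiv.ofBijective π (Finite.injective_iff_bijective.mp fun i j e => ?_), h1⟩
  refine hD.indep.injective (fun i e => ?_)
    (Submodule.map_injective_of_injective g.injective (by rw [h1, h1, e]))
  have := hD.finrank_eq i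
  rw [e, finrank_bot] at this
  exact hD.pos.ne this

omit [DecidableEq ι] in
theorem exists_basis_of_dec (hD : IsMDecomposition 1 D) :
    ∃ b : Basis (Fin t) F (ι → F), ∀ i, D i = F ∙ b i := by
  have h := fun i => finrank_eq_one_iff'.mp (hD.finrank_eq i)
  choose v h0 h1 using h
  have h2 : ∀ i, D i = F ∙ (v i : ι → F) := fun i => le_antisymm (fun x hx => by
    obtain ⟨c, hc⟩ := h1 i ⟨x, hx⟩
    exact Submodule.mem_span_singleton.mpr ⟨c, congrArg Subtype.val hc⟩)
    ((Submodule.span_singleton_le_iff_mem _ _).mpr (v i).2)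
  refine ⟨Basis.mk (hD.indep.linearIndependent _ (fun i => (v i).2) fun i => by simpa using h0 i) ?_,
    fun i => by rw [Basis.mk_apply]; exact h2 i⟩
  rw [← hD.iSup_eq_top, Submodule.span_range_eq_iSup]
  exact iSup_mono fun i => (h2 i).le

theorem mapsTo_iff_mon {b : Basis (Fin t) F (ι → F)} (h : ∀ i, D i = F ∙ b i)
    (g : (ι → F) ≃ₗ[F] (ι → F)) : (∀ i, ∃ j, ∀ x ∈ D i, g x ∈ D j) ↔ Mon b g := by
  refine forall_congr' fun i => exists_congr fun j => ?_
  simp only [h, Submodule.mem_span_singleton]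
  refine ⟨fun H => (H _ ⟨1, one_smul _ _⟩).imp fun _ => Eq.symm, ?_⟩
  rintro ⟨c, hc⟩ _ ⟨d, rfl⟩
  exact ⟨d * c, by simp [hc, smul_smul]⟩

theorem max_SL_dec [Fintype F] (hn : 5 ≤ Fintype.card ι) (hD : IsMDecomposition m D)
    (h1 : ¬ (m = 1 ∧ Fintype.card F ≤ 4)) (h2 : ¬ (m = 2 ∧ Fintype.card F = 2)) :
    IsMaximalIn (specialLinear ι F) (decompositionStabilizer D ⊓ specialLinear ι F) := by
  refine isMaximalIn_SL (fun g => ∀ i, ∃ j, ∀ x ∈ D i, g x ∈ D j)
    (fun g => perm_iff_mapsTo hD (glEq ι F g)) (H18.SL_not_le_decomp hD) fun M hM _ g hg hg' => ?_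
  have h3 := hD.pos
  by_cases e : m = 1
  · subst e
    obtain ⟨b, hb⟩ := exists_basis_of_dec hD
    simp only [mapsTo_iff_mon hb] at hM hg'
    refine SLV_le_of_not_mon hM (by rw [Nat.card_eq_fintype_card]; omega) ?_ hg hg'
    rwa [← finrank_eq_card_basis b, finrank_fintype_fun_eq_card]
  obtain ⟨p, hp⟩ := exists_PD hD.indep hD.iSup_eq_top
  refine hp.SLV_le hM hD.finrank_eq ?_ hg hg'
  by_cases e' : m = 2
  · have h4 := Fintype.one_lt_card (α := F)
    obtain ⟨c, -, c1⟩ := exists_ne_zero_one (F := F) (by rw [Nat.card_eq_fintype_card]; omega)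
    refine Or.inr ⟨by omega, ⟨c, c1⟩, fun i j => ?_⟩
    by_contra! H
    have h5 : D i ⊔ D j = ⊤ := eq_top_iff.mpr (hD.iSup_eq_top ▸ iSup_le fun l => by
      rcases eq_or_ne l i with rfl | h
      · exact le_sup_left
      · exact H l h ▸ le_sup_right)
    have := Submodule.finrank_add_le_finrank_add_finrank (D i) (D j)
    rw [h5, hD.finrank_eq, hD.finrank_eq, finrank_top, finrank_fintype_fun_eq_card] at this
    omega
  · exact Or.inl (by omega)

end Cfsg.Agent.H12
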