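import Mathlib
import Cfsg.Agent.H12.TenB
import Cfsg.Agent.H13.Simple

/-!
Symmetric bilinear forms in odd characteristic: reflections, Siegel maps, anisotropic vectors.
-/

set_option autoImplicit false

namespace Cfsg.Agent.H12

open Module

variable {F W : Type*} [Field F] [AddCommGroup W] [Module F W] {β : W →ₗ[F] W →ₗ[F] F}

/-- A non-degenerate symmetric form in odd characteristic. -/
structure SY (β : W →ₗ[F] W →ₗ[F] F) : Prop where
  symm : ∀ x y, β x y = β y x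
  sep : ∀ x, (∀ y, β x y = 0) → x = 0
  two : (2 : F) ≠ 0

/-- The reflection in `y`. -/
def rf (β : W →ₗ[F] W →ₗ[F] F) (y : W) : End F W := 1 - ((2 / β y y) • β y).smulRight y

theorem rf_apply (y w : W) : rf β y w = w - (2 / β y y * β y w) • y := rfl

/-- The Siegel map. -/
def sg (β : W →ₗ[F] W →ₗ[F] F) (r a : W) : End F W :=
  1 + (β r).smulRight a - (β a + (β a a / 2) • β r).smulRight r

theorem sg_apply (r a w : W) : sg β r a w = w + β r w • a - (β a w + β a a / 2 * β r w) • r := rfl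

/-- `P` is a non-degenerate subspace. -/
def NDS (β : W →ₗ[F] W →ₗ[F] F) (P : Submodule F W) : Prop := ∀ v ∈ P, v ≠ 0 → ∃ w ∈ P, β v w ≠ 0

theorem exists_ne_ne {φ ψ : Dual F W} {x y : W} (h : φ x ≠ 0) (h' : ψ y ≠ 0) :
    ∃ v, φ v ≠ 0 ∧ ψ v ≠ 0 := by
  by_cases h1 : ψ x = 0
  · by_cases h2 : φ y = 0
    · exact ⟨x + y, by simpa [h2], by simpa [h1]⟩
    · exact ⟨y, h2, h'⟩
  · exact ⟨x, h, h1⟩

theorem finrank_le_inf_ker [FiniteDimensional F W] (P : Submodule F W) (φ : Dual F W) :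
    finrank F P ≤ finrank F (P ⊓ LinearMap.ker φ : Submodule F W) + 1 := by
  have h1 := (φ.domRestrict P).finrank_range_add_finrank_ker
  have h2 := (LinearMap.range (φ.domRestrict P)).finrank_le
  rw [LinearMap.ker_domRestrict, ← Submodule.finrank_map_subtype_eq, Submodule.map_comap_subtype] at h1
  simp at h2; omega

namespace SY

variable (E : SY β) {P : Submodule F W} {x y z r a : W}
include E

theorem exists_ne (h : x ≠ 0) : ∃ y, β x y ≠ 0 := by
  by_contra! H; exact h (E.sep x H)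

theorem ext (h : ∀ z, β z x = β z y) : x = y :=
  sub_eq_zero.mp (E.sep _ fun z => by rw [E.symm, map_sub, h, sub_self])

theorem rf_map (hy : β y y ≠ 0) (w w' : W) : β (rf β y w) (rf β y w') = β w w' := by
  simp [rf_apply, E.symm w y]; field_simp; ring

omit E in
theorem rf_rf (hy : β y y ≠ 0) (w : W) : rf β y (rf β y w) = w := by
  simp only [rf_apply, map_sub, map_smul, smul_eq_mul]; match_scalars <;> field_simp; ring

omit E in
theorem rf_self (hy : β y y ≠ 0) : rf β y y = -y := by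
  rw [rf_apply]; match_scalars; field_simp; ring

theorem sg_map (h1 : β r r = 0) (h2 : β r a = 0) (w w' : W) :
    β (sg β r a w) (sg β r a w') = β w w' := by
  have := E.two
  simp [sg_apply, E.symm w r, E.symm w a, E.symm a r, h1, h2]; field_simp; ring

theorem nds_top : NDS β ⊤ := fun _ _ h => by simpa using E.exists_ne h

theorem nds_perp (h : NDS β P) (hy : y ∈ P) (h0 : β y y ≠ 0) : NDS β (P ⊓ LinearMap.ker (β y)) :=
  fun v ⟨h1, h2⟩ h3 => by
    obtain ⟨w, h4, h5⟩ := h v h1 h3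
    refine ⟨w - (β y w / β y y) • y, ⟨sub_mem h4 (P.smul_mem _ hy), by simp [h0]⟩, ?_⟩
    simpa [E.symm v y, show β y v = 0 from h2]

theorem exists_aniso (h : NDS β P) {Y : Submodule F W} (H : ¬ P ≤ Y) :
    ∃ z ∈ P, z ∉ Y ∧ β z z ≠ 0 := by
  obtain ⟨v, a1, a2⟩ := SetLike.not_le_iff_exists.mp H
  by_contra! h0
  obtain ⟨w, a3, a4⟩ := h v a1 (by rintro rfl; exact a2 (zero_mem _))
  have a5 := h0 v a1 a2
  have a6 : ∀ c : F, β (v + c • w) (v + c • w) = c * (2 * β v w + c * β w w) := fun c => by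
    simp [a5, E.symm w v]; ring
  have a7 : ∀ c : F, v + c • w ∈ P := fun c => add_mem a1 (P.smul_mem c a3)
  have := E.two
  by_cases a8 : w ∈ Y
  · have b1 := fun c => h0 _ (a7 c) fun e => a2 ((Y.add_mem_iff_left (Y.smul_mem c a8)).mp e)
    have b2 := b1 1
    have b3 := b1 (-1)
    rw [a6] at b2 b3
    exact mul_ne_zero (mul_ne_zero this this) a4 (by linear_combination b2 - b3)
  · have b1 : ∀ c : F, c ≠ 0 → v + c • w ∈ Y := fun c hc => by
      by_contra e
      have b2 := h0 _ (a7 c) e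
      rw [a6] at b2
      simp [h0 w a3 a8, hc, this, a4] at b2
    refine a2 ((Y.smul_mem_iff this).mp ?_)
    convert add_mem (b1 1 one_ne_zero) (b1 (-1) (by simp)) using 1; module

theorem exists_aniso_ne {φ : Dual F W} (h : φ x ≠ 0) : ∃ z, φ z ≠ 0 ∧ β z z ≠ 0 := by
  simpa using E.exists_aniso E.nds_top (Y := LinearMap.ker φ) fun H => h (H trivial)

variable [FiniteDimensional F W]

theorem exists_third (h : NDS β P) (h3 : 3 ≤ finrank F P) (hy : y ∈ P) (hz : z ∈ P) (a1 : β y y ≠ 0)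
    (a2 : β z z ≠ 0) (a3 : β y z = 0) : ∃ t ∈ P, β y t = 0 ∧ β z t = 0 ∧ β t t ≠ 0 := by
  obtain ⟨t, ⟨⟨b1, b2⟩, b3⟩, -, b4⟩ := E.exists_aniso (E.nds_perp (E.nds_perp h hy a1) ⟨hz, a3⟩ a2)
    (Y := ⊥) fun e => by
      have c1 := finrank_le_inf_ker P (β y)
      have c2 := finrank_le_inf_ker (P ⊓ LinearMap.ker (β y)) (β z)
      rw [le_bot_iff.mp e, finrank_bot] at c2; omega
  exact ⟨t, b1, b2, b3, b4⟩

theorem irr (h : NDS β P) (hq : (∃ c : F, c ≠ 0 ∧ c * c ≠ 1) ∨ 3 ≤ finrank F P) {Y : Submodule F W}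
    (ha : a ∈ Y) (ha' : a ∈ P) (h0 : a ≠ 0) (H : ∀ z ∈ P, β z z ≠ 0 → ∀ a ∈ Y, β z a ≠ 0 → z ∈ Y) :
    P ≤ Y := by
  by_contra h1
  obtain ⟨z, b1, b2, b3⟩ := E.exists_aniso h h1
  obtain ⟨v, c1, c2⟩ := h a ha' h0
  obtain ⟨y, d1, d2, d3⟩ := E.exists_aniso h (Y := LinearMap.ker (β a)) fun e => c2 (e c1)
  have d4 := H y d1 d3 a ha (E.symm a y ▸ d2)
  have d5 : β z y = 0 := by_contra fun e => b2 (H z b1 b3 y d4 e)
  have d6 : ∀ c : F, c ≠ 0 → β y y + c * c * β z z = 0 := fun c hc => by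
    by_contra e
    refine b2 ((Y.smul_mem_iff hc).mp ((Y.add_mem_iff_right d4).mp
      (H _ (add_mem d1 (P.smul_mem c b1)) (fun e' => e ?_) y d4 (by simpa [d5]))))
    simpa [d5, E.symm y z, mul_assoc] using e'
  have d7 := d6 1 one_ne_zero
  rcases hq with ⟨c, e1, e2⟩ | hq
  · exact mul_ne_zero (sub_ne_zero.mpr e2) b3 (by linear_combination d6 c e1 - d7)
  obtain ⟨t, e1, e2, e3, e4⟩ := E.exists_third h hq d1 b1 d3 b3 (E.symm z y ▸ d5)
  have e5 := H (y + z + t) (add_mem (add_mem d1 b1) e1) (by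
    simp [d5, e2, e3, E.symm y z, E.symm t y, E.symm t z]; intro e; exact e4 (by linear_combination e - d7))
    y d4 (by simpa [d5, E.symm t y, e2])
  rw [add_assoc, Y.add_mem_iff_right d4] at e5
  exact b2 (H z b1 b3 _ e5 (by simpa [e3]))

theorem exists_repr (φ : Dual F W) : ∃ x, ∀ y, β x y = φ y := by
  obtain ⟨x, hx⟩ := (LinearMap.injective_iff_surjective_of_finrank_eq_finrank (f := β) (by simp)).mp
    ((injective_iff_map_eq_zero _).mpr fun x hx => E.sep x fun y => by simp [hx]) φ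
  exact ⟨x, fun y => by rw [hx]⟩

theorem mem_span (h : ∀ w, β y w = 0 → β x w = 0) : x ∈ F ∙ y := by
  obtain ⟨c, hc⟩ := exists_smul_of_ker h
  exact Submodule.mem_span_singleton.mpr ⟨c, E.ext fun z => by
    rw [E.symm z x, hc, E.symm z]; simp⟩

omit [FiniteDimensional F W] in
theorem exists_iso_ne (h1 : β r r = 0) (h0 : r ≠ 0) (hx : x ≠ 0) (h2 : β x r = 0) :
    ∃ s, β s s = 0 ∧ β r s ≠ 0 ∧ β s x ≠ 0 := by
  obtain ⟨u, hu⟩ := E.exists_ne h0
  obtain ⟨u', hu'⟩ := E.exists_ne hx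
  obtain ⟨v, a1, a2⟩ := exists_ne_ne hu hu'
  have := E.two
  exact ⟨v - (β v v / (2 * β r v)) • r, by simp [h1, E.symm v r]; field_simp; ring, by simpa [h1],
    by simpa [E.symm r x, h2, E.symm v x]⟩

omit E in
theorem exists_iso [Finite F] (h : 3 ≤ finrank F P) : ∃ r ∈ P, r ≠ 0 ∧ β r r = 0 :=
  H13.exists_singular_mem (LinearMap.BilinMap.toQuadraticMap β) h

end SY

end Cfsg.Agent.H12
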