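import Mathlib
import Cfsg.Agent.H12.TfA
import Cfsg.Agent.H12.CfB

/-!
Tensor products of a symplectic and an orthogonal space: overgroups containing root elements.
-/

set_option autoImplicit false

namespace Cfsg.Agent.H12

open Module

variable {F V : Type*} [Field F] [AddCommGroup V] [Module F V]

/-- An isometric endomorphism as an element of the isometry group. -/
noncomputable def SD.mkU {σ : F →+* F} {B : V →ₛₗ[σ] V →ₗ[F] F} [FiniteDimensional F V] (D : SD B)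
    (f : End F V) (hf : ∀ x y, B (f x) (f y) = B x y) : UG B :=
  ⟨LinearEquiv.ofInjectiveEndo f ((injective_iff_map_eq_zero _).mpr fun x hx =>
    D.sep x fun y => by rw [← hf, hx]; simp), hf⟩

variable {B : V →ₛₗ[RingHom.id F] V →ₗ[F] F} {M : Subgroup (UG B)}

theorem IS.add_ti (D : SD B) {X : Type*} [AddCommGroup X] [Module F X] {j : X →ₗ[F] V}
    (h1 : ∀ x, IS M (j x)) (h2 : ∀ x y, B (j x) (j y) = 0) {v : V} (hv : IS M v) {x : X}
    (h3 : B v (j x) ≠ 0) (y : X) : IS M (v + j y) := by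
  by_cases h : B v (j y) = 0
  · simpa using (hv.add D (h1 x) h3 (D.self_eq_zero rfl _)).add D (h1 (y - x))
      (by simpa [h, h2]) (D.self_eq_zero rfl _)
  · exact hv.add D (h1 y) h (D.self_eq_zero rfl _)

variable {U W : Type*} [AddCommGroup U] [Module F U] [AddCommGroup W] [Module F W]
  {B₁ : U →ₛₗ[RingHom.id F] U →ₗ[F] F} {β : W →ₗ[F] W →ₗ[F] F} {τ : U →ₗ[F] W →ₗ[F] V}

/-- The form `B` is the tensor product of an alternating and a symmetric form. -/
structure TF (B : V →ₛₗ[RingHom.id F] V →ₗ[F] F) (B₁ : U →ₛₗ[RingHom.id F] U →ₗ[F] F)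
    (β : W →ₗ[F] W →ₗ[F] F) (τ : U →ₗ[F] W →ₗ[F] V) : Prop where
  ten : IsTensorProduct τ
  sd : SD B
  sd₁ : SD B₁
  sy : SY β
  map : ∀ u w u' w', B (τ u w) (τ u' w') = B₁ u u' * β w w'

namespace TF

variable (h : TF B B₁ β τ)

/-- Contraction with a vector of the first factor. -/
noncomputable def cu (x : U) : V →ₗ[F] W := cL h.ten (B₁ x)

/-- Contraction with a vector of the second factor. -/
noncomputable def cw (r : W) : V →ₗ[F] U := cR h.ten (β r)

@[simp] theorem cu_ten (x u : U) (w : W) : h.cu x (τ u w) = B₁ x u • w := cL_ten ..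

@[simp] theorem cw_ten (r : W) (u : U) (w : W) : h.cw r (τ u w) = β r w • u := cR_ten ..

theorem B_cu (x : U) (w : W) (v : V) : B (τ x w) v = β w (h.cu x v) :=
  LinearMap.congr_fun (ten_ext h.ten (f := B (τ x w)) (g := β w ∘ₗ h.cu x) fun u w' => by
    simp [h.map]) v

theorem B_cw (x : U) (w : W) (v : V) : B (τ x w) v = B₁ x (h.cw w v) :=
  LinearMap.congr_fun (ten_ext h.ten (f := B (τ x w)) (g := B₁ x ∘ₗ h.cw w) fun u w' => by
    simp [h.map, mul_comm]) v

include h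

theorem alt (v : V) : B v v = 0 := h.sd.self_eq_zero rfl v

theorem alt₁ (v : U) : B₁ v v = 0 := h.sd₁.self_eq_zero rfl v

theorem skew (u v : V) : B u v = -B v u := h.sd.skew v u

theorem skew₁ (u v : U) : B₁ u v = -B₁ v u := h.sd₁.skew v u

theorem iso_of {f : End F V} {a : End F U} {b : End F W} (hf : ∀ u w, f (τ u w) = τ (a u) (b w))
    (H : ∀ u w u' w', B₁ (a u) (a u') * β (b w) (b w') = B₁ u u' * β w w') (x y : V) :
    B (f x) (f y) = B x y :=
  LinearMap.congr_fun₂ (ten_ext h.ten (f := B.compl₁₂ f f) (g := B) fun u w =>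
    ten_ext h.ten fun u' w' => by simp [hf, h.map, H]) x y

theorem exists_one {x : U} (hx : x ≠ 0) : ∃ f, B₁ x f = 1 := by
  obtain ⟨f, hf⟩ := h.sd₁.exists_ne hx
  exact ⟨(B₁ x f)⁻¹ • f, by simp [hf]⟩

theorem eq_of_cu {x f : U} (hf : B₁ x f = 1) {p : V → Prop} (h0 : p 0)
    (h1 : ∀ u w, B₁ x u = 0 → p (τ u w)) (h2 : ∀ v v', p v → p v' → p (v + v')) {v : V}
    (hv : h.cu x v = 0) : p v := by
  have : p (v - τ f (h.cu x v)) := h.ten.inductionOn v (by simpa) (fun u w => by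
    convert h1 (u - B₁ x u • f) w (by simp [hf]) using 1; simp) fun v v' a b => by
      convert h2 _ _ a b using 1; simp; abel
  simpa [hv] using this

theorem eq_of_cw {r s : W} (hs : β r s = 1) {p : V → Prop} (h0 : p 0)
    (h1 : ∀ u w, β r w = 0 → p (τ u w)) (h2 : ∀ v v', p v → p v' → p (v + v')) {v : V}
    (hv : h.cw r v = 0) : p v := by
  have : p (v - τ (h.cw r v) s) := h.ten.inductionOn v (by simpa) (fun u w => by
    convert h1 u (w - β r w • s) (by simp [hs]) using 1; simp) fun v v' a b => by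
      convert h2 _ _ a b using 1; simp; abel
  simpa [hv] using this

variable [FiniteDimensional F U] [FiniteDimensional F W]

theorem fin : FiniteDimensional F V := ten_fin h.ten

/-- The isometry `a ⊗ 1`. -/
noncomputable def tL (a : UG B₁) : UG B :=
  haveI := h.fin
  h.sd.mkU (h.ten.map h.ten a.1.toLinearMap 1)
    (h.iso_of (fun _ _ => h.ten.map_eq ..) fun _ _ _ _ => by simp [UG_map])

/-- The isometry `1 ⊗ b`. -/
noncomputable def tR (b : End F W) (hb : ∀ w w', β (b w) (b w') = β w w') : UG B :=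
  haveI := h.fin
  h.sd.mkU (h.ten.map h.ten 1 b) (h.iso_of (fun _ _ => h.ten.map_eq ..) fun _ _ _ _ => by simp [hb])

@[simp] theorem tL_ten (a : UG B₁) (u : U) (w : W) : (h.tL a).1 (τ u w) = τ (a.1 u) w :=
  h.ten.map_eq h.ten ..

@[simp] theorem tR_ten (b : End F W) (hb : ∀ w w', β (b w) (b w') = β w w') (u : U) (w : W) :
    (h.tR b hb).1 (τ u w) = τ u (b w) := h.ten.map_eq h.ten ..

omit [FiniteDimensional F U] [FiniteDimensional F W] in
theorem ext {g g' : UG B} (H : ∀ u w, g.1 (τ u w) = g'.1 (τ u w)) : g = g' :=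
  UG_ext fun v => LinearMap.congr_fun (ten_ext h.ten (f := g.1.toLinearMap) (g := g'.1.toLinearMap) H) v

theorem tL_mul (a a' : UG B₁) : h.tL (a * a') = h.tL a * h.tL a' := h.ext fun _ _ => by simp

theorem tL_inv (a : UG B₁) : (h.tL a)⁻¹ = h.tL a⁻¹ :=
  inv_eq_of_mul_eq_one_right (h.ext fun _ _ => by simp)

theorem tn_tL (a : UG B₁) : TN τ (h.tL a).1 := ⟨a.1.toLinearMap, 1, h.tL_ten a⟩

theorem tn_tR (b : End F W) (hb : ∀ w w', β (b w) (b w') = β w w') : TN τ (h.tR b hb).1 :=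
  ⟨1, b, h.tR_ten b hb⟩

theorem tL_rho {x u : U} (hu : B₁ x u = 0) (c : F) (v : V) : (h.tL (rho B₁ x u c)).1 v =
    v + τ u (h.cu x v) + τ x (c • h.cu x v + h.cu u v) :=
  LinearMap.congr_fun (ten_ext h.ten (f := (h.tL (rho B₁ x u c)).1.toLinearMap)
    (g := 1 + τ u ∘ₗ h.cu x + τ x ∘ₗ (c • h.cu x + h.cu u)) fun u' w => by
      simp [rho_apply h.sd₁ (h.sd₁.adm_sp hu c), add_smul, mul_smul]) v

theorem tL_tv (x : U) (c : F) (v : V) : (h.tL (tv B₁ x c)).1 v = v + c • τ x (h.cu x v) := by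
  simp [tv, h.tL_rho, cu]

theorem cu_tL (a : UG B₁) (x : U) (v : V) : h.cu (a.1 x) ((h.tL a).1 v) = h.cu x v :=
  LinearMap.congr_fun (ten_ext h.ten (f := h.cu (a.1 x) ∘ₗ (h.tL a).1.toLinearMap) (g := h.cu x)
    fun u w => by simp [UG_map]) v

theorem cw_tL (a : UG B₁) (r : W) (v : V) : h.cw r ((h.tL a).1 v) = a.1 (h.cw r v) :=
  LinearMap.congr_fun (ten_ext h.ten (f := h.cw r ∘ₗ (h.tL a).1.toLinearMap)
    (g := a.1.toLinearMap ∘ₗ h.cw r) fun u w => by simp) v

theorem cu_tR (b : End F W) (hb : ∀ w w', β (b w) (b w') = β w w') (x : U) (v : V) :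
    h.cu x ((h.tR b hb).1 v) = b (h.cu x v) :=
  LinearMap.congr_fun (ten_ext h.ten (f := h.cu x ∘ₗ (h.tR b hb).1.toLinearMap)
    (g := b ∘ₗ h.cu x) fun u w => by simp) v

/-- The isometry `1 ⊗ r_y`. -/
noncomputable def sR {y : W} (hy : β y y ≠ 0) : UG B := h.tR (rf β y) (h.sy.rf_map hy)

theorem sR_apply {y : W} (hy : β y y ≠ 0) (v : V) :
    (h.sR hy).1 v = v - (2 / β y y) • τ (h.cw y v) y :=
  LinearMap.congr_fun (ten_ext h.ten (f := (h.sR hy).1.toLinearMap)
    (g := 1 - (2 / β y y) • τ.flip y ∘ₗ h.cw y) fun u w => by simp [sR, rf_apply, mul_smul]) v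

theorem sR_inv {y : W} (hy : β y y ≠ 0) : (h.sR hy)⁻¹ = h.sR hy :=
  inv_eq_of_mul_eq_one_right (h.ext fun _ _ => by simp [sR, SY.rf_rf hy])

variable (hM : ∀ g : UG B, TN τ g.1 → g ∈ M)
include hM

theorem is_left {x : U} {w : W} (H : IS M (τ x w)) (hx : x ≠ 0) (u : U) : IS M (τ u w) := by
  rcases eq_or_ne u 0 with rfl | hu
  · simpa using IS.zero h.sd
  obtain ⟨a, rfl⟩ := h.sd₁.witt_one hx hu (by simp [h.alt₁])
  simpa using H.map h.sd (hM _ (h.tn_tL a))

theorem is_of_iso {r w : W} (H : ∀ u, IS M (τ u r)) (hr : β r r = 0) (hw : β r w ≠ 0) (u : U) :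
    IS M (τ u w) := by
  have E := h.sy
  have a1 : ∀ w, β r w ≠ 0 → (∀ u, IS M (τ u w)) → ∀ (c : F) u, IS M (τ u (w + c • r)) :=
    fun w hw H' c u => by
      rcases eq_or_ne u 0 with rfl | hu
      · simpa using IS.zero h.sd
      obtain ⟨f, hf⟩ := h.exists_one hu
      simpa using (H' u).add_ti h.sd (j := τ.flip r) H (fun _ _ => by simp [h.map, hr]) (x := f)
        (by simpa [h.map, hf, E.symm w r]) (c • u)
  have a2 : ∀ y, β r y ≠ 0 → β y y ≠ 0 → ∀ u, IS M (τ u y) := fun y h1 h2 u => by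
    have b1 : -(2 / β y y * β y r) ≠ 0 := by simpa [E.two, h2, E.symm y r]
    refine IS.of_smul h.sd ?_ b1
    convert a1 (rf β y r) (by simpa [rf_apply, hr, E.two, h2, E.symm y r]) (fun u => by
      simpa [sR] using (H u).map h.sd (hM _ (h.tn_tR _ (E.rf_map h2)))) (-1) u using 1
    simp [rf_apply]; abel
  have := E.two
  simpa using a1 _ (by simpa [hr]) (a2 (w + ((1 - β w w) / (2 * β r w)) • r) (by simpa [hr])
    (by simp [hr, E.symm w r]; field_simp; ring_nf; simpa)) (-((1 - β w w) / (2 * β r w))) u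

theorem le_of_is [Finite F] {x : U} {r : W} (H : IS M (τ x r)) (hx : x ≠ 0) (h0 : r ≠ 0)
    (hr : β r r = 0) : SUG B ≤ M := by
  have E := h.sy
  have D := h.sd
  haveI := h.fin
  have a1 : ∀ u w, IS M (τ u w) := fun u w => by
    rcases eq_or_ne w 0 with rfl | hw
    · simpa using IS.zero D
    by_cases b1 : β r w = 0
    · obtain ⟨s, b2, b3, b4⟩ := E.exists_iso_ne hr h0 hw (E.symm r w ▸ b1)
      exact h.is_of_iso hM (h.is_of_iso hM (h.is_left hM H hx) hr b3) b2 b4 u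
    · exact h.is_of_iso hM (h.is_left hM H hx) hr b1 u
  have a2 : ∀ v, IS M v → ∀ u, h.cu u v ≠ 0 → ∀ w, IS M (v + τ u w) := fun v hv u hu w => by
    obtain ⟨w', hw'⟩ := E.exists_ne hu
    exact hv.add_ti D (a1 u) (fun _ _ => by simp [h.map, h.alt₁]) (x := w')
      (D.ne0 (by rwa [h.B_cu, E.symm])) w
  have a3 : ∀ x r, x ≠ 0 → r ≠ 0 → ES M (τ x r) := fun x r hx h0 => by
    have b1 : ∀ u w, B₁ x u ≠ 0 → IS M (τ x r + τ u w) := fun u w hu =>
      a2 _ (a1 _ _) u (by simpa [h0] using h.sd₁.ne0 hu) w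
    have b2 : ∀ u w, B₁ x u = 0 → AM M (τ x r) (τ u w) := fun u w hu => by
      refine AM.of_IS D (h.alt _) (by simp [h.map, hu]) (a1 _ _) ?_
      by_cases c1 : w ∈ F ∙ r
      · obtain ⟨c, rfl⟩ := Submodule.mem_span_singleton.mp c1
        simpa using a1 (x + c • u) r
      rcases eq_or_ne u 0 with rfl | c2
      · simpa using a1 x r
      obtain ⟨f₁, c3⟩ := h.sd₁.exists_ne hx
      obtain ⟨f₂, c4⟩ := h.sd₁.exists_ne c2
      obtain ⟨f, c5, c6⟩ := exists_ne_ne c3 c4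
      convert a2 _ (a2 _ (b1 f r c5) u (by simp [h.sd₁.comm0 hu, c6, h0]) w) f (fun e => c1 ?_) (-r)
        using 1
      · simp; abel
      · simp only [map_add, cu_ten, h.alt₁, zero_smul, add_zero] at e
        exact (Submodule.smul_mem_iff _ (h.sd₁.ne0 c6)).mp (eq_neg_of_add_eq_zero_right e ▸
          neg_mem (Submodule.smul_mem _ _ (Submodule.mem_span_singleton_self r)))
    obtain ⟨f, hf⟩ := h.exists_one hx
    refine ES.of_AM D (a1 _ _) fun v hv => ?_
    have b3 := (h.eq_of_cu hf (p := AM M (τ x r)) (AM.zero D (h.alt _)) b2 (fun _ _ => AM.add D)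
      (v := v - τ f (h.cu x v)) (by simp [hf])).add D (AM.of_IS D (h.alt _)
        (by rw [h.B_cu] at hv; simp [h.map, hv]) (a1 _ _) (b1 f (h.cu x v) (by simp [hf])))
    simpa using b3
  obtain ⟨f, hf⟩ := h.exists_one hx
  obtain ⟨s, hs⟩ := E.exists_ne h0
  exact D.SUG_le_of_ES₂ D.ns (a3 x r hx h0) (a3 f s (by rintro rfl; simp at hf)
    (by rintro rfl; simp at hs)) (by simpa [h.map, hf])

theorem le_of_tv [Finite F] {x : U} {r : W} {c : F} (H : tv B (τ x r) c ∈ M) (hc : c ≠ 0)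
    (hx : x ≠ 0) (h0 : r ≠ 0) (hr : β r r = 0) : SUG B ≤ M := by
  let S : AddSubgroup F :=
    { carrier := {c | tv B (τ x r) c ∈ M}
      zero_mem' := by simp [tv_zero h.sd]
      add_mem' := fun a b => by
        simpa [tv_mul h.sd (h.alt _) rfl rfl] using M.mul_mem a b
      neg_mem' := fun a => by simpa [tv_inv h.sd] using M.inv_mem a }
  refine h.le_of_is hM ⟨h.alt _, AddSubgroup.eq_top_of_sq (S := S) hc fun a => ?_⟩ hx h0 hr
  rcases eq_or_ne a 0 with rfl | ha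
  · simp
  obtain ⟨k, hk⟩ := h.sd₁.witt_one hx (smul_ne_zero ha hx) (by simp [h.alt₁])
  have := mul_mem (mul_mem (hM _ (h.tn_tL k)) H) (inv_mem (hM _ (h.tn_tL k)))
  rwa [conj_tv h.sd, h.tL_ten, hk, LinearMap.map_smul₂, tv_smul h.sd (h.alt _) rfl] at this

end TF

end Cfsg.Agent.H12
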