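import Mathlib
import Cfsg.Agent.H12.TfB
import Cfsg.Agent.H12.DecA

/-!
Tensor products of a symplectic and an orthogonal space: unipotent radicals in proper overgroups.
-/

set_option autoImplicit false

namespace Cfsg.Agent.H12

open Module

variable {F V : Type*} [Field F] [AddCommGroup V] [Module F V]

section
variable {σ : F →+* F} {B : V →ₛₗ[σ] V →ₗ[F] F} {M : Subgroup (UG B)} {N : End F V}

/-- A group of isometries as a linear group. -/
def MM (M : Subgroup (UG B)) : Subgroup (V ≃ₗ[F] V) := M.map (UG B).subtype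

theorem mem_MM {k : UG B} (hk : k ∈ M) : k.1 ∈ MM M := ⟨k, hk, rfl⟩

theorem en_of_mem {k : UG B} (hk : k ∈ M) (H : ∀ v, k.1 v = v + N v) : EN (MM M) N := ⟨_, mem_MM hk, H⟩

theorem EN.mem (h : EN (MM M) N) {g : UG B} (H : ∀ v, g.1 v = v + N v) : g ∈ M := by
  obtain ⟨_, ⟨k, hk, rfl⟩, h1⟩ := h
  rwa [show g = k from UG_ext fun v => (H v).trans (h1 v).symm]

end

variable {B : V →ₛₗ[RingHom.id F] V →ₗ[F] F} {M : Subgroup (UG B)}
  {U W : Type*} [AddCommGroup U] [Module F U] [AddCommGroup W] [Module F W]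
  {B₁ : U →ₛₗ[RingHom.id F] U →ₗ[F] F} {β : W →ₗ[F] W →ₗ[F] F} {τ : U →ₗ[F] W →ₗ[F] V}

/-- The symmetric product of two vectors. -/
def symP (β : W →ₗ[F] W →ₗ[F] F) (y : W) : W →ₗ[F] End F W :=
  (LinearMap.smulRightₗ.flip y ∘ₗ β) + LinearMap.smulRightₗ (β y)

@[simp] theorem symP_apply (y a w : W) : symP β y a w = β a w • y + β y w • a := rfl

namespace TF

variable (h : TF B B₁ β τ)
include h

theorem ext_B {v v' : V} (H : ∀ u w, B (τ u w) v = B (τ u w) v') : v = v' :=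
  h.sd.ext_right fun z => LinearMap.congr_fun (ten_ext h.ten (f := B.flip v) (g := B.flip v') H) z

theorem eq_left {x f : U} (hf : B₁ x f = 1) {v : V} (H : ∀ u w, B₁ x u = 0 → B (τ u w) v = 0) :
    v = τ x (-h.cu f v) := h.ext_B fun u w => by
  have := H (u - B₁ x u • f) w (by simp [hf])
  simp [sub_eq_zero] at this
  simp [h.map, this, ← h.B_cu, h.skew₁ u x]

theorem eq_right {r s : W} (hs : β r s = 1) {v : V} (H : ∀ u w, β r w = 0 → B (τ u w) v = 0) :
    v = τ (h.cw s v) r := h.ext_B fun u w => by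
  have := H u (w - β r w • s) (by simp [hs])
  simp [sub_eq_zero] at this
  simp [h.map, this, ← h.B_cw, h.sy.symm w r, mul_comm]

theorem sub_perp {k : UG B} {z : V} (hz : k.1 z = z) (v : V) : B z (k.1 v - v) = 0 := by
  rw [map_sub, UG_map_right, UG_inv_apply_eq hz, sub_self]

theorem left_eq {u u₁ u₂ : U} {y z t : W} (hy : y ≠ 0) (hz : z ∉ Submodule.span F {y, t})
    (hy' : y ∉ Submodule.span F {z, t}) {u₃ : U}
    (H : τ u (y + z + t) = τ u₁ y + τ u₂ z + τ u₃ t) : u₁ = u₂ := by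
  obtain ⟨φ, a1, a2⟩ := exists_dual_one hz
  obtain ⟨ψ, a3, a4⟩ := exists_dual_one hy'
  have b1 := congrArg (cR h.ten φ) H
  have b2 := congrArg (cR h.ten ψ) H
  simp [a1, a3, a2 y (Submodule.subset_span (by simp)), a2 t (Submodule.subset_span (by simp)),
    a4 z (Submodule.subset_span (by simp)), a4 t (Submodule.subset_span (by simp))] at b1 b2
  rw [← b1, b2]

variable [FiniteDimensional F U] [FiniteDimensional F W]

omit [FiniteDimensional F U] in
theorem exists_eq_ten (h3 : 3 ≤ finrank F W) {f : W →ₗ[F] V}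
    (H : ∀ y, β y y ≠ 0 → ∃ u, f y = τ u y) : ∃ u, ∀ w, f w = τ u w := by
  have E := h.sy
  obtain ⟨y, -, a1, a2⟩ := E.exists_aniso E.nds_top (Y := ⊥) fun e => by
    have := Submodule.finrank_mono e; simp at this; omega
  obtain ⟨u, hu⟩ := H y a2
  refine ⟨u, ?_⟩
  by_contra! H'
  obtain ⟨z, -, b1, b2⟩ := E.exists_aniso E.nds_top (Y := LinearMap.ker (f - τ u)) fun e => by
    obtain ⟨w, hw⟩ := H'; exact hw (sub_eq_zero.mp (e trivial))
  obtain ⟨u', hu'⟩ := H z b2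
  have b3 : z ∉ F ∙ y := fun e => by
    obtain ⟨c, rfl⟩ := Submodule.mem_span_singleton.mp e; simp [hu] at b1
  have b4 : u ≠ u' := by rintro rfl; simp [hu'] at b1
  have b5 : ∀ c : F, c ≠ 0 → β (y + c • z) (y + c • z) = 0 := fun c hc => by
    by_contra e
    obtain ⟨v, hv⟩ := H _ e
    exact b4 (h.left_eq (t := 0) (u := v) (z := c • z) (u₃ := 0) a1 (by simpa [Submodule.smul_mem_iff _ hc, Set.pair_comm y 0])
      (by simpa [Set.pair_comm _ (0 : W), Submodule.span_singleton_smul_eq hc.isUnit] using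
        notMem_span_symm b3 a1)
      (by simpa [hu, hu'] using hv.symm))
  have b6 := b5 1 one_ne_zero
  have b7 := b5 (-1) (by simp)
  simp [E.symm z y] at b6 b7
  have b8 : β y z = 0 := (mul_eq_zero.mp (by linear_combination b6 - b7 : (2 * 2) * β y z = 0)).resolve_left
    (mul_ne_zero E.two E.two)
  obtain ⟨t, -, c1, c2, c3⟩ := E.exists_third E.nds_top (by simpa) trivial trivial a2 b2 b8
  obtain ⟨v, hv⟩ := H (y + z + t) (by
    simp [c1, c2, b8, E.symm z y, E.symm t y, E.symm t z]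
    intro e; exact c3 (by linear_combination e - b6 + 2 * b8))
  obtain ⟨u₃, h₃⟩ := H t c3
  refine b4 (h.left_eq (t := t) (u := v) (z := z) (u₃ := u₃) a1 (fun e => b2 ?_) (fun e => a2 ?_)
    (by rw [← hv]; simp [hu, hu', h₃]))
  · obtain ⟨a, b, e⟩ := Submodule.mem_span_pair.mp e
    simpa [E.symm z y, b8, c2] using (congrArg (β z) e).symm
  · obtain ⟨a, b, e⟩ := Submodule.mem_span_pair.mp e
    simpa [b8, c1] using (congrArg (β y) e).symm

variable [Finite F] (hM : ∀ g : UG B, TN τ g.1 → g ∈ M)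
include hM

theorem eq_one_of_cw (H : ¬ SUG B ≤ M) {r : W} (hr : β r r = 0) (h0 : r ≠ 0) {k : UG B} (hk : k ∈ M)
    (h1 : ∀ v, h.cw r v = 0 → k.1 v = v) : k = 1 := by
  have E := h.sy
  obtain ⟨s, hs⟩ : ∃ s, β r s = 1 := by
    obtain ⟨s, hs⟩ := E.exists_ne h0; exact ⟨(β r s)⁻¹ • s, by simp [hs]⟩
  let ψ : End F U := h.cw s ∘ₗ (k.1.toLinearMap - 1) ∘ₗ τ.flip s
  let N : End F U → End F V := fun ψ => τ.flip r ∘ₗ ψ ∘ₗ h.cw r
  have a1 : ∀ v, k.1 v = v + N ψ v := fun v => by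
    have b1 := h1 (v - τ (h.cw r v) s) (by simp [hs])
    have b2 := h.eq_right hs (v := k.1 (τ (h.cw r v) s) - τ (h.cw r v) s) fun u w hw =>
      h.sub_perp (h1 _ (by simp [hw])) _
    rw [map_sub] at b1
    change k.1 v = v + τ (h.cw s (k.1 (τ (h.cw r v) s) - τ (h.cw r v) s)) r
    rw [← b2]; linear_combination (norm := module) b1
  have a2 : ∀ u u', B₁ u (ψ u') = B₁ u' (ψ u) := fun u u' => by
    have := UG_map k (τ u s) (τ u' s)
    simp [a1, N, hs, h.map, hr, E.symm s r, h.skew₁ (ψ u)] at this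
    linear_combination this
  by_cases a3 : ∀ x, B₁ x (ψ x) = 0
  · refine UG_ext fun v => ?_
    have : ψ (h.cw r v) = 0 := h.sd₁.ext_right fun u => by
      have b1 := a3 (u + h.cw r v)
      simp [a3, a2 (h.cw r v) u, ← two_mul, E.two] at b1
      simpa using b1
    simp [a1, N, this]
  push Not at a3
  obtain ⟨x, hx⟩ := a3
  have a4 := en_of_mem hk a1
  have a5 : ∀ c : F, EN (MM M) (N ((1 + c • (B₁ x).smulRight x) * ψ * (1 - c • (B₁ x).smulRight x))) :=
    fun c => a4.conj (mem_MM (hM _ (h.tn_tL (tv B₁ x c)))) fun v => by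
      simp [N, h.cw_tL, tv_apply h.sd₁ (h.alt₁ x) rfl, h.alt₁, mul_smul]
  have a6 : ∀ ψ ψ' v, N ψ (N ψ' v) = 0 := fun _ _ _ => by simp [N, hr]
  have a7 := (((a5 1).add (a5 (-1)) (a6 _ _)).add (a4.neg (a6 _ _)) (by simp [a6])).add
    (a4.neg (a6 _ _)) (by simp [a6])
  refine (H (h.le_of_tv hM (x := x) (r := r) (c := -2 * B₁ x (ψ x)) (a7.mem fun v => ?_)
    (by simp [E.two, hx]) (by rintro rfl; simp at hx) h0 hr)).elim
  rw [tv_apply h.sd (h.alt _) rfl, h.B_cw]
  simp [N]; module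

/-- The endomorphisms `θ` with `1 + x x^* ⊗ θ` in `M`. -/
def AA (x : U) : Submodule F (End F W) where
  carrier := {θ | EN (MM M) (τ x ∘ₗ θ ∘ₗ h.cu x)}
  zero_mem' := by simpa using EN.zero
  add_mem' a b := by simpa [LinearMap.add_comp, LinearMap.comp_add] using a.add b (by simp [h.alt₁])
  smul_mem' c θ hθ := by
    let S : AddSubgroup F :=
      { carrier := {c | EN (MM M) (τ x ∘ₗ (c • θ) ∘ₗ h.cu x)}
        zero_mem' := by simpa using EN.zero
        add_mem' := fun a b => by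
          simpa [add_smul, LinearMap.add_comp, LinearMap.comp_add] using EN.add a b (by simp [h.alt₁])
        neg_mem' := fun a => by simpa using EN.neg a (by simp [h.alt₁]) }
    refine AddSubgroup.eq_top_of_sq (S := S) one_ne_zero (fun a => ?_) c
    rcases eq_or_ne a 0 with rfl | ha
    · simp
    rcases eq_or_ne x 0 with rfl | hx
    · simpa [S] using EN.zero
    obtain ⟨k, hk⟩ := h.sd₁.witt_one hx (smul_ne_zero ha hx) (by simp [h.alt₁])
    refine EN.conj hθ (mem_MM (hM _ (h.tn_tL k))) fun v => ?_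
    have := h.cu_tL k x v
    rw [hk, show h.cu (a • x) = a • h.cu x by simp [cu]] at this
    simp [hk, ← this, mul_smul]

theorem AA_conj {x : U} {θ θ' : End F W} (H : θ ∈ h.AA hM x) {y : W} (hy : β y y ≠ 0)
    (h1 : ∀ w, θ' (rf β y w) = rf β y (θ w)) : θ' ∈ h.AA hM x :=
  EN.conj H (mem_MM (hM _ (h.tn_tR _ (h.sy.rf_map hy)))) fun v => by simp [h.cu_tR, h1]

theorem AA_sym {x : U} {a b : W} (H : symP β a b ∈ h.AA hM x) {y : W} (hy : β y y ≠ 0) :
    symP β (rf β y a) (rf β y b) ∈ h.AA hM x :=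
  h.AA_conj hM H hy fun w => by simp [h.sy.rf_map hy]

variable (H : ¬ SUG B ≤ M) (h3 : 3 ≤ finrank F W) (hq : (∃ c : F, c ≠ 0 ∧ c * c ≠ 1) ∨ 4 ≤ finrank F W)
include H

theorem AA_iso {x : U} (hx : x ≠ 0) {y r : W} (hy : β y y ≠ 0) (hr : β r r = 0) (h1 : β y r = 0)
    (h2 : symP β y r ∈ h.AA hM x) : r = 0 := by
  have E := h.sy
  have := E.two
  by_contra h0
  have a1 : β ((2 : F) • y + r) ((2 : F) • y + r) = 4 * β y y := by simp [hr, h1, E.symm r y]; ring
  have a4 : (4 : F) ≠ 0 := by rw [show (4 : F) = 2 * 2 by norm_num]; positivity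
  have a2 := add_mem h2 (h.AA_sym hM h2 (y := (2 : F) • y + r) (a1 ▸ mul_ne_zero a4 hy))
  refine H (h.le_of_tv hM (c := -2) (EN.mem a2 fun v => ?_) (by simpa) hx h0 hr)
  rw [tv_apply h.sd (h.alt _) rfl, h.B_cu, rf_apply, rf_apply, a1]
  simp [h1, hr, E.symm r y]
  match_scalars <;> field_simp <;> ring

include h3 hq

theorem AA_perp {x : U} (hx : x ≠ 0) {y a : W} (hy : β y y ≠ 0) (h1 : β y a = 0)
    (h2 : symP β y a ∈ h.AA hM x) : a = 0 := by
  have E := h.sy
  have a1 : ∀ y a, β y y ≠ 0 → β y a = 0 → a ≠ 0 → symP β y a ∈ h.AA hM x → ∀ b, β y b = 0 →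
      symP β y b ∈ h.AA hM x := fun y a hy h1 h0 h2 b hb => by
    have := finrank_le_inf_ker ⊤ (β y)
    refine E.irr (E.nds_perp E.nds_top trivial hy) (hq.imp_right fun e => by simp at this ⊢; omega)
      (Y := (h.AA hM x).comap (symP β y)) h2 ⟨trivial, h1⟩ h0 (fun z hz b1 a b2 b3 => ?_) ⟨trivial, hb⟩
    rw [Submodule.mem_comap] at b2 ⊢
    have b4 := sub_mem b2 (h.AA_sym hM b2 b1)
    rw [rf_apply z y, E.symm z y, show β y z = 0 from hz.2, mul_zero, zero_smul, sub_zero, ← map_sub,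
      rf_apply, sub_sub_cancel, map_smul] at b4
    exact (Submodule.smul_mem_iff _ (by simp [E.two, b1, b3])).mp b4
  by_contra h0
  obtain ⟨r, -, b1, b2⟩ := SY.exists_iso (β := β) (P := ⊤) (by simpa)
  obtain ⟨z, c1, c2, c3⟩ := exists_mem_ker₂ h3 (β y) (β r)
  have c4 := a1 y a hy h1 h0 h2 z c2
  by_cases c5 : β z z = 0
  · exact c1 (h.AA_iso hM H hx hy c5 c2 c4)
  · refine b1 (h.AA_iso hM H hx c5 b2 (E.symm r z ▸ c3) (a1 z y c5 (E.symm y z ▸ c2)
      (by rintro rfl; simp at hy) ?_ r (E.symm r z ▸ c3)))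
    convert c4 using 1; ext; simp [add_comm]

omit [Finite F] [FiniteDimensional F U] hM H hq in
theorem scalar_of {x : U} (hx : x ≠ 0) {θ : End F W} (h1 : ∀ y, β y y ≠ 0 → θ y ∈ F ∙ y) :
    ∃ c : F, ∀ w, θ w = c • w := by
  obtain ⟨u, hu⟩ := h.exists_eq_ten h3 (f := τ x ∘ₗ θ) fun y hy => by
    obtain ⟨c, hc⟩ := Submodule.mem_span_singleton.mp (h1 y hy)
    exact ⟨c • x, by simp [← hc]⟩
  obtain ⟨f, hf⟩ := h.exists_one hx
  exact ⟨-B₁ f u, fun w => by simpa [h.skew₁ f x, hf, neg_eq_iff_eq_neg] using congrArg (h.cu f) (hu w)⟩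

theorem exists_tv {x : U} (hx : x ≠ 0) {k : UG B} (hk : k ∈ M) (h1 : ∀ v, h.cu x v = 0 → k.1 v = v) :
    ∃ c, k = h.tL (tv B₁ x c) := by
  have E := h.sy
  obtain ⟨f, hf⟩ := h.exists_one hx
  let θ : End F W := -h.cu f ∘ₗ (k.1.toLinearMap - 1) ∘ₗ τ f
  have a1 : ∀ v, k.1 v = v + (τ x ∘ₗ θ ∘ₗ h.cu x) v := fun v => by
    have b1 := h1 (v - τ f (h.cu x v)) (by simp [hf])
    have b2 := h.eq_left hf (v := k.1 (τ f (h.cu x v)) - τ f (h.cu x v)) fun u w hw =>
      h.sub_perp (h1 _ (by simp [hw])) _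
    rw [map_sub] at b1
    change k.1 v = v + τ x (-h.cu f (k.1 (τ f (h.cu x v)) - τ f (h.cu x v)))
    rw [← b2]; linear_combination (norm := module) b1
  have a2 : ∀ w w', β w (θ w') = β (θ w) w' := fun w w' => by
    have := UG_map k (τ f w) (τ f w')
    simp [a1, hf, h.map, h.alt₁, h.skew₁ f x] at this
    linear_combination -this
  have a3 : θ ∈ h.AA hM x := en_of_mem hk a1
  obtain ⟨c, hc⟩ := h.scalar_of h3 hx (θ := θ) fun y hy => by
    have b1 := sub_mem a3 (h.AA_conj hM a3 hy (θ' := rf β y * θ * rf β y) fun w => by simp [SY.rf_rf hy])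
    have b2 := h.AA_perp hM H h3 hq hx hy (a := θ y - (β y (θ y) / β y y) • y) (by simp [hy]) (by
      convert Submodule.smul_mem _ (β y y / 2) b1 using 1
      have := E.two
      ext w; simp [rf_apply, a2]; match_scalars <;> field_simp <;> ring)
    exact Submodule.mem_span_singleton.mpr ⟨_, (sub_eq_zero.mp b2).symm⟩
  exact ⟨c, UG_ext fun v => by simp [a1, h.tL_tv, hc]⟩

end TF

end Cfsg.Agent.H12
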