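import Mathlib
import Cfsg.Agent.H12.TfC

/-!
Tensor products of a symplectic and an orthogonal space: stabilisers in proper overgroups.
-/

set_option autoImplicit false

namespace Cfsg.Agent.H12

open Module

variable {F V : Type*} [Field F] [AddCommGroup V] [Module F V]
  {U W : Type*} [AddCommGroup U] [Module F U] [AddCommGroup W] [Module F W] {τ : U →ₗ[F] W →ₗ[F] V}

theorem TN.mul {g g' : V ≃ₗ[F] V} (h : TN τ g) (h' : TN τ g') : TN τ (g * g') := by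
  obtain ⟨a, b, h⟩ := h
  obtain ⟨a', b', h'⟩ := h'
  exact ⟨a * a', b * b', fun x z => by simp [h, h']⟩

theorem TN.inv [FiniteDimensional F U] [FiniteDimensional F W] (ht : IsTensorProduct τ) {g : V ≃ₗ[F] V}
    (h : TN τ g) : TN τ g⁻¹ := by
  obtain ⟨a, b, h⟩ := h
  by_cases h0 : ∀ x z, τ x z = 0
  · exact ⟨0, 0, fun x z => by simp [h0]⟩
  push Not at h0
  obtain ⟨x, z, h0⟩ := h0
  have h1 : Function.Injective a := (injective_iff_map_eq_zero _).mpr fun u hu => by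
    by_contra e
    exact ten_ne_zero ht e (z := z) (by rintro rfl; simp at h0) (g.map_eq_zero_iff.mp (by simp [h, hu]))
  have h2 : Function.Injective b := (injective_iff_map_eq_zero _).mpr fun u hu => by
    by_contra e
    exact ten_ne_zero ht (x := x) (by rintro rfl; simp at h0) e (g.map_eq_zero_iff.mp (by simp [h, hu]))
  refine ⟨(LinearEquiv.ofInjectiveEndo a h1).symm, (LinearEquiv.ofInjectiveEndo b h2).symm, fun u w => ?_⟩
  rw [LinearEquiv.coe_inv, LinearEquiv.symm_apply_eq, h]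
  exact (congrArg₂ (τ · ·) ((LinearEquiv.ofInjectiveEndo a h1).apply_symm_apply u)
    ((LinearEquiv.ofInjectiveEndo b h2).apply_symm_apply w)).symm

variable {B : V →ₛₗ[RingHom.id F] V →ₗ[F] F} {M : Subgroup (UG B)}
  {B₁ : U →ₛₗ[RingHom.id F] U →ₗ[F] F} {β : W →ₗ[F] W →ₗ[F] F}

theorem SY.exists_adj [FiniteDimensional F W] (E : SY β) (θ : End F W) :
    ∃ η : End F W, ∀ w w', β w' (η w) = β (θ w') w := by
  let e := LinearEquiv.ofBijective β ⟨(injective_iff_map_eq_zero _).mpr fun x hx =>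
    E.sep x fun y => by simp [hx], fun φ => (E.exists_repr φ).imp fun _ h => LinearMap.ext h⟩
  refine ⟨e.symm.toLinearMap ∘ₗ θ.dualMap ∘ₗ β, fun w w' => ?_⟩
  rw [E.symm, E.symm _ w]
  exact LinearMap.congr_fun (e.apply_symm_apply (θ.dualMap (β w))) w'

namespace TF

variable (h : TF B B₁ β τ)

/-- Membership in the unipotent radical of the stabiliser of `x ⊗ W`. -/
def QQ (x : U) (k : UG B) : Prop :=
  (∀ w, k.1 (τ x w) = τ x w) ∧ ∀ v, h.cu x v = 0 → ∃ w, k.1 v = v + τ x w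

theorem cu_inv {x : U} {k : UG B} {b : W → W} (hb : ∀ w, k.1 (τ x w) = τ x (b w)) {v : V}
    (hv : h.cu x v = 0) : h.cu x (k.1.symm v) = 0 :=
  h.sy.ext fun w => by rw [← h.B_cu, ← UG_map k, hb, k.1.apply_symm_apply, h.B_cu, hv]; simp

theorem QQ.conj {x : U} {k κ : UG B} (H : h.QQ x κ) {b : W → W} (hb : ∀ w, k.1 (τ x w) = τ x (b w))
    (hb' : Function.Surjective b) : h.QQ x (k * κ * k⁻¹) := by
  refine ⟨fun w => ?_, fun v hv => ?_⟩
  · obtain ⟨w, rfl⟩ := hb' w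
    simp [← hb, H.1]
  · obtain ⟨w, hw⟩ := H.2 _ (h.cu_inv hb hv)
    exact ⟨b w, by simp [hw, hb]⟩

variable [FiniteDimensional F U] [FiniteDimensional F W]

theorem qq_rho {x u : U} (hu : B₁ x u = 0) (c : F) : h.QQ x (h.tL (rho B₁ x u c)) :=
  ⟨fun w => by simp [rho_apply_self h.sd₁], fun v hv => ⟨h.cu u v, by simp [h.tL_rho hu, hv]⟩⟩

variable [Finite F] (hM : ∀ g : UG B, TN τ g.1 → g ∈ M) (H : ¬ SUG B ≤ M) (h3 : 3 ≤ finrank F W)
  (hq : (∃ c : F, c ≠ 0 ∧ c * c ≠ 1) ∨ 4 ≤ finrank F W)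
include h hM H h3 hq

theorem sq_scalar {x v : U} (hx : x ≠ 0) {κ : UG B} (hκ : κ ∈ M) (h1 : ∀ w, κ.1 (τ x w) = τ x w)
    (hv : B₁ x v = 0) {θ η : End F W} (hθ : ∀ w, κ.1 (τ v w) = τ v w + τ x (θ w))
    (hη : ∀ w w', β w' (η w) = β (θ w') w) : ∃ μ : F, ∀ w w', β (η w) (η w') = μ * β w w' := by
  by_cases h0 : v ∈ F ∙ x
  · obtain ⟨c, rfl⟩ := Submodule.mem_span_singleton.mp h0
    refine ⟨0, fun w w' => ?_⟩
    have := ten_right_inj h.ten hx (z := θ (η w)) (z' := 0) (by simpa [h1] using hθ (η w))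
    simp [hη, this]
  obtain ⟨a, -, a1, a2⟩ := h.sd₁.witt_SUG_two (li_pair_of_notMem hx h0) (li_pair_of_notMem
    (neg_ne_zero.mpr hx) (y := v) (by rwa [← Set.neg_singleton, Submodule.span_neg])) (by simp) (by simp [hv]) rfl (Or.inl rfl)
  have hv' := h.sd₁.comm0 hv
  have b1 : ∀ z, h.cu v (κ.1.symm z) = h.cu v z + η (h.cu x z) := fun z => h.sy.ext fun w => by
    rw [← h.B_cu, ← UG_map κ]; simp [← h.B_cu, hθ, hη]
  have b2 : EN (MM M) ((τ v + τ x ∘ₗ θ) ∘ₗ (h.cu v + η ∘ₗ h.cu x)) :=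
    en_of_mem (mul_mem (mul_mem hκ (hM _ (h.tn_tL (tv B₁ v 1)))) (inv_mem hκ)) fun z => by
      simp [h.tL_tv, hθ, b1]; abel
  have b3 : EN (MM M) ((τ v - τ x ∘ₗ θ) ∘ₗ (h.cu v - η ∘ₗ h.cu x)) :=
    b2.conj (mem_MM (hM _ (h.tn_tL a))) fun z => by
      have c1 := h.cu_tL a x z
      have c2 := h.cu_tL a v z
      rw [a1, show h.cu (-x) = -h.cu x by simp [cu], LinearMap.neg_apply, neg_eq_iff_eq_neg] at c1
      rw [a2] at c2
      simp [c1, c2, a1, a2]; abel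
  have b4 : EN (MM M) ((-2 : F) • τ v ∘ₗ h.cu v) :=
    en_of_mem (hM _ (h.tn_tL (tv B₁ v (-2)))) fun z => by simp [h.tL_tv]
  obtain ⟨_, ⟨k, hk, rfl⟩, c1⟩ := (b2.add b3 (by simp [h.alt₁, hv, hv'])).add b4
    (by simp [h.alt₁, hv, hv'])
  have c2 : ∀ z, k.1 z = z + τ x ((2 : F) • θ (η (h.cu x z))) := fun z => by
    rw [show k.1 z = _ from c1 z]; simp; module
  obtain ⟨c, rfl⟩ := h.exists_tv hM H h3 hq hx hk fun z hz => by simp [c2, hz]
  obtain ⟨f, hf⟩ := h.exists_one hx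
  refine ⟨c / 2, fun w w' => ?_⟩
  have c3 := ten_right_inj h.ten hx (z := c • w) (z' := (2 : F) • θ (η w)) (by
    simpa [h.tL_tv, hf] using c2 (τ f w))
  have c4 := congrArg (β · w') c3
  have := h.sy.two
  simp at c4
  rw [hη]; field_simp; linear_combination -c4

theorem exists_rho {x : U} (hx : x ≠ 0) {κ : UG B} (hκ : κ ∈ M) (h1 : h.QQ x κ) :
    ∃ v c, B₁ x v = 0 ∧ κ = h.tL (rho B₁ x v c) := by
  have E := h.sy
  obtain ⟨f, hf⟩ := h.exists_one hx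
  have hf' : B₁ f x = -1 := by rw [h.skew₁, hf]
  let θ : U →ₗ[F] End F W := τ.compr₂ (-h.cu f ∘ₗ (κ.1.toLinearMap - 1))
  have a1 : ∀ u, B₁ x u = 0 → ∀ w, κ.1 (τ u w) = τ u w + τ x (θ u w) := fun u hu w => by
    obtain ⟨w', hw⟩ := h1.2 (τ u w) (by simp [hu])
    simp [θ, hw, hf']
  have a2 : ∀ u, B₁ x u = 0 → ∃ c : F, ∀ w, θ u w = c • w := fun u hu => by
    refine h.scalar_of h3 hx fun y hy => E.mem_span fun w hw => ?_
    obtain ⟨η, hη⟩ := E.exists_adj (θ u - rf β y * θ u * rf β y)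
    have b0 := hM _ (h.tn_tR _ (E.rf_map hy))
    have b1 : ∀ w, κ.1.symm (τ x w) = τ x w := fun w => UG_inv_apply_eq (h1.1 w)
    have b2 : ∀ w, κ.1.symm (τ u w) = τ u w - τ x (θ u w) := fun w =>
      UG_inv_apply_eq (by simp [a1 u hu, h1.1])
    obtain ⟨μ, hμ⟩ := h.sq_scalar hM H h3 hq hx (mul_mem (mul_mem (mul_mem hκ b0) (inv_mem hκ)) b0)
      (fun w => by simp [b1, h1.1, SY.rf_rf hy]) hu (fun w => by
        simp [b2, h1.1, a1 u hu, SY.rf_rf hy]; abel) hη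
    have b3 : ∀ w, β y w = 0 → η w = (2 / β y y * β (θ u y) w) • y := fun w hw => E.ext fun z => by
      simp [hη, rf_apply, hw, E.symm z y]; ring
    obtain ⟨z, c1, c2, c3⟩ := exists_mem_ker₂ h3 (β y) (β (θ u y))
    obtain ⟨z', c4⟩ := E.exists_ne c1
    obtain rfl : μ = 0 := by simpa [b3 z c2, c3, c4] using hμ z z'
    simpa [b3 w hw, hy, E.two] using hμ w w
  haveI : Nontrivial W := Module.nontrivial_of_finrank_pos (R := F) (by omega)
  obtain ⟨w₀, hw₀⟩ := exists_ne (0 : W)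
  obtain ⟨ψ, hψ⟩ := Module.Projective.exists_dual_eq_one F hw₀
  obtain ⟨v, hv⟩ := h.sd₁.exists_repr (ψ ∘ₗ θ.flip w₀)
  have a3 : B₁ x v = 0 := by rw [h.skew₁, hv]; simp [θ, h1.1]
  obtain ⟨c, hc⟩ := h.exists_tv hM H h3 hq hx (mul_mem (inv_mem (hM _ (h.tn_tL (rho B₁ x v 0)))) hκ)
    fun z hz => UG_inv_apply_eq (h.eq_of_cu hf (p := fun z => (h.tL (rho B₁ x v 0)).1 z = κ.1 z)
      (by simp) (fun u w hu => by
        obtain ⟨c, hc⟩ := a2 u hu
        simp [h.tL_rho a3, hu, a1 u hu, hv, hc, hψ]) (fun _ _ a b => by simp [a, b]) hz)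
  refine ⟨v, c, a3, ?_⟩
  rw [inv_mul_eq_iff_eq_mul, ← h.tL_mul, tv, rho_mul h.sd₁ (h.sd₁.adm_sp a3 _)
    (h.sd₁.adm_sp (by simp) _)] at hc
  simpa using hc

theorem exists_sim {x : U} (hx : x ≠ 0) {k : UG B} (hk : k ∈ M) {b : W → W}
    (hb : ∀ w, k.1 (τ x w) = τ x (b w)) : ∃ μ : F, μ ≠ 0 ∧ (∀ z, b (h.cu x z) = μ • h.cu x (k.1 z)) ∧
      ∀ w w', β (b w) (b w') = μ * β w w' := by
  obtain ⟨μ, hμ⟩ := h.exists_tv hM H h3 hq hx
    (mul_mem (mul_mem hk (hM _ (h.tn_tL (tv B₁ x 1)))) (inv_mem hk)) fun v hv => by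
      simp [h.tL_tv, h.cu_inv hb hv]
  obtain ⟨f, hf⟩ := h.exists_one hx
  have a1 : ∀ z, b (h.cu x z) = μ • h.cu x (k.1 z) := fun z => ten_right_inj h.ten hx (by
    simpa [h.tL_tv, hb] using congrArg (fun g : UG B => g.1 (k.1 z)) hμ)
  refine ⟨μ, fun e => ?_, a1, fun w w' => ?_⟩
  · haveI : Nontrivial W := Module.nontrivial_of_finrank_pos (R := F) (by omega)
    obtain ⟨w, hw⟩ := exists_ne (0 : W)
    have := a1 (τ f w)
    simp [hf, e] at this
    exact UG_ne_zero k (ten_ne_zero h.ten hx hw) (by simp [hb, this])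
  · have := a1 (τ f w')
    simp only [cu_ten, hf, one_smul] at this
    rw [this, map_smul, ← h.B_cu, ← hb, UG_map, h.map, hf, one_mul, smul_eq_mul]

theorem tn_of_stab {x : U} (hx : x ≠ 0) {k : UG B} (hk : k ∈ M) (h1 : ∀ w, ∃ w', k.1 (τ x w) = τ x w') :
    TN τ k.1 := by
  have E := h.sy
  obtain ⟨f, hf⟩ := h.exists_one hx
  have hf' : B₁ f x = -1 := by rw [h.skew₁, hf]
  let b₀ : End F W := -h.cu f ∘ₗ k.1.toLinearMap ∘ₗ τ x
  have a0 : ∀ w, k.1 (τ x w) = τ x (b₀ w) := fun w => by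
    obtain ⟨w', hw⟩ := h1 w
    simp [b₀, hw, hf']
  let b := LinearEquiv.ofInjectiveEndo b₀ ((injective_iff_map_eq_zero _).mpr fun w hw => by
    by_contra e
    exact UG_ne_zero k (ten_ne_zero h.ten hx e) (by simp [a0, hw]))
  have hb : ∀ w, k.1 (τ x w) = τ x (b w) := a0
  clear_value b
  obtain ⟨μ, μ0, a1, a2⟩ := h.exists_sim hM H h3 hq hx hk hb
  have a3 : ∀ u, B₁ x u = 0 → ∃ u', ∀ w, ∃ w', k.1 (τ u w) = τ u' (b w) + τ x w' := fun u hu => by
    obtain ⟨v, c, b1, b2⟩ := h.exists_rho hM H h3 hq hx (mul_mem (mul_mem hk (hM _ (h.tn_tL _)))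
      (inv_mem hk)) ((h.qq_rho hu 0).conj h hb b.surjective)
    refine ⟨μ⁻¹ • v, fun w => ?_⟩
    have b3 := congrArg (fun g : UG B => g.1 (k.1 (τ f w))) b2
    have b4 := a1 (τ f w)
    simp [hf] at b4
    simp only [UG_mul_apply, UG_inv_apply_apply, h.tL_rho hu, h.tL_rho b1, cu_ten, hf, one_smul,
      map_add k.1, hb] at b3
    refine ⟨c • h.cu x (k.1 (τ f w)) + h.cu v (k.1 (τ f w)) - b ((0 : F) • w + B₁ u f • w), ?_⟩
    rw [b4, map_smul, LinearMap.map_smul₂, smul_smul, mul_inv_cancel₀ μ0, map_sub]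
    linear_combination (norm := module) b3
  have a4 : ∀ y, β y y ≠ 0 → ∀ u, ∃ u', k.1 (τ u y) = τ u' (b y) := fun y hy u => by
    have hy' : β (b y) (b y) ≠ 0 := by simp [a2, μ0, hy]
    have b1 : ∀ w, rf β (b y) (b w) = b (rf β y w) := fun w => by
      simp [rf_apply, a2]; field_simp
    have b2 := hM _ (h.tn_tR _ (E.rf_map hy))
    have b3 := hM _ (h.tn_tR _ (E.rf_map hy'))
    obtain ⟨v, c, b4, b5⟩ := h.exists_rho hM H h3 hq hx (κ := k * h.sR hy * k⁻¹ * h.sR hy')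
      (mul_mem (mul_mem (mul_mem hk b2) (inv_mem hk)) b3) ⟨fun w => by
        obtain ⟨w, rfl⟩ := b.surjective w
        simp only [sR, UG_mul_apply, tR_ten, b1]; simp [← hb, SY.rf_rf hy], fun z hz => by
          have c1 : h.cu x ((h.sR hy').1 z) = 0 := by simp [sR, h.cu_tR, hz]
          obtain ⟨w, hw⟩ := h.eq_of_cu hf (p := fun z => ∃ w, k.1 ((h.sR hy).1 z) =
            (h.sR hy').1 (k.1 z) + τ x w) ⟨0, by simp⟩ (fun u w hu => by
              obtain ⟨u', hu'⟩ := a3 u hu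
              obtain ⟨w₁, c2⟩ := hu' w
              obtain ⟨w₂, c3⟩ := hu' (rf β y w)
              exact ⟨w₂ - rf β (b y) w₁, by simp [sR, c2, c3, b1]⟩)
            (fun _ _ ⟨w, c2⟩ ⟨w', c3⟩ => ⟨w + w', by simp [c2, c3]; abel⟩) (h.cu_inv hb c1)
          refine ⟨w, ?_⟩
          refine hw.trans ?_
          nth_rewrite 1 [← h.sR_inv hy']
          simp⟩
    have b6 : k * h.sR hy * k⁻¹ = h.tL (rho B₁ x v c) * h.sR hy' := by
      rw [← b5, mul_assoc _ (h.sR hy')]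
      nth_rewrite 1 [← h.sR_inv hy']
      simp
    have b7 : ∀ u, (rho B₁ x v c).1 u = u := fun u => by
      have c1 : (k * h.sR hy * k⁻¹) * (k * h.sR hy * k⁻¹) = 1 := by
        nth_rewrite 1 [← h.sR_inv hy]; group
      rw [b6] at c1
      have c2 := congrArg (fun g : UG B => g.1 (τ u y)) c1
      simp only [UG_mul_apply, sR, tR_ten, tL_ten, SY.rf_rf hy', UG_one_apply] at c2
      have c3 := ten_left_inj h.ten (z := y) (by rintro rfl; simp at hy) c2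
      rw [rho_apply h.sd₁ (h.sd₁.adm_sp b4 c)] at c3 ⊢
      simp [rho_apply h.sd₁ (h.sd₁.adm_sp b4 c), h.alt₁, b4, h.sd₁.comm0 b4] at c3
      refine smul_right_injective U E.two ?_
      linear_combination (norm := module) c3
    have b8 := congrArg (fun g : UG B => g.1 (k.1 (τ u y))) b6
    rw [show h.tL (rho B₁ x v c) = 1 from h.ext fun _ _ => by simp [b7], one_mul] at b8
    simp only [UG_mul_apply, UG_inv_apply_apply, h.sR_apply hy'] at b8
    simp only [sR, tR_ten, SY.rf_self hy, map_neg] at b8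
    refine ⟨(β (b y) (b y))⁻¹ • h.cw (b y) (k.1 (τ u y)), smul_right_injective V E.two ?_⟩
    simp only [LinearMap.map_smul₂]
    linear_combination (norm := module) -b8
  have a5 : ∀ u, ∃ u', ∀ w, k.1 (τ u w) = τ u' (b w) := fun u => by
    obtain ⟨u', hu⟩ := h.exists_eq_ten h3 (f := k.1.toLinearMap ∘ₗ τ u ∘ₗ b.symm.toLinearMap) fun y hy => by
      obtain ⟨y, rfl⟩ := b.surjective y
      simpa using a4 y (by rintro e; simp [a2, e] at hy) u
    exact ⟨u', fun w => by simpa using hu (b w)⟩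
  haveI : Nontrivial W := Module.nontrivial_of_finrank_pos (R := F) (by omega)
  obtain ⟨w₀, hw₀⟩ := exists_ne (0 : W)
  obtain ⟨ψ, hψ⟩ := Module.Projective.exists_dual_eq_one F (b.map_ne_zero_iff.mpr hw₀)
  refine ⟨cR h.ten ψ ∘ₗ k.1.toLinearMap ∘ₗ τ.flip w₀, b, fun u w => ?_⟩
  obtain ⟨u', hu⟩ := a5 u
  simp [hu, hψ]

end TF

end Cfsg.Agent.H12
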