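import Mathlib
import Cfsg.Agent.H12.DecC
import Cfsg.Agent.H12.SubC
import Cfsg.Agent.H12.TfB

/-!
Orthonormal frames of unitary spaces: norm one elements, pigeonhole lemmas and monomial isometries.
-/

set_option autoImplicit false

namespace Cfsg.Agent.H12

open Module

variable {F V : Type*} [Field F] [AddCommGroup V] [Module F V] {σ : F →+* F}

section mu
variable [Finite F] (hσ : σ ≠ RingHom.id F) (h2 : ∀ a, σ (σ a) = a)

open Classical in
/-- The elements of norm one. -/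
noncomputable def muF (σ : F →+* F) : Finset F := (Set.toFinite {a : F | σ a * a = 1}).toFinset

open Classical in
/-- The fixed field as a finite set. -/
noncomputable def fxF (σ : F →+* F) : Finset F := (Set.toFinite {a : F | σ a = a}).toFinset

@[simp] theorem mem_muF {a : F} : a ∈ muF σ ↔ σ a * a = 1 := by simp [muF]
@[simp] theorem mem_fxF {a : F} : a ∈ fxF σ ↔ σ a = a := by simp [fxF]

theorem card_fxF : (fxF σ).card = q0 σ := by
  rw [← Nat.card_eq_finsetCard]; exact Nat.card_congr (Equiv.subtypeEquivRight fun _ => mem_fxF)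

include hσ h2

theorem card_muF : (muF σ).card = q0 σ + 1 := by
  rw [← card_N1 hσ h2, ← Nat.card_eq_finsetCard]
  exact Nat.card_congr (Equiv.ofBijective (fun x : N1 σ => (⟨x.1, mem_muF.mpr x.2⟩ : muF σ))
    ⟨fun x y e => Subtype.ext (Units.ext (congrArg Subtype.val e)), fun x =>
      ⟨⟨Units.mk0 x.1 (right_ne_zero_of_mul_eq_one (mem_muF.mp x.2)), mem_muF.mp x.2⟩, rfl⟩⟩).symm

theorem exists_mu_pow {n : ℕ} (hn : 0 < n) (h : n ≤ q0 σ) : ∃ ε, σ ε * ε = 1 ∧ ε ^ n ≠ 1 := by
  classical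
  by_contra! H
  have := (Finset.card_le_card (s := muF σ) (t := Polynomial.nthRootsFinset n (1 : F)) fun ε hε =>
    (Polynomial.mem_nthRootsFinset hn _).mpr (H ε (mem_muF.mp hε))).trans
    ((Multiset.toFinset_card_le _).trans (Polynomial.card_nthRoots n 1))
  rw [card_muF hσ h2] at this; omega

theorem exists_mu : ∃ ε, σ ε * ε = 1 ∧ ε ^ 2 ≠ 1 := exists_mu_pow hσ h2 two_pos two_le_q0

theorem exists_mu' (h : 3 ≤ q0 σ) : ∃ ε, σ ε * ε = 1 ∧ ε ^ 2 ≠ 1 ∧ ε ^ 3 ≠ 1 := by
  obtain ⟨ε, a1, a2⟩ := exists_mu hσ h2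
  obtain ⟨δ, b1, b2⟩ := exists_mu_pow hσ h2 three_pos h
  by_cases a3 : ε ^ 3 = 1
  · by_cases b3 : δ ^ 2 = 1
    · refine ⟨ε * δ, by rw [map_mul]; linear_combination σ δ * δ * a1 + b1, by rwa [mul_pow, b3, mul_one],
        by rwa [mul_pow, a3, one_mul]⟩
    · exact ⟨δ, b1, b3, b2⟩
  · exact ⟨ε, a1, a2, a3⟩

theorem eq_top_of_mu {A : AddSubgroup F} (h : ∀ ε, σ ε * ε = 1 → ∀ c ∈ A, ε * c ∈ A) {c : F}
    (hc : c ∈ A) (h0 : c ≠ 0) (x : F) : x ∈ A := by
  classical
  have := Fintype.ofFinite F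
  let Z : Subring F :=
    { carrier := {a | ∀ c ∈ A, a * c ∈ A}
      mul_mem' := fun ha hb c h => by rw [mul_assoc]; exact ha _ (hb c h)
      one_mem' := fun c h => by rwa [one_mul]
      add_mem' := fun ha hb c h => by rw [add_mul]; exact add_mem (ha c h) (hb c h)
      zero_mem' := fun c h => by simp
      neg_mem' := fun ha c h => by rw [neg_mul]; exact neg_mem (ha c h) }
  let L : Subfield F := ⟨Z, fun x hx => by
    by_cases h0 : x = 0
    · simp [h0]
    · rw [show x⁻¹ = x ^ (Fintype.card F - 2) from (eq_inv_of_mul_eq_one_left (by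
        rw [← pow_succ, ← FiniteField.pow_card_sub_one_eq_one x h0]
        have := Fintype.one_lt_card (α := F)
        congr 1; omega)).symm]
      exact Z.pow_mem hx _⟩
  have a1 : q0 σ + 1 ≤ Nat.card L := by
    rw [← card_muF hσ h2, ← Nat.card_eq_finsetCard]
    exact Nat.card_le_card_of_injective (fun x : muF σ => (⟨x.1, h x (mem_muF.mp x.2)⟩ : L))
      fun x y e => Subtype.ext (by simpa using congrArg Subtype.val e)
  have a2 : finrank L F = 1 := by
    by_contra e
    have := finrank_pos (R := L) (M := F)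
    have b1 := (Nat.pow_le_pow_right (by omega) (show 2 ≤ finrank L F by omega)).trans
      (Module.natCard_eq_pow_finrank (K := L) (V := F)).ge
    rw [card_eq_q0_sq hσ h2] at b1
    nlinarith
  obtain ⟨a, ha⟩ := (finrank_eq_one_iff_of_nonzero' (K := L) (1 : F) one_ne_zero).mp a2 (x / c)
  simpa [show a.1 = x / c by simpa [Subfield.smul_def] using ha, h0] using a.2 c hc

omit hσ h2 in
theorem pigeon {s s' t : Finset F} {c c' k k' : F} (hc : c ≠ 0) (hc' : c' ≠ 0) (hs : s ⊆ muF σ)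
    (hs' : s' ⊆ muF σ) (h1 : ∀ x ∈ s, x * c + σ (x * c) + k ∈ t) (h1' : ∀ x ∈ s', x * c' + σ (x * c') + k' ∈ t)
    (h : 2 * t.card < s.card + s'.card) :
    ∃ x ∈ s, ∃ y ∈ s', x * c + σ (x * c) + k = y * c' + σ (y * c') + k' := by
  classical
  have key : ∀ (s : Finset F) (c k : F), c ≠ 0 → s ⊆ muF σ →
      s.card ≤ 2 * (s.image fun x => x * c + σ (x * c) + k).card := fun s c k hc hs =>
    Finset.card_le_mul_card_image _ 2 fun y _ => by
      have a1 : Polynomial.C c * Polynomial.X ^ 2 + Polynomial.C (k - y) * Polynomial.X + Polynomial.C (σ c) ≠ 0 :=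
        Polynomial.ne_zero_of_natDegree_gt (n := 1) (by rw [Polynomial.natDegree_quadratic hc]; omega)
      refine (Finset.card_le_card fun x hx => ?_).trans ((Multiset.toFinset_card_le _).trans
        ((Polynomial.card_roots' _).trans (Polynomial.natDegree_quadratic (b := k - y) (c := σ c) hc).le))
      obtain ⟨b1, b2⟩ := Finset.mem_filter.mp hx
      have b3 := mem_muF.mp (hs b1)
      simp only [Multiset.mem_toFinset, Polynomial.mem_roots a1, Polynomial.IsRoot, Polynomial.eval_add,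
        Polynomial.eval_mul, Polynomial.eval_C, Polynomial.eval_pow, Polynomial.eval_X]
      rw [map_mul] at b2
      linear_combination x * b2 - σ c * b3
  by_contra! H
  have := Finset.card_le_card (Finset.union_subset (Finset.image_subset_iff.mpr h1) (Finset.image_subset_iff.mpr h1'))
  rw [Finset.card_union_of_disjoint (Finset.disjoint_left.mpr fun y a b => by
    obtain ⟨x, a1, rfl⟩ := Finset.mem_image.mp a
    obtain ⟨z, b1, b2⟩ := Finset.mem_image.mp b
    exact H x a1 z b1 b2.symm)] at this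
  have := key s c k hc hs; have := key s' c' k' hc' hs'; omega

theorem pigeon₁ {c c' k k' : F} (hc : c ≠ 0) (hc' : c' ≠ 0) (hk : σ k = k) (hk' : σ k' = k') :
    ∃ x y, σ x * x = 1 ∧ σ y * y = 1 ∧ x * c + σ (x * c) + k = y * c' + σ (y * c') + k' := by
  obtain ⟨x, a1, y, a2, a3⟩ := pigeon (σ := σ) (t := fxF σ) (k := k) (k' := k') hc hc' subset_rfl subset_rfl
    (fun x _ => by simp [h2, hk, add_comm]) (fun x _ => by simp [h2, hk', add_comm])
    (by rw [card_muF hσ h2, card_fxF]; omega)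
  exact ⟨x, y, mem_muF.mp a1, mem_muF.mp a2, a3⟩

theorem pigeon₂ {c c' : F} (hc : c ≠ 0) (hc' : c' ≠ 0) (hk : σ c = c) (hk' : σ c' = c') :
    ∃ x y, σ x * x = 1 ∧ σ y * y = 1 ∧ x ≠ 1 ∧ y ≠ 1 ∧ c * (x + σ x - 2) = c' * (y + σ y - 2) := by
  classical
  have key : ∀ c : F, c ≠ 0 → σ c = c → ∀ x ∈ (muF σ).erase 1, x * c + σ (x * c) + -(2 * c) ∈ (fxF σ).erase 0 :=
    fun c hc hk x hx => by
      obtain ⟨a1, a2⟩ := Finset.mem_erase.mp hx
      refine Finset.mem_erase.mpr ⟨fun e => mul_ne_zero hc (pow_ne_zero 2 (sub_ne_zero.mpr a1)) ?_, by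
        simp [h2, hk, add_comm, map_ofNat]⟩
      rw [map_mul, hk] at e
      linear_combination x * e - c * mem_muF.mp a2
  obtain ⟨x, a1, y, a2, a3⟩ := pigeon (σ := σ) hc hc' (Finset.erase_subset _ _) (Finset.erase_subset _ _)
    (key c hc hk) (key c' hc' hk') (by
      have := two_le_q0 (σ := σ)
      rw [Finset.card_erase_of_mem (by simp), Finset.card_erase_of_mem (by simp), card_muF hσ h2, card_fxF]; omega)
  rw [Finset.mem_erase, mem_muF] at a1 a2
  rw [map_mul, map_mul, hk, hk'] at a3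
  exact ⟨x, y, a1.2, a2.2, a1.1, a2.1, by linear_combination a3⟩

omit [Finite F] hσ in
theorem exists_mu_eq {x y : F} (h : σ y * y = σ x * x) : ∃ ε, σ ε * ε = 1 ∧ y = ε * x := by
  by_cases hx : x = 0
  · exact ⟨1, by simp, by simpa [hx] using h⟩
  · have : σ x ≠ 0 := by simpa
    exact ⟨y / x, by rw [map_div₀]; field_simp; linear_combination h, by field_simp⟩

end mu

variable {B : V →ₛₗ[σ] V →ₗ[F] F} {M : Subgroup (UG B)} {ι : Type*} [Fintype ι] [DecidableEq ι]
  {b : Basis ι F V} {κ : F}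

/-- An orthogonal basis of vectors of the same norm. -/
structure OB (B : V →ₛₗ[σ] V →ₗ[F] F) (b : Basis ι F V) (κ : F) : Prop where
  sd : SD B
  ne : κ ≠ 0
  map : ∀ i j, B (b i) (b j) = if i = j then κ else 0
  hσ : σ ≠ RingHom.id F

namespace OB
variable (h : OB B b κ)
include h

theorem left (i : ι) (x : V) : B (b i) x = κ * b.repr x i := by
  conv_lhs => rw [← b.sum_repr x, map_sum]
  simp [h.map, mul_comm]

theorem conj [Nonempty ι] : σ κ = -κ := by
  obtain ⟨i⟩ := ‹Nonempty ι›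
  simpa [h.map] using h.sd.σ_map (b i) (b i)

theorem right (i : ι) (x : V) : B x (b i) = κ * σ (b.repr x i) := by
  have : Nonempty ι := ⟨i⟩
  rw [h.sd.skew, h.left, map_mul, h.conj]; ring

theorem sum (x y : V) : B x y = κ * ∑ i, σ (b.repr x i) * b.repr y i := by
  conv_lhs => rw [← b.sum_repr y, map_sum]
  simp [h.right, Finset.mul_sum, mul_comm, mul_left_comm]

theorem adj (g : UG B) (i j : ι) : b.repr (g.1.symm (b j)) i = σ (b.repr (g.1 (b i)) j) :=
  mul_left_cancel₀ h.ne (by rw [← h.left, ← h.right, UG_map_left]; rfl)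

theorem exists_mono (π : Equiv.Perm ι) {c : ι → F} (hc : ∀ i, σ (c i) * c i = 1) :
    ∃ g : UG B, (∀ i, g.1 (b i) = c i • b (π i)) ∧ (∀ x i, b.repr (g.1 x) (π i) = c i * b.repr x i) ∧
      LinearMap.det (g.1 : V →ₗ[F] V) = (Equiv.Perm.sign π : ℤ) * ∏ i, c i := by
  haveI := Module.Finite.of_basis b
  let f := b.constr F fun i => c i • b (π i)
  have a1 : ∀ x i, b.repr (f x) (π i) = c i * b.repr x i := fun x i => by
    simp [f, Basis.constr_apply_fintype, Finsupp.single_apply, mul_comm]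
  let g := h.sd.mkU f fun x y => by
    rw [h.sum, h.sum, ← Equiv.sum_comp π]
    simp only [a1, map_mul]
    exact congrArg _ (Finset.sum_congr rfl fun i _ => by linear_combination σ (b.repr x i) * b.repr y i * hc i)
  refine ⟨g, fun i => b.constr_basis F _ i, a1, ?_⟩
  rw [← LinearMap.det_toMatrix b, show LinearMap.toMatrix b b g.1 = (Matrix.diagonal c).submatrix (π⁻¹ : Equiv.Perm ι) id from ?_,
    Matrix.det_permute, Matrix.det_diagonal, Equiv.Perm.sign_inv]
  ext i j
  obtain ⟨i, rfl⟩ := π.surjective i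
  simp [LinearMap.toMatrix_apply, show g.1 (b j) = f (b j) from rfl, a1, Matrix.diagonal_apply,
    Finsupp.single_apply, eq_comm]

variable (hM : ∀ g ∈ SUG B, Mon b g.1 → g ∈ M)
include hM

theorem mono_mem (π : Equiv.Perm ι) {c : ι → F} (hc : ∀ i, σ (c i) * c i = 1) (m : ι) :
    ∃ k ∈ M, ∃ c' : ι → F, (∀ i, i ≠ m → c' i = c i) ∧ (∀ i, σ (c' i) * c' i = 1) ∧
      ((Equiv.Perm.sign π : ℤ) * ∏ i, c' i = 1) ∧ (∀ i, k.1 (b i) = c' i • b (π i)) ∧
      ∀ x i, b.repr (k.1 x) (π i) = c' i * b.repr x i := by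
  set d : F := (Equiv.Perm.sign π : ℤ) * ∏ i ∈ Finset.univ \ {m}, c i with hd
  have a0 : σ d * d = 1 := by
    rw [hd, map_mul, map_prod, map_intCast, mul_mul_mul_comm, ← Finset.prod_mul_distrib, ← Int.cast_mul]
    simp [hc, ← Units.val_mul]
  have a1 : ∀ i, σ (Function.update c m (σ d) i) * Function.update c m (σ d) i = 1 := fun i => by
    by_cases e : i = m
    · simp [e, h.sd.invol, mul_comm d, a0]
    · simp [e, hc]
  have a2 : (Equiv.Perm.sign π : ℤ) * ∏ i, Function.update c m (σ d) i = 1 := by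
    rw [Finset.prod_update_of_mem (Finset.mem_univ m), mul_left_comm, a0]
  obtain ⟨g, b1, b2, b3⟩ := h.exists_mono π a1
  exact ⟨g, hM g (mem_SUG.mpr (b3.trans a2)) fun i => ⟨_, _, b1 i⟩, _, fun i hi => by simp [hi], a1, a2, b1, b2⟩

theorem diag_mem {c : ι → F} (hc : ∀ i, σ (c i) * c i = 1) (h1 : ∏ i, c i = 1) :
    ∃ k ∈ M, ∀ x i, b.repr (k.1 x) i = c i * b.repr x i := by
  obtain ⟨g, b1, b2, b3⟩ := h.exists_mono 1 hc
  exact ⟨g, hM g (mem_SUG.mpr (by simp [b3, h1])) fun i => ⟨_, _, b1 i⟩, b2⟩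

theorem dd_mem {j k : ι} (hjk : j ≠ k) {ε : F} (hε : σ ε * ε = 1) : ∃ d ∈ M, ∀ x,
    d.1 x = x + ((ε - 1) * b.repr x j) • b j + ((σ ε - 1) * b.repr x k) • b k := by
  obtain ⟨d, a1, a2⟩ := h.diag_mem hM (c := Function.update (Function.update 1 j ε) k (σ ε)) (fun i => by
    by_cases e : i = k
    · simp [e, h.sd.invol, mul_comm ε, hε]
    · by_cases e' : i = j <;> simp [e, e', hε, hjk]) (by
      rw [Finset.prod_update_of_mem (Finset.mem_univ k), Finset.prod_update_of_mem (by simp [hjk])]; simpa)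
  refine ⟨d, a1, fun x => b.ext_elem fun i => ?_⟩
  by_cases e : i = k
  · simp [a2, e, hjk.symm, sub_mul]
  · by_cases e' : i = j <;> simp [a2, e, e', hjk, sub_mul, Finsupp.single_apply, Ne.symm]

end OB

end Cfsg.Agent.H12
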