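import Mathlib
import Cfsg.Agent.H12.UfA

/-!
Overgroups of the unitary monomial group with a non-monomial element fixing a point of the frame.
-/

set_option autoImplicit false

namespace Cfsg.Agent.H12

open Module

variable {F V : Type*} [Field F] [AddCommGroup V] [Module F V] {σ : F →+* F}
  {B : V →ₛₗ[σ] V →ₗ[F] F} {M : Subgroup (UG B)} {ι : Type*} [Fintype ι] [DecidableEq ι]
  {b : Basis ι F V} {κ : F} {a : ι} {u : V}

/-- `M` contains the homologies with centre `u`, corrected on the basis vector `b a`. -/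
structure Om (M : Subgroup (UG B)) (b : Basis ι F V) (κ : F) (a : ι) (u : V) : Prop where
  zero : b.repr u a = 0
  self : B u u = κ
  ex : ∀ ε, σ ε * ε = 1 → ∃ r ∈ M, ∀ x,
    r.1 x = x + ((ε - 1) / κ * B u x) • u + ((σ ε - 1) * b.repr x a) • b a

namespace OB
variable (h : OB B b κ)
include h

omit [Fintype ι] in
theorem mu_conj {ε : F} (e : σ ε * ε = 1) : σ (σ ε) * σ ε = 1 := by rw [h.sd.invol, mul_comm, e]

theorem om_smul (H : Om M b κ a u) {δ : F} (e : σ δ * δ = 1) : Om M b κ a (δ • u) :=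
  ⟨by simp [H.zero], by simp [H.self]; linear_combination κ * e, fun ε hε => by
    obtain ⟨r, a1, a2⟩ := H.ex ε hε
    refine ⟨r, a1, fun x => ?_⟩
    simp only [a2, LinearMap.map_smulₛₗ, LinearMap.smul_apply, smul_eq_mul]
    match_scalars <;> first | rfl | linear_combination -(ε - 1) / κ * B u x * e⟩

theorem norm_of_map {k : UG B} {c : F} {i j : ι} (hc : k.1 (b i) = c • b j) : σ c * c = 1 := by
  have := UG_map k (b i) (b i)
  simp [hc, h.map] at this
  exact mul_right_cancel₀ h.ne (by linear_combination this)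

theorem om_map (H : Om M b κ a u) {k : UG B} (hk : k ∈ M) {c : F} (hc : k.1 (b a) = c • b a) :
    Om M b κ a (k.1 u) := by
  have a0 := h.norm_of_map hc
  have a1 : ∀ x, b.repr (k.1.symm x) a = σ c * b.repr x a := fun x => mul_left_cancel₀ h.ne (by
    rw [← h.left, ← UG_map k]; simp [hc, h.left]; ring)
  refine ⟨?_, by rw [UG_map, H.self], fun ε hε => ?_⟩
  · simpa [H.zero, left_ne_zero_of_mul_eq_one a0] using (a1 (k.1 u)).symm
  obtain ⟨r, a2, a3⟩ := H.ex ε hε
  refine ⟨k * r * k⁻¹, mul_mem (mul_mem hk a2) (inv_mem hk), fun x => ?_⟩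
  simp [a3, a1, hc, UG_map_left, smul_smul]
  congr 1; linear_combination (σ ε - 1) * b.repr x a * a0

theorem om_hom (H : Om M b κ a u) {x : V} (H' : Om M b κ a x) {ε : F} (e : σ ε * ε = 1) :
    Om M b κ a (x + ((ε - 1) / κ * B u x) • u) := by
  obtain ⟨r, a1, a2⟩ := H.ex ε e
  simpa [a2, H'.zero] using h.om_map H' a1 (c := σ ε) (by simp [a2, h.right, H.zero, sub_smul])

variable [Finite F]

theorem om_AM (H : Om M b κ a u) {w : V} (H' : Om M b κ a (u + w)) (h0 : B u w = 0) (c : F) :
    AM M w (c • u) := by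
  have D := h.sd
  have : Nonempty ι := ⟨a⟩
  have a0 := h.ne
  have a1 := D.comm0 h0
  have a2 : B w w = 0 := by simpa [H.self, h0, a1] using H'.self
  have a3 : b.repr w a = 0 := by simpa [H.zero] using H'.zero
  let A : AddSubgroup F :=
    { carrier := {c | AM M w (c • u)}
      add_mem' := fun h1 h2 => by simpa [add_smul] using AM.add D h1 h2
      zero_mem' := by simpa using AM.zero D a2
      neg_mem' := fun h1 => by simpa using AM.neg D h1 }
  obtain ⟨ε, e1, e2⟩ := exists_mu h.hσ D.invol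
  have e3 : ε - 1 ≠ 0 := sub_ne_zero.mpr fun e => e2 (by simp [e])
  refine eq_top_of_mu h.hσ D.invol (A := A) (fun δ hδ c hc => ?_) (c := (ε - 1) / κ) ?_ (div_ne_zero e3 a0) c
  · obtain ⟨r, b1, b2⟩ := H.ex δ hδ
    have := AM.map D hc b1
    rw [show r.1 w = w by simp [b2, h0, a3], show r.1 (c • u) = (δ * c) • u by
      simp [b2, H.self, H.zero]; match_scalars; field_simp; ring] at this
    exact this
  obtain ⟨r, b1, b2⟩ := H.ex _ (h.mu_conj e1)
  obtain ⟨s, b3, b4⟩ := H'.ex _ e1
  have b5 : Adm B w (((ε - 1) / κ) • u) ((ε - 1) / κ) := ⟨a2, by simp [a1], by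
    simp [H.self, h.conj]; field_simp; linear_combination e1⟩
  refine ⟨_, b5, ?_⟩
  convert mul_mem b3 b1 using 1
  refine UG_ext fun x => ?_
  simp [rho_apply D b5, b2, b4, H.self, H.zero, a1, a3, h.right, h.conj, D.invol]
  match_scalars <;> field_simp
  · linear_combination -B u x * e1
  · linear_combination -B u x * e1
  · linear_combination -b.repr x a * e1

theorem om_IS (H : Om M b κ a u) {w : V} (H' : Om M b κ a (u + w)) (h0 : B u w = 0) : IS M w := by
  have : Nonempty ι := ⟨a⟩
  refine IS.of_fix (by simpa [H.self, h0, h.sd.comm0 h0] using H'.self) fun c hc => ?_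
  obtain ⟨d, rfl⟩ := H13.exists_add_conj_eq h.hσ h.sd.invol hc
  simpa [H.self, h.ne, mul_comm κ] using
    AM.tv_mem h.sd (h.om_AM H H' h0 1) (h.om_AM H H' h0 (d / κ))

theorem om_add (H : Om M b κ a u) {w : V} (H' : Om M b κ a (u + w)) (h0 : B u w = 0) (c : F) :
    Om M b κ a (u + c • w) := by
  obtain ⟨d, a1, a2⟩ := h.om_AM H H' h0 (σ (c / κ))
  have a3 : b.repr w a = 0 := by simpa [H.zero] using H'.zero
  have := h.om_map H a2 (c := 1) (by rw [one_smul, rho_apply_of_perp h.sd] <;> simp [h.right, a3, H.zero])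
  rw [rho_apply h.sd a1] at this
  simpa [h.sd.comm0 h0, H.self, h.sd.invol, h.ne] using this

variable (hM : ∀ g ∈ SUG B, Mon b g.1 → g ∈ M)
include hM

omit [Finite F] in
theorem om_basis {i : ι} (hi : i ≠ a) : Om M b κ a (b i) :=
  ⟨by simp [hi], by simp [h.map], fun ε hε => by
    obtain ⟨d, a1, a2⟩ := h.dd_mem hM hi hε
    exact ⟨d, a1, fun x => by rw [a2, h.left, div_mul_eq_mul_div, mul_left_comm, mul_div_cancel_left₀ _ h.ne]⟩⟩

theorem om_plane (H : Om M b κ a u) {i : ι} {t α γ : F} (ht : b.repr u i = t) (h0 : t ≠ 0) (h1 : σ t * t ≠ 1)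
    (hα : α ≠ 0) (hγ : γ ≠ 0) (e : σ α * α + σ γ * γ * (1 - σ t * t) = 1) :
    Om M b κ a (α • b i + γ • (u - t • b i)) := by
  have D := h.sd
  have a0 := h.ne
  have a1 : 1 - σ t * t ≠ 0 := sub_ne_zero.mpr h1.symm
  have a2 := D.σ_ne_zero h0
  have hi := h.om_basis hM (show i ≠ a by rintro rfl; exact h0 (ht ▸ H.zero))
  obtain ⟨ε, ε', e1, e2, e3⟩ := pigeon₁ h.hσ D.invol (c := σ t * t * (1 - σ t * t))
    (c' := σ t * α * σ γ * (1 - σ t * t)) (k := (σ t * t) ^ 2 + (1 - σ t * t) ^ 2)
    (k' := σ t * t * (σ α * α) + σ γ * γ * (1 - σ t * t) ^ 2) (by positivity) (by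
      have := D.σ_ne_zero hγ; positivity) (by simp [D.invol, mul_comm]) (by simp [D.invol, mul_comm])
  simp only [map_mul, map_sub, map_one, D.invol] at e3
  have b1 : σ (σ t * ε' * α + γ * (1 - σ t * t)) * (σ t * ε' * α + γ * (1 - σ t * t)) =
      σ (σ t * ε * t + (1 - σ t * t)) * (σ t * ε * t + (1 - σ t * t)) := by
    simp only [map_mul, map_add, map_sub, map_one, D.invol]
    linear_combination -e3 - (σ t * t) ^ 2 * e1 + σ t * t * σ α * α * e2
  obtain ⟨δ, d1, d2⟩ := exists_mu_eq D.invol b1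
  obtain ⟨δ', d3, d4⟩ := exists_mu_eq D.invol (x := ε * t - t) (y := ε' * α - γ * t) (mul_left_cancel₀ a1 (by
    simp only [map_mul, map_add, map_sub, map_one, D.invol] at b1 ⊢
    linear_combination -b1 + e + σ α * α * e2 - σ t * t * e1))
  have b2 := h.om_hom hi (h.om_smul (h.om_hom H (h.om_hom hi H e1) (ε := δ * σ δ') (by
    rw [map_mul, D.invol]; linear_combination σ δ' * δ' * d1 + d3)) d3) (h.mu_conj e2)
  have b3 : δ' • (u + ((ε - 1) / κ * B (b i) u) • b i +
      ((δ * σ δ' - 1) / κ * B u (u + ((ε - 1) / κ * B (b i) u) • b i)) • u) =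
      (ε' * α) • b i + γ • (u - t • b i) := by
    simp [h.left, h.right, ht, H.self]
    match_scalars <;> field_simp
    · linear_combination -d2 + σ t * d4 + (δ * (σ t * ε * t + (1 - σ t * t))) * d3
    · linear_combination -d4
  rw [b3] at b2
  convert b2 using 1
  simp [h.left, ht]
  match_scalars <;> field_simp
  linear_combination -α * e2

theorem le_of_two {i j l : ι} (hij : i ≠ j) (hi : l ≠ i) (hj : l ≠ j) {x y : F} (hx : x ≠ 0) {w : V}
    (hw : w = x • b i + y • b j) (H : IS M w) (H' : ∀ c : F, AM M w (c • b l)) : SUG B ≤ M := by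
  haveI := Module.Finite.of_basis b
  have D := h.sd
  have a1 : σ x * x + σ y * y = 0 := mul_left_cancel₀ h.ne (by
    have := H.1; simp [hw, h.map, hij, hij.symm] at this; linear_combination this)
  have a2 : ∀ m, m ≠ i → m ≠ j → ∀ c : F, AM M w (c • b m) := fun m h1 h2 c => by
    obtain ⟨k, b1, c', b2, b3, -, b4, -⟩ := h.mono_mem hM (Equiv.swap l m) (c := 1) (by simp) l
    simpa [hw, b4, b2 i hi.symm, b2 j hj.symm, Equiv.swap_apply_of_ne_of_ne, hi.symm, hj.symm, h1.symm, h2.symm,
      smul_smul, right_ne_zero_of_mul_eq_one (b3 l)] using AM.map D (H' (c / c' l)) b1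
  have a3 : ES M w := ES.of_AM D H fun v hv => by
    have b1 : σ x * b.repr v i + σ y * b.repr v j = 0 := mul_left_cancel₀ h.ne (by
      simp [hw, h.left] at hv; linear_combination hv)
    have b2 : v = ∑ m ∈ Finset.univ \ {i, j}, b.repr v m • b m + (b.repr v i / x) • w := by
      conv_lhs => rw [← b.sum_repr v, ← Finset.sum_sdiff (Finset.subset_univ {i, j}), Finset.sum_pair hij]
      rw [hw]
      congr 1
      match_scalars
      · field_simp
      · field_simp
        by_cases e : y = 0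
        · exact (hx (by simpa [e] using a1)).elim
        · exact mul_left_cancel₀ (D.σ_ne_zero e) (by linear_combination x * b1 - b.repr v i * a1)
    rw [b2]
    refine AM.add D (Finset.sum_induction _ _ (fun _ _ => AM.add D) (AM.zero D H.1) fun m hm => ?_) ?_
    · simp only [Finset.mem_sdiff, Finset.mem_insert, Finset.mem_singleton, not_or] at hm
      exact a2 m hm.2.1 hm.2.2 _
    · have := adm_zero (σ := σ) (c := 0) H.1 (map_zero σ)
      refine ⟨0, by simpa using this.add_smul D _, ?_⟩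
      rw [← zero_add (_ • w), rho_add_smul D this]; exact H.2 _
  obtain ⟨ε, e1, e2⟩ := exists_mu h.hσ D.invol
  obtain ⟨d, b1, b2⟩ := h.dd_mem hM hi.symm e1
  refine D.SUG_le_of_ES₂ D.ns a3 (a3.map D b1) ?_
  rw [b2, map_add, map_add, H.1]
  simp [hw, h.map, hij, hij.symm, hi, hj, hx, h.ne, sub_eq_zero, show ε ≠ 1 from fun e => e2 (by simp [e])]

theorem le_of_three' {i j l : ι} (hij : i ≠ j) (hi : l ≠ i) (hj : l ≠ j) {x y z : F} (hx : x ≠ 0)
    (hz : σ z * z = 1) (H : Om M b κ a (z • b l + (x • b i + y • b j))) : SUG B ≤ M := by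
  have a0 := right_ne_zero_of_mul_eq_one hz
  have a1 : l ≠ a := by
    rintro rfl; exact a0 (by simpa [hi, hj] using H.zero)
  have a2 := h.om_smul (h.om_basis hM a1) hz
  have a3 : B (z • b l) (x • b i + y • b j) = 0 := by simp [h.map, hi, hj]
  exact h.le_of_two hM hij hi hj hx rfl (h.om_IS a2 H a3) fun c => by
    simpa [smul_smul, a0] using h.om_AM a2 H a3 (c / z)

theorem le_of_three {i j l : ι} (hij : i ≠ j) (hi : l ≠ i) (hj : l ≠ j) {x y z : F} (hx : x ≠ 0) (hy : y ≠ 0)
    (hz : z ≠ 0) (H : Om M b κ a (z • b l + (x • b i + y • b j))) : SUG B ≤ M := by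
  by_cases e : σ z * z = 1
  · exact h.le_of_three' hM hij hi hj hx e H
  have D := h.sd
  have a0 := D.σ_ne_zero hx
  have a1 : σ x * x + σ y * y + σ z * z = 1 := mul_left_cancel₀ h.ne (by
    have := H.self; simp [h.map, hij, hij.symm, hi, hj, hi.symm, hj.symm] at this; linear_combination this)
  obtain ⟨α, hα⟩ := D.ns.resolve_left h.hσ (-(σ y * y) / (σ x * x)) (by simp [D.invol, mul_comm])
  have a2 : α ≠ 0 := by rintro rfl; simp [hx, hy, eq_comm (a := (0 : F))] at hα
  have := h.om_plane hM H (i := l) (t := z) (by simp [hi, hj]) hz e a2 (inv_ne_zero hx) (by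
    rw [hα, map_inv₀]; field_simp; linear_combination -a1)
  refine h.le_of_three' hM (a := a) (z := 1) (y := x⁻¹ * y) hj hi.symm hij a2 (by simp) ?_
  convert this using 1
  match_scalars <;> field_simp <;> ring

variable (hn : 4 ≤ Fintype.card ι)
include hn

theorem le_of_pair {i j : ι} (hij : i ≠ j) {x y : F} (hx : x ≠ 0) (hy : y ≠ 0)
    (H : Om M b κ a (x • b i + y • b j)) : SUG B ≤ M := by
  have D := h.sd
  have a0 := D.σ_ne_zero hx
  have a1 : i ≠ a := by rintro rfl; exact hx (by simpa [hij] using H.zero)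
  have a2 : j ≠ a := by rintro rfl; exact hy (by simpa [hij.symm] using H.zero)
  obtain ⟨l, -, hl⟩ := Finset.exists_mem_notMem_of_card_lt_card (s := {i, j, a}) (t := Finset.univ)
    (Finset.card_le_three.trans_lt hn)
  simp only [Finset.mem_insert, Finset.mem_singleton, not_or] at hl
  obtain ⟨l1, l2, l3⟩ := hl
  obtain ⟨k, b1, c, b2, -, -, b4, -⟩ := h.mono_mem hM (Equiv.swap j l) (c := 1) (by simp) a
  have b5 := h.om_map H b1 (c := c a) (by rw [b4, Equiv.swap_apply_of_ne_of_ne a2.symm (Ne.symm l3)])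
  obtain ⟨ε, e1, e2⟩ := exists_mu h.hσ D.invol
  have e3 : ε - 1 ≠ 0 := sub_ne_zero.mpr fun e => e2 (by simp [e])
  refine h.le_of_three hM (a := a) hij l1 l2 (x := (1 + (ε - 1) * (σ x * x)) * x) (z := (ε - 1) * (σ x * x) * y)
    (mul_ne_zero (fun e => e2 ?_) hx) hy (by positivity) ?_
  · have := congrArg σ e
    simp only [map_add, map_mul, map_sub, map_one, D.invol, map_zero] at this
    exact mul_left_cancel₀ (mul_ne_zero a0 hx) (by linear_combination ε * e - ε * this + σ x * x * e1)
  convert h.om_hom b5 H e1 using 1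
  have := h.ne
  simp [b4, b2 i a1, b2 j a2, Equiv.swap_apply_of_ne_of_ne hij (Ne.symm l1), h.map, hij, l1, l2]
  match_scalars <;> field_simp

theorem le_of_om (H : Om M b κ a u) (h2 : 2 ≤ (b.repr u).support.card) : SUG B ≤ M := by
  induction' e : (b.repr u).support.card using Nat.strong_induction_on with n ih generalizing u
  subst e
  have D := h.sd
  have key : ∀ v l, Om M b κ a v → (b.repr v).support = (b.repr u).support → σ (b.repr v l) * b.repr v l = 1 →
      SUG B ≤ M := fun v l H' e hl => by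
    have a0 := right_ne_zero_of_mul_eq_one hl
    obtain ⟨w, hw⟩ : ∃ w, v = b.repr v l • b l + w := ⟨v - _, (add_sub_cancel _ _).symm⟩
    have a1 : ∀ m, b.repr w m = if m = l then 0 else b.repr v m := fun m => by
      have := congrArg (b.repr · m) hw
      split_ifs with e' <;> simpa [e'] using this.symm
    have a2 : (b.repr w).support = (b.repr u).support.erase l := by
      ext m; by_cases e' : m = l <;> simp [← e, a1, e']
    have a3 : (b.repr w).support.card + 1 = (b.repr u).support.card := by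
      rw [a2, Finset.card_erase_add_one (by simpa [← e] using a0)]
    have a4 := h.om_smul (h.om_basis hM (show l ≠ a by rintro rfl; exact a0 H'.zero)) hl
    have a5 : B (b.repr v l • b l) w = 0 := by simp [h.left, a1]
    rw [hw] at H'
    have a6 := h.om_IS a4 H' a5
    have a7 : b.repr w a = 0 := by rw [← H'.zero, map_add, Finsupp.add_apply, a4.zero, zero_add]
    obtain ⟨j, hj⟩ := Finset.card_pos.mp (show 0 < (b.repr w).support.card by omega)
    rw [Finsupp.mem_support_iff] at hj
    have b1 : B w (b j) ≠ 0 := by simp [h.right, h.ne, hj]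
    by_cases e' : (b.repr w).support.card ≤ 2
    · obtain ⟨i, hi, b2⟩ : ∃ i, i ≠ j ∧ b.repr w i ≠ 0 := by
        by_contra! b2
        have := a6.1
        rw [h.sum, Finset.sum_eq_single j (fun i _ hi => by simp [b2 i hi]) (by simp)] at this
        simp [h.ne, hj] at this
      have b3 : (b.repr w).support = {i, j} := (Finset.eq_of_subset_of_card_le (by
        simp [Finset.subset_iff, hj, b2]) (by rwa [Finset.card_pair hi])).symm
      refine h.le_of_three' hM (a := a) (l := l) hi (fun e => b2 (by simp [a1, ← e])) (fun e => hj (by simp [a1, ← e])) b2 hl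
        (y := b.repr w j) ?_
      convert H'
      refine b.ext_elem fun m => ?_
      have := Finset.ext_iff.mp b3 m
      by_cases c1 : m = i
      · simp [c1, hi]
      by_cases c2 : m = j
      · simp [c2, hi.symm]
      · simpa [c1, c2, eq_comm (a := (0 : F))] using this
    have b2 := h.om_map (h.om_basis hM (show j ≠ a by rintro rfl; exact hj a7)) (a6.2 1) (c := 1)
      (by rw [tv_apply_of_perp D _ (by simp [h.right, a7]), one_smul])
    rw [tv_apply D a6.1 (map_one σ), one_mul] at b2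
    refine ih _ ((Finset.card_le_card (t := (b.repr w).support) fun m hm => ?_).trans_lt (by omega)) b2
      (le_trans ?_ (Finset.card_le_card (s := (b.repr w).support.erase j) fun m hm => ?_)) rfl
    · by_cases c1 : m = j
      · simpa [c1] using hj
      · simpa [c1, b1] using hm
    · rw [Finset.card_erase_of_mem (by simpa using hj)]; omega
    · simp only [Finset.mem_erase, Finsupp.mem_support_iff] at hm
      simp [hm.1, hm.2, b1]
  obtain ⟨i, hi, j, hj, hij⟩ := Finset.one_lt_card.mp h2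
  rw [Finsupp.mem_support_iff] at hi hj
  set x := b.repr u i with hx
  set y := b.repr u j with hy
  have a1 := D.σ_ne_zero hj
  by_cases e1 : σ x * x = 1
  · exact key u i H rfl e1
  by_cases e2 : σ x * x + σ y * y = 1
  · obtain ⟨w, hw⟩ : ∃ w, u = x • b i + y • b j + w := ⟨u - _, (add_sub_cancel _ _).symm⟩
    have b1 : b.repr w i = 0 := by simpa [← hx, hij] using congrArg (b.repr · i) hw
    have b2 : b.repr w j = 0 := by simpa [← hy, hij.symm] using congrArg (b.repr · j) hw
    have b3 : B (x • b i + y • b j) (x • b i + y • b j) = κ := by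
      simp [h.map, hij, hij.symm]; linear_combination κ * e2
    have b4 : B (x • b i + y • b j) w = 0 := by simp [h.left, b1, b2]
    have b5 : B w w = 0 := by simpa [hw, -map_add, LinearMap.map_add₂, (B _).map_add _ w, b3, b4, D.comm0 b4] using H.self
    obtain ⟨ε, c1, c2⟩ := exists_mu h.hσ D.invol
    have c3 : σ ε - 1 ≠ 0 := sub_ne_zero.mpr fun e => c2 (by rw [e, one_mul] at c1; simp [c1])
    have d1 : i ≠ a := by rintro rfl; exact hi H.zero
    have d2 : j ≠ a := by rintro rfl; exact hj H.zero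
    obtain ⟨d, c4, c5⟩ := h.dd_mem hM d1 c1
    obtain ⟨d', c6, c7⟩ := h.dd_mem hM d2 c1
    have d3 := h.om_smul (h.om_map (h.om_map H c4 (c := σ ε) (by simp [c5, d1, sub_smul])) c6 (c := σ ε)
      (by simp [c7, d2, sub_smul])) (h.mu_conj c1)
    have d4 : σ ε • d'.1 (d.1 u) = u + (σ ε - 1) • w := by
      simp [c5, c7, H.zero, ← hx, ← hy, hij, hij.symm, d1, d1.symm, d2, d2.symm]
      rw [hw]
      match_scalars
      · linear_combination x * c1
      · linear_combination y * c1
      · ring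
    have d5 := h.om_add H (d4 ▸ d3) (by rw [hw]; simp [b4, b5, -map_add, LinearMap.map_add₂]) (-(σ ε - 1)⁻¹)
    refine h.le_of_pair hM hn (a := a) hij hi hj ?_
    convert d5 using 1
    rw [smul_smul, neg_mul, inv_mul_cancel₀ c3, hw]; module
  obtain ⟨α, hα⟩ := D.ns.resolve_left h.hσ ((σ x * x + σ y * y - 1) / (σ y * y)) (by simp [D.invol, mul_comm])
  have a2 : α ≠ 0 := by rintro rfl; simp [hj, sub_eq_zero, e2, eq_comm (a := (0 : F))] at hα
  refine key _ j (h.om_plane hM H rfl hi e1 a2 (inv_ne_zero hj) (by rw [hα, map_inv₀]; field_simp; ring)) ?_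
    (by simp [hij.symm, ← hy, hj])
  ext m
  by_cases e : m = i
  · simp [e, a2, hi, ← hx]
  · simp [e, hj]

theorem le_of_fix {g : UG B} (hg : g ∈ M) (hg' : ¬ Mon b g.1) {i j : ι} {c : F} (H : g.1 (b i) = c • b j) :
    SUG B ≤ M := by
  have : Nonempty ι := ⟨i⟩
  obtain ⟨k, a1, c', -, -, -, a2, -⟩ := h.mono_mem hM (Equiv.swap i j) (c := 1) (by simp) i
  have a3 : (k * g).1 (b i) = (c * c' j) • b i := by simp [H, a2, smul_smul]
  obtain ⟨l, hl⟩ : ∃ l, ∀ (l' : ι) (c : F), (k * g).1 (b l) ≠ c • b l' := by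
    by_contra! e
    exact hg' (by simpa using (Mon.inv (g := k.1) fun i => ⟨_, _, a2 i⟩).mul (k := (k * g).1) e)
  refine h.le_of_om hM hn (h.om_map (h.om_basis hM (show l ≠ i by rintro rfl; exact hl _ _ a3)) (mul_mem a1 hg) a3) ?_
  by_contra! e
  obtain ⟨l', e'⟩ := Finset.card_le_one_iff_subset_singleton.mp (Nat.le_of_lt_succ e)
  refine hl l' (b.repr ((k * g).1 (b l)) l') (b.ext_elem fun r => ?_)
  by_cases e : r = l'
  · simp [e]
  · simpa [e] using Finsupp.notMem_support_iff.mp fun e'' => e (Finset.mem_singleton.mp (e' e''))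

end OB

end Cfsg.Agent.H12
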