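import Mathlib
import Cfsg.Agent.H12.UfB

/-!
Rank bounds for monomial maps, and matrices with two zero entries in a column.
-/

set_option autoImplicit false

namespace Cfsg.Agent.H12

open Module

variable {F V : Type*} [Field F] [AddCommGroup V] [Module F V] {σ : F →+* F}
  {B : V →ₛₗ[σ] V →ₗ[F] F} {M : Subgroup (UG B)} {ι : Type*} [Fintype ι] [DecidableEq ι]
  {b : Basis ι F V} {κ : F}

theorem dih {G : Type*} [Group G] [Finite G] {a s : G} (a2 : a * a = 1) (s2 : s * s = 1) :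
    (∃ m, (a * s) ^ (2 * m + 1) = 1) ∨ ∃ m, (a * s) ^ (m + 1) ≠ 1 ∧ (a * s) ^ (m + 1) * (a * s) ^ (m + 1) = 1 ∧
      Commute ((a * s) ^ (m + 1)) a ∧ Commute ((a * s) ^ (m + 1)) s := by
  have h1 : ∀ n : ℕ, s * ((a * s) ^ n)⁻¹ = (a * s) ^ n * s := fun n => by
    have : s * (a * s)⁻¹ * s⁻¹ = a * s := by
      rw [mul_inv_rev, inv_eq_of_mul_eq_one_right s2, inv_eq_of_mul_eq_one_right a2, ← mul_assoc, s2, one_mul]
    rw [← inv_pow]
    conv_rhs => rw [← this, conj_pow]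
    group
  have h2 := pow_orderOf_eq_one (a * s)
  have h3 := orderOf_pos (a * s)
  rcases (orderOf (a * s)).even_or_odd' with ⟨m, hm | hm⟩
  · obtain ⟨m, rfl⟩ : ∃ n, m = n + 1 := ⟨m - 1, by omega⟩
    have h4 : (a * s) ^ (m + 1) * (a * s) ^ (m + 1) = 1 := by rw [← pow_add, ← two_mul, ← hm, h2]
    have h5 : Commute ((a * s) ^ (m + 1)) s := by
      rw [Commute, SemiconjBy, ← h1, inv_eq_of_mul_eq_one_right h4]
    refine Or.inr ⟨m, pow_ne_one_of_lt_orderOf (by omega) (by omega), h4, ?_, h5⟩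
    simpa [mul_assoc, s2] using ((Commute.refl (a * s)).pow_left (m + 1)).mul_right h5
  · exact Or.inl ⟨m, hm ▸ h2⟩

omit [Fintype ι] [DecidableEq ι] in
theorem tri [FiniteDimensional F V] (w : ι → V) (L : List ι) (U : Submodule F V)
    (h1 : ∀ i ∈ L, w i ∈ U ∧ b.repr (w i) i ≠ 0) (h2 : L.Pairwise fun i l => b.repr (w l) i = 0) :
    L.length ≤ finrank F U := by
  induction' L with i L ih generalizing U
  · simp
  rw [List.pairwise_cons] at h2
  have a1 := h1 i (by simp)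
  exact (Nat.succ_le_succ (ih (U ⊓ LinearMap.ker (b.coord i)) (fun l hl =>
    ⟨⟨(h1 l (by simp [hl])).1, h2.1 l hl⟩, (h1 l (by simp [hl])).2⟩) h2.2)).trans
    (Submodule.finrank_lt_finrank_of_lt (lt_of_le_of_ne inf_le_left fun e => a1.2 (e.ge a1.1).2))

/-- `x` is monomial with permutation `π`. -/
def MPe (b : Basis ι F V) (x : V ≃ₗ[F] V) (π : Equiv.Perm ι) : Prop := ∀ i, ∃ c : F, c ≠ 0 ∧ x (b i) = c • b (π i)

theorem Mon.mp {x : V ≃ₗ[F] V} (h : Mon b x) : ∃ π, MPe b x π := by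
  choose π c hc using h
  have a1 : ∀ i, c i ≠ 0 := fun i e => b.ne_zero i (x.map_eq_zero_iff.mp (by simp [hc, e]))
  exact ⟨Equiv.ofBijective π (Finite.injective_iff_bijective.mp fun i i' e =>
    eq_of_smul_basis (b := b) (d := c i) (a1 i') (x.injective (by simp [hc, e, smul_smul, mul_comm]))),
    fun i => ⟨c i, a1 i, hc i⟩⟩

omit [Fintype ι] [DecidableEq ι] in
theorem MPe.mul {x y : V ≃ₗ[F] V} {π ρ : Equiv.Perm ι} (h : MPe b x π) (h' : MPe b y ρ) : MPe b (x * y) (π * ρ) :=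
  fun i => by
    obtain ⟨c, a1, a2⟩ := h' i
    obtain ⟨d, a3, a4⟩ := h (ρ i)
    exact ⟨c * d, mul_ne_zero a1 a3, by simp [a2, a4, smul_smul]⟩

omit [Fintype ι] [DecidableEq ι] in
theorem MPe.inv {x : V ≃ₗ[F] V} {π : Equiv.Perm ι} (h : MPe b x π) : MPe b x⁻¹ π⁻¹ := fun i => by
  obtain ⟨c, a1, a2⟩ := h (π⁻¹ i)
  exact ⟨c⁻¹, inv_ne_zero a1, x.symm_apply_eq.mpr (by rw [map_smul, a2]; simp [a1])⟩

omit [Fintype ι] in
theorem MPe.pow_eq {x : V ≃ₗ[F] V} {π : Equiv.Perm ι} (h : MPe b x π) {n : ℕ} (e : x ^ n = 1) : π ^ n = 1 := by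
  have : ∀ n : ℕ, MPe b (x ^ n) (π ^ n) := fun n => by
    induction' n with n ih
    · exact fun i => ⟨1, one_ne_zero, by simp⟩
    · rw [pow_succ, pow_succ]; exact ih.mul h
  ext i
  obtain ⟨c, -, a2⟩ := this n i
  exact (eq_of_smul_basis (b := b) (d := c) one_ne_zero (by simpa [e] using a2)).symm

theorem MPe.tri {x : V ≃ₗ[F] V} {π : Equiv.Perm ι} (h : MPe b x π) {U : Submodule F V} (hU : ∀ v, x v - v ∈ U)
    (L : List ι) (h1 : ∀ i ∈ L, x (b i) ≠ b i) (h2 : L.Pairwise fun i l => i ≠ l ∧ i ≠ π l) :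
    L.length ≤ finrank F U := by
  haveI := Module.Finite.of_basis b
  refine H12.tri (b := b) (fun i => x (b i) - b i) L U (fun i hi => ⟨hU _, fun e => ?_⟩) (h2.imp fun {i l} e => ?_)
  · obtain ⟨c, -, a2⟩ := h i
    by_cases e' : i = π i
    · rw [← e'] at a2
      exact h1 i hi (by simpa [a2, show c = 1 by simpa [a2, sub_eq_zero] using e])
    · simp [a2, e'] at e
  · obtain ⟨c, -, a2⟩ := h l
    simp [a2, e.1, e.2]

theorem Mon.exists_fix {x : V ≃ₗ[F] V} (h : Mon b x) {U : Submodule F V} (hU : ∀ v, x v - v ∈ U)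
    (hn : 2 * finrank F U < Fintype.card ι) : ∃ i, x (b i) = b i := by
  obtain ⟨π, h⟩ := h.mp
  by_contra! H
  have key : ∀ n (S : Finset ι), S.card = n → ∃ L : List ι, (∀ i ∈ L, i ∈ S) ∧ S.card ≤ 2 * L.length ∧
      L.Pairwise fun i l => i ≠ l ∧ i ≠ π l := fun n => by
    induction' n using Nat.strong_induction_on with n ih
    intro S e
    rcases S.eq_empty_or_nonempty with rfl | ⟨i, hi⟩
    · exact ⟨[], by simp⟩
    have a1 := Finset.card_erase_add_one hi
    have a2 := Finset.pred_card_le_card_erase (s := S.erase i) (a := π⁻¹ i)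
    obtain ⟨L, b1, b2, b3⟩ := ih _ ((Finset.card_erase_le (s := S.erase i) (a := π⁻¹ i)).trans_lt (by omega)) _ rfl
    simp only [Finset.mem_erase] at b1
    refine ⟨i :: L, by simpa [hi] using fun l hl => (b1 l hl).2.2, by simp; omega, List.pairwise_cons.mpr
      ⟨fun l hl => ⟨(b1 l hl).2.1.symm, fun e => (b1 l hl).1 (by simp [e])⟩, b3⟩⟩
  obtain ⟨L, -, a1, a2⟩ := key _ Finset.univ rfl
  have := h.tri hU L (fun i _ => H i) a2
  rw [Finset.card_univ] at a1; omega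

omit [Fintype ι] [DecidableEq ι] in
theorem finrank_span_image_le (v : ι → V) (R : Finset ι) : finrank F (Submodule.span F (v '' R)) ≤ R.card := by
  classical
  rw [← Finset.coe_image]
  exact (finrank_span_finset_le_card _).trans Finset.card_image_le

theorem card_le_of_supp (g : V ≃ₗ[F] V) {S R : Finset ι} (h : ∀ a ∈ S, ∀ l ∉ R, b.repr (g (b a)) l = 0) :
    S.card ≤ R.card := by
  haveI := Module.Finite.of_basis b
  have := (LinearIndependent.fintype_card_le_finrank (b := fun a : S => (⟨g (b a), b.mem_span_image.mpr fun l hl => by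
    by_contra e; exact Finsupp.mem_support_iff.mp hl (h a a.2 l e)⟩ : Submodule.span F (b '' R)))
    (LinearIndependent.of_comp (Submodule.subtype _)
      ((b.linearIndependent.comp _ Subtype.val_injective).map' g.toLinearMap g.ker))).trans
    (finrank_span_image_le b R)
  simpa using this

omit [Fintype ι] in
theorem ne_smul_basis {v : V} {i j : ι} (h : i ≠ j) (hi : b.repr v i ≠ 0) (hj : b.repr v j ≠ 0) (l : ι) (c : F) :
    v ≠ c • b l := by
  rintro rfl
  by_cases e : i = l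
  · simp [← e, h.symm] at hj
  · simp [e] at hi

/-- `g` is diagonal with entries `s`. -/
def Dg (b : Basis ι F V) (g : UG B) (s : ι → F) : Prop := ∀ x i, b.repr (g.1 x) i = s i * b.repr x i

namespace OB
variable (h : OB B b κ) (hM : ∀ g ∈ SUG B, Mon b g.1 → g ∈ M)
  (NF : ∀ g ∈ M, ∀ (i j : ι) (c : F), g.1 (b i) = c • b j → Mon b g.1) [Finite F]
include h hM NF

theorem nf_row {g : UG B} (hg : g ∈ M) (hg' : ¬ Mon b g.1) {i j k : ι} (hjk : j ≠ k)
    (hj : b.repr (g.1 (b i)) j = 0) (hk : b.repr (g.1 (b i)) k = 0) {ε : F} (e1 : σ ε * ε = 1) (e2 : ε ^ 2 ≠ 1) :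
    (∀ a, b.repr (g.1 (b a)) j = 0 → b.repr (g.1 (b a)) k = 0) ∧
      ∃ A : Finset ι, (∀ a, a ∈ A ↔ b.repr (g.1 (b a)) j ≠ 0) ∧ A.card ≤ 3 ∧ (ε ^ 3 ≠ 1 → A.card ≤ 2) := by
  obtain ⟨d, a1, a2⟩ := h.dd_mem hM hjk e1
  obtain ⟨π, hπ⟩ := (NF _ (mul_mem (mul_mem (inv_mem hg) a1) hg) i i 1 (by simp [a2, hj, hk])).mp
  choose c c0 hc using hπ
  obtain ⟨G, hG⟩ : ∃ G : ι → ι → F, ∀ l a, b.repr (g.1 (b a)) l = G l a := ⟨_, fun _ _ => rfl⟩
  simp only [hG]
  have e3 : ε - 1 ≠ 0 := sub_ne_zero.mpr fun e => e2 (by simp [e])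
  have e4 : σ ε - 1 ≠ 0 := by simpa using h.sd.σ_ne_zero e3
  have e5 : ε - σ ε ≠ 0 := fun e => e2 (by linear_combination e1 + ε * e)
  have b0 : ∀ a, d.1 (g.1 (b a)) = c a • g.1 (b (π a)) := fun a => by
    simpa [g.1.symm_apply_eq] using hc a
  have b1 : ∀ a, ε * G j a = c a * G j (π a) := fun a => by
    have := congrArg (b.repr · j) (b0 a)
    simp [a2, hG, hjk] at this; linear_combination this
  have b2 : ∀ a, σ ε * G k a = c a * G k (π a) := fun a => by
    have := congrArg (b.repr · k) (b0 a)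
    simp [a2, hG, hjk.symm] at this; linear_combination this
  have b3 : ∀ a l, l ≠ j → l ≠ k → G l a = c a * G l (π a) := fun a l h1 h2 => by
    simpa [a2, hG, h1, h2] using congrArg (b.repr · l) (b0 a)
  have b4 : ∀ a r, b.repr (b a) r + (ε - 1) * G j a * σ (G j r) + (σ ε - 1) * G k a * σ (G k r) =
      c a * b.repr (b (π a)) r := fun a r => by
    simpa [a2, hG, h.adj, -Basis.repr_self] using congrArg (b.repr · r) (hc a)
  have b5 : ∀ a, G j a ≠ 0 → G j (π a) ≠ 0 := fun a ha e =>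
    mul_ne_zero (right_ne_zero_of_mul_eq_one e1) ha (by rw [b1, e, mul_zero])
  obtain ⟨a, ha⟩ := exists_basis_ne (b := b) (χ := b.coord j ∘ₗ g.1.toLinearMap) fun e => by
    simpa using LinearMap.congr_fun e (g.1.symm (b j))
  replace ha : G j a ≠ 0 := hG j a ▸ ha
  have c1 : π a ≠ a := fun e => hg' (NF g hg a j (G j a) (b.ext_elem fun l => by
    have d1 : c a = ε := mul_right_cancel₀ ha (by rw [b1, e])
    by_cases e' : l = j
    · simp [e', hG]
    by_cases e'' : l = k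
    · simpa [e'', hG, hjk.symm] using mul_left_cancel₀ e5 (show _ * G k a = _ * 0 by
        linear_combination (e ▸ d1 ▸ b2 a :).symm)
    · simpa [e', hG] using mul_left_cancel₀ e3 (show _ * G l a = _ * 0 by
        linear_combination (e ▸ d1 ▸ b3 a l e' e'' :).symm)))
  have c2 : π (π a) ≠ π a := π.injective.ne c1
  have c3 : G k a ≠ 0 := fun e => by
    have d1 : G k (π a) = 0 := by simpa [e, c0] using b2 a
    have d2 := b4 a (π a)
    have d3 := b4 (π a) (π a)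
    simp [e, d1, c1, c2.symm] at d2 d3
    exact e2 (mul_left_cancel₀ (c0 a) (by
      linear_combination (ε - 1) * c a * d3 - (ε - 1) * ε * d2 + (ε - 1) ^ 2 * σ (G j (π a)) * b1 a))
  have c4 : ∀ r, r ∉ ({a, π a, π (π a)} : Finset ι) → G j r = 0 ∧ G k r = 0 := fun r hr => by
    simp only [Finset.mem_insert, Finset.mem_singleton, not_or] at hr
    have d2 := b4 a r
    have d3 := b4 (π a) r
    simp [hr.1, hr.2.1, hr.2.2] at d2 d3
    have d4 : σ (G j r) = 0 := mul_left_cancel₀ (mul_ne_zero e5 (mul_ne_zero e3 ha)) (by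
      linear_combination c a * d3 - σ ε * d2 + (ε - 1) * σ (G j r) * b1 a + (σ ε - 1) * σ (G k r) * b2 a)
    exact ⟨by simpa using d4, by simpa [d4, e4, c3] using d2⟩
  have c5 : ∀ r, r ∈ ({a, π a, π (π a)} : Finset ι) ↔ G j r ≠ 0 := fun r =>
    ⟨by simp only [Finset.mem_insert, Finset.mem_singleton]; rintro (rfl | rfl | rfl) <;> simp [ha, b5],
      fun e => by by_contra e'; exact e (c4 r e').1⟩
  refine ⟨fun r e => (c4 r fun e' => (c5 r).mp e' e).2, _, c5, Finset.card_le_three, fun e6 => ?_⟩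
  by_cases e : π (π a) = a
  · simpa [e, Finset.pair_comm (π a), Finset.insert_idem] using Finset.card_le_two
  have d1 : π (π (π a)) = a := by
    simpa [π.injective.ne e, π.injective.ne c2] using (c5 _).mpr (b5 _ (b5 _ (b5 _ ha)))
  have d2 : ε ^ 3 = c a * c (π a) * c (π (π a)) := mul_right_cancel₀ ha (by
    have := b1 (π (π a))
    rw [d1] at this
    linear_combination ε ^ 2 * b1 a + ε * c a * b1 (π a) + c a * c (π a) * this)
  have d3 : ∀ l, l ≠ j → l ≠ k → G l a = 0 := fun l h1 h2 => mul_left_cancel₀ (sub_ne_zero.mpr e6) (by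
    have := b3 (π (π a)) l h1 h2
    rw [d1] at this
    rw [d2]; linear_combination -b3 a l h1 h2 - c a * b3 (π a) l h1 h2 - c a * c (π a) * this)
  refine (card_le_of_supp (b := b) g.1 (R := {j, k}) fun r hr l hl => ?_).trans Finset.card_le_two
  simp only [Finset.mem_insert, Finset.mem_singleton, not_or] at hr hl
  have d4 : G l (π a) = 0 := by simpa [d3 l hl.1 hl.2, c0] using b3 a l hl.1 hl.2
  have d5 : G l (π (π a)) = 0 := by simpa [d4, c0] using b3 (π a) l hl.1 hl.2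
  rcases hr with rfl | rfl | rfl <;> simp [hG, d3 l hl.1 hl.2, d4, d5]

theorem nf_four {g : UG B} (hg : g ∈ M) {i : ι} {R : Finset ι} (h4 : 4 ≤ R.card)
    (hR : ∀ l ∈ R, b.repr (g.1 (b i)) l = 0) : Mon b g.1 := by
  by_contra hg'
  obtain ⟨ε, e1, e2⟩ := exists_mu h.hσ h.sd.invol
  obtain ⟨j, hj, k, hk, hjk⟩ := Finset.one_lt_card.mp (show 1 < R.card by omega)
  obtain ⟨-, A, a1, a2, -⟩ := h.nf_row hM NF hg hg' hjk (hR j hj) (hR k hk) e1 e2
  have := card_le_of_supp (b := b) g.1.symm (S := R) (R := A) fun l hl a ha => by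
    rw [a1, not_not] at ha
    by_cases e : j = l
    · simp [h.adj, ← e, ha]
    · simp [h.adj, (h.nf_row hM NF hg hg' e (hR j hj) (hR l hl) e1 e2).1 a ha]
  omega

variable (hn : 7 ≤ Fintype.card ι ∨ 6 ≤ Fintype.card ι ∧ 3 ≤ q0 σ)
include hn

theorem nf_two {g : UG B} (hg : g ∈ M) {i j k : ι} (hjk : j ≠ k) (hj : b.repr (g.1 (b i)) j = 0)
    (hk : b.repr (g.1 (b i)) k = 0) : Mon b g.1 := by
  by_contra hg'
  have : ∃ A : Finset ι, (∀ a, a ∈ A ↔ b.repr (g.1 (b a)) j ≠ 0) ∧ A.card + 4 ≤ Fintype.card ι := by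
    rcases hn with e | ⟨e, e'⟩
    · obtain ⟨ε, e1, e2⟩ := exists_mu h.hσ h.sd.invol
      obtain ⟨-, A, a1, a2, -⟩ := h.nf_row hM NF hg hg' hjk hj hk e1 e2
      exact ⟨A, a1, by omega⟩
    · obtain ⟨ε, e1, e2, e3⟩ := exists_mu' h.hσ h.sd.invol e'
      obtain ⟨-, A, a1, -, a2⟩ := h.nf_row hM NF hg hg' hjk hj hk e1 e2
      exact ⟨A, a1, by have := a2 e3; omega⟩
  obtain ⟨A, a1, a2⟩ := this
  exact hg' (by simpa using (h.nf_four hM NF (inv_mem hg) (i := j) (R := Aᶜ) (by rw [Finset.card_compl]; omega)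
    fun l hl => by simpa [h.adj, a1] using hl).inv)

theorem nf_conj {k z : UG B} (hk : k ∈ M) {s : ι → F} (hz : Dg b z s) {S : Finset ι} (h1 : ∀ i ∉ S, s i = 1)
    (h2 : ∀ i ∈ S, s i ≠ 1) (h3 : 2 ≤ S.card) (h4 : 2 * S.card < Fintype.card ι) (H : Mon b (k⁻¹ * z * k).1) :
    Mon b k.1 := by
  obtain ⟨i, hi⟩ := H.exists_fix (U := Submodule.span F ((fun i => k.1.symm (b i)) '' S)) (fun v => by
    have : z.1 (k.1 v) - k.1 v ∈ Submodule.span F (b '' S) := b.mem_span_image.mpr fun l hl => by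
      by_contra e; simp [hz _ l, h1 l e] at hl
    simpa [Submodule.map_span, Set.image_image] using Submodule.mem_map_of_mem (f := k.1.symm.toLinearMap) this)
    (by have := finrank_span_image_le (F := F) (fun i => k.1.symm (b i)) S; omega)
  have a1 : ∀ l ∈ S, b.repr (k.1 (b i)) l = 0 := fun l hl => mul_left_cancel₀ (sub_ne_zero.mpr (h2 l hl)) (by
    rw [sub_mul, ← hz, show z.1 (k.1 (b i)) = k.1 (b i) from k.1.symm_apply_eq.mp hi]; ring)
  obtain ⟨j, hj, l, hl, hjl⟩ := Finset.one_lt_card.mp h3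
  exact h.nf_two hM NF hn hk hjl (a1 j hj) (a1 l hl)

end OB

end Cfsg.Agent.H12
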