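import Mathlib
import Cfsg.Agent.H12.UfC

/-!
Overgroups of the unitary monomial group in characteristic two.
-/

set_option autoImplicit false

namespace Cfsg.Agent.H12

open Module

variable {F V : Type*} [Field F] [AddCommGroup V] [Module F V] {σ : F →+* F}
  {B : V →ₛₗ[σ] V →ₗ[F] F} {M : Subgroup (UG B)} {ι : Type*} [Fintype ι] [DecidableEq ι]
  {b : Basis ι F V} {κ : F}

theorem finite_UG [Finite F] [FiniteDimensional F V] : Finite (UG B) := by
  have := Module.finite_of_finite F (M := V)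
  have : Finite (V ≃ₗ[F] V) := Finite.of_injective (fun g : V ≃ₗ[F] V => (g : V → V)) DFunLike.coe_injective
  infer_instance

theorem SD.fix_of_commute_tv (D : SD B) {z : UG B} {v : V} {c : F} (hv : B v v = 0) (hc : σ c = c) (h0 : c ≠ 0)
    (H : Commute z (tv B v c)) : ∃ d : F, z.1 v = d • v := by
  by_cases e : v = 0
  · exact ⟨1, by simp [e]⟩
  obtain ⟨x, hx⟩ := D.exists_ne e
  have := congrArg (fun g : UG B => g.1 x) H.eq
  simp only [UG_mul_apply, tv_apply D hv hc, map_add, map_smul, add_right_inj] at this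
  exact ⟨(c * B v x)⁻¹ * (c * B v (z.1 x)), by rw [mul_smul, ← this, inv_smul_smul₀ (mul_ne_zero h0 hx)]⟩

theorem SD.tv_add_mem [Finite F] [FiniteDimensional F V] (D : SD B) (h2 : (2 : F) = 0) {s s' : V} {c : F}
    (hc : σ c = c) (c0 : c ≠ 0) (hs : B s s = 0) (hs' : B s' s' = 0) (h1 : tv B s c ∈ M) (h1' : tv B s' c ∈ M)
    (h0 : B s s' ≠ 0) (hβ : σ (B s s') = B s s') : tv B (s + s') (B s s')⁻¹ ∈ M := by
  have := finite_UG (B := B)
  have a0 : ∀ x : F, -x = x := fun x => by linear_combination -x * h2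
  have a1 : B s' s = B s s' := by rw [D.skew, hβ, a0]
  have a2 : B (s + s') (s + s') = 0 := by simp [hs, hs', a1]; linear_combination B s s' * h2
  have a3 : σ (B s s')⁻¹ = (B s s')⁻¹ := by rw [map_inv₀, hβ]
  have a4 : ∀ {v : V} {c : F}, tv B v c * tv B v c = 1 := fun {v c} => by
    nth_rw 1 [← a0 c]; rw [← tv_inv D, inv_mul_cancel]
  have a5 : ∀ v : V, v + v = 0 := fun v => by rw [← two_smul F, h2, zero_smul]
  set τ := tv B (s + s') (B s s')⁻¹ with hτ
  have a6 : τ * tv B s c * (τ * tv B s c) ∈ M := by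
    have := conj_tv D τ s c
    rw [inv_eq_of_mul_eq_one_right a4, show τ.1 s = s' by simp [hτ, tv_apply D a2 a3, hs, a1, h0, ← add_assoc, a5]] at this
    rw [← mul_assoc, this]; exact mul_mem h1' h1
  rcases dih (a := τ) (s := tv B s c) a4 a4 with ⟨m, e⟩ | ⟨m, e1, e2, e3, e4⟩
  · have : τ = (τ * tv B s c * (τ * tv B s c)) ^ (m + 1) * tv B s c := by
      rw [← sq, ← pow_mul, show 2 * (m + 1) = 2 * m + 1 + 1 by ring, pow_succ, e, one_mul, mul_assoc, a4, mul_one]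
    exact this ▸ mul_mem (pow_mem a6 _) h1
  have b1 : ∀ v, B s v = 0 → B s' v = 0 → ∀ n : ℕ, ((τ * tv B s c) ^ n).1 v = v := fun v h1 h2 n => by
    induction' n with n ih
    · rfl
    · rw [pow_succ', UG_mul_apply, ih, UG_mul_apply, tv_apply_of_perp D _ h1, tv_apply_of_perp D _ (by simp [h1, h2])]
  set z := (τ * tv B s c) ^ (m + 1)
  have b2 : ∀ v, v ≠ 0 → (∃ d : F, z.1 v = d • v) → z.1 v = v := fun v hv ⟨d, hd⟩ => by
    have : (d * d - 1) • v = 0 := by simpa [hd, smul_smul, sub_smul, sub_eq_zero] using congrArg (fun g : UG B => g.1 v) e2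
    rw [hd, show d = 1 from sub_eq_zero.mp (pow_eq_zero_iff two_ne_zero |>.mp (by
      linear_combination (smul_eq_zero.mp this).resolve_right hv + (1 - d) * h2)), one_smul]
  have b3 := b2 s (by rintro rfl; simp at h0) (D.fix_of_commute_tv hs hc c0 e4)
  have b4 := b2 (s + s') (fun e => h0 (by simpa [hs] using congrArg (B s) e))
    (D.fix_of_commute_tv a2 a3 (inv_ne_zero h0) e3)
  rw [map_add, b3, add_right_inj] at b4
  refine (e1 (UG_ext fun v => ?_)).elim
  have : z.1 _ = _ := b1 (v - (B s' v / B s s') • s - (B s v / B s s') • s') (by simp [hs, h0])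
    (by simp [hs', a1, h0]) (m + 1)
  simpa [b3, b4] using this

theorem exists_four {α : Type*} (N : ι → α) (hn : 5 ≤ Fintype.card ι) : ∃ i j k l : ι,
    (i ≠ j ∧ i ≠ k ∧ i ≠ l ∧ j ≠ k ∧ j ≠ l ∧ k ≠ l) ∧ (N i = N j ↔ N k = N l) := by
  obtain ⟨i⟩ : Nonempty ι := Fintype.card_pos_iff.mp (by omega)
  obtain ⟨j, j1, -⟩ := exists_ne₄ hn i i i i
  obtain ⟨k, k1, k2, -⟩ := exists_ne₄ hn i j i i
  obtain ⟨l, l1, l2, l3, -⟩ := exists_ne₄ hn i j k i
  obtain ⟨m, m1, m2, m3, m4⟩ := exists_ne₄ hn i j k l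
  by_contra H
  replace H : ∀ i j k l : ι, (i ≠ j ∧ i ≠ k ∧ i ≠ l ∧ j ≠ k ∧ j ≠ l ∧ k ≠ l) → ¬ (N i = N j ↔ N k = N l) :=
    fun i j k l a e => H ⟨i, j, k, l, a, e⟩
  have a1 := H i j k l (by grind); have a2 := H i k j l (by grind); have a3 := H i l j k (by grind)
  have a4 := H i j k m (by grind); have a5 := H i k j m (by grind); have a6 := H i m j k (by grind)
  have a7 := H i j l m (by grind); have a8 := H i l j m (by grind); have a9 := H i m j l (by grind)
  have b1 := H i k l m (by grind); have b2 := H i l k m (by grind); have b3 := H i m k l (by grind)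
  have b4 := H j k l m (by grind); have b5 := H j l k m (by grind); have b6 := H j m k l (by grind)
  clear H
  grind

theorem exists_two_mu [Finite F] (hσ : σ ≠ RingHom.id F) (h2 : ∀ a, σ (σ a) = a) (hc : (2 : F) = 0) {n₁ n₂ n₃ n₄ : F}
    (a1 : σ n₁ = n₁) (a2 : σ n₂ = n₂) (a3 : σ n₃ = n₃) (a4 : σ n₄ = n₄) (h3 : n₃ ≠ 0) (h : n₁ = n₂ ↔ n₃ = n₄) :
    ∃ ε δ β, σ ε * ε = 1 ∧ σ δ * δ = 1 ∧ ε ≠ 1 ∧ δ ≠ 1 ∧
      β = (ε - 1) * n₁ + (σ ε - 1) * n₂ + ((δ - 1) * n₃ + (σ δ - 1) * n₄) ∧ σ β = β ∧ (3 ≤ q0 σ → β ≠ 0) := by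
  by_cases e : n₁ = n₂
  · obtain rfl := h.mp e
    subst e
    have key : ∀ ε δ, σ ((ε - 1) * n₁ + (σ ε - 1) * n₁ + ((δ - 1) * n₃ + (σ δ - 1) * n₃)) =
        (ε - 1) * n₁ + (σ ε - 1) * n₁ + ((δ - 1) * n₃ + (σ δ - 1) * n₃) := fun ε δ => by
      simp only [map_add, map_mul, map_sub, map_one, h2, a1, a3]; ring
    by_cases hq : 3 ≤ q0 σ
    · obtain ⟨δ, e1, e2, e3⟩ := exists_mu' hσ h2 hq
      have e4 : δ ≠ 1 := fun e => e2 (by simp [e])
      by_cases e : (δ - 1) * n₁ + (σ δ - 1) * n₁ + ((δ - 1) * n₃ + (σ δ - 1) * n₃) = 0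
      · refine ⟨δ, δ ^ 2, _, e1, by rw [map_pow, ← mul_pow, e1, one_pow], e4, e2, rfl, key _ _, fun _ e' => ?_⟩
        rw [map_pow] at e'
        exact mul_ne_zero h3 (mul_ne_zero (sub_ne_zero.mpr e4) (sub_ne_zero.mpr e3)) (by
          linear_combination δ ^ 2 * (e' - e) + n₃ * (δ - σ δ * δ - 1) * e1)
      · exact ⟨δ, δ, _, e1, e1, e4, e4, rfl, key _ _, fun _ => e⟩
    · obtain ⟨δ, e1, e2⟩ := exists_mu hσ h2
      have e4 : δ ≠ 1 := fun e => e2 (by simp [e])
      exact ⟨δ, δ, _, e1, e1, e4, e4, rfl, key _ _, fun e => (hq e).elim⟩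
  have b1 : n₁ + n₂ ≠ 0 := fun e' => e (by linear_combination e' - n₂ * hc)
  obtain ⟨ε, δ, e1, e2, e3, e4, e5⟩ := pigeon₂ hσ h2 b1 (c' := n₃ + n₄)
    (fun e' => e (h.mpr (by linear_combination e' - n₄ * hc))) (by simp [a1, a2]) (by simp [a3, a4])
  by_cases e' : (ε - 1) * n₁ + (σ ε - 1) * n₂ + ((δ - 1) * n₃ + (σ δ - 1) * n₄) = 0
  · refine ⟨σ ε, δ, _, by rw [h2, mul_comm, e1], e2, fun e => e3 (by simpa [e] using e1), e4, rfl, ?_, fun _ e'' => ?_⟩
    · simp only [map_add, map_mul, map_sub, map_one, h2, a1, a2, a3, a4]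
      linear_combination e5 + (n₁ + n₂ - n₃ - n₄ - n₁ * σ ε - n₂ * ε + n₃ * σ δ + n₄ * δ) * hc
    · rw [h2] at e''
      exact mul_ne_zero b1 (pow_ne_zero 2 (sub_ne_zero.mpr e3)) (by
        linear_combination ε * (e' + e'') - (n₁ + n₂) * e1 - ε * ((δ - 1) * n₃ + (σ δ - 1) * n₄) * hc)
  · refine ⟨ε, δ, _, e1, e2, e3, e4, rfl, ?_, fun _ => e'⟩
    simp only [map_add, map_mul, map_sub, map_one, h2, a1, a2, a3, a4]
    linear_combination e5 + (n₁ + n₂ - n₃ - n₄ - n₁ * ε - n₂ * σ ε + n₃ * σ δ + n₄ * δ) * hc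

namespace OB
variable (h : OB B b κ) (hM : ∀ g ∈ SUG B, Mon b g.1 → g ∈ M)
  (NF : ∀ g ∈ M, ∀ (i j : ι) (c : F), g.1 (b i) = c • b j → Mon b g.1) [Finite F]
  (hn : 7 ≤ Fintype.card ι ∨ 6 ≤ Fintype.card ι ∧ 3 ≤ q0 σ)
include h hM NF hn

theorem mon_tv_even (h2 : (2 : F) = 0) {s : V} (hs : B s s = 0) (H : tv B s κ⁻¹ ∈ M) : Mon b (tv B s κ⁻¹).1 := by
  haveI := Module.Finite.of_basis b
  by_contra H'
  have D := h.sd
  have a0 := h.ne
  have h5 : 5 ≤ Fintype.card ι := by omega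
  have : Nonempty ι := Fintype.card_pos_iff.mp (by omega)
  have a1 : σ κ⁻¹ = κ⁻¹ := by rw [map_inv₀, h.conj]; congr 1; linear_combination -κ * h2
  have a2 : ∀ i, b.repr s i ≠ 0 := fun i e => H' (NF _ H i i 1 (by
    rw [tv_apply_of_perp D _ (by simp [h.right, e]), one_smul]))
  obtain ⟨i, j, k, l, ⟨hij, hik, hil, hjk, hjl, hkl⟩, b2⟩ := exists_four (fun i => σ (b.repr s i) * b.repr s i) h5
  obtain ⟨ε, δ, β, e1, e2, e3, e4, e5, e6, e7⟩ := exists_two_mu h.hσ D.invol h2 (by simp [D.invol, mul_comm])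
    (by simp [D.invol, mul_comm]) (by simp [D.invol, mul_comm]) (by simp [D.invol, mul_comm]) (by simp [a2]) b2
  obtain ⟨d, c1, c2⟩ := h.dd_mem hM hij e1
  obtain ⟨d', c3, c4⟩ := h.dd_mem hM hkl e2
  obtain ⟨s', hs'⟩ : ∃ s', (d * d').1 s = s' := ⟨_, rfl⟩
  have c5 : tv B s' κ⁻¹ ∈ M := by
    rw [← hs', ← conj_tv D]; exact mul_mem (mul_mem (mul_mem c1 c3) H) (inv_mem (mul_mem c1 c3))
  have c6 : B s' s' = 0 := by rw [← hs', UG_map, hs]
  have c7 : s + s' = ((ε - 1) * b.repr s i) • b i + ((σ ε - 1) * b.repr s j) • b j +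
      (((δ - 1) * b.repr s k) • b k + ((σ δ - 1) * b.repr s l) • b l) := by
    simp [← hs', c2, c4, hik, hil, hjk, hjl]
    match_scalars <;> first | rfl | linear_combination h2
  have c8 : B s s' = κ * β := by
    have := congrArg (B s) c7
    simp [hs, h.right] at this
    rw [this, e5]; ring
  have e8 : σ ε - 1 ≠ 0 := by simpa using D.σ_ne_zero (sub_ne_zero.mpr e3)
  have e9 : σ δ - 1 ≠ 0 := by simpa using D.σ_ne_zero (sub_ne_zero.mpr e4)
  have d1 : b.repr (s + s') i ≠ 0 := by simp [c7, hij, hik, hil, a2, sub_ne_zero.mpr e3]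
  have d2 : b.repr (s + s') j ≠ 0 := by simp [c7, hij.symm, hjk, hjl, a2, e8]
  have d3 : b.repr (s + s') k ≠ 0 := by simp [c7, hik.symm, hjk.symm, hkl, a2, sub_ne_zero.mpr e4]
  have d4 : ∀ m, m ∉ ({i, j, k, l} : Finset ι) → b.repr (s + s') m = 0 := fun m hm => by
    simp only [Finset.mem_insert, Finset.mem_singleton, not_or] at hm
    simp [c7, hm.1, hm.2.1, hm.2.2.1, hm.2.2.2]
  obtain ⟨m, m1, m2, m3, m4⟩ := exists_ne₄ h5 i j k l
  have m5 := d4 m (by simp [m1, m2, m3, m4])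
  by_cases e : β = 0
  · obtain ⟨p, hp, r, hr, hpr⟩ := Finset.one_lt_card.mp (show 1 < ({m, i, j, k, l}ᶜ : Finset ι).card by
      have := Finset.card_le_five (a := m) (b := i) (c := j) (d := k) (e := l)
      have := hn.resolve_right fun e' => e7 e'.2 e
      rw [Finset.card_compl]; omega)
    have f1 : (tv B s κ⁻¹ * tv B s' κ⁻¹).1 (b m) = b m + σ (b.repr s m) • (s + s') := by
      have : b.repr s' m = b.repr s m := by
        simp only [map_add, Finsupp.add_apply] at m5; linear_combination m5 - b.repr s m * h2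
      simp [tv_apply D hs a1, tv_apply D c6 a1, h.right, this, c8, e, a0]; abel
    have f2 : ∀ p ∈ ({m, i, j, k, l}ᶜ : Finset ι), b.repr ((tv B s κ⁻¹ * tv B s' κ⁻¹).1 (b m)) p = 0 := fun p hp => by
      rw [Finset.mem_compl, Finset.mem_insert, not_or] at hp
      rw [f1, map_add, map_smul]; simp [-map_add, d4 p hp.2, hp.1]
    obtain ⟨m', c, hc⟩ := h.nf_two hM NF hn (mul_mem H c5) hpr (f2 p hp) (f2 r hr) m
    refine ne_smul_basis hij ?_ ?_ _ _ hc
    · rw [f1, map_add, map_smul]; simpa [-map_add, m1.symm, a2] using d1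
    · rw [f1, map_add, map_smul]; simpa [-map_add, m2.symm, a2] using d2
  have f0 : B s s' ≠ 0 := by simp [c8, a0, e]
  have f1 : σ (B s s') = B s s' := by rw [c8, map_mul, h.conj, e6]; linear_combination -κ * β * h2
  have f2 := D.tv_add_mem h2 a1 (inv_ne_zero a0) hs c6 H c5 f0 f1
  obtain ⟨m', c, hc⟩ := NF _ f2 m m 1 (by rw [tv_apply_of_perp D _ (by simp [h.right, -map_add, m5]), one_smul]) i
  rw [tv_apply D (by simp [hs, c6, D.skew s s', f1]) (by rw [map_inv₀, f1]), h.right] at hc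
  refine ne_smul_basis hjk ?_ ?_ _ _ hc
  · rw [map_add, map_smul]; simpa [-map_add, hij.symm, f0, a0, d1] using d2
  · rw [map_add, map_smul]; simpa [-map_add, hik.symm, f0, a0, d1] using d3

theorem mon_even (h2 : (2 : F) = 0) {g : UG B} (hg : g ∈ M) : Mon b g.1 := by
  have D := h.sd
  have a0 := h.ne
  obtain ⟨i, j, hij⟩ := Fintype.exists_pair_of_one_lt_card (α := ι) (by omega)
  have : Nonempty ι := ⟨i⟩
  have a1 : σ κ⁻¹ = κ⁻¹ := by rw [map_inv₀, h.conj]; congr 1; linear_combination -κ * h2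
  have a2 : ∀ c, σ c * c = 1 → B (b i + c • b j) (b i + c • b j) = 0 := fun c hc => by
    simp [h.map, hij, hij.symm]; linear_combination κ * hc + κ * h2
  have a3 : ∀ c, σ c * c = 1 → ∀ x l, b.repr ((tv B (b i + c • b j) κ⁻¹).1 x) l =
      if l = i then σ c * b.repr x j else if l = j then c * b.repr x i else b.repr x l := fun c hc x l => by
    rw [tv_apply D (a2 c hc) a1]
    split_ifs with e1 e2
    · simp [e1, h.left, hij]; field_simp; linear_combination b.repr x i * h2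
    · simp [e2, h.left, hij.symm]; field_simp; linear_combination b.repr x j * hc + b.repr x j * h2
    · simp [e1, e2]
  have a4 : ∀ c, σ c * c = 1 → Mon b (g⁻¹ * tv B (b i + c • b j) κ⁻¹ * g).1 := fun c hc => by
    have b1 : tv B (b i + c • b j) κ⁻¹ ∈ M := hM _ (tv_mem_SUG D _ _) fun l => by
      by_cases e1 : l = i
      · exact ⟨j, c, b.ext_elem fun r => by by_cases e : r = j <;> simp [a3 c hc, e1, e, hij, hij.symm]; grind⟩
      by_cases e2 : l = j
      · exact ⟨i, σ c, b.ext_elem fun r => by by_cases e : r = i <;> simp [a3 c hc, e2, e, hij, hij.symm]; grind⟩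
      · exact ⟨l, 1, by rw [tv_apply_of_perp D _ (by simp [h.map, Ne.symm e1, Ne.symm e2]), one_smul]⟩
    have b2 := conj_tv D g⁻¹ (b i + c • b j) κ⁻¹
    rw [inv_inv] at b2
    rw [b2]
    exact h.mon_tv_even hM NF hn h2 (by rw [UG_map, a2 c hc]) (b2 ▸ mul_mem (mul_mem (inv_mem hg) b1) hg)
  obtain ⟨ε, e1, e2⟩ := exists_mu h.hσ D.invol
  have e3 : ε ≠ 1 := fun e => e2 (by simp [e])
  refine h.nf_conj hM NF hn hg (z := tv B (b i + (1 : F) • b j) κ⁻¹ * tv B (b i + ε • b j) κ⁻¹)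
    (s := fun l => if l = i then ε else if l = j then σ ε else 1) (fun x l => ?_) (S := {i, j}) (fun l hl => ?_)
    (fun l hl => ?_) (by simp [hij]) (by rw [Finset.card_pair hij]; omega) ?_
  · rw [UG_mul_apply, a3 1 (by simp)]
    split_ifs with e4 e5 <;> simp [a3 ε e1, hij.symm, *]
  · simp only [Finset.mem_insert, Finset.mem_singleton, not_or] at hl
    simp [hl.1, hl.2]
  · split_ifs with e4 e5
    · exact e3
    · exact fun e => e3 (by simpa [e] using e1)
    · simp [e4, e5] at hl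
  · convert (a4 1 (by simp)).mul (a4 ε e1) using 1
    rw [← Subgroup.coe_mul]; congr 1; group

end OB

end Cfsg.Agent.H12
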