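import Mathlib
import Cfsg.Agent.H12.TfD
import Cfsg.Agent.H12.UfD

/-!
Tensor products of unitary spaces: basic isometries, and generation from one transvection.
-/

set_option autoImplicit false

namespace Cfsg.Agent.H12

open Module

variable {F V : Type*} [Field F] [AddCommGroup V] [Module F V] {σ : F →+* F}
  {B : V →ₛₗ[σ] V →ₗ[F] F} {M : Subgroup (UG B)}

theorem mem_SUG_of_nilp [FiniteDimensional F V] {k : UG B} (h : IsNilpotent (k.1.toLinearMap - 1)) : k ∈ SUG B := by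
  classical
  let b := finBasis F V
  have h0 : IsNilpotent (LinearMap.toMatrix b b k.1 - 1) := by
    have := h.map (LinearMap.toMatrixAlgEquiv b)
    rwa [map_sub, map_one] at this
  have h1 := Matrix.eval_charpoly (LinearMap.toMatrix b b k.1 - 1) (-1)
  rw [sub_eq_zero.mp (Matrix.isNilpotent_charpoly_sub_pow_of_isNilpotent h0).eq_zero, map_neg, map_one,
    show -1 - (LinearMap.toMatrix b b k.1 - 1) = -LinearMap.toMatrix b b k.1 by abel, Matrix.det_neg,
    Polynomial.eval_pow, Polynomial.eval_X, LinearMap.det_toMatrix] at h1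
  exact mem_SUG.mpr (mul_left_cancel₀ (by simp) (h1.symm.trans (mul_one _).symm))

theorem SD.iso_gen (D : SD B) {e : V} (he : B e e = 0) (h0 : e ≠ 0) {A : AddSubgroup V} (h1 : ∀ c : F, c • e ∈ A)
    (h2 : ∀ x, B x x = 0 → B e x ≠ 0 → x ∈ A) (x : V) : x ∈ A := by
  have key : ∀ x, B e x ≠ 0 → x ∈ A := fun x hx => by
    obtain ⟨a, ha⟩ := D.exists_iso_add he hx
    simpa using sub_mem (h2 _ ha (by simpa [he])) (h1 a)
  by_cases hx : B e x = 0
  · obtain ⟨y, hy⟩ := D.exists_ne h0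
    simpa using sub_mem (key (x + y) (by simpa [hx] using hy)) (key y hy)
  · exact key x hx

theorem SD.scalar_of (D : SD B) (hσ : σ ≠ RingHom.id F) {θ : End F V}
    (h : ∀ l : F, ∃ c, ∀ u x, l * B u (θ x) + σ l * B (θ u) x = c * B u x) : ∃ c : F, ∀ x, θ x = c • x := by
  obtain ⟨ω, hω⟩ : ∃ ω, ω - σ ω ≠ 0 := by
    by_contra! H; exact hσ (RingHom.ext fun a => (sub_eq_zero.mp (H a)).symm)
  obtain ⟨c, hc⟩ := h 1
  obtain ⟨d, hd⟩ := h ω
  refine ⟨(d - σ ω * c) / (ω - σ ω), fun x => D.ext_right fun u => ?_⟩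
  have := hc u x
  rw [map_one] at this
  simp only [map_smul, smul_eq_mul]; field_simp
  linear_combination hd u x - σ ω * this

theorem AM.self (D : SD B) {v : V} (H : IS M v) (c : F) : AM M v (c • v) := by
  have := adm_zero (σ := σ) (c := 0) H.1 (map_zero σ)
  refine ⟨0, by simpa using this.add_smul D _, ?_⟩
  rw [← zero_add (_ • v), rho_add_smul D this]; exact H.2 _

theorem AM.rho_zero (D : SD B) {v u : V} (H : IS M v) (h : AM M v u) (hu : B u u = 0) : rho B v u 0 ∈ M := by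
  obtain ⟨c, a1, a2⟩ := h
  rw [rho_eq_tv_mul_rho D a1 (c' := 0) ⟨a1.ee, a1.eu, by simp [hu]⟩]; exact mul_mem (H.2 _) a2

theorem AM.diff (D : SD B) {v x : V} (h : AM M v x) {k : UG B} (hk : k ∈ M) (hv : k.1 v = v) :
    AM M v (k.1 x - x) := AM.sub D (hv ▸ AM.map D h hk :) h

/-- The additive group of vectors with an Eichler transformation in `M`. -/
def AS (D : SD B) (M : Subgroup (UG B)) {v : V} (hv : B v v = 0) : AddSubgroup V where
  carrier := {x | AM M v x}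
  add_mem' := AM.add D
  zero_mem' := AM.zero D hv
  neg_mem' := AM.neg D

@[simp] theorem mem_AS (D : SD B) {v : V} (hv : B v v = 0) {x : V} : x ∈ AS D M hv ↔ AM M v x := Iff.rfl

variable {U W : Type*} [AddCommGroup U] [Module F U] [AddCommGroup W] [Module F W]
  {B₁ : U →ₛₗ[σ] U →ₗ[F] F} {β : W →ₛₗ[σ] W →ₗ[F] F} {τ : U →ₗ[F] W →ₗ[F] V} {ζ : F}

/-- The unitary space `V` is the tensor product of `U` and `W`. -/
structure UT (B : V →ₛₗ[σ] V →ₗ[F] F) (B₁ : U →ₛₗ[σ] U →ₗ[F] F) (β : W →ₛₗ[σ] W →ₗ[F] F)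
    (τ : U →ₗ[F] W →ₗ[F] V) (ζ : F) : Prop where
  ten : IsTensorProduct τ
  sd : SD B
  sd₁ : SD B₁
  sd₂ : SD β
  map : ∀ u w u' w', B (τ u w) (τ u' w') = ζ * (B₁ u u' * β w w')
  ne : ζ ≠ 0
  conj : σ ζ = -ζ
  hσ : σ ≠ RingHom.id F

namespace UT
variable (h : UT B B₁ β τ ζ)

/-- Contraction with a vector of `W`. -/
noncomputable def cw (r : W) : V →ₗ[F] U := cR h.ten (β r)

@[simp] theorem cw_ten (r : W) (u : U) (w : W) : h.cw r (τ u w) = β r w • u := cR_ten ..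

theorem B_cw (x : U) (w : W) (v : V) : B (τ x w) v = ζ * B₁ x (h.cw w v) :=
  LinearMap.congr_fun (ten_ext h.ten (f := B (τ x w)) (g := ζ • B₁ x ∘ₗ h.cw w) fun u w' => by
    simp [h.map, mul_comm]) v

theorem B_cw' (x : U) (w : W) (v : V) : B v (τ x w) = -(ζ * B₁ (h.cw w v) x) := by
  rw [h.sd.skew, h.B_cw, map_mul, h.conj, h.sd₁.σ_map]; ring

theorem cw_add (r r' : W) (v : V) : h.cw (r + r') v = h.cw r v + h.cw r' v := by simp [cw]

theorem cw_smul (c : F) (r : W) (v : V) : h.cw (c • r) v = σ c • h.cw r v := by simp [cw]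

include h

theorem flip : UT B β B₁ τ.flip ζ :=
  ⟨by simpa [IsTensorProduct, ← TensorProduct.lift_comp_comm_eq] using h.ten, h.sd, h.sd₂, h.sd₁,
    fun w u w' u' => by simp [h.map, mul_comm], h.ne, h.conj, h.hσ⟩

theorem ext_B {v v' : V} (H : ∀ u w, B (τ u w) v = B (τ u w) v') : v = v' :=
  h.sd.ext_right fun z => h.ten.inductionOn z (by simp) H fun _ _ a b => by simp [a, b]

theorem ext {g g' : UG B} (H : ∀ u w, g.1 (τ u w) = g'.1 (τ u w)) : g = g' :=
  UG_ext fun v => LinearMap.congr_fun (ten_ext h.ten (f := g.1.toLinearMap) (g := g'.1.toLinearMap) H) v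

theorem eq_of_cw {r s : W} (hs : β r s = 1) {p : V → Prop} (h0 : p 0)
    (h1 : ∀ u w, β r w = 0 → p (τ u w)) (h2 : ∀ v v', p v → p v' → p (v + v')) {v : V}
    (hv : h.cw r v = 0) : p v := by
  have : p (v - τ (h.cw r v) s) := h.ten.inductionOn v (by simpa) (fun u w => by
    convert h1 u (w - β r w • s) (by simp [hs]) using 1; simp) fun v v' a b => by
      convert h2 _ _ a b using 1; simp; abel
  simpa [hv] using this

theorem eq_right {r s : W} (hs : β s r = 1) {v : V} (H : ∀ w, β r w = 0 → h.cw w v = 0) :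
    v = τ (h.cw s v) r := h.ext_B fun u w => by
  have a1 : β r s = -1 := by rw [h.sd₂.skew, hs, map_one]
  have := H (w + β r w • s) (by simp [a1])
  rw [h.cw_add, h.cw_smul, h.sd₂.σ_map, neg_smul, add_neg_eq_zero] at this
  simp [h.B_cw, this]

theorem cw_map {k : UG B} {z : W} {a : U → U} (hk : ∀ u, k.1 (τ u z) = τ (a u) z) (u : U) (v : V) :
    B₁ (a u) (h.cw z (k.1 v)) = B₁ u (h.cw z v) :=
  mul_left_cancel₀ h.ne (by rw [← h.B_cw, ← h.B_cw, ← hk, UG_map])

theorem cw_fix {k : UG B} {z : W} (hk : ∀ u, k.1 (τ u z) = τ u z) (v : V) : h.cw z (k.1 v) = h.cw z v :=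
  h.sd₁.ext_right fun u => h.cw_map hk u v

variable [FiniteDimensional F U] [FiniteDimensional F W]

theorem fin : FiniteDimensional F V := ten_fin h.ten

/-- The isometry `a ⊗ b`. -/
noncomputable def tt (a : UG B₁) (b : UG β) : UG B :=
  haveI := h.fin
  h.sd.mkU (h.ten.map h.ten a.1.toLinearMap b.1.toLinearMap) fun x y =>
    h.ten.inductionOn x (by simp) (fun _ _ => h.ten.inductionOn y (by simp)
      (fun _ _ => by simp [h.ten.map_eq, h.map, UG_map]) fun _ _ a b => by simp only [map_add, a, b])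
      fun _ _ a b => by simp only [map_add, LinearMap.add_apply, a, b]

@[simp] theorem tt_ten (a : UG B₁) (b : UG β) (u : U) (w : W) : (h.tt a b).1 (τ u w) = τ (a.1 u) (b.1 w) :=
  h.ten.map_eq h.ten ..

theorem tt_mul (a a' : UG B₁) (b b' : UG β) : h.tt (a * a') (b * b') = h.tt a b * h.tt a' b' :=
  h.ext fun _ _ => by simp

theorem tt_inv (a : UG B₁) (b : UG β) : (h.tt a b)⁻¹ = h.tt a⁻¹ b⁻¹ :=
  inv_eq_of_mul_eq_one_right (h.ext fun _ _ => by simp)

theorem tn_tt (a : UG B₁) (b : UG β) : TN τ (h.tt a b).1 := ⟨_, _, h.tt_ten a b⟩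

theorem flip_tt (a : UG B₁) (b : UG β) : h.flip.tt b a = h.tt a b := h.ext fun u w =>
  (h.flip.tt_ten b a w u).trans (h.tt_ten a b u w).symm

theorem cw_tt (a : UG B₁) (b : UG β) (r : W) (v : V) : h.cw (b.1 r) ((h.tt a b).1 v) = a.1 (h.cw r v) :=
  h.ten.inductionOn v (by simp) (fun _ _ => by simp [UG_map]) fun _ _ a b => by simp [a, b]

theorem tt_rho {z s : W} {c : F} (H : Adm β z s c) (v : V) : (h.tt 1 (rho β z s c)).1 v =
    v + τ (h.cw z v) s + τ (c • h.cw z v + h.cw s v) z :=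
  h.ten.inductionOn v (by simp) (fun _ _ => by simp [rho_apply h.sd₂ H, add_smul, mul_smul]) fun _ _ a b => by
    simp only [map_add, a, b, smul_add, LinearMap.add_apply]; abel

theorem tt_tv {z : W} {c : F} (hz : β z z = 0) (hc : σ c = c) (v : V) :
    (h.tt 1 (tv β z c)).1 v = v + c • τ (h.cw z v) z := by
  simp [tv, h.tt_rho (adm_zero hz hc), cw]

variable [Finite F]

theorem tt_right {b : UG β} (hb : b ∈ SUG β) : h.tt 1 b ∈ SUG B := by
  haveI := h.fin
  rw [← h.sd₂.EG_eq_SUG h.sd₂.ns] at hb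
  refine Subgroup.closure_induction (fun _ ⟨z, s, c, e⟩ => ?_) ?_ (fun a b _ _ h1 h2 => ?_) (fun a _ h1 => ?_) hb
  · by_cases H : Adm β z s c
    · refine mem_SUG_of_nilp ⟨3, LinearMap.ext fun v => ?_⟩
      simp [pow_succ, e, h.tt_rho H, H.ee, H.eu, h.sd₂.comm0 H.eu]
    · rw [e, rho_of_not H, show h.tt 1 1 = 1 from h.ext fun _ _ => by simp]; exact one_mem _
  · rw [show h.tt 1 1 = 1 from h.ext fun _ _ => by simp]; exact one_mem _
  · simpa [← h.tt_mul] using mul_mem h1 h2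
  · simpa [h.tt_inv] using inv_mem h1

variable (hM : ∀ g ∈ SUG B, TN τ g.1 → g ∈ M)
include hM

omit h [FiniteDimensional F U] [FiniteDimensional F W] [Finite F] in
theorem flip_hM : ∀ g ∈ SUG B, TN τ.flip g.1 → g ∈ M := fun g hg ⟨a, b, H⟩ => hM g hg ⟨b, a, fun x z => H z x⟩

theorem right_mem {b : UG β} (hb : b ∈ SUG β) : h.tt 1 b ∈ M := hM _ (h.tt_right hb) (h.tn_tt _ _)

theorem left_mem {a : UG B₁} (ha : a ∈ SUG B₁) : h.tt a 1 ∈ M := h.flip_tt a 1 ▸ h.flip.right_mem (flip_hM hM) ha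

theorem is_right {e : U} {z z' : W} (H : IS M (τ e z)) (hz : β z z = 0) (h0 : z ≠ 0) (hz' : β z' z' = 0) :
    IS M (τ e z') := by
  by_cases e0 : z' = 0
  · simpa [e0] using IS.zero h.sd
  obtain ⟨f, hf⟩ := h.sd₂.exists_SP hz h0
  obtain ⟨a, -, g, a2, a3⟩ := hf.exists_erel h.sd₂ hz' e0
  refine IS.of_map h.sd (h.right_mem hM (h.sd₂.EG_le_SUG a2)) ?_
  simpa [a3] using H.smul h.sd a

variable (H : ∀ e z, B₁ e e = 0 → β z z = 0 → IS M (τ e z))
include H

theorem am_partner {e : U} {z z' : W} (he : B₁ e e = 0) (hz : SP β z z') : AM M (τ e z) (τ e z') :=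
  AM.of_IS h.sd (by simp [h.map, he]) (by simp [h.map, he]) (H _ _ he hz.ff)
    (by simpa using H e (z + z') he (by simp [hz.ee, hz.ff, hz.ef, hz.fe h.sd₂]))

theorem am_same {e : U} {z s : W} (he : B₁ e e = 0) (hz : β z z = 0) (h0 : z ≠ 0) (hs : β z s = 0) :
    AM M (τ e z) (τ e s) := by
  obtain ⟨z', hf⟩ := h.sd₂.exists_SP hz h0
  obtain ⟨c, hc⟩ := exists_adm h.sd₂ hz hs
  convert AM.sub h.sd (AM.diff h.sd (h.am_partner hM H he hf)
    (h.right_mem hM (rho_mem_SUG h.sd₂ z s c)) (by simp [rho_apply_self h.sd₂]))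
    (AM.self h.sd (H e z he hz) (c + β s z')) using 1
  simp [rho_apply h.sd₂ hc, hf.ef]; abel

theorem am_perp (h3 : 3 ≤ finrank F W) {e : U} {z s : W} (he : B₁ e e = 0) (he0 : e ≠ 0) (hz : β z z = 0)
    (h0 : z ≠ 0) (hs : β z s = 0) (u : U) : AM M (τ e z) (τ u s) := by
  have hv := (H e z he hz).1
  refine h.sd₁.iso_gen he he0 (A := (AS h.sd M hv).comap (τ.flip s).toAddMonoidHom) (fun c => ?_) (fun f hf h1 => ?_) u
  · simpa using h.am_same hM H he hz h0 (s := c • s) (by simp [hs])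
  have key : ∀ s, β z s = 0 → s ∉ F ∙ z → AM M (τ e z) (τ f s) := fun s hs h2 => by
    have a0 := mul_ne_zero h.ne (h.sd₁.ne0 h1)
    obtain ⟨z', a1, a2, a3⟩ := h.sd₂.exists_partner (F ∙ s) hz (notMem_span_symm h2 h0) fun x hx => by
      obtain ⟨c, rfl⟩ := Submodule.mem_span_singleton.mp hx; simp [h.sd₂.comm0 hs]
    have a4 := h.am_same hM H hf hz h0 (s := (ζ * B₁ f e)⁻¹ • s) (by simp [hs])
    have a5 : Adm B (τ f z) (τ f ((ζ * B₁ f e)⁻¹ • s)) 0 := ⟨by simp [h.map, hf], by simp [h.map, hf], by simp [h.map, hf]⟩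
    have := AM.diff h.sd (h.am_partner hM H he ⟨hz, a1, a2⟩) (a4.rho_zero h.sd (H f z hf hz) (by simp [h.map, hf]))
      (rho_apply_of_perp h.sd _ (by simp [h.map, hz]) (by simp [h.map, h.sd₂.comm0 hs]))
    rw [rho_apply h.sd a5] at this
    simpa [h.map, a2, a3 s (Submodule.mem_span_singleton_self s), smul_smul, -mul_inv_rev, a0] using this
  by_cases e : s ∈ F ∙ z
  · obtain ⟨z', hf⟩ := h.sd₂.exists_SP hz h0
    have := hf.nontrivial_spp h.sd₂ h3
    obtain ⟨r, hr⟩ := exists_ne (0 : spp β z z')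
    have b1 : (r : W) ∉ F ∙ z := fun e => by
      obtain ⟨c, hc⟩ := Submodule.mem_span_singleton.mp e
      exact hr (Subtype.ext (by simpa [← hc, hf.fe h.sd₂] using Or.inl (by simpa [← hc, hf.fe h.sd₂] using spp_right r)))
    simpa using AM.sub h.sd (key (s + r) (by simp [hs, spp_left r]) fun e' => b1 (by simpa using sub_mem e' e))
      (key r (spp_left r) b1)
  · exact key s hs e

theorem es_of (h3 : 3 ≤ finrank F W) {e : U} {z : W} (he : B₁ e e = 0) (he0 : e ≠ 0) (hz : β z z = 0)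
    (h0 : z ≠ 0) : ES M (τ e z) := by
  obtain ⟨z', hf⟩ := h.sd₂.exists_SP hz h0
  obtain ⟨f, hf'⟩ := h.sd₁.exists_SP he he0
  have a0 := h.ne
  have a1 : ∀ c : F, AM M (τ e z) (c • τ e z') := fun c => by
    have := AM.diff h.sd (h.am_perp hM H h3 he he0 hz h0 hz ((-c / ζ) • f)) ((H e z' he hf.ff).2 1)
      (tv_apply_of_perp h.sd _ (by simp [h.map, he]))
    rw [tv_apply h.sd (H e z' he hf.ff).1 (map_one σ)] at this
    convert this using 1
    simp [h.map, hf'.ef, hf.fe h.sd₂, a0]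
  have a2 : ∀ u, B₁ e u = 0 → AM M (τ e z) (τ u z') := fun u hu => by
    obtain ⟨c, b1, b2⟩ := h.flip.am_same (flip_hM hM) (fun a b c d => H b a d c) hf.ff he he0 (s := (-ζ⁻¹) • u)
      (by simp [hu])
    simp only [LinearMap.flip_apply] at b1 b2
    have := AM.diff h.sd (h.am_perp hM H h3 he he0 hz h0 hz f) b2
      (rho_apply_of_perp h.sd _ (by simp [h.map, he]) (by simp [h.map, h.sd₁.comm0 hu]))
    rw [rho_apply h.sd b1, add_sub_right_comm, add_sub_cancel_left] at this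
    have := AM.sub h.sd this (a1 (c * B (τ e z') (τ f z) + B (τ (-ζ⁻¹ • u) z') (τ f z)))
    rw [add_sub_cancel_right] at this
    simpa [h.map, hf'.ef, hf.fe h.sd₂, smul_smul, a0] using this
  refine ES.of_AM h.sd (H e z he hz) fun v hv => ?_
  simpa using AM.add h.sd (h.eq_of_cw hf.ef (p := AM M (τ e z)) (AM.zero h.sd (H e z he hz).1)
    (fun u w hw => h.am_perp hM H h3 he he0 hz h0 hw u) (fun _ _ => AM.add h.sd) (v := v - τ (h.cw z v) z')
    (by simp [hf.ef])) (a2 (h.cw z v) (by simpa [h.B_cw, a0] using hv))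

omit H in
theorem le_of_is (h3 : 3 ≤ finrank F W) {e : U} {z : W} (he : B₁ e e = 0) (he0 : e ≠ 0) (hz : β z z = 0)
    (h0 : z ≠ 0) (H : IS M (τ e z)) : SUG B ≤ M := by
  haveI := h.fin
  have H' : ∀ e z, B₁ e e = 0 → β z z = 0 → IS M (τ e z) := fun e' z' a1 a2 =>
    h.flip.is_right (flip_hM hM) (h.is_right hM H hz h0 a2) he he0 a1
  obtain ⟨z', hf⟩ := h.sd₂.exists_SP hz h0
  obtain ⟨f, hf'⟩ := h.sd₁.exists_SP he he0
  exact h.sd.SUG_le_of_ES₂ h.sd.ns (h.es_of hM H' h3 he he0 hz h0) (h.es_of hM H' h3 hf'.ff hf'.ne_right hf.ff hf.ne_right)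
    (by simp [h.map, hf.ef, hf'.ef, h.ne])

end UT

end Cfsg.Agent.H12
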