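import Mathlib
import Cfsg.Agent.H12.UtA

/-!
Tensor products of unitary spaces: elements of a proper overgroup stabilising `U ⊗ z`.
-/

set_option autoImplicit false

namespace Cfsg.Agent.H12

open Module

variable {F V : Type*} [Field F] [AddCommGroup V] [Module F V] {σ : F →+* F}
  {B : V →ₛₗ[σ] V →ₗ[F] F} {M : Subgroup (UG B)}

theorem SD.scalar_of_iso [FiniteDimensional F V] (D : SD B) (hσ : σ ≠ RingHom.id F) {θ : End F V} {e : V}
    (he : B e e = 0) (h0 : e ≠ 0) (h1 : ∀ x y, B (θ x) y = B x (θ y)) (h2 : ∀ x, B x x = 0 → B x (θ x) = 0) :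
    ∃ c, σ c = c ∧ ∀ x, θ x = c • x := by
  obtain ⟨ω, hω⟩ : ∃ ω, σ ω - ω ≠ 0 := by
    by_contra! H; exact hσ (RingHom.ext fun a => sub_eq_zero.mp (H a))
  have a1 : ∀ {e f}, SP B e f → σ (B e (θ f)) = B e (θ f) := fun {e f} H => by
    have := h2 (e + f) (by simp [H.ee, H.ff, H.ef, H.fe D])
    simp only [map_add, LinearMap.add_apply, h2 e H.ee, h2 f H.ff] at this
    rw [D.σ_map, h1]; linear_combination -this
  have a2 : ∀ {e f}, SP B e f → θ e = B e (θ f) • e := fun {e f} H => by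
    obtain ⟨a, w, hw⟩ := H.exists_eq_of_perp D (h2 e H.ee)
    have b1 : ∀ u : spp B e f, σ (B w u) = B w u := fun u => by
      obtain ⟨c, hc⟩ := exists_adm D H.ee (spp_left u)
      have b2 := a1 (H.map (rho B e u c))
      have b3 := a1 H
      rw [rho_apply_self D, rho_apply D hc, ← h1] at b2
      rw [← h1] at b3
      simp only [map_add, map_smul, H.ef, h1 e e, h2 e H.ee, one_smul, smul_zero, add_zero, b3, add_right_inj] at b2
      simpa [hw, spp_left u] using b2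
    have b2 : w = 0 := (H.sd D).sep w fun u => mul_left_cancel₀ hω (by
      have := b1 (ω • u)
      simp only [Submodule.coe_smul, map_smul, smul_eq_mul, map_mul, b1 u] at this
      simpa [sub_mul, sub_eq_zero] using this)
    have b3 := a1 H
    simp only [← h1, hw, b2, Submodule.coe_zero, zero_add, LinearMap.map_smulₛₗ, LinearMap.smul_apply, H.ef,
      smul_eq_mul, mul_one, D.invol] at b3 ⊢
    rw [← b3]
  obtain ⟨f, hf⟩ := D.exists_SP he h0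
  refine ⟨_, a1 hf, fun x => LinearMap.mem_eqLocus.mp (D.iso_gen he h0
    (A := (LinearMap.eqLocus θ (B e (θ f) • LinearMap.id)).toAddSubgroup)
    (fun c => by simp [a2 hf, smul_comm c]) (fun x hx h3 => ?_) x)⟩
  obtain ⟨y, hy⟩ := D.exists_SP hx (by rintro rfl; simp at h3)
  have := h1 e x
  rw [a2 hf, a2 hy] at this
  simp only [LinearMap.map_smulₛₗ, LinearMap.smul_apply, map_smul, smul_eq_mul, a1 hf] at this
  simp [a2 hy, mul_right_cancel₀ h3 this]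

variable {U W : Type*} [AddCommGroup U] [Module F U] [AddCommGroup W] [Module F W]
  {B₁ : U →ₛₗ[σ] U →ₗ[F] F} {β : W →ₛₗ[σ] W →ₗ[F] F} {τ : U →ₗ[F] W →ₗ[F] V} {ζ : F}

namespace UT
variable (h : UT B B₁ β τ ζ) {z : W}

/-- The endomorphisms of `U` induced by the elements of `M` in the centre of the radical at `U ⊗ z`. -/
def JS (M : Subgroup (UG B)) (hz : β z z = 0) : AddSubgroup (End F U) where
  carrier := {θ | ∃ k ∈ M, ∀ v, k.1 v = v + τ (θ (h.cw z v)) z}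
  add_mem' := fun ⟨k, a1, a2⟩ ⟨k', a3, a4⟩ => ⟨k * k', mul_mem a1 a3, fun v => by simp [a2, a4, hz]; abel⟩
  zero_mem' := ⟨1, one_mem _, by simp⟩
  neg_mem' := fun ⟨k, a1, a2⟩ => ⟨k⁻¹, inv_mem a1, fun v => UG_inv_apply_eq (by simp [a2, hz])⟩

variable [FiniteDimensional F U] [FiniteDimensional F W] [Finite F] (hM : ∀ g ∈ SUG B, TN τ g.1 → g ∈ M)
  (h3 : 3 ≤ finrank F W) (hz : β z z = 0) (h0 : z ≠ 0)

omit [FiniteDimensional F U] [Finite F] in
include h0 in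
theorem js_adj {θ : End F U} (H : θ ∈ h.JS M hz) (x y : U) : B₁ (θ x) y = B₁ x (θ y) := by
  obtain ⟨k, -, a2⟩ := H
  obtain ⟨z', hf⟩ := h.sd₂.exists_SP hz h0
  have := UG_map k (τ x z') (τ y z')
  simp [a2, h.map, hf.ee, hf.ef, hf.ff, hf.fe h.sd₂] at this
  exact mul_left_cancel₀ h.ne (by linear_combination this)

include hM

theorem js_conj {θ θ' : End F U} (H : θ ∈ h.JS M hz) {a : UG B₁} (ha : a ∈ SUG B₁)
    (e : ∀ x, θ' (a.1 x) = a.1 (θ x)) : θ' ∈ h.JS M hz := by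
  obtain ⟨k, a1, a2⟩ := H
  refine ⟨h.tt a 1 * k * (h.tt a 1)⁻¹, mul_mem (mul_mem (h.left_mem hM ha) a1) (inv_mem (h.left_mem hM ha)),
    fun v => ?_⟩
  obtain ⟨v, rfl⟩ := (h.tt a 1).1.surjective v
  simp [a2, ← e, ← h.cw_tt a 1]

include h3 h0

theorem js_smul {θ : End F U} (H : θ ∈ h.JS M hz) {c : F} (hc : σ c = c) : c • θ ∈ h.JS M hz := by
  obtain ⟨l, rfl⟩ := h.sd.ns.resolve_left h.hσ c hc
  by_cases e : l = 0
  · simp [e]
  obtain ⟨k, a1, a2⟩ := H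
  obtain ⟨b, b1, b2⟩ := h.sd₂.erel h.sd₂.ns (Or.inr h3) hz h0 (y := l • z) (by simp [hz]) (smul_ne_zero e h0)
  have b3 := h.right_mem hM (h.sd₂.EG_le_SUG b1)
  refine ⟨h.tt 1 b * k * (h.tt 1 b)⁻¹, mul_mem (mul_mem b3 a1) (inv_mem b3), fun v => ?_⟩
  obtain ⟨v, rfl⟩ := (h.tt 1 b).1.surjective v
  have := h.cw_tt 1 b z v
  rw [b2, h.cw_smul, UG_one_apply] at this
  simp [a2, ← this, b2, smul_smul, mul_comm]

theorem js_le {e : U} (he : B₁ e e = 0) (he0 : e ≠ 0) {c : F} (hc : σ c = -c) (c0 : c ≠ 0)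
    (H : c • (B₁ e).smulRight e ∈ h.JS M hz) : SUG B ≤ M := by
  have a0 : B (τ e z) (τ e z) = 0 := by simp [h.map, hz]
  refine h.le_of_is hM h3 he he0 hz h0 (IS.of_fix a0 fun d hd => ?_)
  obtain ⟨k, a1, a2⟩ := h.js_smul hM h3 hz h0 H (c := d * ζ / c) (by simp [hd, hc, h.conj])
  convert a1
  refine UG_ext fun v => ?_
  simp [a2, tv_apply h.sd a0 hd, h.B_cw, smul_smul, c0, mul_assoc]

variable (H : ¬ SUG B ≤ M) (h2 : 2 ≤ finrank F U) (hq : 3 ≤ q0 σ ∨ 3 ≤ finrank F U)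
include h hz H h2 hq

theorem js_scalar {θ : End F U} (hθ : θ ∈ h.JS M hz) : ∃ c, σ c = c ∧ ∀ x, θ x = c • x := by
  have D := h.sd₁
  obtain ⟨e₀, a1, a2⟩ := D.exists_iso D.ns h2
  have a3 := h.js_adj hz h0 hθ
  refine D.scalar_of_iso h.hσ a2 a1 a3 fun e he => ?_
  by_contra hm
  have he0 : e ≠ 0 := by rintro rfl; simp at hm
  have a4 : σ (B₁ e (θ e)) = -B₁ e (θ e) := by rw [D.σ_map, a3]
  obtain ⟨ψ, hψ⟩ : ∃ ψ : U → End F U, ∀ m x, ψ m x = B₁ m x • e - B₁ e x • m :=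
    ⟨fun m => (B₁ m).smulRight e - (B₁ e).smulRight m, fun _ _ => rfl⟩
  have a5 : ∀ c, σ c = c → c • ψ (θ e) - (c * c * B₁ e (θ e)) • (B₁ e).smulRight e ∈ h.JS M hz := fun c hc => by
    simpa using sub_mem (h.js_conj hM hz hθ (tv_mem_SUG D e c)
      (θ' := θ + (c • ψ (θ e) - (c * c * B₁ e (θ e)) • (B₁ e).smulRight e)) fun x => by
        simp [tv_apply D he hc, hψ, he, a3]; module) hθ
  rcases hq with hq | hq
  · obtain ⟨c, c1, c2, c3⟩ := exists_fix_ne_of_three_le hq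
    refine H (h.js_le hM h3 hz h0 he he0 (c := (c * c - c) * B₁ e (θ e)) (by simp [c1, a4])
      (mul_ne_zero (fun e => mul_ne_zero c2 (sub_ne_zero.mpr c3) (by linear_combination e)) hm) ?_)
    convert sub_mem (h.js_smul hM h3 hz h0 (a5 1 (map_one σ)) c1) (a5 c c1) using 1
    module
  have a6 : ∀ m c, ψ m - c • (B₁ e).smulRight e ∈ h.JS M hz → ∀ u d, Adm B₁ e u d →
      ψ (B₁ e m • u + (d * B₁ e m + B₁ u m) • e) ∈ h.JS M hz := fun m c h1 u d hd => by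
    convert sub_mem (h.js_conj hM hz h1 (rho_mem_SUG D e u d)
      (θ' := ψ ((rho B₁ e u d).1 m) - c • (B₁ e).smulRight e) fun x => ?_) h1 using 1
    · ext x; simp [hψ, rho_apply D hd]; module
    · have := UG_map (rho B₁ e u d) e x
      rw [rho_apply_self D] at this
      have e1 : ∀ y, (c • (B₁ e).smulRight e) y = (c * B₁ e y) • e := fun y => by simp [smul_smul]
      simp only [hψ, LinearMap.sub_apply, e1, UG_map, this, map_sub, map_smul, rho_apply_self D]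
  obtain ⟨f, hf⟩ := D.exists_SP he he0
  have := hf.nontrivial_spp D hq
  obtain ⟨u, hu⟩ := exists_ne (0 : spp B₁ e f)
  obtain ⟨u', hu'⟩ := (hf.sd D).exists_ne hu
  rw [res_apply] at hu'
  obtain ⟨d, hd⟩ := exists_adm D he (spp_left u)
  obtain ⟨ω, hω⟩ : ∃ ω, σ ω - ω ≠ 0 := by
    by_contra! H; exact h.hσ (RingHom.ext fun a => sub_eq_zero.mp (H a))
  obtain ⟨d', hd'⟩ := exists_adm D he (u := σ (ω / (B₁ e (θ e) * B₁ u' u)) • u') (by simp [spp_left u'])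
  have b1 := a6 _ 0 (by simpa using a6 _ _ (by simpa using a5 1 (map_one σ)) u d hd) _ _ hd'
  refine H (h.js_le hM h3 hz h0 he he0 (c := σ ω - ω) (by simp [D.invol]) hω ?_)
  convert b1 using 1
  have := D.ne0 hu'
  ext x
  simp [hψ, he, spp_left u, D.spp_left' u', D.invol, sub_smul, smul_smul, -map_mul]
  field_simp

theorem eq_tv {k : UG B} (hk : k ∈ M) (h1 : ∀ v, h.cw z v = 0 → k.1 v = v) :
    ∃ c, σ c = c ∧ k = h.tt 1 (tv β z c) := by
  obtain ⟨z', hf⟩ := h.sd₂.exists_SP hz h0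
  have a1 : ∀ v, k.1 v - v = τ (h.cw (-z') (k.1 v - v)) z := fun v => h.eq_right (by simp [hf.fe h.sd₂]) fun w hw => by
    rw [map_sub, h.cw_fix fun u => h1 _ (by simp [hw]), sub_self]
  obtain ⟨c, a2, a3⟩ := h.js_scalar hM h3 hz h0 H h2 hq
    (θ := h.cw (-z') ∘ₗ (k.1.toLinearMap - 1) ∘ₗ τ.flip z') ⟨k, hk, fun v => by
      have := h1 (v - τ (h.cw z v) z') (by simp [hf.ef])
      rw [map_sub, sub_eq_iff_eq_add] at this
      simp only [LinearMap.comp_apply, LinearMap.sub_apply, LinearMap.flip_apply, LinearEquiv.coe_coe, End.one_apply,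
        ← a1, this]
      abel⟩
  refine ⟨c, a2, UG_ext fun v => ?_⟩
  have := h1 (v - τ (h.cw z v) z') (by simp [hf.ef])
  rw [map_sub, sub_eq_iff_eq_add] at this
  have b1 := a1 (τ (h.cw z v) z')
  rw [show h.cw (-z') (k.1 (τ (h.cw z v) z') - τ (h.cw z v) z') = _ from a3 (h.cw z v), sub_eq_iff_eq_add] at b1
  rw [h.tt_tv hz a2, this, b1]; simp

theorem eq_rho {k : UG B} (hk : k ∈ M) (h1 : ∀ u, k.1 (τ u z) = τ u z)
    (h4 : ∀ u s, β z s = 0 → ∃ y, k.1 (τ u s) = τ u s + τ y z) :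
    ∃ s c, Adm β z s c ∧ k = h.tt 1 (rho β z s c) := by
  obtain ⟨z', hf⟩ := h.sd₂.exists_SP hz h0
  let θ : W →ₗ[F] End F U := (LinearMap.llcomp F U V U (h.cw (-z') ∘ₗ (k.1.toLinearMap - 1))) ∘ₗ τ.flip
  have a1 : ∀ u s, β z s = 0 → k.1 (τ u s) = τ u s + τ (θ s u) z := fun u s hs => by
    obtain ⟨y, hy⟩ := h4 u s hs
    simp [θ, hy, hf.fe h.sd₂]
  have a2 : ∀ v, h.cw z v = 0 → ∃ y, k.1 v = v + τ y z := fun v hv =>
    h.eq_of_cw hf.ef (p := fun v => ∃ y, k.1 v = v + τ y z) ⟨0, by simp⟩ h4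
      (fun _ _ ⟨y, a⟩ ⟨y', a'⟩ => ⟨y + y', by simp [a, a']; abel⟩) hv
  have a3 : ∀ s, β z s = 0 → ∃ c, ∀ u x, B₁ u (θ s x) + B₁ (θ s u) x = c * B₁ u x := fun s hs => by
    obtain ⟨d, hd⟩ := exists_adm h.sd₂ hz hs
    have b1 := h.right_mem hM (rho_mem_SUG h.sd₂ z s d)
    obtain ⟨c, b2, b3⟩ := h.eq_tv hM h3 hz h0 H h2 hq (mul_mem (mul_mem hk b1) (inv_mem (mul_mem b1 hk)))
      fun v hv => by
        obtain ⟨v, rfl⟩ := (h.tt 1 (rho β z s d) * k).1.surjective v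
        have b2 : h.cw z v = 0 := by simpa [h.tt_rho hd, hz, hs, h.cw_fix h1] using hv
        obtain ⟨y, hy⟩ := a2 v b2
        rw [UG_mul_apply, UG_inv_apply_apply]
        simp [h.tt_rho hd, b2, hy, h1, hz, h.sd₂.comm0 hs]
    refine ⟨c, fun u x => mul_left_cancel₀ h.ne ?_⟩
    rw [mul_inv_eq_iff_eq_mul] at b3
    have b4 := congrArg (fun g : UG B => g.1 (τ x z')) b3
    simp only [UG_mul_apply, h.tt_rho hd, h.tt_tv hz b2, map_add, h1, h.cw_fix h1, h.cw_ten, hf.ef, one_smul,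
      a1 x s hs, hs, hz, zero_smul, add_zero] at b4
    have b5 := congrArg (fun v => B₁ u (h.cw (-z') v)) b4
    have b6 := UG_map k (τ u s) (τ x z')
    rw [h.map, a1 u s hs] at b6
    simp [h.B_cw, h.cw_fix h1, hf.ef] at b6
    simp [hf.fe h.sd₂, h1, hz] at b5
    linear_combination ζ * b5 + b6
  obtain ⟨u₀, hu₀⟩ := (finrank_pos_iff.mp (show 0 < finrank F U by omega)).exists_pair_ne.elim
    fun _ ⟨_, e⟩ => (⟨_, sub_ne_zero.mpr e⟩ : ∃ u : U, u ≠ 0)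
  obtain ⟨l, hl⟩ := Module.Projective.exists_dual_eq_one F hu₀
  obtain ⟨s, hs⟩ := h.sd₂.exists_repr (l ∘ₗ θ.flip u₀)
  have a4 : ∀ w, β z w = 0 → ∀ u, θ w u = β s w • u := fun w hw u => by
    obtain ⟨c, hc⟩ := h.sd₁.scalar_of h.hσ (θ := θ w) fun t => by simpa using a3 (t • w) (by simp [hw])
    simp [hs, hc, hl]
  have a5 : β z s = 0 := h.sd₂.comm0 (by simp [hs, θ, h1])
  obtain ⟨d, hd⟩ := exists_adm h.sd₂ hz a5
  obtain ⟨c, b2, b3⟩ := h.eq_tv hM h3 hz h0 H h2 hq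
    (mul_mem (inv_mem (h.right_mem hM (rho_mem_SUG h.sd₂ z s d))) hk) fun v hv =>
      UG_inv_apply_eq (h.eq_of_cw hf.ef (p := fun v => (h.tt 1 (rho β z s d)).1 v = k.1 v) (by simp)
        (fun u w hw => by simp [a1 u w hw, a4 w hw, rho_apply h.sd₂ hd, hw]) (fun _ _ a b => by simp [a, b]) hv)
  rw [inv_mul_eq_iff_eq_mul, ← h.tt_mul, tv, rho_mul h.sd₂ hd (adm_zero hz b2), mul_one] at b3
  exact ⟨_, _, hd.add h.sd₂ (adm_zero hz b2), b3⟩

theorem tn_of_stab {k : UG B} (hk : k ∈ M) (hk' : k ∈ SUG B) (h1 : ∀ u, ∃ u', k.1 (τ u z) = τ u' z) : TN τ k.1 := by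
  haveI := h.fin
  obtain ⟨z', hf⟩ := h.sd₂.exists_SP hz h0
  let A : End F U := h.cw (-z') ∘ₗ k.1.toLinearMap ∘ₗ τ.flip z
  have a1 : ∀ u, k.1 (τ u z) = τ (A u) z := fun u => by
    obtain ⟨y, hy⟩ := h1 u
    simp [A, hy, hf.fe h.sd₂]
  have a2 : Function.Surjective A := LinearMap.injective_iff_surjective.mp fun u u' e =>
    ten_left_inj h.ten h0 (k.1.injective (by rw [a1, a1, e]))
  have a3 : ∀ v, h.cw z v = 0 ↔ h.cw z (k.1 v) = 0 := fun v =>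
    ⟨fun e => h.sd₁.ext_right fun u => by obtain ⟨u, rfl⟩ := a2 u; simp [h.cw_map a1, e],
      fun e => h.sd₁.ext_right fun u => by simp [← h.cw_map a1, e]⟩
  obtain ⟨μ, b1, b2⟩ := h.eq_tv hM h3 hz h0 H h2 hq
    (mul_mem (mul_mem hk (h.right_mem hM (tv_mem_SUG h.sd₂ z 1))) (inv_mem hk)) fun v hv => by
      obtain ⟨v, rfl⟩ := k.1.surjective v
      simp [h.tt_tv hz (map_one σ), (a3 v).mpr hv]
  have b3 : ∀ v, A (h.cw z v) = μ • h.cw z (k.1 v) := fun v => ten_left_inj h.ten h0 (by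
    simpa [h.tt_tv hz (map_one σ), h.tt_tv hz b1, a1] using congrArg (fun g : UG B => g.1 (k.1 v)) b2)
  have b4 : ∀ u x, B₁ (A u) (A x) = μ * B₁ u x := fun u x => by
    have := b3 (τ x z')
    simp only [h.cw_ten, hf.ef, one_smul] at this
    simp [this, h.cw_map a1, hf.ef]
  obtain ⟨e, f, hef⟩ : ∃ e f, SP B₁ e f := by
    obtain ⟨e, c1, c2⟩ := h.sd₁.exists_iso h.sd₁.ns h2
    exact ⟨e, h.sd₁.exists_SP c2 c1⟩
  have b5 : μ ≠ 0 := by
    rintro rfl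
    obtain ⟨e', rfl⟩ := a2 e
    obtain ⟨f', rfl⟩ := a2 f
    simpa [b4] using hef.ef
  obtain ⟨l, hl⟩ := h.sd.ns.resolve_left h.hσ μ b1
  have l0 : l ≠ 0 := by rintro rfl; exact b5 (by simp [← hl])
  have l1 := h.sd.σ_ne_zero l0
  let a := h.sd₁.mkU (l⁻¹ • A) fun x y => by simp [b4, ← hl]; field_simp
  have c1 : ∀ u, A u = l • a.1 u := fun u => (smul_inv_smul₀ l0 _).symm
  have c2 : ∀ s, β z s = 0 → ∃ s', β z s' = 0 ∧ ∀ x, ∃ y, k.1 (τ x s) = τ (a.1 x) s' + τ y z := fun s hs => by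
    obtain ⟨d, hd⟩ := exists_adm h.sd₂ hz hs
    obtain ⟨s', d', d1, d2⟩ := h.eq_rho hM h3 hz h0 H h2 hq
      (mul_mem (mul_mem hk (h.right_mem hM (rho_mem_SUG h.sd₂ z s d))) (inv_mem hk)) (fun u => by
        obtain ⟨u, rfl⟩ := a2 u
        simp [← a1, rho_apply_self h.sd₂]) fun u w hw => by
        obtain ⟨v, hv⟩ := k.1.surjective (τ u w)
        have := (a3 v).mpr (by simp [hv, hw])
        exact ⟨A (h.cw s v), by simp [← hv, h.tt_rho hd, this, a1]⟩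
    refine ⟨(l / μ) • s', by simp [d1.eu], fun x => ?_⟩
    have d3 := congrArg (fun g : UG B => g.1 (k.1 (τ x z'))) d2
    have d4 := b3 (τ x z')
    simp only [UG_mul_apply, UG_inv_apply_apply, h.tt_rho hd, h.tt_rho d1, map_add k.1, a1, h.cw_ten, hf.ef,
      one_smul, add_assoc, add_right_inj] at d3 d4
    have d5 : τ (h.cw z (k.1 (τ x z'))) s' = τ (a.1 x) ((l / μ) • s') := by
      rw [← inv_smul_smul₀ b5 (h.cw z _), ← d4, c1]; simp [smul_smul, div_eq_inv_mul]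
    exact ⟨_, by rw [eq_sub_of_add_eq d3, d5, add_sub_assoc, ← LinearMap.map_sub₂]⟩
  let b : W →ₗ[F] W := ζ⁻¹ • ζ • cL h.ten (B₁ (-a.1 f)) ∘ₗ k.1.toLinearMap ∘ₗ τ e
  have c3 : ∀ s, β z s = 0 → β z (b s) = 0 ∧ ∀ x, ∃ y, k.1 (τ x s) = τ (a.1 x) (b s) + τ y z := fun s hs => by
    obtain ⟨s', d1, d2⟩ := c2 s hs
    obtain ⟨y, hy⟩ := d2 e
    have : b s = s' - B₁ (a.1 f) y • z := by
      simp [b, h.ne, hy, UG_map, hef.fe h.sd₁, sub_eq_neg_add]
    refine ⟨by simp [this, d1, hz], fun x => ?_⟩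
    obtain ⟨y', hy'⟩ := d2 x
    exact ⟨y' + B₁ (a.1 f) y • a.1 x, by simp [this, hy']⟩
  have c4 : b z = l • z := by simp [b, h.ne, a1, c1, UG_map, hef.fe h.sd₁]
  have c5 : ∀ s s', β z s = 0 → β z s' = 0 → β (b s) (b s') = β s s' := fun s s' hs hs' => by
    obtain ⟨d1, d2⟩ := c3 s hs
    obtain ⟨d3, d4⟩ := c3 s' hs'
    obtain ⟨y, hy⟩ := d2 e
    obtain ⟨y', hy'⟩ := d4 f
    simpa [hy, hy', h.map, hz, d3, h.sd₂.comm0 d1, UG_map, hef.ef, h.ne] using UG_map k (τ e s) (τ f s')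
  obtain ⟨b', hb'⟩ := h.sd₂.witt_extend (LinearMap.ker (β z)) (b ∘ₗ Submodule.subtype _)
    ((injective_iff_map_eq_zero _).mpr fun s hs => Subtype.ext (by
      have d1 : (s : W) = β (-z') s • z := h.sd₂.ext_right fun w => by
        have := c5 (w + β z w • -z') s (by simp [hf.ef]) s.2
        rw [show b s = 0 from hs] at this
        simp [h.sd₂.σ_map] at this ⊢
        linear_combination -this
      have d2 : b s = 0 := hs
      rw [d1] at d2 ⊢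
      simpa [c4, l0, h0] using d2)) fun s s' => c5 s s' s.2 s'.2
  replace hb' : ∀ s, β z s = 0 → b'.1 s = b s := fun s hs => hb' ⟨s, hs⟩
  have c6 : ∀ u, ((h.tt a b')⁻¹ * k).1 (τ u z) = τ u z := fun u => UG_inv_apply_eq (by simp [hb' z hz, c4, a1, c1])
  have c7 : ∀ u s, β z s = 0 → ∃ y, ((h.tt a b')⁻¹ * k).1 (τ u s) = τ u s + τ y z := fun u s hs => by
    obtain ⟨y, hy⟩ := (c3 s hs).2 u
    exact ⟨l⁻¹ • a.1.symm y, UG_inv_apply_eq (by simp [hb' z hz, hb' s hs, c4, hy, l0])⟩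
  have c8 : (h.tt a b')⁻¹ * k ∈ SUG B := mem_SUG_of_nilp ⟨3, LinearMap.ext fun v => by
    obtain ⟨y, hy⟩ := h.eq_of_cw hf.ef (p := fun v => ∃ y, ((h.tt a b')⁻¹ * k).1 v = v + τ y z) ⟨0, by simp⟩ c7
      (fun _ _ ⟨y, a⟩ ⟨y', a'⟩ => ⟨y + y', by rw [map_add, a, a']; simp; abel⟩)
      (v := ((h.tt a b')⁻¹ * k).1 v - v) (by rw [map_sub, h.cw_fix c6, sub_self])
    simp only [pow_succ, pow_zero, one_mul, End.mul_apply, LinearMap.sub_apply, LinearEquiv.coe_coe, End.one_apply,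
      hy, add_sub_cancel_left, c6, sub_self, LinearMap.zero_apply]⟩
  obtain ⟨s, c, -, e⟩ := h.eq_rho hM h3 hz h0 H h2 hq (mul_mem (inv_mem (hM _ (by
    simpa using mul_mem hk' (inv_mem c8)) (h.tn_tt a b'))) hk) c6 c7
  rw [inv_mul_eq_iff_eq_mul, ← h.tt_mul] at e
  exact e ▸ h.tn_tt _ _

end UT

end Cfsg.Agent.H12
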