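import Mathlib
import Cfsg.Agent.H12.UtB

/-!
Overgroups of the stabiliser of a unitary tensor decomposition.
-/

set_option autoImplicit false

namespace Cfsg.Agent.H12

open Module

theorem exists_conj_mem {G : Type*} [Group G] [Finite G] {p : ℕ} [Fact p.Prime] {G₀ H : Subgroup G} {x y : G}
    (hx : x ∈ G₀) (hy : y ∈ G₀) (h1 : x ^ p = 1) (h2 : y ^ p = 1) (h3 : y ∈ H)
    (h4 : ∀ g ∈ G₀, g * y * g⁻¹ ∈ H → g ∈ H) : ∃ c ∈ G₀, c * x * c⁻¹ ∈ H := by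
  have key : ∀ x : G₀, x.1 ^ p = 1 → ∃ P : Sylow p G₀, x ∈ P := fun x hx => by
    obtain ⟨P, hP⟩ := (show IsPGroup p (Subgroup.zpowers x) from fun ⟨_, n, rfl⟩ => ⟨1, Subtype.ext (Subtype.ext (by
      simp only [pow_one, SubmonoidClass.coe_pow, SubgroupClass.coe_zpow, OneMemClass.coe_one]
      rw [← zpow_natCast, ← zpow_mul, mul_comm, zpow_mul, zpow_natCast, hx, one_zpow]))⟩).exists_le_sylow
    exact ⟨P, hP (Subgroup.mem_zpowers x)⟩
  obtain ⟨Q, hQ⟩ := key ⟨x, hx⟩ h1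
  obtain ⟨P, hP⟩ := key ⟨y, hy⟩ h2
  obtain ⟨c, rfl⟩ := MulAction.exists_smul_eq G₀ Q P
  have := (c • Q).isPGroup'.isNilpotent
  have a1 : H.comap (G₀.subtype.comp (c • Q).1.subtype) = ⊤ :=
    normalizerCondition_iff_only_full_group_self_normalizing.mp Group.normalizerCondition_of_isNilpotent _
      (le_antisymm (fun g hg => h4 _ g.1.2 ((hg ⟨_, hP⟩).mp h3)) Subgroup.le_normalizer)
  have a2 : c * ⟨x, hx⟩ * c⁻¹ ∈ (c • Q).1 := Subgroup.smul_mem_pointwise_smul _ (MulAut.conj c) _ hQ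
  exact ⟨c, c.2, Subgroup.mem_comap.mp (a1.ge (Subgroup.mem_top (⟨_, a2⟩ : (c • Q).1)))⟩

variable {F V : Type*} [Field F] [AddCommGroup V] [Module F V] {σ : F →+* F}
  {B : V →ₛₗ[σ] V →ₗ[F] F} {M : Subgroup (UG B)}

theorem SD.tv_pow (D : SD B) (v : V) (c : F) (p : ℕ) [CharP F p] : tv B v c ^ p = 1 := by
  by_cases H : B v v = 0 ∧ σ c = c
  · have : ∀ n : ℕ, tv B v c ^ n = tv B v (n * c) := fun n => by
      induction' n with n ih
      · simp [tv_zero D]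
      · rw [pow_succ, ih, tv_mul D H.1 (by simp [H.2]) H.2]; congr 1; push_cast; ring
    simp [this, tv_zero D]
  · simp [tv_of_not H]

theorem SD.sub_mem_of_fix [FiniteDimensional F V] (D : SD B) {T : Submodule F V} {c : UG B}
    (h : ∀ v ∈ sperp B T, c.1 v = v) (v : V) : c.1 v - v ∈ T :=
  D.sperp_sperp T ▸ fun w hw => by rw [map_sub, UG_map_right, UG_inv_apply_eq (h w hw), sub_self]

theorem SD.exists_iso_perp [FiniteDimensional F V] [Finite F] (D : SD B) (h4 : 4 ≤ finrank F V) {z z' : V}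
    (hz : B z z = 0) (h : B z z' ≠ 0) : ∃ s, s ≠ 0 ∧ B s s = 0 ∧ B s z = 0 ∧ B s z' = 0 := by
  obtain ⟨a, ha⟩ := D.exists_iso_add hz h
  have a1 : SP B z ((B z z')⁻¹ • (z' + a • z)) := ⟨hz, by simp [-map_add, -smul_add, ha], by simp [hz, h]⟩
  obtain ⟨s, a2, a3⟩ := (a1.sd D).exists_iso D.ns (by have := a1.finrank_spp D; omega)
  exact ⟨s, by simpa, a3, D.spp_left' s, by simpa [h, D.spp_left' s] using D.spp_right' s⟩

variable {U W : Type*} [AddCommGroup U] [Module F U] [AddCommGroup W] [Module F W]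
  {B₁ : U →ₛₗ[σ] U →ₗ[F] F} {β : W →ₛₗ[σ] W →ₗ[F] F} {τ : U →ₗ[F] W →ₗ[F] V} {ζ : F}
  [FiniteDimensional F U] [FiniteDimensional F W]

theorem right_of_small (h : IsTensorProduct τ) (hn : finrank F U < finrank F W) {g : V ≃ₗ[F] V} (hg : TN τ g)
    {A : V →ₗ[F] U} (hA : ∀ v, A v = 0 → g v = v) : ∃ b : W → W, ∀ u w, g (τ u w) = τ u (b w) := by
  obtain ⟨a, b, hg⟩ := hg
  obtain ⟨c, hc⟩ := exists_smul_of_mem_span (a := a) fun x => by
    by_contra e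
    obtain ⟨l, a1, a2⟩ := exists_dual_one_zero e
    obtain ⟨z, a3, a4⟩ := (Submodule.ne_bot_iff _).mp (LinearMap.ker_ne_bot_of_finrank_lt (f := A ∘ₗ τ x) hn)
    have a5 := (hg x z).symm.trans (hA _ a3)
    have a6 : b z = 0 := by simpa [a1, a2] using congrArg (cL h l) a5
    exact ten_ne_zero h (x := x) (by rintro rfl; simp at a1) a4 (by simpa [a6] using a5.symm)
  exact ⟨fun w => c • b w, fun u w => by simp [hg, hc]⟩

namespace UT
variable (h : UT B B₁ β τ ζ)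

/-- The stabiliser of the tensor decomposition. -/
def HT : Subgroup (UG B) where
  carrier := {g | TN τ g.1}
  mul_mem' := TN.mul
  one_mem' := ⟨1, 1, fun _ _ => rfl⟩
  inv_mem' := TN.inv h.ten

omit [FiniteDimensional F W] in
include h in
theorem surj_of_map {g : V ≃ₗ[F] V} {a : End F U} {y z : W} (hy : y ≠ 0) (H : ∀ u, g (τ u y) = τ (a u) z) :
    Function.Surjective a :=
  LinearMap.injective_iff_surjective.mp fun u u' e => ten_left_inj h.ten hy (g.injective (by rw [H, H, e]))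

variable [Finite F] (hM : ∀ g ∈ SUG B, TN τ g.1 → g ∈ M) (hS : M ≤ SUG B) (H : ¬ SUG B ≤ M)
  (h2 : 2 ≤ finrank F U) (hlt : finrank F U < finrank F W) (hq : 3 ≤ q0 σ ∨ 3 ≤ finrank F U)
  {y z : W} (hy : β y y = 0) (hy0 : y ≠ 0) (hz : β z z = 0) (hz0 : z ≠ 0) {g k : UG B}
include h hM hS H h2 hlt hq hy hy0

section
include hz hz0

theorem tn_of_map (hg : g ∈ M) (h1 : ∀ u, ∃ u', g.1 (τ u y) = τ u' z) : TN τ g.1 := by
  obtain ⟨b, b1, b2⟩ := h.sd₂.erel h.sd₂.ns (Or.inr (by omega)) hz hz0 hy hy0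
  have b3 := mul_mem (h.right_mem hM (h.sd₂.EG_le_SUG b1)) hg
  exact (mul_mem_cancel_left (show h.tt 1 b ∈ h.HT from h.tn_tt _ _)).mp
    (h.tn_of_stab hM (by omega) hy hy0 H h2 hq b3 (hS b3) fun u => (h1 u).imp fun u' e => by simp [e, b2])

end

theorem tn_of_conj (hg : g ∈ M) {c : F} (hc : σ c = c) (c0 : c ≠ 0) (h1 : TN τ (g * h.tt 1 (tv β y c) * g⁻¹).1) :
    TN τ g.1 := by
  obtain ⟨b, hb⟩ := right_of_small h.ten hlt h1 (A := h.cw y ∘ₗ g.1.symm.toLinearMap) fun v hv => by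
    simp at hv; simp [h.tt_tv hy hc, hv]
  obtain ⟨e, f, hef⟩ : ∃ e f, SP B₁ e f := by
    obtain ⟨e, c1, c2⟩ := h.sd₁.exists_iso h.sd₁.ns h2
    exact ⟨e, h.sd₁.exists_SP c2 c1⟩
  have a1 : ∀ u w, g.1.symm (τ u (b w - w)) = τ (c • h.cw y (g.1.symm (τ u w))) y := fun u w => by
    simp [← hb, h.tt_tv hy hc]
  obtain ⟨w, hw⟩ : ∃ w, b w - w ≠ 0 := by
    by_contra! e'
    obtain ⟨y', hf⟩ := h.sd₂.exists_SP hy hy0
    have : h.cw y ∘ₗ g.1.symm.toLinearMap = 0 := ten_ext h.ten fun u w => by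
      simpa [c0] using ten_left_inj h.ten hy0 ((a1 u w).symm.trans (show _ = τ 0 y by simp [e']))
    simpa [hf.ef, hef.ne_left] using LinearMap.congr_fun this (g.1 (τ e y'))
  refine h.tn_of_map hM hS H h2 hlt hq hy hy0 ?_ hw hg fun u => ?_
  · have := UG_map g⁻¹ (τ e (b w - w)) (τ f (b w - w))
    simpa [a1, -map_sub, h.map, hy, hef.ef, h.ne, eq_comm] using this
  · obtain ⟨u, rfl⟩ := h.surj_of_map (a := c • h.cw y ∘ₗ g.1.symm.toLinearMap ∘ₗ τ.flip w) hw (a1 · w) u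
    exact ⟨u, g.1.eq_symm_apply.mp (a1 u w).symm⟩

include hz hz0

theorem tn_of_perp (hg : g ∈ M) (h1 : ∀ u, h.cw z (g.1 (τ u y)) = 0) : TN τ g.1 := by
  have a1 := mul_mem (mul_mem hg (h.right_mem hM (tv_mem_SUG h.sd₂ y 1))) (inv_mem hg)
  refine h.tn_of_conj hM hS H h2 hlt hq hy hy0 hg (map_one σ) one_ne_zero
    (h.tn_of_stab hM (by omega) hz hz0 H h2 hq a1 (hS a1) fun u => ⟨u, ?_⟩)
  have : h.cw y (g.1.symm (τ u z)) = 0 := h.sd₁.ext_right fun x => mul_left_cancel₀ h.ne (by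
    rw [← h.B_cw, ← UG_map g]; simp [h.B_cw', h1])
  simp [h.tt_tv hy (map_one σ), this]

theorem plane_or_swap (hk : k ∈ M) : (∃ z', ∀ u, ∃ u₁ u₂, k.1 (τ u y) = τ u₁ z + τ u₂ z') ∨
    ∃ c ∈ M, (∀ v, (∀ u, B (k.1 (τ u y)) v = 0) → h.cw z v = 0 → c.1 v = v) ∧
      ∀ u, ∃ u', c.1 (k.1 (τ u y)) = τ u' z := by
  haveI := h.fin
  have := finite_UG (B := B)
  obtain ⟨p, hp⟩ := CharP.exists F
  have : Fact p.Prime := ⟨CharP.char_is_prime F p⟩
  let T := LinearMap.range (k.1.toLinearMap ∘ₗ τ.flip y) ⊔ LinearMap.range (τ.flip z)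
  have a1 : ∀ v, v ∈ sperp B T ↔ (∀ u, B (k.1 (τ u y)) v = 0) ∧ h.cw z v = 0 := fun v =>
    ⟨fun e => ⟨fun u => e _ (Submodule.mem_sup_left ⟨u, rfl⟩), h.sd₁.ext_right fun u => mul_left_cancel₀ h.ne (by
      simpa [← h.B_cw] using e _ (Submodule.mem_sup_right ⟨u, rfl⟩))⟩, fun e w hw => by
      obtain ⟨_, ⟨u, rfl⟩, _, ⟨u', rfl⟩, rfl⟩ := Submodule.mem_sup.mp hw
      simp [e.1, h.B_cw, e.2]⟩
  let G₀ : Subgroup (UG B) :=
    { carrier := {c | c ∈ M ∧ ∀ v ∈ sperp B T, c.1 v = v}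
      mul_mem' := fun a b => ⟨mul_mem a.1 b.1, fun v hv => by simp [a.2 v hv, b.2 v hv]⟩
      one_mem' := ⟨one_mem _, fun _ _ => rfl⟩
      inv_mem' := fun a => ⟨inv_mem a.1, fun v hv => UG_inv_apply_eq (a.2 v hv)⟩ }
  have a2 : ∀ w, h.tt 1 (tv β w 1) ^ p = 1 := fun w => by
    have : ∀ n : ℕ, h.tt 1 (tv β w 1) ^ n = h.tt 1 (tv β w 1 ^ n) := fun n => by
      induction' n with n ih
      · exact h.ext fun _ _ => by simp
      · rw [pow_succ, pow_succ, ih, ← h.tt_mul, one_mul]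
    rw [this, h.sd₂.tv_pow]; exact h.ext fun _ _ => by simp
  obtain ⟨c, ⟨b1, b2⟩, b3⟩ := exists_conj_mem (p := p) (G₀ := G₀) (H := h.HT) (x := k * h.tt 1 (tv β y 1) * k⁻¹)
    (y := h.tt 1 (tv β z 1)) ⟨mul_mem (mul_mem hk (h.right_mem hM (tv_mem_SUG h.sd₂ y 1))) (inv_mem hk), fun v hv => by
      have : h.cw y (k.1.symm v) = 0 := h.sd₁.ext_right fun x => mul_left_cancel₀ h.ne (by
        rw [← h.B_cw, ← UG_map k]; simp [((a1 v).mp hv).1])
      simp [h.tt_tv hy (map_one σ), this]⟩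
    ⟨h.right_mem hM (tv_mem_SUG h.sd₂ z 1), fun v hv => by simp [h.tt_tv hz (map_one σ), ((a1 v).mp hv).2]⟩
    (by rw [conj_pow, a2]; simp) (a2 z) (h.tn_tt _ _)
    fun g hg e => h.tn_of_conj hM hS H h2 hlt hq hz hz0 hg.1 (map_one σ) one_ne_zero e
  obtain ⟨a, b, b4⟩ := h.tn_of_conj hM hS H h2 hlt hq hy hy0 (mul_mem b1 hk) (map_one σ) one_ne_zero
    (show _ ∈ h.HT by simpa [mul_assoc] using b3)
  replace b4 : ∀ u, c.1 (k.1 (τ u y)) = τ (a u) (b y) := fun u => b4 u y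
  by_cases e : b y ∈ F ∙ z
  · obtain ⟨t, ht⟩ := Submodule.mem_span_singleton.mp e
    exact Or.inr ⟨c, b1, fun v h1 h2 => b2 v ((a1 v).mpr ⟨h1, h2⟩), fun u => ⟨t • a u, by simp [b4, ← ht]⟩⟩
  obtain ⟨φ, c1, c2⟩ := exists_dual_one_zero e
  let j := (τ.flip z).coprod (τ.flip (b y))
  have c3 : LinearMap.range j = T := Submodule.eq_of_le_of_finrank_le (by
    rintro _ ⟨⟨u, u'⟩, rfl⟩
    obtain ⟨u', rfl⟩ := h.surj_of_map (g := (c * k).1) hy0 b4 u'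
    refine add_mem (Submodule.mem_sup_right ⟨u, rfl⟩) ?_
    simpa [b4] using add_mem (h.sd.sub_mem_of_fix b2 (k.1 (τ u' y))) (Submodule.mem_sup_left ⟨u', rfl⟩ : _ ∈ T)) (by
    rw [LinearMap.finrank_range_of_inj ((injective_iff_map_eq_zero j).mpr fun ⟨u, u'⟩ e' => by
      have d1 : u' = 0 := by simpa [j, c1, c2] using congrArg (cR h.ten φ) e'
      simpa [d1] using ten_left_inj h.ten hz0 (show τ u z = τ 0 z by simpa [j, d1] using e')), finrank_prod]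
    exact (Submodule.finrank_add_le_finrank_add_finrank _ _).trans
      (add_le_add (LinearMap.finrank_range_le _) (LinearMap.finrank_range_le _)))
  exact Or.inl ⟨b y, fun u => by
    obtain ⟨⟨u₁, u₂⟩, e'⟩ := c3.ge (Submodule.mem_sup_left ⟨u, rfl⟩)
    exact ⟨u₁, u₂, e'.symm⟩⟩

omit hy hy0 hz hz0 in
theorem tn_of_four (h4 : 4 ≤ finrank F W) (hk : k ∈ M) : TN τ k.1 := by
  by_contra hk'
  obtain ⟨y, hy0, hy⟩ := h.sd₂.exists_iso h.sd₂.ns (by omega)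
  have a1 : ∀ z, β z z = 0 → z ≠ 0 → ∃ c ∈ M, (∀ v, (∀ u, B (k.1 (τ u y)) v = 0) → h.cw z v = 0 → c.1 v = v) ∧
      ∀ u, ∃ u', c.1 (k.1 (τ u y)) = τ u' z := fun z hz hz0 =>
    (h.plane_or_swap hM hS H h2 hlt hq hy hy0 hz hz0 hk).resolve_left fun ⟨z', e⟩ => by
      obtain ⟨s, b1, b2, b3, b4⟩ : ∃ s, s ≠ 0 ∧ β s s = 0 ∧ β s z = 0 ∧ β s z' = 0 := by
        by_cases e' : β z z' = 0
        · exact ⟨z, hz0, hz, hz, e'⟩
        · exact h.sd₂.exists_iso_perp h4 hz e'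
      exact hk' (h.tn_of_perp hM hS H h2 hlt hq hy hy0 b2 b1 hk fun u => by
        obtain ⟨u₁, u₂, e'⟩ := e u; simp [e', b3, b4])
  have a2 : ∀ z, β z z = 0 → z ≠ 0 → ∃ z', β z' z' = 0 ∧ β z z' = 0 ∧ z' ∉ F ∙ z := fun z hz hz0 => by
    obtain ⟨f, hf⟩ := h.sd₂.exists_SP hz hz0
    obtain ⟨s, b1, b2, b3, b4⟩ := h.sd₂.exists_iso_perp h4 hz (hf.ef ▸ one_ne_zero)
    refine ⟨s, b2, h.sd₂.comm0 b3, fun e => ?_⟩
    obtain ⟨c, rfl⟩ := Submodule.mem_span_singleton.mp e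
    simp [show c = 0 by simpa [hf.ef] using b4] at b1
  let T : W → End F U := fun z => h.cw z ∘ₗ k.1.toLinearMap ∘ₗ τ.flip y
  have a3 : ∀ z, β z z = 0 → z ≠ 0 → Function.Injective (T z) := fun z hz hz0 =>
    (injective_iff_map_eq_zero _).mpr fun u hu => by
      have key : ∀ z, β z z = 0 → z ≠ 0 → T z u = 0 → ∃ u', k.1 (τ u y) = τ u' z := fun z hz hz0 e => by
        obtain ⟨c, -, b1, b2⟩ := a1 z hz hz0
        exact (b2 u).imp fun u' e' => by rwa [b1 (k.1 (τ u y)) (fun u' => by simp [UG_map, h.map, hy]) e] at e'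
      obtain ⟨z', b1, b2, b3⟩ := a2 z hz hz0
      obtain ⟨u₁, e1⟩ := key z hz hz0 hu
      obtain ⟨u₂, e2⟩ := key z' b1 (by rintro rfl; simp at b3) (by simp [T, e1, h.sd₂.comm0 b2])
      obtain ⟨φ, c1, c2⟩ := exists_dual_one_zero b3
      have : u₂ = 0 := by simpa [c1, c2] using congrArg (cR h.ten φ) (e2.symm.trans e1)
      exact ten_left_inj h.ten hy0 (k.1.injective (by simp [e2, this]))
  have a4 : ∀ z z', β z z = 0 → β z' z' = 0 → β z z' = 0 → z ∉ F ∙ z' → z' ≠ 0 →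
      ∃ ν, ∀ u u', B₁ (T z u) (T z u') = ν * B₁ (T z' u) (T z' u') := fun z z' hz hz' h1 h3 hz0' => by
    have hz0 : z ≠ 0 := by rintro rfl; simp at h3
    obtain ⟨c, b1, b2, b3⟩ := a1 z hz hz0
    obtain ⟨c', b4, b5, b6⟩ := a1 z' hz' hz0'
    obtain ⟨a, b, hab⟩ : c * k * (c' * k)⁻¹ ∈ h.HT :=
      mul_mem (h.tn_of_map hM hS H h2 hlt hq hy hy0 hz hz0 (mul_mem b1 hk) b3)
        (inv_mem (h.tn_of_map hM hS H h2 hlt hq hy hy0 hz' hz0' (mul_mem b4 hk) b6))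
    rw [show c * k * (c' * k)⁻¹ = c * c'⁻¹ by group] at hab
    obtain ⟨f, hf⟩ := h.sd₂.exists_SP hz hz0
    have c1 : ∀ u u', B₁ (a u) (a u') * β (b z) (b f) = B₁ u u' := fun u u' => by
      have := UG_map (c * c'⁻¹) (τ u z) (τ u' f)
      rw [hab, hab] at this
      simpa [h.map, h.ne, hf.ef] using this
    obtain ⟨φ, c2, c3⟩ := exists_dual_one_zero (notMem_span_symm h3 hz0')
    let E := LinearEquiv.ofInjectiveEndo _ (a3 z' hz' hz0')
    have c4 : ∀ u u', B₁ (T z u') u = -φ (b z) * B₁ (T z' u') (a u) := fun u u' => by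
      obtain ⟨u₁, d1⟩ := h.sd₁.exists_repr (B₁ u ∘ₗ T z ∘ₗ E.symm.toLinearMap)
      have d2 : ∀ x, B₁ (T z' x) u₁ = B₁ (T z x) u := fun x => by
        rw [h.sd₁.skew, h.sd₁.skew u, d1]; simp [show T z' x = E x from rfl]
      have d3 : ∀ x, B (k.1 (τ x y)) (τ u z - τ u₁ z') = 0 := fun x => by
        rw [map_sub, h.B_cw', h.B_cw']; exact sub_eq_zero.mpr (congrArg (fun t => -(ζ * t)) (d2 x).symm)
      choose g hg using b6
      have := Module.finite_of_finite F (M := U)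
      obtain ⟨u₂, d4⟩ := Finite.surjective_of_injective (f := g) (fun x x' e =>
        ten_left_inj h.ten hy0 (k.1.injective (c'.1.injective (by rw [hg, hg, e])))) u₁
      obtain ⟨u₃, d5⟩ := b3 u₂
      have d6 : c'.1 (τ u z - τ u₁ z' + k.1 (τ u₂ y)) = τ u z := by
        rw [map_add, b5 _ d3 (by simp [hz', h.sd₂.comm0 h1]), hg, d4, sub_add_cancel]
      have d7 := hab u z
      rw [UG_mul_apply, UG_inv_apply_eq d6, map_add, b2 _ d3 (by simp [hz, h1]), d5] at d7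
      have d8 : u₁ = -φ (b z) • a u := by simpa [c2, c3, neg_eq_iff_eq_neg] using congrArg (cR h.ten φ) d7
      simp [← d2, d8]
    have c5 : Function.Surjective a := h.surj_of_map hz0 (hab · z)
    have c6 : ∀ u, σ (β (b z) (b f)) • a (T z u) = -σ (φ (b z)) • T z' u := fun u => h.sd₁.ext_left fun x => by
      obtain ⟨x, rfl⟩ := c5 x
      simp [h.sd.invol, ← neg_mul, ← c4, ← c1 (T z u), mul_comm]
    have c7 : β (b z) (b f) ≠ 0 := fun e => by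
      obtain ⟨e', d1, d2⟩ := h.sd₁.exists_iso h.sd₁.ns h2
      exact d1 (h.sd₁.sep _ fun x => by rw [← c1, e, mul_zero])
    refine ⟨φ (b z) * σ (φ (b z)) / σ (β (b z) (b f)), fun u u' => ?_⟩
    have := congrArg₂ (B₁ · ·) (c6 u) (c6 u')
    have c8 := h.sd.σ_ne_zero c7
    simp [h.sd.invol] at this
    rw [← c1]; field_simp; linear_combination this
  obtain ⟨z, b1, b2, b3⟩ := a2 y hy hy0
  let E := LinearEquiv.ofInjectiveEndo _ (a3 y hy hy0)
  have b4 : ∀ l : F, β (z + l • y) (z + l • y) = 0 ∧ z + l • y ∉ F ∙ y := fun l =>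
    ⟨by simp [b1, b2, hy, h.sd₂.comm0 b2], fun e => b3 (by
      simpa using sub_mem e (Submodule.smul_mem _ l (Submodule.mem_span_singleton_self y)))⟩
  have b5 : ∀ (l : F) u, T (z + l • y) u = T z u + σ l • T y u := fun l u => by simp [T, h.cw_add, h.cw_smul]
  obtain ⟨ν, b6⟩ := a4 z y b1 hy (h.sd₂.comm0 b2) b3 hy0
  obtain ⟨c, hc⟩ := h.sd₁.scalar_of h.hσ (θ := T z ∘ₗ E.symm.toLinearMap) fun l => by
    obtain ⟨ν', b7⟩ := a4 _ y (b4 l).1 hy (by simp [hy, h.sd₂.comm0 b2]) (b4 l).2 hy0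
    refine ⟨ν' - ν - l * σ l, fun u x => ?_⟩
    obtain ⟨u, rfl⟩ := E.surjective u
    obtain ⟨x, rfl⟩ := E.surjective x
    have := b7 u x
    simp [b5, b6, h.sd.invol] at this
    simp only [LinearMap.comp_apply, LinearEquiv.coe_coe, E.symm_apply_apply]
    simp only [show ∀ u, E u = T y u from fun _ => rfl]
    linear_combination this
  obtain ⟨e, d1, -⟩ := h.sd₁.exists_iso h.sd₁.ns h2
  refine d1 (a3 _ (b4 (-σ c)).1 (fun e => (b4 (-σ c)).2 (e ▸ zero_mem _)) ?_)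
  rw [b5, (by simpa using hc (E e) : T z e = c • E e), show E e = T y e from rfl]; simp [h.sd.invol]

end UT

end Cfsg.Agent.H12
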