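import Mathlib
import Cfsg.Agent.H12.TfD
import Cfsg.Agent.H12.MaxU

/-!
Tensor products of a symplectic and an orthogonal space: conjugates of root elements.
-/

set_option autoImplicit false

namespace Cfsg.Agent.H12

open Module

variable {F V : Type*} [Field F] [AddCommGroup V] [Module F V]
  {U W : Type*} [AddCommGroup U] [Module F U] [AddCommGroup W] [Module F W] {τ : U →ₗ[F] W →ₗ[F] V}
  {B : V →ₛₗ[RingHom.id F] V →ₗ[F] F} {M : Subgroup (UG B)}
  {B₁ : U →ₛₗ[RingHom.id F] U →ₗ[F] F} {β : W →ₗ[F] W →ₗ[F] F}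

theorem scalar_or_scalar (ht : IsTensorProduct τ) (h2 : (2 : F) ≠ 0) {a : End F U} {b : End F W}
    (h : ∀ x w, τ (a (a x)) (b (b w)) + τ x w = (2 : F) • τ (a x) (b w)) :
    (∃ c : F, ∀ x, a x = c • x) ∨ ∃ c : F, ∀ x, b x = c • x := by
  refine or_iff_not_imp_right.mpr fun H => exists_smul_of_mem_span fun x => ?_
  obtain ⟨w, hw⟩ : ∃ w, b w ∉ F ∙ w := by
    by_contra! e; exact H (exists_smul_of_mem_span e)
  obtain ⟨φ, a1, a2⟩ := exists_dual_one_zero hw
  obtain ⟨ψ, a3, a4⟩ := exists_dual_one_zero (notMem_span_symm hw (by rintro rfl; simp at hw))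
  have b1 := congrArg (cR ht φ) (h x w)
  have b2 := congrArg (cR ht ψ) (h x w)
  simp [a1, a2, a3, a4] at b1 b2
  by_cases e : ψ (b (b w)) = 0
  · simp [e] at b2; simp [b2]
  refine (Submodule.smul_mem_iff _ h2).mp (b1 ▸ Submodule.smul_mem _ _ ((Submodule.smul_mem_iff _ e).mp ?_))
  rw [eq_neg_of_add_eq_zero_left b2]
  exact neg_mem (Submodule.mem_span_singleton_self x)

namespace TF

variable (h : TF B B₁ β τ) [FiniteDimensional F U] [FiniteDimensional F W]

theorem tR_sg {r a : W} (h1 : β r r = 0) (h2 : β r a = 0) (v : V) :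
    (h.tR (sg β r a) (h.sy.sg_map h1 h2)).1 v =
      v + τ (h.cw r v) a - τ (h.cw a v + (β a a / 2) • h.cw r v) r :=
  LinearMap.congr_fun (ten_ext h.ten (f := (h.tR (sg β r a) (h.sy.sg_map h1 h2)).1.toLinearMap)
    (g := 1 + τ.flip a ∘ₗ h.cw r - τ.flip r ∘ₗ (h.cw a + (β a a / 2) • h.cw r)) fun u w => by
      simp [sg_apply, add_smul, mul_smul]) v

variable [Finite F] (hM : ∀ g : UG B, TN τ g.1 → g ∈ M) (H : ¬ SUG B ≤ M)
include h hM H

theorem perp_of_fix {r a a' : W} (hr : β r r = 0) (h0 : r ≠ 0) (ha : β r a = 0) (ha' : β r a' = 0)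
    {k : UG B} (hk : k ∈ M) (h1 : ∀ u, k.1 (τ u r) = τ u r) (u : U) : B (τ u a') (k.1 (τ u a)) = 0 := by
  have E := h.sy
  obtain ⟨s, hs⟩ : ∃ s, β r s = 1 := by
    obtain ⟨s, hs⟩ := E.exists_ne h0; exact ⟨(β r s)⁻¹ • s, by simp [hs]⟩
  have a1 : ∀ v, h.cw r (k.1.symm v) = h.cw r v := fun v => h.sd₁.ext_right fun u => by
    rw [← h.B_cw, ← h.B_cw, ← UG_map k, h1, k.1.apply_symm_apply]
  have a1' : ∀ v, h.cw r (k.1 v) = h.cw r v := fun v => by rw [← a1, k.1.symm_apply_apply]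
  set σ := h.tR (sg β r a') (E.sg_map hr ha')
  set σ' := k * h.tR (sg β r a) (E.sg_map hr ha) * k⁻¹
  have a2 : ∀ v, σ.1 v = v + τ (h.cw r v) a' - τ (h.cw a' v + (β a' a' / 2) • h.cw r v) r := h.tR_sg hr ha'
  have a3 : ∀ v, σ'.1 v = v + k.1 (τ (h.cw r v) a) -
      τ (h.cw a (k.1.symm v) + (β a a / 2) • h.cw r v) r := fun v => by
    simp only [σ', UG_mul_apply, h.tR_sg hr ha, map_sub k.1, map_add k.1, h1]; simp [a1]
  have a4 : σ ∈ M := hM _ (h.tn_tR _ _)
  have a5 : σ' ∈ M := mul_mem (mul_mem hk (hM _ (h.tn_tR _ _))) (inv_mem hk)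
  have b1 : ∀ u, σ.1 (τ u r) = τ u r := fun u => by simp [a2, hr, E.symm a' r, ha']
  have b2 : ∀ u, σ'.1 (τ u r) = τ u r := fun u => by
    rw [a3, show k.1.symm (τ u r) = τ u r by rw [LinearEquiv.symm_apply_eq, h1]]
    simp [hr, E.symm a r, ha]
  have a6 := h.eq_one_of_cw hM H hr h0 (mul_mem (inv_mem (mul_mem a4 a5)) (mul_mem a5 a4)) fun v hv =>
    UG_inv_apply_eq (by
      have c1 := a2 v
      have c2 := a3 v
      simp only [hv, map_zero, LinearMap.zero_apply, add_zero, smul_zero] at c1 c2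
      change σ.1 (σ'.1 v) = σ'.1 (σ.1 v)
      conv_rhs => rw [c1, map_sub, b2, c2]
      conv_lhs => rw [c2, map_sub, b1, c1]
      abel)
  have a7 := congrArg (fun g : UG B => g.1 (τ u s)) (inv_mul_eq_one.mp a6)
  simp only [UG_mul_apply] at a7
  conv_lhs at a7 => rw [a3, map_sub, map_add, b1, a2, a2 (k.1 _)]
  conv_rhs at a7 => rw [a2, map_sub, map_add, b2, a3, a3 (τ _ a')]
  simp only [cw_ten, hs, one_smul, a1', ha, ha', zero_smul, map_zero, LinearMap.zero_apply, add_zero,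
    smul_zero] at a7
  have a8 := ten_left_inj h.ten h0 (x := h.cw a' (k.1 (τ u a))) (x' := h.cw a (k.1.symm (τ u a'))) (by
    linear_combination (norm := module) -a7)
  have a9 := h.skew (τ u a') (k.1 (τ u a))
  rw [UG_map_left k (τ u a), h.B_cw u a, show (k⁻¹).1 (τ u a') = k.1.symm (τ u a') from rfl, ← a8,
    ← h.B_cw, eq_neg_iff_add_eq_zero, ← two_mul] at a9
  simpa [E.two] using a9

variable (h3 : 3 ≤ finrank F W) (hq : (∃ c : F, c ≠ 0 ∧ c * c ≠ 1) ∨ 4 ≤ finrank F W)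
  (hd : 5 ≤ finrank F W ∨ finrank F W < 2 * finrank F U)
include h3 hq hd

theorem tn_of_conj {e : U} (he : e ≠ 0) {g : UG B} (hg : g ∈ M)
    (h1 : TN τ (g * h.tL (tv B₁ e 1) * g⁻¹).1) : TN τ g.1 := by
  have E := h.sy
  obtain ⟨f, hf⟩ := h.exists_one he
  let N : End F V := g.1.toLinearMap ∘ₗ τ e ∘ₗ h.cu e ∘ₗ g.1.symm.toLinearMap
  have hN : ∀ z, N z = g.1 (τ e (h.cu e (g.1.symm z))) := fun _ => rfl
  obtain ⟨a, b, h1⟩ := h1
  have a1 : ∀ u w, N (τ u w) = τ (a u) (b w) - τ u w := fun u w => by simp [← h1, h.tL_tv, hN]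
  have a2 : ∀ z, N (N z) = 0 := fun z => by simp [hN, h.alt₁]
  haveI : Nontrivial W := Module.nontrivial_of_finrank_pos (R := F) (by omega)
  have a3 : N ≠ 0 := fun e' => by
    obtain ⟨w, hw⟩ := exists_ne (0 : W)
    exact UG_ne_zero g (ten_ne_zero h.ten he hw) (by
      simpa [hN, hf] using LinearMap.congr_fun e' (g.1 (τ f w)))
  rcases scalar_or_scalar h.ten E.two (a := a) (b := b) (fun x w => by
    have := a2 (τ x w)
    rw [a1, map_sub, a1, a1] at this
    linear_combination (norm := module) this) with ⟨c, hc⟩ | ⟨c, hc⟩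
  swap
  · obtain ⟨u, hu⟩ : ∃ u, c • a u - u ≠ 0 := by
      by_contra! e'
      exact a3 (ten_ext h.ten fun u w => by simpa [a1, hc] using congrArg (τ · w) (e' u))
    obtain ⟨k, hk⟩ := h.sd₁.witt_one he hu (by simp only [h.alt₁])
    have := h.tn_of_stab hM H h3 hq he (mul_mem (inv_mem hg) (hM _ (h.tn_tL k))) fun w =>
      ⟨_, UG_inv_apply_eq ((hN (τ u w)).symm.trans (by simp [a1, hc, hk]))⟩
    simpa using (h.tn_tL k).mul (this.inv h.ten)
  exfalso
  let ν : End F W := c • b - 1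
  have b1 : ∀ u w, N (τ u w) = τ u (ν w) := fun u w => by simp [a1, hc, ν]
  clear_value ν
  have b2 : ∀ z z', B (N z) z' = -B z (N z') := fun z z' => by
    rw [h.skew z, neg_neg, hN, hN, UG_map_left, UG_map_left, h.B_cu, h.B_cu, E.symm]; rfl
  have b3 : ∀ w w', β (ν w) w' = -β w (ν w') := fun w w' => by
    simpa [b1, h.map, hf] using b2 (τ e w) (τ f w')
  have b4 : ∀ w, ν (ν w) = 0 := fun w => ten_right_inj h.ten he (by simpa [b1] using a2 (τ e w))
  have b5 : ∀ w w', β (ν w) (ν w') = 0 := fun w w' => by simp [b3, b4]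
  have key : ∀ w₁ r, (∀ w, β r (ν w) = 0) → r ∉ F ∙ ν w₁ → ν w₁ ≠ 0 → ∀ w,
      ν w ∈ Submodule.span F {ν w₁, r} := fun w₁ r c1 c2 c3 w => by
    have c4 : β (ν w₁) r = 0 := by rw [E.symm, c1]
    set σ := h.tR (sg β (ν w₁) r) (E.sg_map (b5 _ _) c4) with hσ
    have c5 : ∀ z, σ.1 (N z) = N z := fun z =>
      LinearMap.congr_fun (ten_ext h.ten (f := σ.1.toLinearMap ∘ₗ N) (g := N) fun u w => by
        simp [b1, hσ, sg_apply, c1, b5]) z
    obtain ⟨v, d, c6, c7⟩ := h.exists_rho hM H h3 hq he (κ := g⁻¹ * σ * g)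
      (mul_mem (mul_mem (inv_mem hg) (hM _ (h.tn_tR _ _))) hg) ⟨fun w => UG_inv_apply_eq (by
        simpa [hN, hf] using (c5 (g.1 (τ f w))).symm), fun v hv => by
          have d1 : h.cw (ν w₁) (g.1 v) = 0 := h.sd₁.ext_right fun u => by
            rw [← h.B_cw, ← b1, b2]; simp [hN, hv]
          refine ⟨-h.cu e (g.1.symm (τ (h.cw r (g.1 v)) w₁)), UG_inv_apply_eq ?_⟩
          simp [hσ, h.tR_sg (b5 _ _) c4, d1, ← b1, hN, sub_eq_add_neg]⟩
    have c8 : ∀ z, σ.1 (g.1 z) = g.1 ((h.tL (rho B₁ e v d)).1 z) := fun z => by simp [← c7]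
    obtain ⟨z, hz⟩ : ∃ z, (h.tL (rho B₁ e v d)).1 z = z + τ e (h.cu e (g.1.symm (τ f w))) := by
      generalize h.cu e (g.1.symm (τ f w)) = w'
      by_cases d1 : v ∈ F ∙ e
      · obtain ⟨l, rfl⟩ := Submodule.mem_span_singleton.mp d1
        have d2 : ∀ z, (h.tL (rho B₁ e (l • e) d)).1 z = z + (d + 2 * l) • τ e (h.cu e z) := fun z => by
          simp [h.tL_rho c6, show h.cu (l • e) = l • h.cu e by simp [cu]]; module
        have d3 : d + 2 * l ≠ 0 := fun e' => by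
          obtain ⟨s, hs⟩ := E.exists_ne c3
          have d4 := ten_right_inj h.ten he (z := sg β (ν w₁) r s) (z' := s) (by
            simpa [d2, e', hσ] using c8 (g.1.symm (τ e s)))
          rw [sg_apply, sub_eq_iff_eq_add, add_right_inj] at d4
          exact c2 ((Submodule.smul_mem_iff _ hs).mp
            (d4 ▸ Submodule.smul_mem _ _ (Submodule.mem_span_singleton_self _)))
        exact ⟨τ f ((d + 2 * l)⁻¹ • w'), by simp [d2, hf, smul_smul, d3]⟩
      · obtain ⟨u, d2, d3⟩ := h.sd₁.exists_perp_one _ d1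
        exact ⟨τ u w', by simp [h.tL_rho c6, d3, d2 e (Submodule.mem_span_singleton_self e)]⟩
    have c9 := c8 z
    rw [hz, map_add, ← hN, b1, hσ, h.tR_sg (b5 _ _) c4, add_sub_assoc, add_right_inj] at c9
    have := congrArg (h.cu e) c9
    simp only [map_sub, cu_ten, hf, one_smul] at this
    exact this ▸ sub_mem (Submodule.smul_mem _ _ (Submodule.subset_span (by simp)))
      (Submodule.smul_mem _ _ (Submodule.subset_span (by simp)))
  obtain ⟨w₁, c1⟩ : ∃ w, ν w ≠ 0 := by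
    by_contra! e'
    exact a3 (ten_ext h.ten fun u w => by simp [b1, e'])
  obtain ⟨w₃, c2⟩ : ∃ w, ν w ∉ F ∙ ν w₁ := by
    by_contra! e'
    obtain ⟨φ, d1⟩ := Module.Projective.exists_dual_eq_one F c1
    obtain ⟨s, hs⟩ := E.exists_ne c1
    obtain ⟨w, d2, d3⟩ := exists_ne_ne (φ := φ ∘ₗ ν) (x := w₁) (by simp [d1]) hs
    obtain ⟨l, hl⟩ := Submodule.mem_span_singleton.mp (e' w)
    have d4 := b3 w w
    rw [E.symm w, ← hl, eq_neg_iff_add_eq_zero, ← two_mul] at d4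
    simp [E.two, d3] at d4
    simp [← hl, d4] at d2
  rcases hd with hd | hd
  · have d1 := finrank_le_inf_ker ⊤ (β (ν w₁))
    have d2 := finrank_le_inf_ker (⊤ ⊓ LinearMap.ker (β (ν w₁))) (β (ν w₃))
    have d3 := finrank_span_pair_le (F := F) (ν w₁) (ν w₃)
    rw [finrank_top] at d1
    obtain ⟨r, ⟨⟨-, d4⟩, d5⟩, d6⟩ := exists_notMem_of_finrank_lt (H := Submodule.span F {ν w₁, ν w₃})
      (W := ⊤ ⊓ LinearMap.ker (β (ν w₁)) ⊓ LinearMap.ker (β (ν w₃))) (by omega)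
    obtain ⟨s, t, d7⟩ := Submodule.mem_span_pair.mp (key w₁ r (fun w => by
      obtain ⟨s, t, d7⟩ := Submodule.mem_span_pair.mp (key w₁ _ (b5 w₃) c2 c1 w)
      simp [← d7, E.symm r, show β (ν w₁) r = 0 from d4, show β (ν w₃) r = 0 from d5])
      (fun e' => d6 (Submodule.span_mono (by simp) e')) c1 w₃)
    have d8 : t ≠ 0 := by rintro rfl; exact c2 (Submodule.mem_span_singleton.mpr ⟨s, by simpa using d7⟩)
    exact d6 (Submodule.mem_span_pair.mpr ⟨-s / t, t⁻¹, by rw [← d7]; match_scalars <;> field_simp; simp⟩)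
  · have := LinearMap.finrank_le_finrank_of_injective (f := h.cu e ∘ₗ g.1.symm.toLinearMap ∘ₗ
      (τ.flip w₁).coprod (τ.flip w₃)) ((injective_iff_map_eq_zero _).mpr fun ⟨u, u'⟩ hu => by
        have d1 : τ u (ν w₁) + τ u' (ν w₃) = 0 := by
          rw [← b1, ← b1, ← map_add, hN, show h.cu e (g.1.symm (τ u w₁ + τ u' w₃)) = 0 from hu]; simp
        obtain ⟨φ, d2, d3⟩ := exists_dual_one_zero c2
        have d4 : u' = 0 := by simpa [d2, d3] using congrArg (cR h.ten φ) d1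
        have d5 : u = 0 := ten_left_inj h.ten c1 (by simpa [d4] using d1)
        simp [d4, d5])
    simp at this; omega

end TF

end Cfsg.Agent.H12
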