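import Mathlib
import Cfsg.Agent.H12.TfE
import Cfsg.Agent.H18.Av

/-!
Families of tensor decompositions whose root elements lie in a group.
-/

set_option autoImplicit false

namespace Cfsg.Agent.H12

open Module

variable {F V : Type*} [Field F] [AddCommGroup V] [Module F V] {M : Subgroup (V ≃ₗ[F] V)}

open Classical in
/-- The element `1 + N` for `N` of square zero. -/
noncomputable def ex (N : End F V) : V ≃ₗ[F] V :=
  if h : ∀ x, N (N x) = 0 then LinearEquiv.ofLinearMap (1 + N) (1 - N) (by ext; simp [h]) (by ext; simp [h]) else 1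

theorem ex_apply {N : End F V} (h : ∀ x, N (N x) = 0) (x : V) : ex N x = x + N x := by simp [ex, h]

theorem ex_symm {N : End F V} (h : ∀ x, N (N x) = 0) (x : V) : (ex N).symm x = x - N x := by simp [ex, h]

theorem EN.ex_mem {N : End F V} (H : EN M N) (h : ∀ x, N (N x) = 0) : ex N ∈ M := by
  obtain ⟨g, a, b⟩ := H
  rwa [show ex N = g from LinearEquiv.ext fun x => by rw [b, ex_apply h]]

variable {U W : Type*} [AddCommGroup U] [Module F U] [AddCommGroup W] [Module F W]

/-- A tensor decomposition. -/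
structure TS (F U W V : Type*) [Field F] [AddCommGroup U] [Module F U] [AddCommGroup W] [Module F W]
    [AddCommGroup V] [Module F V] where
  t : U →ₗ[F] W →ₗ[F] V
  h : IsTensorProduct t

namespace TS
variable (T T' : TS F U W V) (k : V ≃ₗ[F] V)

/-- Transport along an automorphism. -/
def act : TS F U W V :=
  ⟨T.t.compr₂ k.toLinearMap, IsTensorProduct.of_equiv (T.h.equiv ≪≫ₗ k) fun x y => by simp⟩

@[simp] theorem act_t (u : U) (w : W) : (T.act k).t u w = k (T.t u w) := rfl

theorem act_act (k' : V ≃ₗ[F] V) : (T.act k).act k' = T.act (k' * k) := rfl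

theorem act_one : T.act 1 = T := rfl

/-- Contraction. -/
noncomputable def r : Dual F W →ₗ[F] V →ₗ[F] U := cR T.h

@[simp] theorem r_t (φ : Dual F W) (u : U) (w : W) : T.r φ (T.t u w) = φ w • u := cR_ten ..

theorem ext {X : Type*} [AddCommGroup X] [Module F X] {f g : V →ₗ[F] X}
    (H : ∀ x z, f (T.t x z) = g (T.t x z)) : f = g := ten_ext T.h H

theorem act_r (φ : Dual F W) (v : V) : (T.act k).r φ v = T.r φ (k.symm v) :=
  LinearMap.congr_fun ((T.act k).ext (g := T.r φ ∘ₗ k.symm.toLinearMap) fun x z => by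
    rw [r_t]; simp) v

/-- The algebra acting on the second factor. -/
noncomputable def i : End F W →ₐ[F] End F V :=
  AlgHom.ofLinearMap
    { toFun := T.h.map T.h 1
      map_add' := fun _ _ => T.ext fun _ _ => by simp [T.h.map_eq]
      map_smul' := fun _ _ => T.ext fun _ _ => by simp [T.h.map_eq] }
    (T.ext fun _ _ => by simp [T.h.map_eq]) fun _ _ => T.ext fun _ _ => by simp [T.h.map_eq]

/-- The algebra acting on the first factor. -/
noncomputable def j : End F U →ₐ[F] End F V :=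
  AlgHom.ofLinearMap
    { toFun := fun θ => T.h.map T.h θ 1
      map_add' := fun _ _ => T.ext fun _ _ => by simp [T.h.map_eq]
      map_smul' := fun _ _ => T.ext fun _ _ => by simp [T.h.map_eq] }
    (T.ext fun _ _ => by simp [T.h.map_eq]) fun _ _ => T.ext fun _ _ => by simp [T.h.map_eq]

@[simp] theorem i_t (a : End F W) (u : U) (w : W) : T.i a (T.t u w) = T.t u (a w) := T.h.map_eq ..

@[simp] theorem j_t (a : End F U) (u : U) (w : W) : T.j a (T.t u w) = T.t (a u) w := T.h.map_eq ..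

theorem i_rk (φ : Dual F W) (y : W) (v : V) : T.i (φ.smulRight y) v = T.t (T.r φ v) y :=
  LinearMap.congr_fun (T.ext (g := T.t.flip y ∘ₗ T.r φ) fun x z => by simp) v

theorem r_i (φ : Dual F W) (a : End F W) (v : V) : T.r φ (T.i a v) = T.r (φ ∘ₗ a) v :=
  LinearMap.congr_fun (T.ext (f := T.r φ ∘ₗ T.i a) fun x z => by simp) v

@[simp] theorem r_j (φ : Dual F W) (a : End F U) (v : V) : T.r φ (T.j a v) = a (T.r φ v) :=
  LinearMap.congr_fun (T.ext (f := T.r φ ∘ₗ T.j a) (g := a ∘ₗ T.r φ) fun x z => by simp) v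

theorem act_i (a : End F W) (v : V) : (T.act k).i a v = k (T.i a (k.symm v)) :=
  LinearMap.congr_fun ((T.act k).ext (g := k.toLinearMap ∘ₗ T.i a ∘ₗ k.symm.toLinearMap) fun x z => by
    rw [i_t]; simp) v

theorem comm_ij (a : End F W) (θ : End F U) : Commute (T.j θ) (T.i a) := T.ext fun _ _ => by simp

theorem sq {y : W} {φ : Dual F W} (h : φ y = 0) (v : V) : T.i (φ.smulRight y) (T.i (φ.smulRight y) v) = 0 := by
  simp [i_rk, h]

/-- The two decompositions define the same algebra. -/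
def SA : Prop := ∃ (a : End F U) (b : End F W), ∀ x z, T'.t x z = T.t (a x) (b z)

/-- The algebras of the two decompositions commute. -/
def CM : Prop := ∀ a a', Commute (T.i a) (T'.i a')

/-- Same or commuting algebras. -/
def Rel : Prop := T.SA T' ∨ T.CM T'

/-- Partial trace of a rank one map. -/
noncomputable def S : V →ₗ[F] Dual F V →ₗ[F] End F V :=
  T.h.lift (LinearMap.mk₂ F (fun u z => T.i.toLinearMap ∘ₗ LinearMap.smulRightₗ.flip z ∘ₗ LinearMap.lcomp F F (T.t u))
    (fun _ _ _ => by ext1; exact T.ext (by simp [add_smul])) (fun _ _ _ => by ext1; exact T.ext (by simp [mul_smul]))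
    (fun _ _ _ => by ext1; exact T.ext (by simp)) fun _ _ _ => by ext1; exact T.ext (by simp [smul_smul, mul_comm]))

theorem S_t (u x : U) (z w : W) (f : Dual F V) : T.S (T.t u z) f (T.t x w) = f (T.t u w) • T.t x z := by
  simp [S, T.h.lift_eq]

theorem S_mem (v : V) (f : Dual F V) : ∃ a, T.S v f = T.i a :=
  T.h.inductionOn v ⟨0, by simp⟩ (fun u z => ⟨(f ∘ₗ T.t u).smulRight z, T.ext fun _ _ => by simp [S_t]⟩)
    fun _ _ ⟨a, ha⟩ ⟨b, hb⟩ => ⟨a + b, by simp [ha, hb]⟩

theorem S_rk (u : U) (y : W) (l : Dual F U) (φ : Dual F W) :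
    T.S (T.t u y) (l ∘ₗ T.r φ) = l u • T.i (φ.smulRight y) := T.ext fun _ _ => by simp [S_t, smul_smul, mul_comm]

theorem r_S (χ : Dual F W) (v : V) (f : Dual F V) (x : U) (w : W) :
    T.r χ (T.S v f (T.t x w)) = f (T.i (χ.smulRight w) v) • x :=
  T.h.inductionOn v (by simp) (fun u z => by simp [S_t, smul_smul, mul_comm]) fun _ _ a b => by
    simp [a, b, add_smul]

theorem act_S (v : V) (f : Dual F V) (v' : V) :
    (T.act k).S v f v' = k (T.S (k.symm v) (f ∘ₗ k.toLinearMap) (k.symm v')) :=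
  (T.act k).h.inductionOn v (by simp) (fun u z => (T.act k).h.inductionOn v' (by simp)
    (fun x w => by rw [S_t]; simp [S_t]) fun _ _ a b => by simp only [map_add, a, b]) fun _ _ a b => by
    simp only [map_add, a, b, LinearMap.add_apply]

variable {T T' k} {T'' : TS F U W V}

theorem SA.refl : T.SA T := ⟨1, 1, fun _ _ => rfl⟩

theorem SA.trans (h : T.SA T') (h' : T'.SA T'') : T.SA T'' := by
  obtain ⟨a, b, h⟩ := h
  obtain ⟨a', b', h'⟩ := h'
  exact ⟨a * a', b * b', fun x z => by simp [h, h']⟩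

theorem SA.act (h : T.SA T') : (T.act k).SA (T'.act k) := h.imp fun _ h => h.imp fun _ h x z => by simp [h]

theorem CM.symm (h : T.CM T') : T'.CM T := fun a a' => (h a' a).symm

theorem CM.act (h : T.CM T') : (T.act k).CM (T'.act k) := fun a a' => LinearMap.ext fun v => by
  simpa [act_i] using LinearMap.congr_fun (h a a') (k.symm v)

theorem Rel.act (h : T.Rel T') : (T.act k).Rel (T'.act k) := h.imp SA.act CM.act

variable [FiniteDimensional F U] [FiniteDimensional F W] [Nontrivial U] [Nontrivial W]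

theorem SA.equiv (h : T.SA T') : ∃ (a : U ≃ₗ[F] U) (b : W ≃ₗ[F] W), ∀ x z, T'.t x z = T.t (a x) (b z) := by
  obtain ⟨a, b, h⟩ := h
  obtain ⟨u, hu⟩ := exists_ne (0 : U)
  obtain ⟨w, hw⟩ := exists_ne (0 : W)
  exact ⟨.ofInjectiveEndo a ((injective_iff_map_eq_zero _).mpr fun x e => by_contra fun c =>
    ten_ne_zero T'.h c hw (by simp [h, e])), .ofInjectiveEndo b ((injective_iff_map_eq_zero _).mpr fun x e =>
      by_contra fun c => ten_ne_zero T'.h hu c (by simp [h, e])), h⟩

theorem SA.symm (h : T.SA T') : T'.SA T := by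
  obtain ⟨a, b, h⟩ := h.equiv
  exact ⟨a.symm, b.symm, fun x z => by simp [h]⟩

theorem SA.range (h : T.SA T') (a' : End F W) : ∃ a, T'.i a' = T.i a := by
  obtain ⟨a, b, h⟩ := h.equiv
  exact ⟨b.toLinearMap * a' * b.symm.toLinearMap, T'.ext fun x z => by rw [i_t]; simp [h]⟩

theorem SA.S_eq (h : T.SA T') : T'.S = T.S := T'.ext fun u z => LinearMap.ext fun f => T'.ext fun x w => by
  obtain ⟨a, b, h⟩ := h
  rw [S_t]; simp [h, S_t]

theorem SA.cm (h : T.SA T') (h' : T'.CM T'') : T.CM T'' := fun a a' => by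
  obtain ⟨b, hb⟩ := h.symm.range a
  exact hb ▸ h' b a'

theorem Rel.symm (h : T.Rel T') : T'.Rel T := h.imp SA.symm CM.symm

theorem SA.rel (h : T.SA T') (h' : T'.Rel T'') : T.Rel T'' := h'.imp h.trans h.cm

omit [FiniteDimensional F U] [Nontrivial U] in
theorem exists_j {c : End F V} (h : ∀ a, Commute c (T.i a)) : ∃ θ, c = T.j θ := by
  obtain ⟨w, hw⟩ := exists_ne (0 : W)
  obtain ⟨φ, hφ⟩ := Module.Projective.exists_dual_eq_one F hw
  refine ⟨T.r φ ∘ₗ c ∘ₗ T.t.flip w, T.ext fun x z => ?_⟩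
  simpa [i_rk, hφ] using LinearMap.congr_fun (h (φ.smulRight z)).eq (T.t x w)

omit [FiniteDimensional F U] [Nontrivial U] in
theorem CM.S_eq_zero (h : T.CM T') {y : W} {φ : Dual F W} (h0 : φ y = 0) (u : U) (l : Dual F U) :
    T'.S (T.t u y) (l ∘ₗ T.r φ) = 0 := T'.ext fun x w => eq_zero_of_cR T'.h fun χ => by
  obtain ⟨θ, hθ⟩ := exists_j fun a => (h a (χ.smulRight w)).symm
  exact (T'.r_S χ (T.t u y) (l ∘ₗ T.r φ) x w).trans (by simp [hθ, h0])

omit [Nontrivial U] [Nontrivial W] in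
theorem rank_lemma (h3 : 3 ≤ finrank F W) {a : End F U} {b b' : End F W} (hb : ∀ w, b w = 0 → w = 0)
    {L : End F V} (hL : ∀ u w, L (T.t u w) = T.t (a u) (b w) - T.t u (b' w)) {A : V →ₗ[F] U}
    (hA : ∀ v, A v = 0 → L v = 0) : (∃ c : F, ∀ x, a x = c • x) ∨ ∀ z, b' z ∈ F ∙ b z := by
  refine or_iff_not_imp_right.mpr fun H => exists_smul_of_mem_span fun x => by_contra fun hx => ?_
  obtain ⟨z, hz⟩ := not_forall.mp H
  obtain ⟨l, a1, a2⟩ := exists_dual_one_zero hx
  obtain ⟨χ, a3, a4⟩ := exists_dual_one_zero hz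
  obtain ⟨ψ, a5⟩ := Module.Projective.exists_dual_eq_one F (show z ≠ 0 by rintro rfl; simp at hz)
  obtain ⟨⟨w, u⟩, b1, b2⟩ := (Submodule.ne_bot_iff _).mp (LinearMap.ker_ne_bot_of_finrank_lt
    (f := (A ∘ₗ (T.t x).coprod (T.t.flip z)).prod (((χ ∘ₗ b).prod ψ) ∘ₗ LinearMap.fst F W U)) (by simp; omega))
  obtain ⟨b3, b4, b5⟩ : A (T.t x w + T.t u z) = 0 ∧ χ (b w) = 0 ∧ ψ w = 0 :=
    ⟨congrArg Prod.fst b1, congrArg (·.2.1) b1, congrArg (·.2.2) b1⟩
  have b6 := hA _ b3
  rw [map_add, hL, hL] at b6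
  have b7 := congrArg (cL T.h l) b6
  simp only [map_add, map_sub, cL_ten, a1, a2, one_smul, zero_smul, sub_zero, map_zero] at b7
  have b8 : l u = 0 := by simpa [a3, a4, b4] using congrArg χ b7
  have b9 := hb (w + l (a u) • z) (by simpa [b8] using b7)
  have c1 : w = 0 := by simpa [show l (a u) = 0 by simpa [a5, b5] using congrArg ψ b9] using b9
  have c2 : u = 0 := by simpa [c1, a3, a4] using congrArg (T.r χ) b6
  exact b2 (by simp [c1, c2])

end TS

end Cfsg.Agent.H12
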