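import Mathlib
import Cfsg.Agent.H12.WrA

/-!
Conjugate tensor factors coincide or commute: the averaging argument.
-/

set_option autoImplicit false

namespace Cfsg.Agent.H12

open Module

variable {F V : Type*} [Field F] [AddCommGroup V] [Module F V] {M : Subgroup (V ≃ₗ[F] V)}
  {U W : Type*} [AddCommGroup U] [Module F U] [AddCommGroup W] [Module F W]

/-- A family `G` of tensor decompositions with root elements of type `R` in `M`. -/
structure WS (M : Subgroup (V ≃ₗ[F] V)) (G : Set (TS F U W V)) (R : W → Dual F W → Prop) : Prop where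
  act : ∀ T ∈ G, ∀ k ∈ M, T.act k ∈ G
  nil : ∀ y φ, R y φ → φ y = 0 ∧ y ≠ 0 ∧ φ ≠ 0
  rt : ∀ T ∈ G, ∀ y φ, R y φ → EN M (T.i (φ.smulRight y))
  stab : ∀ T ∈ G, ∀ T' ∈ G, ∀ y φ w, R y φ → (∀ x, ∃ x', T'.t x y = T.t x' w) → T.SA T'
  gen : Algebra.adjoin F {n | ∃ y φ, R y φ ∧ n = φ.smulRight y} = ⊤
  exi : ∃ y φ, R y φ
  dim : 3 ≤ finrank F W ∨ (2 : F) ≠ 0

/-- Conjugation of an operator valued bilinear map. -/
noncomputable def cjS (k : V ≃ₗ[F] V) (ξ : V →ₗ[F] Dual F V →ₗ[F] End F V) : V →ₗ[F] Dual F V →ₗ[F] End F V :=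
  (ξ.compl₁₂ k.symm.toLinearMap (LinearMap.lcomp F F k.toLinearMap)).compr₂ k.conj.toLinearMap

theorem cjS_apply (k : V ≃ₗ[F] V) (ξ : V →ₗ[F] Dual F V →ₗ[F] End F V) (v : V) (f : Dual F V) (v' : V) :
    cjS k ξ v f v' = k (ξ (k.symm v) (f ∘ₗ k.toLinearMap) (k.symm v')) := rfl

theorem TS.act_S' (T : TS F U W V) (k : V ≃ₗ[F] V) : (T.act k).S = cjS k T.S := by
  ext v f v'; exact T.act_S k v f v'

/-- The partial traces in the orbit of `T₁` that are not related to `T`. -/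
def NC (M : Subgroup (V ≃ₗ[F] V)) (T T₁ : TS F U W V) (ξ : V →ₗ[F] Dual F V →ₗ[F] End F V) : Prop :=
  (∃ k ∈ M, ξ = (T₁.act k).S) ∧ ∀ k ∈ M, ξ = (T₁.act k).S → ¬ T.Rel (T₁.act k)

namespace WS
variable {G : Set (TS F U W V)} {R : W → Dual F W → Prop} (H : WS M G R) {T T' T₁ : TS F U W V} {y : W}
  {φ : Dual F W} {k : V ≃ₗ[F] V}
include H

theorem ex_mem (hT : T ∈ G) (h : R y φ) : ex (T.i (φ.smulRight y)) ∈ M :=
  (H.rt T hT y φ h).ex_mem (T.sq (H.nil y φ h).1)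

theorem comm_of {c : End F V} (h : ∀ y φ, R y φ → Commute c (T.i (φ.smulRight y))) (a : End F W) :
    Commute c (T.i a) := by
  have : Algebra.adjoin F _ ≤ (Subalgebra.centralizer F {c}).comap T.i := Algebra.adjoin_le (s := {n | ∃ y φ,
    R y φ ∧ n = φ.smulRight y}) fun _ ⟨y, φ, a, b⟩ _ e => by rw [b, e]; exact h y φ a
  exact this (H.gen ▸ Algebra.mem_top) c rfl

theorem sa_of_comm (hT : T ∈ G) (h : R y φ) (hk : k ∈ M)
    (h1 : ∀ v, k (T.i (φ.smulRight y) v) = T.i (φ.smulRight y) (k v)) : T.SA (T.act k) := by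
  obtain ⟨z, hz⟩ := φ.surjective_iff_ne_zero.mpr (H.nil y φ h).2.2 1
  exact H.stab T hT _ (H.act T hT k hk) y φ y h fun x => ⟨_, by simpa [T.i_rk, hz] using h1 (T.t x z)⟩

variable [FiniteDimensional F U] [FiniteDimensional F W] [Nontrivial U] [Nontrivial W]

omit [FiniteDimensional F W] [Nontrivial W] in
theorem sa_of_mem (hT : T ∈ G) (hT' : T' ∈ G) (h : R y φ) {b : End F W} (hb : T'.i (φ.smulRight y) = T.i b) :
    T.SA T' := by
  obtain ⟨-, a1, a2⟩ := H.nil y φ h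
  obtain ⟨z, hz⟩ := φ.surjective_iff_ne_zero.mpr a2 1
  obtain ⟨u, hu⟩ := exists_ne (0 : U)
  obtain ⟨w, hw⟩ : ∃ w, b w ≠ 0 := by
    by_contra! e
    simpa [hz, show b = 0 from LinearMap.ext e, ten_ne_zero T'.h hu a1] using LinearMap.congr_fun hb (T'.t u z)
  have a3 : ∀ x, T'.t ((T'.r φ ∘ₗ T.t.flip w) x) y = T.t x (b w) := fun x => by
    simpa [T'.i_rk] using LinearMap.congr_fun hb (T.t x w)
  refine H.stab T hT T' hT' y φ (b w) h fun x => ?_
  obtain ⟨x, rfl⟩ := (LinearMap.injective_iff_surjective (f := T'.r φ ∘ₗ T.t.flip w)).mp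
    (fun x x' e => ten_left_inj T.h hw (by rw [← a3, ← a3, e])) x
  exact ⟨x, a3 x⟩

theorem sa_or_comm (hT : T ∈ G) (hT' : T' ∈ G) (h : R y φ) (h1 : T.SA (T.act (ex (T'.i (φ.smulRight y))))) :
    T.SA T' ∨ ∀ a, Commute (T'.i (φ.smulRight y)) (T.i a) := by
  obtain ⟨a, b, h1⟩ := h1.equiv
  have a0 := T'.sq (H.nil y φ h).1
  have a1 : ∀ u w, T'.i (φ.smulRight y) (T.t u w) = T.t (a u) (b w) - T.t u w := fun u w => by
    rw [← h1, TS.act_t, ex_apply a0]; simp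
  have a2 : (∃ c : F, ∀ x, a x = c • x) ∨ ∃ c : F, ∀ x, b x = c • x := by
    rcases H.dim with d | d
    · refine (TS.rank_lemma d (a := a.toLinearMap) (b := b.toLinearMap) (b' := 1) (by simp) a1 (A := T'.r φ)
        fun v hv => by simp [T'.i_rk, hv]).imp_right fun e => exists_smul_of_mem_span (a := b.toLinearMap) fun x => ?_
      by_contra c
      exact notMem_span_symm c (by rintro rfl; simp at c) (e x)
    · refine scalar_or_scalar T.h d (a := a.toLinearMap) (b := b.toLinearMap) fun x w => ?_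
      have := a0 (T.t x w)
      simp only [a1, map_sub] at this
      simp only [LinearEquiv.coe_coe]
      linear_combination (norm := module) this
  rcases a2 with ⟨c, e⟩ | ⟨c, e⟩
  · exact Or.inl (H.sa_of_mem hT hT' h (b := c • b.toLinearMap - 1) (T.ext fun x z => by simp [a1, e]))
  · exact Or.inr fun a' => (show T'.i (φ.smulRight y) = T.j (c • a.toLinearMap - 1) from
      T.ext fun x z => by simp [a1, e]) ▸ T.comm_ij _ _

theorem rel_of_comm (hT : T ∈ G) (hT' : T' ∈ G) (h : R y φ) (h1 : ∀ a, Commute (T'.i (φ.smulRight y)) (T.i a)) :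
    T.Rel T' := or_iff_not_imp_left.mpr fun e a a' => (H.comm_of (fun z ψ h2 => ((H.sa_or_comm hT' hT h2
      (H.sa_of_comm hT' h (H.ex_mem hT h2) fun v => by
        simp [ex_apply (T.sq (H.nil z ψ h2).1), ← End.mul_apply, (h1 _).eq])).resolve_left
          fun c => e c.symm) a' |>.symm) a).symm

theorem rel_of_sa (hT : T ∈ G) (hT' : T' ∈ G) (h : R y φ) (h1 : T.SA (T.act (ex (T'.i (φ.smulRight y))))) :
    T.Rel T' := (H.sa_or_comm hT hT' h h1).elim Or.inl (H.rel_of_comm hT hT' h)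

theorem rel_of_add (hT : T ∈ G) (hT' : T' ∈ G) (h : R y φ) {θ : End F U} {b : End F W}
    (h1 : T'.i (φ.smulRight y) = T.j θ + T.i b) : T.Rel T' := by
  have a0 := T'.sq (H.nil y φ h).1
  have a2 : (∃ c : F, ∀ x, θ x = c • x) ∨ ∃ c : F, ∀ x, b x = c • x := by
    rcases H.dim with d | d
    · exact (TS.rank_lemma (T := T) d (a := θ) (b := 1) (b' := -b) (by simp) (L := T'.i (φ.smulRight y)) (by simp [h1])
        (A := T'.r φ) fun v hv => by simp [T'.i_rk, hv]).imp_right fun e =>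
          exists_smul_of_mem_span fun x => by simpa using e x
    · refine or_iff_not_imp_right.mpr fun e => exists_smul_of_mem_span fun x => by_contra fun hx => ?_
      obtain ⟨w, hw⟩ : ∃ w, b w ∉ F ∙ w := by
        by_contra! c; exact e (exists_smul_of_mem_span c)
      obtain ⟨χ, b1, b2⟩ := exists_dual_one_zero hw
      obtain ⟨l, b3, b4⟩ := exists_dual_one_zero hx
      exact d (by simpa [h1, b1, b2, b3, b4, one_add_one_eq_two] using congrArg (fun v => l (T.r χ v)) (a0 (T.t x w)))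
  rcases a2 with ⟨c, e⟩ | ⟨c, e⟩
  · exact Or.inl (H.sa_of_mem hT hT' h (b := c • 1 + b) (h1.trans (T.ext fun x z => by simp [e])))
  · exact H.rel_of_comm hT hT' h fun a' =>
      (show _ = T.j (θ + c • 1) from h1.trans (T.ext fun x z => by simp [e])) ▸ T.comm_ij _ _

theorem sa_of_S (hT : T ∈ G) (hT' : T' ∈ G) (h : T.S = T'.S) : T.SA T' := by
  obtain ⟨y, φ, h1⟩ := H.exi
  obtain ⟨u, hu⟩ := exists_ne (0 : U)
  obtain ⟨l, hl⟩ := Module.Projective.exists_dual_eq_one F hu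
  obtain ⟨a, ha⟩ := T.S_mem (T'.t u y) (l ∘ₗ T'.r φ)
  exact H.sa_of_mem hT hT' h1 (by rw [← ha, h, T'.S_rk, hl, one_smul])

theorem sum_vanish (hT₁ : T₁ ∈ G) {S : Finset (V →ₗ[F] Dual F V →ₗ[F] End F V)}
    (hS : ∀ ξ, ξ ∈ S ↔ NC M T T₁ ξ) {C : Type*} [AddGroup C] [Fintype C] (a : C → V ≃ₗ[F] V)
    (h1 : ∀ c c', a (c + c') = a c * a c') (h2 : ∀ c, a c ∈ M) (h3 : ∀ c, T.SA (T.act (a c)))
    (h4 : ∀ c ≠ 0, ∀ T' ∈ G, T'.SA (T'.act (a c)) → T.Rel T') {v v' : V} {f g : Dual F V}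
    (h5 : ∀ ξ, ∑ c, g (cjS (a c) ξ v f v') = 0) : g ((∑ ξ ∈ S, ξ) v f v') = 0 := by
  have b0 : a 0 = 1 := by simpa using h1 0 0
  simp only [LinearMap.sum_apply, map_sum]
  refine H18.sum_eq_zero_of_free (fun c => cjS (a c)) (fun ξ => by rw [b0]; rfl) (fun c c' ξ => by rw [h1]; rfl)
    (fun ξ => g (ξ v f v')) S (fun ξ hξ c => ?_) (fun ξ hξ c e => by_contra fun c0 => ?_) h5
  · obtain ⟨⟨k, b1, rfl⟩, b2⟩ := (hS ξ).mp hξ
    refine (hS _).mpr ⟨⟨a c * k, mul_mem (h2 c) b1, ((T₁.act k).act_S' _).symm⟩, fun k' b3 e b4 =>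
      b2 ((a c)⁻¹ * k') (mul_mem (inv_mem (h2 c)) b3) ?_ ?_⟩
    · rw [← TS.act_act, TS.act_S' _ (a c)⁻¹, ← e, ← TS.act_S', ← TS.act_S', TS.act_act, TS.act_act,
        inv_mul_cancel, one_mul]
    · have := ((h3 c).symm.rel b4).act (k := (a c)⁻¹)
      rwa [TS.act_act, inv_mul_cancel] at this
  · obtain ⟨⟨k, b1, rfl⟩, b2⟩ := (hS ξ).mp hξ
    have b3 := H.act _ hT₁ k b1
    exact b2 k b1 rfl (h4 c c0 _ b3 (H.sa_of_S b3 (H.act _ b3 _ (h2 c)) (by rw [TS.act_S' _ (a c), e])))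

theorem rel_of_sum [Finite F] (h : ∀ T ∈ G, ∀ T₁ ∈ G, ∀ S : Finset (V →ₗ[F] Dual F V →ₗ[F] End F V),
    (∀ ξ, ξ ∈ S ↔ NC M T T₁ ξ) → ∑ ξ ∈ S, ξ = 0) (hT : T ∈ G) (hT' : T' ∈ G) : T.Rel T' := by
  classical
  have := ten_fin T.h
  have := Module.finite_of_finite F (M := V →ₗ[F] Dual F V →ₗ[F] End F V)
  have := Fintype.ofFinite (V →ₗ[F] Dual F V →ₗ[F] End F V)
  let O := Finset.univ.filter fun ξ => ∃ k ∈ M, ξ = (T'.act k).S
  have a1 : ∀ T ∈ G, ∑ ξ ∈ O, ξ = ∑ ξ ∈ O.filter fun ξ => ∃ k ∈ M, ξ = (T'.act k).S ∧ T.Rel (T'.act k), ξ :=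
    fun T hT => by
      rw [← Finset.sum_filter_add_sum_filter_not O fun ξ => ∃ k ∈ M, ξ = (T'.act k).S ∧ T.Rel (T'.act k)]
      exact (congrArg _ (h T hT T' hT' _ fun ξ => by simp [O, NC])).trans (add_zero _)
  obtain ⟨y, φ, h1⟩ := H.exi
  obtain ⟨u, hu⟩ := exists_ne (0 : U)
  obtain ⟨l, hl⟩ := Module.Projective.exists_dual_eq_one F hu
  have a2 : (∑ ξ ∈ O, ξ) (T'.t u y) (l ∘ₗ T'.r φ) = T'.i (φ.smulRight y) := by
    rw [a1 T' hT', LinearMap.sum_apply, LinearMap.sum_apply, Finset.sum_eq_single_of_mem T'.S (by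
      simp only [O, Finset.mem_filter, Finset.mem_univ, true_and]
      exact ⟨⟨1, one_mem _, rfl⟩, 1, one_mem _, rfl, Or.inl TS.SA.refl⟩) fun ξ hξ e => ?_, T'.S_rk, hl, one_smul]
    obtain ⟨k, -, rfl, b | b⟩ := (Finset.mem_filter.mp hξ).2
    exacts [absurd b.S_eq e, b.S_eq_zero (H.nil y φ h1).1 u l]
  have a3 : T'.i (φ.smulRight y) ∈ LinearMap.range T.j.toLinearMap ⊔ LinearMap.range T.i.toLinearMap := by
    rw [← a2, a1 T hT, LinearMap.sum_apply, LinearMap.sum_apply]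
    refine Submodule.sum_mem _ fun ξ hξ => ?_
    obtain ⟨k, -, rfl, b | b⟩ := (Finset.mem_filter.mp hξ).2
    · obtain ⟨a, ha⟩ := T.S_mem (T'.t u y) (l ∘ₗ T'.r φ)
      exact Submodule.mem_sup_right ⟨a, by rw [b.S_eq, ha]; rfl⟩
    · obtain ⟨a, ha⟩ := (T'.act k).S_mem (T'.t u y) (l ∘ₗ T'.r φ)
      obtain ⟨θ, hθ⟩ := TS.exists_j fun a' => (b a' a).symm
      exact Submodule.mem_sup_left ⟨θ, by rw [ha, hθ]; rfl⟩
  obtain ⟨_, ⟨θ, rfl⟩, _, ⟨b, rfl⟩, e⟩ := Submodule.mem_sup.mp a3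
  exact H.rel_of_add hT hT' h1 e.symm

end WS

end Cfsg.Agent.H12
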