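import Mathlib
import Cfsg.Agent.H12.WrB

/-!
Tensor factors with full special linear groups.
-/

set_option autoImplicit false

namespace Cfsg.Agent.H12

open Module

variable {F V : Type*} [Field F] [AddCommGroup V] [Module F V] {M : Subgroup (V ≃ₗ[F] V)}
  {U W : Type*} [AddCommGroup U] [Module F U] [AddCommGroup W] [Module F W]

/-- `M` contains the transvections of the second factor, and no twisted ones. -/
structure CS (M : Subgroup (V ≃ₗ[F] V)) (T : TS F U W V) : Prop where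
  rt : ∀ (y : W) (φ : Dual F W), φ y = 0 → EN M (T.i (φ.smulRight y))
  sc : ∀ (θ : End F U) (y : W) (φ : Dual F W), φ y = 0 → y ≠ 0 → φ ≠ 0 → EN M (T.j θ * T.i (φ.smulRight y)) →
    ∃ c : F, ∀ x, θ x = c • x

theorem TS.act_j (T : TS F U W V) (k : V ≃ₗ[F] V) (a : End F U) (v : V) : (T.act k).j a v = k (T.j a (k.symm v)) :=
  LinearMap.congr_fun ((T.act k).ext (g := k.toLinearMap ∘ₗ T.j a ∘ₗ k.symm.toLinearMap) fun x z => by
    rw [TS.j_t]; simp) v

theorem adjoin_rk [FiniteDimensional F W] (h3 : 3 ≤ finrank F W) :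
    Algebra.adjoin F {n | ∃ (y : W) (φ : Dual F W), (φ y = 0 ∧ y ≠ 0 ∧ φ ≠ 0) ∧ n = φ.smulRight y} = ⊤ := by
  set A := Algebra.adjoin F {n | ∃ (y : W) (φ : Dual F W), (φ y = 0 ∧ y ≠ 0 ∧ φ ≠ 0) ∧ n = φ.smulRight y}
  have a1 : ∀ (y : W) (φ : Dual F W), φ y = 0 → φ.smulRight y ∈ A := fun y φ h => by
    by_cases e : y = 0
    · simp [e]
    by_cases e' : φ = 0
    · simp [e']
    exact Algebra.subset_adjoin ⟨y, φ, ⟨h, e, e'⟩, rfl⟩
  have a2 : ∀ (y : W) (φ : Dual F W), φ.smulRight y ∈ A := fun y φ => by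
    obtain ⟨w, b1, b2⟩ := exists_ker_notMem h3 φ y
    obtain ⟨χ, b3, b4⟩ := exists_dual_one_zero b2
    convert mul_mem (a1 y χ b4) (a1 w φ b1) using 1
    ext; simp [b3]
  refine eq_top_iff.mpr fun a _ => ?_
  rw [show a = ∑ i, ((finBasis F W).coord i).smulRight (a (finBasis F W i)) from
    (finBasis F W).ext fun i => by simp [Finsupp.single_apply]]
  exact sum_mem fun i _ => a2 _ _

namespace CS
variable {T T' : TS F U W V} (h : CS M T) (h' : CS M T') {y z : W} {ψ φ : Dual F W}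
include h

theorem act {k : V ≃ₗ[F] V} (hk : k ∈ M) : CS M (T.act k) :=
  ⟨fun y φ h0 => (h.rt y φ h0).conj hk fun x => by simp [T.act_i], fun θ y φ a b c d =>
    h.sc θ y φ a b c (d.conj (inv_mem hk) fun x => by simp [T.act_i, T.act_j])⟩

variable [FiniteDimensional F U] [FiniteDimensional F W] (h3 : 3 ≤ finrank F W)
include h' h3

omit [FiniteDimensional F U] in
theorem blk (hψ : ψ ≠ 0) (H : ∀ x, T.r ψ (T'.t x y) = 0) (h1 : φ y = 0) (h2 : ψ z = 0) (χ : Dual F W) :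
    ∃ c : F, ∀ x, T.r χ (T'.t (T'.r φ (T.t x z)) y) = c • x := by
  obtain ⟨w, a1, a2, a3⟩ := exists_mem_ker₂ h3 ψ χ
  have a5 := (h'.rt y φ h1).comm (h.rt z ψ h2) (T'.sq h1) (T.sq h2) (by simp [TS.i_rk, H])
  refine h.sc (T.r χ ∘ₗ T'.t.flip y ∘ₗ T'.r φ ∘ₗ T.t.flip z) w ψ a2 a1 hψ ?_
  convert (h.rt w χ a3).comm a5 (T.sq a3) (by simp [TS.i_rk, H]) (by simp [TS.i_rk, a2]) using 1
  ext; simp [TS.i_rk]

variable [Nontrivial U]

theorem ten_of_zero (hy : y ≠ 0) (hψ : ψ ≠ 0) (H : ∀ x, T.r ψ (T'.t x y) = 0) :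
    ∃ (a : U ≃ₗ[F] U) (w : W), ∀ x, T'.t x y = T.t (a x) w := by
  obtain ⟨x₀, hx₀⟩ := exists_ne (0 : U)
  obtain ⟨φ, z, x₁, a1, a2, a3⟩ : ∃ φ z x₁, φ y = 0 ∧ ψ z = 0 ∧ T'.r φ (T.t x₁ z) ≠ 0 := by
    by_contra! e
    obtain ⟨χ, hχ⟩ := Module.Projective.exists_dual_eq_one F hy
    have b1 : ∀ z, ψ z = 0 → ∀ x, T.t x z = T'.t (T'.r χ (T.t x z)) y := fun z hz x =>
      ten_eq_of_ann T'.h (fun φ h0 => e φ z x h0 hz) hχ
    obtain ⟨z, b2, b3, -⟩ := exists_mem_ker₂ h3 ψ ψ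
    obtain ⟨z', b4, b5⟩ := exists_ker_notMem h3 ψ z
    obtain ⟨x, hx⟩ := (LinearMap.injective_iff_surjective (f := T'.r χ ∘ₗ T.t.flip z)).mp (fun x x' e =>
      ten_left_inj T.h b2 (by rw [b1 z b3, b1 z b3 x']; exact congrArg (T'.t · y) e)) (T'.r χ (T.t x₀ z'))
    obtain ⟨κ, c1, c2⟩ := exists_dual_one_zero b5
    have := congrArg (T.r κ) ((b1 z b3 x).trans ((congrArg (T'.t · y) hx).trans (b1 z' b4 x₀).symm))
    simp [c1, c2, hx₀.symm] at this
  have a4 := h.blk h' h3 hψ H a1 a2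
  obtain ⟨χ, hχ⟩ : ∃ χ, T.r χ (T'.t (T'.r φ (T.t x₁ z)) y) ≠ 0 := by
    by_contra! e
    exact ten_ne_zero T'.h a3 hy (eq_zero_of_cR T.h e)
  obtain ⟨c, hc⟩ := a4 χ
  have a5 : Function.Injective (T'.r φ ∘ₗ T.t.flip z) := (injective_iff_map_eq_zero _).mpr fun x hx => by
    have b1 : c ≠ 0 := fun e => hχ (by simpa [e] using hc x₁)
    simpa [show T'.r φ (T.t x z) = 0 from hx, b1] using (hc x).symm
  let b := LinearEquiv.ofInjectiveEndo _ a5
  obtain ⟨l, hl⟩ := Module.Projective.exists_dual_eq_one F (b.symm.map_ne_zero_iff.mpr hx₀)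
  refine ⟨b.symm, _, ten_of_scalar T.h (A := fun x => T'.t x y) hl fun κ => (a4 κ).imp fun d hd x => ?_⟩
  rw [← hd, show T'.r φ (T.t (b.symm x) z) = x from b.apply_symm_apply x]; rfl

theorem sa_of_zero (hy : y ≠ 0) (hψ : ψ ≠ 0) (H : ∀ x, T.r ψ (T'.t x y) = 0) : T.SA T' := by
  obtain ⟨a, w, ha⟩ := h.ten_of_zero h' h3 hy hψ H
  obtain ⟨x₀, hx₀⟩ := exists_ne (0 : U)
  obtain ⟨l, hl⟩ := Module.Projective.exists_dual_eq_one F (a.map_ne_zero_iff.mpr hx₀)
  obtain ⟨χ, hχ⟩ := Module.Projective.exists_dual_eq_one F hy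
  have a0 : ∀ x, T.t x w = T'.t (a.symm x) y := fun x => by rw [ha, a.apply_symm_apply]
  have a1 : ∀ φ z, φ w = 0 → ∃ c : F, ∀ x, T.r φ (T'.t x z) = c • a x := fun φ z h0 => by
    obtain ⟨ψ, b1, b2, b3⟩ := exists_dual_ker₂ h3 y z
    obtain ⟨c, hc⟩ := h'.blk h h3 b1 (by simp [a0, b2]) h0 b3 χ
    exact ⟨c, fun x => by simpa [a0, hχ, LinearEquiv.symm_apply_eq] using hc x⟩
  have a2 : ∀ z, ∃ w', ∀ x, T'.t x z = T.t (a x) w' := fun z => by
    by_cases e : z ∈ F ∙ y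
    · obtain ⟨c, rfl⟩ := Submodule.mem_span_singleton.mp e
      exact ⟨c • w, by simp [ha]⟩
    obtain ⟨φ, b1, b2, b3⟩ := exists_dual_ker₂ h3 w (cL T.h l (T'.t x₀ z))
    obtain ⟨c, hc⟩ := a1 φ z b2
    obtain rfl : c = 0 := by
      have : l (T.r φ (T'.t x₀ z)) = 0 := (cL_cR T.h l φ _).symm.trans b3
      simpa [hc, hl] using this
    obtain ⟨a', w', ha'⟩ := h.ten_of_zero h' h3 (y := z) (by rintro rfl; simp at e) b1 (by simpa using hc)
    obtain ⟨κ, c1, c2⟩ := exists_dual_one_zero (F := F) (v := w') (w := w) fun e' => by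
      obtain ⟨d, rfl⟩ := Submodule.mem_span_singleton.mp e'
      obtain ⟨κ, c1, c2⟩ := exists_dual_one_zero e
      have : T'.t x₀ z = T'.t (a.symm (d • a' x₀)) y := by simp [ha, ha']
      simpa [c1, c2, hx₀] using congrArg (T'.r κ) this
    obtain ⟨d, hd⟩ := a1 κ z c2
    refine ⟨d • w', fun x => ?_⟩
    have := hd x
    simp only [ha', TS.r_t, c1, one_smul] at this
    simp [ha', this]
  refine ⟨a, cL T.h l ∘ₗ T'.t x₀, fun x z => ?_⟩
  obtain ⟨w', hw⟩ := a2 z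
  simp [hw, hl]

end CS

variable [FiniteDimensional F U] [FiniteDimensional F W] [Nontrivial U] (h3 : 3 ≤ finrank F W)
include h3

theorem ws_SL : WS M {T : TS F U W V | CS M T} fun y φ => φ y = 0 ∧ y ≠ 0 ∧ φ ≠ 0 where
  act _ h _ hk := h.act hk
  nil _ _ h := h
  rt _ h y φ h0 := h.rt y φ h0.1
  stab T h T' h' y φ w h0 H := by
    obtain ⟨ψ, a1, a2, -⟩ := exists_dual_ker₂ h3 w w
    exact h.sa_of_zero h' h3 h0.2.1 a1 fun x => by obtain ⟨x', e⟩ := H x; simp [e, a2]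
  gen := adjoin_rk h3
  exi := by
    obtain ⟨y, a, -⟩ := exists_mem_ker₂ h3 (0 : Dual F W) 0
    obtain ⟨φ, b, c, -⟩ := exists_dual_ker₂ h3 y y
    exact ⟨y, φ, c, a, b⟩
  dim := Or.inl h3

theorem CS.rel_of_large [Fintype F] {k : ℕ} (hk : k < finrank F W) (hq : 2 < (Fintype.card F - 1) * k)
    {T T' : TS F U W V} (h : CS M T) (h' : CS M T') : T.Rel T' := by
  classical
  have : Nontrivial W := Module.nontrivial_of_finrank_pos (R := F) (by omega)
  refine (ws_SL h3).rel_of_sum (fun T hT T₁ hT₁ S hS => T.ext fun u w => LinearMap.ext fun f => T.ext fun u' w' =>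
    (forall_dual_apply_eq_zero_iff F _).mp fun g => ?_) h h'
  obtain ⟨φ, a1, a2, a3⟩ := exists_dual_ker₂ h3 w w'
  have a4 := Dual.finrank_ker_add_one_of_ne_zero a1
  obtain ⟨ι, hι⟩ := (finrank_le_iff_exists_linearMap (R := F) (M := Fin k → F) (M' := LinearMap.ker φ)).mp
    (by simp; omega)
  let N : (Fin k → F) →ₗ[F] End F V := T.i.toLinearMap ∘ₗ LinearMap.smulRightₗ φ ∘ₗ Submodule.subtype _ ∘ₗ ι
  have b1 : ∀ c v, N c (N c v) = 0 := fun c => T.sq (ι c).2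
  have b2 : ∀ c v, N c v = T.t (T.r φ v) (ι c) := fun c => T.i_rk _ _
  have b3 : H18.PD 1 N := by
    have : ∀ s : Finset (Fin k), H18.PD 1 fun c : Fin k → F => ∑ i ∈ s, c i • N (Pi.single i 1) := fun s => by
      induction s using Finset.induction_on with
      | empty => simpa using H18.PD.const 0
      | insert i s hi ih => simpa [Finset.sum_insert hi] using (H18.PD.coord i _).add ih
    convert this Finset.univ with c
    exact LinearMap.pi_apply_eq_sum_univ N c |>.trans (by congr; ext; congr; ext; simp [Pi.single_apply, eq_comm])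
  refine (ws_SL h3).sum_vanish hT₁ hS (fun c => ex (N c)) (fun c c' => LinearEquiv.ext fun v => by
      rw [LinearEquiv.mul_apply, ex_apply (b1 _), ex_apply (b1 _), ex_apply (b1 _)]
      simp [b2, LinearMap.mem_ker.mp (ι c').2]; abel)
    (fun c => (hT.rt _ _ (ι c).2).ex_mem (b1 c)) (fun c => ⟨1, 1 + φ.smulRight (ι c).1, fun x z => by
      simp [ex_apply (b1 _), b2]⟩) (fun c hc T' hT' e => ((ws_SL h3).rel_of_sa hT' hT
        ⟨(ι c).2, fun e => hc (hι (by simpa using e)), a1⟩ e).symm) fun ξ => ?_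
  have b4 : ∀ c u w, φ w = 0 → (ex (N c)).symm (T.t u w) = T.t u w := fun c u w hw => by
    simp [ex_symm (b1 _), b2, hw]
  have b5 : H18.PD 1 fun c => (ex (N c)).toLinearMap := by
    convert (H18.PD.const (d := 1) (1 : End F V)).add b3 with c
    exact LinearMap.ext (ex_apply (b1 c))
  simp only [cjS_apply, b4 _ _ _ a2, b4 _ _ _ a3]
  exact ((b5.app (((b5.map (LinearMap.llcomp F V V F f)).map (ξ (T.t u w))).app
    (H18.PD.const (d := 0) _))).map g).sum (by simpa)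

end Cfsg.Agent.H12
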