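import Mathlib
import Cfsg.Agent.H12.WrC
import Cfsg.Agent.H12.SubA

/-!
Tensor factors in characteristic two, via dihedral groups.
-/

set_option autoImplicit false

namespace Cfsg.Agent.H12

open Module

variable {F V : Type*} [Field F] [AddCommGroup V] [Module F V] {M : Subgroup (V ≃ₗ[F] V)}
  {U W : Type*} [AddCommGroup U] [Module F U] [AddCommGroup W] [Module F W]

/-- The root element. -/
noncomputable def TS.x (T : TS F U W V) (y : W) (φ : Dual F W) : V ≃ₗ[F] V := ex (T.i (φ.smulRight y))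

theorem TS.x_apply (T : TS F U W V) {y : W} {φ : Dual F W} (h : φ y = 0) (v : V) :
    T.x y φ v = v + T.t (T.r φ v) y := by rw [TS.x, ex_apply (T.sq h), T.i_rk]

theorem TS.act_x (T : TS F U W V) {y : W} {φ : Dual F W} (h : φ y = 0) (k : V ≃ₗ[F] V) :
    (T.act k).x y φ = k * T.x y φ * k⁻¹ := LinearEquiv.ext fun v => by
  simp [TS.x_apply _ h, T.act_r]

theorem TS.x_sq (h2 : (2 : F) = 0) (T : TS F U W V) {y : W} {φ : Dual F W} (h : φ y = 0) :
    T.x y φ * T.x y φ = 1 := LinearEquiv.ext fun v => by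
  simp [TS.x_apply _ h, h, add_assoc, ← two_smul F (T.t _ y), h2]

theorem TS.comm_x {T : TS F U W V} {y : W} {φ : Dual F W} (h : φ y = 0) {k : V ≃ₗ[F] V} (H : Commute k (T.x y φ))
    (v : V) : k (T.i (φ.smulRight y) v) = T.i (φ.smulRight y) (k v) := by
  simpa [T.x_apply h, T.i_rk] using DFunLike.congr_fun H.eq v

variable [FiniteDimensional F U] [FiniteDimensional F W] [Nontrivial U] [Nontrivial W]

theorem WS.rel_of_cm {G : Set (TS F U W V)} {R : W → Dual F W → Prop} (H : WS M G R) (h2 : (2 : F) = 0)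
    {T T' : TS F U W V} (hT : T ∈ G) (hT' : T' ∈ G) {y y₁ y₂ y₃ : W} {φ φ₁ φ₂ φ₃ : Dual F W} (h : R y φ)
    (r1 : R y₁ φ₁) (r2 : R y₂ φ₂) (r3 : R y₃ φ₃) (e : T.x y₁ φ₁ * T.x y₂ φ₂ = T.x y₃ φ₃)
    (hc : T.CM (T.act (T'.x y φ))) : T.Rel T' := by
  by_contra c
  obtain ⟨a1, a2, a3⟩ := H.nil y φ h
  have a4 := inv_eq_of_mul_eq_one_right (T'.x_sq h2 a1)
  have a5 : ∀ {z ψ z' ψ'}, R z ψ → R z' ψ' → Commute (T.x z ψ) (T'.x y φ * T.x z' ψ' * T'.x y φ) :=
    fun {z ψ z' ψ'} b b' => by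
      nth_rw 2 [← a4]
      rw [← T.act_x (H.nil _ _ b').1]
      refine LinearEquiv.ext fun v => ?_
      have := LinearMap.congr_fun (hc (ψ.smulRight z) (ψ'.smulRight z')).eq v
      simp only [End.mul_apply] at this
      simp only [LinearEquiv.mul_apply, TS.x, ex_apply (TS.sq _ (H.nil _ _ b).1), ex_apply (TS.sq _ (H.nil _ _ b').1),
        map_add] at this ⊢
      rw [this]; abel
  have a6 : ∀ {z ψ}, R z ψ → ∀ a v, (T.x z ψ * T'.x y φ * T.x z ψ) (T'.i a v) =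
      T'.i a ((T.x z ψ * T'.x y φ * T.x z ψ) v) := fun {z ψ} b a v => by
    have b1 : T'.act (T.x z ψ) ∈ G := H.act T' hT' _ (H.ex_mem hT b)
    have b2 : (T'.act (T.x z ψ)).x y φ = T.x z ψ * T'.x y φ * T.x z ψ := by
      rw [T'.act_x a1, inv_eq_of_mul_eq_one_right (T.x_sq h2 (H.nil _ _ b).1)]
    have b3 := (H.sa_or_comm hT' b1 h (H.sa_of_comm hT' h (H.ex_mem b1 h) (TS.comm_x a1
      (k := (T'.act (T.x z ψ)).x y φ) (by
      simpa only [b2, Commute, SemiconjBy, mul_assoc] using (a5 b b).eq)))).resolve_left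
        fun d => c (H.rel_of_sa hT' hT b d).symm
    rw [← b2]
    simpa [TS.x_apply _ a1, TS.i_rk] using LinearMap.congr_fun (b3 a).eq v
  have a7 : T'.x y φ = T.x y₁ φ₁ * T'.x y φ * T.x y₁ φ₁ * (T.x y₂ φ₂ * T'.x y φ * T.x y₂ φ₂) *
      (T.x y₃ φ₃ * T'.x y φ * T.x y₃ φ₃) := by
    have b1 := T.x_sq h2 (H.nil _ _ r1).1
    have b2 := T.x_sq h2 (H.nil _ _ r2).1
    have b3 := T.x_sq h2 (H.nil _ _ r3).1
    have b4 : T.x y₂ φ₂ * T.x y₃ φ₃ = T.x y₁ φ₁ := by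
      rw [← inv_eq_of_mul_eq_one_right b3, ← e, mul_inv_rev, inv_eq_of_mul_eq_one_right b1,
        mul_inv_cancel_left]
    calc _ = T'.x y φ * T.x y₃ φ₃ * (T'.x y φ * (T.x y₁ φ₁ * T.x y₁ φ₁) * T'.x y φ) * T.x y₃ φ₃ := by
          rw [b1, mul_one, T'.x_sq h2 a1, mul_one, mul_assoc, b3, mul_one]
      _ = T'.x y φ * T.x y₃ φ₃ * T'.x y φ * T.x y₁ φ₁ * T.x y₁ φ₁ * T'.x y φ * T.x y₃ φ₃ := by group
      _ = T.x y₁ φ₁ * T'.x y φ * (T.x y₁ φ₁ * T.x y₂ φ₂) * T'.x y φ * (T.x y₂ φ₂ * T.x y₃ φ₃) * T'.x y φ *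
          T.x y₃ φ₃ := by rw [← (a5 r1 r3).eq, e, b4]; group
      _ = _ := by group
  obtain ⟨z, hz⟩ := φ.surjective_iff_ne_zero.mpr a3 1
  obtain ⟨ψ, hψ⟩ := Module.Projective.exists_dual_eq_one F a2
  obtain ⟨u, hu⟩ := exists_ne (0 : U)
  have a8 : T'.x y φ (T'.i (ψ.smulRight y) (T'.t u z)) = T'.i (ψ.smulRight y) (T'.x y φ (T'.t u z)) := by
    rw [a7, LinearEquiv.mul_apply, LinearEquiv.mul_apply, a6 r3, a6 r2, a6 r1]; rfl
  simpa [T'.x_apply a1, a1, hz, hψ, ten_ne_zero T'.h hu a2] using a8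

theorem exists_fixed {x k : V ≃ₗ[F] V} (h1 : x * x = 1) (h2 : k * x * k = x) {m : ℕ} (h3 : k ^ (2 * m + 1) = 1)
    {v : V} (hv : x v = v) : ∃ p, x (v + p + x p) = v + p + x p ∧ k (v + p + x p) = v + p + x p := by
  have a1 : ∀ j : ℕ, ∃ p, k (v + p + x p) + x ((k ^ j) v) = v + p + x p + (k ^ (j + 1)) v := fun j => by
    induction j with
    | zero => exact ⟨0, by simp [hv, add_comm]⟩
    | succ j ih =>
      obtain ⟨p, ih⟩ := ih
      refine ⟨p + (k ^ (j + 1)) v, ?_⟩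
      have b1 : k (x ((k ^ (j + 1)) v)) = x ((k ^ j) v) := by
        rw [pow_succ']; exact DFunLike.congr_fun h2 _
      have b2 : k ((k ^ (j + 1)) v) = (k ^ (j + 1 + 1)) v := by rw [pow_succ' k (j + 1)]; rfl
      simp only [map_add, b1, b2] at ih ⊢
      linear_combination (norm := abel) ih
  have a2 : ∀ j : ℕ, k ^ j * x * k ^ j = x := fun j => by
    induction j with
    | zero => simp
    | succ j ih =>
      calc _ = k ^ j * (k * x * k) * k ^ j := by group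
        _ = x := by rw [h2, ih]
  obtain ⟨p, hp⟩ := a1 m
  have a3 : x ((k ^ m) v) = (k ^ (m + 1)) v := (k ^ m).injective (by
    rw [show (k ^ m) (x ((k ^ m) v)) = x v from DFunLike.congr_fun (a2 m) v, hv, ← LinearEquiv.mul_apply, ← pow_add,
      show m + (m + 1) = 2 * m + 1 by ring, h3]; rfl)
  refine ⟨p, ?_, by simpa [a3] using hp⟩
  simp only [map_add, hv, show x (x p) = p from DFunLike.congr_fun h1 p]; abel

omit [Nontrivial U] in
theorem even_of_cube [Fintype F] (hF : Fintype.card F = 2) {a : End F U} (h : ∀ u, a (a u) + a u = u)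
    (h2 : (2 : F) = 0) : Even (finrank F U) := by
  classical
  have := Module.finite_of_finite F (M := U)
  have := Fintype.ofFinite U
  have a0 : ∀ u : U, u + u = 0 := fun u => by rw [← two_smul F, h2, zero_smul]
  have : Fact (Nat.Prime 3) := ⟨by norm_num⟩
  have a1 := Equiv.Perm.card_fixedPoints_modEq (f := (⇑a : Function.End U)) (p := 3) (n := 1) (funext fun u => by
    change a (a (a u)) = u
    linear_combination (norm := abel) h (a u) + h u - a0 (a (a u)))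
  have a2 : Fintype.card (Function.fixedPoints a) = 1 := Fintype.card_eq_one_iff.mpr ⟨⟨0, map_zero a⟩,
    fun ⟨u, hu⟩ => Subtype.ext (by
      have := h u
      rw [show a u = u from hu, show a u = u from hu, a0] at this
      exact this.symm)⟩
  rw [Module.card_eq_pow_finrank (K := F), hF] at a1
  by_contra c
  obtain ⟨n, hn⟩ := Nat.not_even_iff_odd.mp c
  have a3 : 2 ^ finrank F U % 3 = 1 % 3 := by
    refine (show 2 ^ finrank F U ≡ 1 [MOD 3] from ?_)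
    convert a1; convert a2.symm
  simp [hn, pow_succ, pow_mul, Nat.mul_mod, Nat.pow_mod] at a3

theorem CS.rel_two [Fintype F] (hF : Fintype.card F = 2) (h3 : 3 ≤ finrank F W) (ho : Odd (finrank F U))
    {T T' : TS F U W V} (h : CS M T) (h' : CS M T') : T.Rel T' := by
  classical
  have H := ws_SL (M := M) (U := U) h3
  obtain ⟨y, φ, hr⟩ := H.exi
  have ⟨h0, hy, hφ⟩ := hr
  have h2 : (2 : F) = 0 := by simpa [hF] using FiniteField.cast_card_eq_zero F
  have h01 : ∀ c : F, c = 0 ∨ c = 1 := fun c => by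
    have := FiniteField.pow_card c
    rw [hF] at this
    exact (mul_eq_zero.mp (show c * (c - 1) = 0 by linear_combination this)).imp_right sub_eq_zero.mp
  have a0 : ∀ u : U, u + u = 0 := fun u => by rw [← two_smul F, h2, zero_smul]
  obtain ⟨z₀, hz₀⟩ := φ.surjective_iff_ne_zero.mpr hφ 1
  obtain ⟨w₀, hw₀, hw₁⟩ := exists_ker_notMem h3 φ y
  obtain ⟨u₀, hu₀⟩ := exists_ne (0 : U)
  have := ten_fin T.h
  have := Module.finite_of_finite F (M := V)
  have : Finite (V ≃ₗ[F] V) := Finite.of_injective _ (DFunLike.coe_injective (F := V ≃ₗ[F] V))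
  suffices ∀ n, 0 < n → ∀ T T' : TS F U W V, CS M T → CS M T' → (T.x y φ * T'.x y φ) ^ n = 1 → T.Rel T' from
    this _ (orderOf_pos _) T T' h h' (pow_orderOf_eq_one _)
  intro n
  induction n using Nat.strong_induction_on with | h n ih => ?_
  intro hn T T' h h' e
  have x1 := T.x_sq h2 h0
  have x2 := T'.x_sq h2 h0
  have x3 : T.x y φ ∈ M := H.ex_mem h hr
  have x4 : T'.x y φ ∈ M := H.ex_mem h' hr
  rcases n.even_or_odd' with ⟨m, rfl | rfl⟩
  · refine (ih m (by omega) (by omega) T _ h (h.act x4) (by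
      rw [T.act_x h0, inv_eq_of_mul_eq_one_right x2, ← e, pow_mul, sq]; simp only [mul_assoc])).elim
        (H.rel_of_sa h h' hr) (H.rel_of_cm h2 h h' hr hr (y₂ := w₀) (y₃ := y + w₀) ⟨hw₀, by rintro rfl; simp at hw₁, hφ⟩
          ⟨by simp [h0, hw₀], fun c => hw₁ (by rw [← neg_eq_of_add_eq_zero_right c]; simp), hφ⟩
            (LinearEquiv.ext fun v => ?_))
    rw [LinearEquiv.mul_apply, T.x_apply h0, T.x_apply hw₀, T.x_apply (by simp [h0, hw₀])]
    simp [hw₀]; abel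
  set k := T.x y φ * T'.x y φ with hk
  have k1 : k * T.x y φ * k = T.x y φ := by
    rw [hk, mul_assoc, mul_assoc, ← mul_assoc (T.x y φ) (T.x y φ), x1, one_mul, x2, mul_one]
  have k2 : k ^ m * T.x y φ * (k ^ m)⁻¹ = T'.x y φ := by
    have : SemiconjBy (T.x y φ) k⁻¹ k := by rw [SemiconjBy, mul_inv_eq_iff_eq_mul, k1]
    rw [mul_assoc, ← inv_pow, (this.pow_right m).eq, ← mul_assoc, ← pow_add,
      show k ^ (m + m) = k⁻¹ from eq_inv_of_mul_eq_one_left (by rw [← pow_succ, ← e]; congr 1; ring), hk, mul_inv_rev,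
      inv_mul_cancel_right, inv_eq_of_mul_eq_one_right x2]
  have k3 : k ^ m ∈ M := pow_mem (mul_mem x3 x4) m
  have k4 : T'.SA (T.act (k ^ m)) := H.sa_of_mem h' (h.act k3) hr (LinearMap.ext fun v => by
    simpa [TS.x, ex_apply (TS.sq _ h0)] using DFunLike.congr_fun ((T.act_x h0 _).trans k2) v)
  refine (k4.rel (by_contra fun c => ?_)).symm
  let G₀ := M ⊓ fixingSubgroup (V ≃ₗ[F] V) {v | T.x y φ v = v ∧ k v = v}
  have g0 : ∀ g, g ∈ G₀ ↔ g ∈ M ∧ ∀ v, T.x y φ v = v → k v = v → g v = v := fun g => by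
    simp [G₀, mem_fixingSubgroup_iff]
  have g1 : ∀ u w, φ w = 0 → ∃ u', ∀ g ∈ G₀, g (T.t u w + T.t u' y) = T.t u w + T.t u' y := fun u w hw => by
    obtain ⟨p, b1, b2⟩ := exists_fixed x1 k1 e (v := T.t u w) (by simp [T.x_apply h0, hw])
    have b3 : T.t u w + p + T.x y φ p = T.t u w + T.t (T.r φ p) y := by
      rw [T.x_apply h0, add_assoc, ← add_assoc p, ← two_smul F p, h2, zero_smul, zero_add]
    exact ⟨T.r φ p, fun g hg => b3 ▸ ((g0 g).mp hg).2 _ b1 b2⟩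
  have g2 : ∀ w, φ w = 0 → T.x w φ ∈ G₀ := fun w hw => (g0 _).mpr ⟨(h.rt w φ hw).ex_mem (T.sq hw), fun v b _ => by
    have : T.r φ v = 0 := by_contra fun d => ten_ne_zero T.h d hy (by simpa [T.x_apply h0] using b)
    simp [T.x_apply hw, this]⟩
  have g3 : k ^ m ∈ G₀ := pow_mem ((g0 _).mpr ⟨mul_mem x3 x4, fun _ _ b => b⟩) m
  have g4 : ∀ g ∈ G₀, ∀ w, φ w = 0 → w ≠ 0 → g * T.x w φ * g⁻¹ = T.x y φ →
      ∃ (a : End F U) (b : End F W), (∀ x z, g (T.t x z) = T.t (a x) (b z)) ∧ b w = y := fun g hg w b1 b2 b3 => by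
    have b4 : ∀ x, g (T.t x w) = T.t (T.r φ (g (T.t x z₀))) y := fun x => by
      simpa [T.x_apply h0, T.x_apply b1, hz₀] using DFunLike.congr_fun (mul_inv_eq_iff_eq_mul.mp b3) (T.t x z₀)
    obtain ⟨a, b, d⟩ := H.stab T h _ (h.act hg.1) w φ y ⟨b1, b2, hφ⟩ fun x => ⟨_, b4 x⟩
    simp only [TS.act_t] at d
    have b5 : g (T.t u₀ w) ≠ 0 := g.map_ne_zero_iff.mpr (ten_ne_zero T.h hu₀ b2)
    refine ⟨a, b, d, ?_⟩
    rcases h01 (φ (b z₀)) with b6 | b6
    · exact absurd (by rw [b4]; simp [d, b6]) b5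
    · exact ten_right_inj T.h (x := a u₀) (fun b7 => b5 (by simp [d, b7])) (by simpa [d, b6] using b4 u₀)
  have g5 : ∀ w, φ w = 0 → w ∉ F ∙ y → ∀ g ∈ G₀, g * T.x w φ * g⁻¹ = T.x y φ → ∃ a : End F U, (∀ u, a (a u) = u) ∧
      ∀ u u', g (T.t u w + T.t u' y) = T.t u w + T.t u' y → u' = a u := fun w b1 b2 g hg b3 => by
    obtain ⟨a, b, d, d'⟩ := g4 g hg w b1 (by rintro rfl; simp at b2) b3
    obtain ⟨ψ, b4, b5⟩ := exists_dual_one_zero b2
    obtain ⟨χ, b6, b7⟩ := exists_dual_one_zero (notMem_span_symm b2 hy)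
    have b8 : ∀ u u', g (T.t u w + T.t u' y) = T.t u w + T.t u' y → ψ (b y) • a u' = u ∧ a u + χ (b y) • a u' = u' :=
      fun u u' d1 => ⟨by simpa [d, d', b4, b5] using congrArg (T.r ψ) d1, by
        simpa [d, d', b6, b7] using congrArg (T.r χ) d1⟩
    have b9 : ψ (b y) = 1 := (h01 _).resolve_left fun d1 => by
      obtain ⟨u', d2⟩ := g1 u₀ w b1
      simpa [d1, hu₀.symm] using (b8 _ _ (d2 g hg)).1
    simp only [b9, one_smul] at b8
    have c1 : ∀ u, a (a u) + χ (b y) • a u = u := fun u => by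
      obtain ⟨u', d2⟩ := g1 u w b1
      obtain ⟨d3, d4⟩ := b8 _ _ (d2 g hg)
      rw [d3] at d4
      rw [← map_smul, ← map_add, d4, d3]
    have c2 : χ (b y) = 0 := (h01 _).resolve_right fun d1 =>
      Nat.not_even_iff_odd.mpr ho (even_of_cube hF (a := a) (by simpa [d1] using c1) h2)
    exact ⟨a, by simpa [c2] using c1, fun u u' d1 => by simpa [c2] using (b8 u u' d1).2.symm⟩
  obtain ⟨w, b1, b2, b3⟩ : ∃ w, φ w = 0 ∧ w ∉ F ∙ y ∧ ∀ g ∈ G₀, g * T.x w φ * g⁻¹ ≠ T.x y φ := by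
    by_contra! d
    have b1 : φ (w₀ + y) = 0 := by simp [h0, hw₀]
    have b2 : w₀ + y ∉ F ∙ y := fun d1 => hw₁ (by simpa using sub_mem d1 (Submodule.mem_span_singleton_self y))
    obtain ⟨g, b3, b4⟩ := d w₀ hw₀ hw₁
    obtain ⟨g', b5, b6⟩ := d _ b1 b2
    obtain ⟨a, c1, c2⟩ := g5 _ hw₀ hw₁ g b3 b4
    obtain ⟨a', c3, c4⟩ := g5 _ b1 b2 g' b5 b6
    have c5 : ∀ u, a' u = a u - u := fun u => by
      obtain ⟨u', d1⟩ := g1 u w₀ hw₀
      rw [← c2 u u' (d1 g b3), ← c4 u (u' - u) (by simpa using d1 g' b5)]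
    have c6 := c3 u₀
    simp only [c5, map_sub, c1] at c6
    exact hu₀ (by linear_combination (norm := abel) -c6 + a0 u₀ - a0 (a u₀))
  rcases exists_conj_or_central (k2 ▸ mul_mem (mul_mem g3 (g2 y h0)) (inv_mem g3)) (g2 w b1) x2 (T.x_sq h2 b1) with
    ⟨g, c1, c2⟩ | ⟨z, c1, c2, -, c3, c4⟩
  · exact b3 _ (mul_mem (inv_mem g3) c1) (by rw [← mul_left_cancel_iff (a := k ^ m), ← mul_left_inj (k ^ m)⁻¹, k2, ← c2]; group)
  have c5 : (k ^ m)⁻¹ * z * k ^ m ∈ G₀ := mul_mem (mul_mem (inv_mem g3) c1) g3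
  obtain ⟨a, b, d, d'⟩ := g4 _ c5 y h0 hy (by
    rw [← mul_left_cancel_iff (a := k ^ m), ← mul_left_inj (k ^ m)⁻¹, k2, ← mul_inv_cancel_right (T'.x y φ) z, ← c3.eq, ← k2]
    group)
  have d1 : ∀ w, φ w = 0 → w ∉ F ∙ y → ∀ u, ∃ u', T.t (a u) (b w) + T.t (a u') y = T.t u w + T.t u' y :=
    fun w e1 _ u => (g1 u w e1).imp fun u' e3 => by simpa only [map_add, d, d'] using e3 _ c5
  have d2 : ∀ u, a u = u := fun u => by
    obtain ⟨ψ, b4, b5⟩ := exists_dual_one_zero hw₁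
    have : ∀ u, ψ (b w₀) • a u = u := fun u => by
      obtain ⟨u', e1⟩ := d1 w₀ hw₀ hw₁ u
      simpa [b4, b5] using congrArg (T.r ψ) e1
    rcases h01 (ψ (b w₀)) with e1 | e1
    exacts [absurd (this u₀).symm (by simpa [e1]), by simpa [e1] using this u]
  have d3 : ∀ w, φ w = 0 → b w = w := fun w e1 => by
    by_cases e2 : w ∈ F ∙ y
    · obtain ⟨t, rfl⟩ := Submodule.mem_span_singleton.mp e2
      simp [d']
    obtain ⟨u', e3⟩ := d1 w e1 e2 u₀
    exact ten_right_inj T.h hu₀ (by simpa [d2] using e3)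
  have d4 : φ (b z₀ - z₀) = 0 := by
    rcases h01 (φ (b z₀)) with e1 | e1
    · have := ten_right_inj T.h hu₀ (((k ^ m)⁻¹ * z * k ^ m).injective (a₁ := T.t u₀ (b z₀)) (a₂ := T.t u₀ z₀)
        (by rw [d, d, d3 _ e1]))
      simp [this]
    · simp [e1, hz₀]
  have d5 : (k ^ m)⁻¹ * z * k ^ m = T.x (b z₀ - z₀) φ := LinearEquiv.toLinearMap_injective (T.ext fun u w => by
    have := d3 (w - φ w • z₀) (by simp [hz₀])
    simp only [LinearEquiv.coe_coe, d, d2, T.x_apply d4, TS.r_t, map_sub, map_smul, LinearMap.smul_apply] at this ⊢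
    rw [sub_eq_iff_eq_add.mp this]; simp; abel)
  have d6 : z = (T.act (k ^ m)).x (b z₀ - z₀) φ := by rw [T.act_x d4, ← d5]; group
  refine c (H.rel_of_sa h (h.act k3) (y := b z₀ - z₀) ⟨d4, fun e1 => c2 ?_, hφ⟩ ?_).symm
  · exact LinearEquiv.ext fun v => by simp [d6, e1, TS.x_apply _ (map_zero φ)]
  · change T.SA (T.act (TS.x _ _ φ))
    exact d6 ▸ H.sa_of_comm h ⟨b1, by rintro rfl; simp at b2, hφ⟩ c1.1 (TS.comm_x b1 c4)

end Cfsg.Agent.H12
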