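import Mathlib
import Cfsg.Agent.H12.WrD

/-!
Families of commuting tensor factors: subalgebras invariant under the special linear groups.
-/

set_option autoImplicit false

namespace Cfsg.Agent.H12

open Module

variable {F V : Type*} [Field F] [AddCommGroup V] [Module F V] {M : Subgroup (V ≃ₗ[F] V)}
  {U W : Type*} [AddCommGroup U] [Module F U] [AddCommGroup W] [Module F W] {κ : Type*}

/-- The factors of a tensor power. -/
structure Wr (T : κ → TS F U W V) : Prop where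
  cm : ∀ i j, i ≠ j → (T i).CM (T j)
  gen : ∀ B : Subalgebra F (End F V), (∀ i a, (T i).i a ∈ B) → B = ⊤

/-- The element permutes the factors. -/
def PW (T : κ → TS F U W V) (g : V ≃ₗ[F] V) : Prop :=
  ∃ π : Equiv.Perm κ, ∀ i a, ∃ a', ((T i).act g).i a = (T (π i)).i a'

theorem Wr.cen {T : κ → TS F U W V} (h : Wr T) {c : End F V} (H : ∀ i a, Commute c ((T i).i a)) :
    ∃ d : F, c = d • 1 := by
  have := h.gen (Subalgebra.centralizer F {c}) fun i a _ e => e ▸ H i a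
  obtain ⟨d, hd⟩ := (Algebra.IsCentral.mem_center_iff F).mp (Subalgebra.mem_center_iff.mpr fun b =>
    ((this ▸ Algebra.mem_top : b ∈ Subalgebra.centralizer F {c}) c rfl).symm)
  exact ⟨d, hd.trans (Algebra.algebraMap_eq_smul_one d)⟩

theorem Wr.pw_i {T : κ → TS F U W V} (h : Wr T) {i : κ} {g : V ≃ₗ[F] V} {b b' : End F W}
    (H : ∀ v, g v = (T i).i b v) (H' : ∀ v, g.symm v = (T i).i b' v) : PW T g := ⟨1, fun j a => by
  by_cases e : j = i
  · exact ⟨b * a * b', LinearMap.ext fun v => by simp [TS.act_i, H, H', e]⟩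
  · refine ⟨a, LinearMap.ext fun v => ?_⟩
    rw [TS.act_i, H, ← End.mul_apply, (h.cm i j (Ne.symm e) b a).eq, End.mul_apply, ← H, g.apply_symm_apply]; rfl⟩

theorem TS.all_of_gen {T : κ → TS F U W V} (h : Wr T) (i : κ) {B : Subalgebra F (End F U)} [Nontrivial W]
    [FiniteDimensional F W] (H : ∀ k ≠ i, ∀ a θ, (T k).i a = (T i).j θ → θ ∈ B) (θ : End F U) : θ ∈ B := by
  let D : Submodule F (End F V) := ⨅ φ, ⨅ w, B.toSubmodule.comap
    (LinearMap.llcomp F U V U ((T i).r φ) ∘ₗ LinearMap.lcomp F V ((T i).t.flip w))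
  have a0 : ∀ c, c ∈ D ↔ ∀ φ w, (T i).r φ ∘ₗ c ∘ₗ (T i).t.flip w ∈ B := fun c => by simp [D]; rfl
  have a1 := h.gen (Subalgebra.mk (⟨⟨⟨{x | ∀ c ∈ D, x * c ∈ D}, fun {x y} hx hy c hc => mul_assoc x y c ▸ hx _ (hy c hc)⟩,
    fun c hc => by simpa⟩, fun {x y} hx hy c hc => add_mul x y c ▸ add_mem (hx c hc) (hy c hc), fun c _ => by simp⟩)
      fun d c hc => by simpa [← Algebra.smul_def] using D.smul_mem d hc) fun k a c hc => (a0 _).mpr fun φ w => by
    by_cases e : k = i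
    · convert (a0 c).mp hc (φ ∘ₗ a) w using 1
      ext; simp [e, TS.r_i]
    · obtain ⟨θ, hθ⟩ := TS.exists_j fun a' => h.cm k i e a a'
      convert mul_mem (H k e a θ hθ) ((a0 c).mp hc φ w) using 1
      ext; simp [hθ]
  obtain ⟨w, hw⟩ := exists_ne (0 : W)
  obtain ⟨φ, hφ⟩ := Module.Projective.exists_dual_eq_one F hw
  have a2 : (T i).j θ * 1 ∈ D := a1.ge (Algebra.mem_top (x := (T i).j θ)) 1 ((a0 _).mpr fun φ w => by
    convert B.smul_mem B.one_mem (φ w) using 1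
    ext; simp)
  convert (a0 _).mp a2 φ w using 1
  ext; simp [hφ]

variable [FiniteDimensional F U] [FiniteDimensional F W]

theorem TS.comm_of_blk (T : TS F U W V) {c : End F V} (H : ∀ (φ : Dual F W) y u, φ y = 0 → T.r φ (c (T.t u y)) = 0)
    (a : End F W) : Commute c (T.i a) := T.ext fun u w => eq_zero_of_cR T.h (fun χ =>
      (forall_dual_apply_eq_zero_iff F _).mp fun l => by
  obtain ⟨s, hs⟩ := exists_smul_of_mem_span (a := cL T.h l ∘ₗ c ∘ₗ T.t u) fun x => by_contra fun e => by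
    obtain ⟨φ, b1, b2⟩ := exists_dual_one_zero e
    simpa [cL_cR, show cR T.h φ (c (T.t u x)) = 0 from H φ x u b2] using b1
  have a1 : ∀ φ x, l (T.r φ (c (T.t u x))) = s * φ x := fun φ x =>
    (cL_cR T.h l φ _).symm.trans (by simpa using congrArg φ (hs x))
  change l (T.r χ _) = 0
  simp [T.r_i, a1]) |> sub_eq_zero.mp

theorem Wr.pw_of_rel [Finite κ] [Nontrivial U] (h2 : 2 ≤ finrank F W) {T : κ → TS F U W V} (h : Wr T)
    {g : V ≃ₗ[F] V} (H : ∀ i j, (T j).Rel ((T i).act g)) : PW T g := by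
  have : Nontrivial W := Module.nontrivial_of_finrank_pos (R := F) (by omega)
  obtain ⟨y, hy⟩ := exists_ne (0 : W)
  obtain ⟨u, hu⟩ := exists_ne (0 : U)
  obtain ⟨z, hz⟩ : ∃ z, z ∉ F ∙ y := by
    by_contra! e
    have := finrank_span_singleton (K := F) hy
    rw [show F ∙ y = ⊤ from eq_top_iff.mpr fun z _ => e z, finrank_top] at this; omega
  obtain ⟨φ, a1, a2⟩ := exists_dual_one_zero hz
  obtain ⟨ψ, a3, a4⟩ := exists_dual_one_zero (notMem_span_symm hz hy)
  have a5 : ∀ i, ∃ j, (T j).SA ((T i).act g) := fun i => by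
    by_contra! e
    obtain ⟨d, hd⟩ := h.cen fun j a => ((H i j).resolve_left (e j) a (φ.smulRight y)).symm
    have b1 := congrArg (((T i).act g).r ψ) (LinearMap.congr_fun hd (((T i).act g).t u z))
    simp only [TS.i_t, TS.r_t, LinearMap.smul_apply, End.one_apply, map_smul, LinearMap.smulRight_apply, a1, a3, a4,
      one_smul, zero_smul, smul_zero] at b1
    exact hu b1
  choose π hπ using a5
  refine ⟨.ofBijective π (Finite.injective_iff_bijective.mp fun i j e => by_contra fun c => ?_),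
    fun i a => (hπ i).range a⟩
  have b1 : ((T j).act g).CM ((T j).act g) := ((hπ j).symm.trans (e ▸ hπ i)).cm (h.cm i j c).act
  have b2 := congrArg (((T j).act g).r ψ) (LinearMap.congr_fun (b1 (φ.smulRight y) (ψ.smulRight y)).eq
    (((T j).act g).t u z))
  simp only [End.mul_apply, TS.i_t, TS.r_t, map_smul, LinearMap.smulRight_apply, a1, a3, a4, one_smul, zero_smul,
    LinearMap.smul_apply, map_zero] at b2
  exact hu b2.symm

variable (h3 : 3 ≤ finrank F W)
include h3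

theorem pair_move {p : W → Dual F W → Prop} (hs : ∀ (c : F) y φ, p y (c • φ) → p (c • y) φ)
    (hL : ∀ y z (φ χ : Dual F W), p y φ → φ y = 0 → φ z = 0 → χ y = 1 → χ z = 0 → p z φ)
    (hR : ∀ w x (φ ψ : Dual F W), p w φ → φ w = 0 → ψ w = 0 → φ x = 1 → ψ x = 0 → p w ψ)
    {y z : W} {φ ψ : Dual F W} (H : p y φ) (h0 : φ y = 0) (hy : y ≠ 0) (hφ : φ ≠ 0) (hz : ψ z = 0) : p z ψ := by
  have a0 : ∀ {y z φ}, p y φ → φ y = 0 → y ≠ 0 → φ z = 0 → p z φ := fun {y z φ} H h0 hy hz => by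
    have a1 : ∀ {y z}, p y φ → φ y = 0 → y ∉ F ∙ z → φ z = 0 → p z φ := fun {y z} H h0 hy hz => by
      obtain ⟨χ, b1, b2⟩ := exists_dual_one_zero hy
      exact hL y z φ χ H h0 hz b1 b2
    by_cases e : y ∈ F ∙ z
    · obtain ⟨w, b1, b2⟩ := exists_ker_notMem h3 φ z
      refine a1 (a1 H h0 (fun e' => b2 ?_) b1) b1 b2 hz
      obtain ⟨c, rfl⟩ := Submodule.mem_span_singleton.mp e'
      exact (Submodule.smul_mem_iff _ (left_ne_zero_of_smul hy)).mp e
    · exact a1 H h0 e hz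
  obtain ⟨w, a1, a2, a3⟩ := exists_mem_ker₂ h3 φ ψ
  have a4 := a0 H h0 hy a2
  by_cases e : ∀ x, ψ x = 0 → φ x = 0
  · obtain ⟨c, rfl⟩ := exists_smul_of_ker e
    exact a0 (hs c w ψ a4) (by simp [a3]) (smul_ne_zero (by rintro rfl; simp at hφ) a1) hz
  · push Not at e
    obtain ⟨x, b1, b2⟩ := e
    exact a0 (hR w ((φ x)⁻¹ • x) φ ψ a4 a2 a3 (by simp [b2]) (by simp [b1])) a3 a1 hz

theorem mem_of_rk {E : Submodule F (End F W)} (hE : ∀ a ∈ E, ∀ b ∈ E, a * b ∈ E)
    (H : ∀ y (φ : Dual F W), φ y = 0 → φ.smulRight y ∈ E) (a : End F W) : a ∈ E := by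
  have a2 : ∀ (y : W) (φ : Dual F W), φ.smulRight y ∈ E := fun y φ => by
    obtain ⟨w, b1, b2⟩ := exists_ker_notMem h3 φ y
    obtain ⟨χ, b3, b4⟩ := exists_dual_one_zero b2
    convert hE _ (H y χ b4) _ (H w φ b1) using 1
    ext; simp [b3]
  rw [show a = ∑ i, ((finBasis F W).coord i).smulRight (a (finBasis F W i)) from
    (finBasis F W).ext fun i => by simp [Finsupp.single_apply]]
  exact sum_mem fun i _ => a2 _ _

theorem Wr.nu [DecidableEq κ] {T : κ → TS F U W V} (h : Wr T) (J : Finset κ) (E : Submodule F (End F V))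
    (h1 : ∀ a ∈ E, ∀ b ∈ E, a * b ∈ E) (h2 : ∀ l ∉ J, ∀ c ∈ E, ∀ a, Commute c ((T l).i a))
    (h4 : ∀ l ∈ J, ∀ y (φ : Dual F W), φ y = 0 → ∀ c ∈ E, ∀ N, N = (T l).i (φ.smulRight y) →
      N * c - c * N - N * c * N ∈ E) {j : κ} {c : End F V} (hc : c ∈ E) (h5 : ¬ ∀ a, Commute c ((T j).i a))
    (a : End F W) : (T j).i a ∈ E := by
  induction hJ : J.card using Nat.strong_induction_on generalizing J E j c a with | h n ih => ?_
  have : Nontrivial W := Module.nontrivial_of_finrank_pos (R := F) (by omega)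
  have hj : j ∈ J := by_contra fun e => h5 (h2 j e c hc)
  obtain ⟨φ, y, u, b1, b2⟩ : ∃ (φ : Dual F W), ∃ y u, φ y = 0 ∧ (T j).r φ (c ((T j).t u y)) ≠ 0 := by
    by_contra! e; exact h5 ((T j).comm_of_blk e)
  have hy : y ≠ 0 := by rintro rfl; simp at b2
  have hφ : φ ≠ 0 := by rintro rfl; simp at b2
  let E₀ : Submodule F (End F V) := (⨅ l : {l // l ∉ J.erase j}, ⨅ a,
    LinearMap.eqLocus (LinearMap.mulRight F ((T l).i a)) (LinearMap.mulLeft F ((T l).i a))) ⊓
      ⨅ y, ⨅ φ : Dual F W, ⨅ _ : φ y = 0, E.comap (LinearMap.mulRight F ((T j).i (φ.smulRight y)))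
  have a0 : ∀ ρ, ρ ∈ E₀ ↔ (∀ l ∉ J.erase j, ∀ a, Commute ρ ((T l).i a)) ∧
      ∀ y (φ : Dual F W), φ y = 0 → ρ * (T j).i (φ.smulRight y) ∈ E := fun ρ => by
    simp only [E₀, Submodule.mem_inf, Submodule.mem_iInf, Subtype.forall]; rfl
  let ρ := fun y => (T j).j ((T j).r φ ∘ₗ c ∘ₗ (T j).t.flip y)
  have a1 : ∀ y y', (T j).i (φ.smulRight y') * c * (T j).i (φ.smulRight y) = ρ y * (T j).i (φ.smulRight y') :=
    fun y y' => LinearMap.ext fun v => by simp [ρ, TS.i_rk]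
  obtain ⟨y', b3, b4⟩ := exists_ker_notMem h3 φ y
  obtain ⟨ψ, b5, b6⟩ := exists_dual_one_zero b4
  have a2 : ρ y' * (T j).i (φ.smulRight y) + ρ y * (T j).i (φ.smulRight y') ∈ E := by
    convert sub_mem (add_mem (h4 j hj y φ b1 c hc _ rfl) (h4 j hj y' φ b3 c hc _ rfl))
      (h4 j hj (y + y') φ (by simp [b1, b3]) c hc ((T j).i (φ.smulRight y) + (T j).i (φ.smulRight y'))
        (by rw [← map_add]; congr 1; ext; simp)) using 1
    rw [← a1, ← a1]; noncomm_ring
  have a3 : ρ y * (T j).i (φ.smulRight y) ∈ E := by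
    convert h4 j hj y ψ b6 _ a2 _ rfl using 1
    ext; simp [ρ, TS.i_rk, b1, b5, b6]
  have a4 : ρ y ∈ E₀ := (a0 _).mpr ⟨fun l hl a => ?_, fun z χ hz => pair_move h3
    (p := fun y' φ => ρ y * (T j).i (φ.smulRight y') ∈ E) (fun d w χ e => by convert e using 3; ext; simp [smul_smul, mul_comm])
    (fun w z χ χ' e c1 c2 c3 c4 => by
      convert h4 j hj z χ' c4 _ e _ rfl using 1
      ext; simp [ρ, TS.i_rk, c2, c3])
    (fun w x χ χ' e c1 c2 c3 c4 => by
      convert neg_mem (h4 j hj x χ' c4 _ e _ rfl) using 1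
      ext; simp [ρ, TS.i_rk, c2, c3]) a3 b1 hy hφ hz⟩
  have a5 : (1 : End F V) ∈ E₀ := by
    have c1 : ∀ a ∈ E₀, ∀ b ∈ E₀, a * b ∈ E₀ := fun a ha b hb => (a0 _).mpr
      ⟨fun l hl a' => (((a0 a).mp ha).1 l hl a').mul_left (((a0 b).mp hb).1 l hl a'), fun z χ hz => by
        obtain ⟨w, d1, d2⟩ := exists_ker_notMem h3 χ z
        obtain ⟨χ', d3, d4⟩ := exists_dual_one_zero d2
        convert h1 _ (((a0 a).mp ha).2 z χ' d4) _ (((a0 b).mp hb).2 w χ d1) using 1
        rw [mul_assoc a, mul_assoc a, ← mul_assoc ((T j).i _) b, ← (((a0 b).mp hb).1 j (by simp) _).eq, mul_assoc b,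
          ← map_mul]
        congr 3; ext; simp [d3]⟩
    by_cases e : ∀ l a, Commute (ρ y) ((T l).i a)
    · obtain ⟨d, hd⟩ := h.cen e
      have : d ≠ 0 := fun e' => b2 (by
        simpa [ρ, e', b5] using congrArg ((T j).r ψ) (LinearMap.congr_fun hd ((T j).t u y')))
      simpa [hd, smul_smul, this] using E₀.smul_mem d⁻¹ a4
    obtain ⟨l, hl⟩ := not_forall.mp e
    refine map_one (T l).i ▸ ih _ (hJ ▸ Finset.card_erase_lt_of_mem hj) (J.erase j) E₀ c1
      (fun l hl c hc => ((a0 c).mp hc).1 l hl)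
      (fun l hl z χ hz c hc N hN => (a0 _).mpr ⟨fun l' hl' a => ?_, fun z' χ' hz' => ?_⟩) a4 hl 1 rfl
    · have d1 : Commute N ((T l').i a) := hN ▸ h.cm l l' (by rintro rfl; exact hl' hl) _ _
      have d2 := ((a0 c).mp hc).1 l' hl' a
      exact ((d1.mul_left d2).sub_left (d2.mul_left d1)).sub_left ((d1.mul_left d2).mul_left d1)
    · have d1 : Commute N ((T j).i (χ'.smulRight z')) := hN ▸ h.cm l j (Finset.ne_of_mem_erase hl) _ _
      convert h4 l (Finset.mem_of_mem_erase hl) z χ hz _ (((a0 c).mp hc).2 z' χ' hz') N hN using 1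
      simp only [sub_mul, mul_assoc, d1.eq]
  · exact mem_of_rk h3 (E := E.comap (T j).i.toLinearMap) (fun a ha b hb => by simpa using h1 _ ha _ hb)
      (fun z χ hz => by simpa using ((a0 _).mp a5).2 z χ hz) a
  by_cases e : l = j
  · exact e ▸ (T j).comm_ij _ _
  obtain ⟨θ, hθ⟩ := TS.exists_j fun a' => h.cm l j e a a'
  have c1 := h2 l (fun d => hl (Finset.mem_erase.mpr ⟨e, d⟩)) c hc a
  rw [hθ] at c1 ⊢
  refine Commute.map (LinearMap.ext fun u => ?_) (T j).j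
  simpa using congrArg ((T j).r φ) (LinearMap.congr_fun c1.eq ((T j).t u y))

end Cfsg.Agent.H12
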