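import Mathlib
import Cfsg.Agent.H12.WrE
import Cfsg.Agent.H12.UtC

/-!
Tensor factors carrying a skew form: the stabiliser of `U ⊗ y` normalises the factor.
-/

set_option autoImplicit false

namespace Cfsg.Agent.H12

open Module

variable {F V : Type*} [Field F] [AddCommGroup V] [Module F V] {M : Subgroup (V ≃ₗ[F] V)}
  {U W : Type*} [AddCommGroup U] [Module F U] [AddCommGroup W] [Module F W] {σ : F →+* F}

namespace TS
variable (T : TS F U W V)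

/-- The automorphism `1 ⊗ b`. -/
noncomputable def ie : (W ≃ₗ[F] W) →* (V ≃ₗ[F] V) := MonoidHom.mk' (fun b =>
  LinearEquiv.ofLinearMap (T.i b) (T.i b.symm) (T.ext fun _ _ => by simp) (T.ext fun _ _ => by simp))
    fun _ _ => LinearEquiv.toLinearMap_injective (T.ext fun _ _ => by simp)

theorem ie_apply (b : W ≃ₗ[F] W) (v : V) : T.ie b v = T.i b v := rfl

@[simp] theorem ie_t (b : W ≃ₗ[F] W) (u : U) (w : W) : T.ie b (T.t u w) = T.t u (b w) := T.i_t ..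

theorem act_ie (k : V ≃ₗ[F] V) (b : W ≃ₗ[F] W) : (T.act k).ie b = k * T.ie b * k⁻¹ :=
  LinearEquiv.ext fun v => T.act_i k b v

theorem sa_ie (b : W ≃ₗ[F] W) : T.SA (T.act (T.ie b)) := ⟨1, b, fun _ _ => by simp⟩

theorem ind_ker {φ : Dual F W} {s : W} (hs : φ s = 1) {p : V → Prop} (h0 : p 0)
    (h1 : ∀ u w, φ w = 0 → p (T.t u w)) (h2 : ∀ v v', p v → p v' → p (v + v')) {v : V} (hv : T.r φ v = 0) : p v := by
  have : p (v - T.t (T.r φ v) s) := T.h.inductionOn v (by simpa) (fun u w => by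
    convert h1 u (w - φ w • s) (by simp [hs]) using 1; simp) fun v v' a b => by
      convert h2 _ _ a b using 1; simp; abel
  simpa [hv] using this

variable {β : W →ₛₗ[σ] W →ₗ[F] F}

theorem ie_rho (D : SD β) {z s : W} {c : F} (H : Adm β z s c) (v : V) : T.ie (rho β z s c).1 v =
    v + T.t (T.r (β z) v) s + T.t (c • T.r (β z) v + T.r (β s) v) z :=
  T.h.inductionOn v (by simp) (fun _ _ => by simp [rho_apply D H, add_smul, mul_smul]) fun _ _ a b => by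
    simp only [map_add, a, b, smul_add, LinearMap.add_apply]; abel

theorem ie_tv (D : SD β) {z : W} {c : F} (hz : β z z = 0) (hc : σ c = c) (v : V) :
    T.ie (tv β z c).1 v = v + c • T.t (T.r (β z) v) z := by simp [tv, T.ie_rho D (adm_zero hz hc)]

theorem r_ie (b : UG β) (z : W) (v : V) : T.r (β (b.1 z)) (T.ie b.1 v) = T.r (β z) v :=
  T.h.inductionOn v (by simp) (fun _ _ => by simp [UG_map]) fun _ _ a b => by simp [a, b]

theorem eq_right [FiniteDimensional F W] (D : SD β) {z : W} (h0 : z ≠ 0) {v : V}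
    (H : ∀ w, β w z = 0 → T.r (β w) v = 0) : ∃ y, v = T.t y z := by
  obtain ⟨ψ, hψ⟩ := Module.Projective.exists_dual_eq_one F h0
  refine ⟨_, ten_eq_of_ann T.h (fun φ h => ?_) hψ⟩
  obtain ⟨w, hw⟩ := D.exists_repr φ
  exact (show β w = φ from LinearMap.ext hw) ▸ H w ((hw z).trans h)

/-- The element acts trivially on the layers of the flag defined by `z`. -/
def Lv (β : W →ₛₗ[σ] W →ₗ[F] F) (z : W) (k : V ≃ₗ[F] V) : Prop :=
  (∀ u, k (T.t u z) = T.t u z) ∧ ∀ v, T.r (β z) v = 0 → ∃ y, k v = v + T.t y z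

theorem act_of_SA {T' : TS F U W V} {a : End F U} {l : Dual F U} {x₀ : U} (hl : l (a x₀) = 1)
    (H : ∀ z, ∃ w, ∀ x, T'.t x z = T.t (a x) w) : T.SA T' := by
  refine ⟨a, cL T.h l ∘ₗ T'.t x₀, fun x z => ?_⟩
  obtain ⟨w', hw⟩ := H z
  simp [hw, hl]

end TS

/-- The form `B` is the product of `γ` and the skew form `β`, and `M` contains the special group of `β`. -/
structure FT (B : V →ₛₗ[σ] V →ₗ[F] F) (γ : U →ₛₗ[σ] U →ₗ[F] F) (β : W →ₛₗ[σ] W →ₗ[F] F)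
    (M : Subgroup (V ≃ₗ[F] V)) (T : TS F U W V) : Prop where
  sd : SD β
  sep : ∀ x, (∀ y, γ y x = 0) → x = 0
  map : ∀ u w u' w', B (T.t u w) (T.t u' w') = γ u u' * β w w'
  iso : ∀ k ∈ M, ∀ x y, B (k x) (k y) = B x y
  rt : ∀ b ∈ SUG β, T.ie b.1 ∈ M

/-- Moreover the unipotent radicals in `M` come from the factor. -/
structure CW (B : V →ₛₗ[σ] V →ₗ[F] F) (γ : U →ₛₗ[σ] U →ₗ[F] F) (β : W →ₛₗ[σ] W →ₗ[F] F)
    (M : Subgroup (V ≃ₗ[F] V)) (T : TS F U W V) : Prop extends FT B γ β M T where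
  ls : ∀ z, β z z = 0 → z ≠ 0 → ∀ k ∈ M, T.Lv β z k → ∃ b : End F W, ∀ v, k v = T.i b v

variable {B : V →ₛₗ[σ] V →ₗ[F] F} {γ : U →ₛₗ[σ] U →ₗ[F] F} {β : W →ₛₗ[σ] W →ₗ[F] F} {T T' : TS F U W V}

namespace FT
variable (h : FT B γ β M T)
include h

theorem B_r (x : U) (w : W) (v : V) : B (T.t x w) v = γ x (T.r (β w) v) :=
  LinearMap.congr_fun (T.ext (f := B (T.t x w)) (g := γ x ∘ₗ T.r (β w)) fun u w' => by simp [h.map, mul_comm]) v

theorem ext {x x' : U} (H : ∀ y, γ y x = γ y x') : x = x' :=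
  sub_eq_zero.mp (h.sep _ fun y => by rw [map_sub, H, sub_self])

theorem r_fix {k : V ≃ₗ[F] V} (hk : k ∈ M) {z : W} (H : ∀ u, k (T.t u z) = T.t u z) (v : V) :
    T.r (β z) (k v) = T.r (β z) v := h.ext fun u => by rw [← h.B_r, ← h.B_r, ← h.iso k hk _ v, H]

theorem act {k : V ≃ₗ[F] V} (hk : k ∈ M) : FT B γ β M (T.act k) :=
  ⟨h.sd, h.sep, fun _ _ _ _ => by simp [h.iso k hk, h.map], h.iso, fun b hb =>
    T.act_ie k b.1 ▸ mul_mem (mul_mem hk (h.rt b hb)) (inv_mem hk)⟩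

theorem exists_ne [Nontrivial U] : ∃ x y, γ x y ≠ 0 := by
  by_contra! e
  obtain ⟨x, hx⟩ := _root_.exists_ne (0 : U)
  exact hx (h.sep x fun y => e y x)

theorem tv_mem (z : W) (c : F) : T.ie (tv β z c).1 ∈ M := h.rt _ (tv_mem_SUG h.sd z c)

theorem rho_mem (z s : W) (c : F) : T.ie (rho β z s c).1 ∈ M := h.rt _ (rho_mem_SUG h.sd z s c)

end FT

theorem CW.act (h : CW B γ β M T) {k : V ≃ₗ[F] V} (hk : k ∈ M) : CW B γ β M (T.act k) :=
  ⟨h.toFT.act hk, fun z a b g hg H => (h.ls z a b (k⁻¹ * g * k) (mul_mem (mul_mem (inv_mem hk) hg) hk)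
    ⟨fun u => by simpa [LinearEquiv.symm_apply_eq] using H.1 u, fun v hv => by
      simpa [LinearEquiv.symm_apply_eq] using H.2 (k v) (by simp [T.act_r, hv])⟩).imp fun b e v => by
    simpa [T.act_i, LinearEquiv.symm_apply_eq] using e (k.symm v)⟩

variable [FiniteDimensional F U] [FiniteDimensional F W] [Nontrivial U]

namespace CW
variable (h : CW B γ β M T) (h' : FT B γ β M T') {y w : W} (hy : β y y = 0) (hy0 : y ≠ 0) {a : End F U}
  (H : ∀ x, T'.t x y = T.t (a x) w)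
include h h' hy hy0 H

theorem basic : Function.Surjective a ∧ w ≠ 0 ∧ β w w = 0 ∧ (∀ v, T.r (β w) v = 0 ↔ T'.r (β y) v = 0) ∧
    ∀ k ∈ M, T'.Lv β y k → ∃ b : End F W, ∀ v, k v = T.i b v := by
  have a1 : Function.Surjective a := LinearMap.injective_iff_surjective.mp ((injective_iff_map_eq_zero _).mpr
    fun x e => by_contra fun c => ten_ne_zero T'.h c hy0 (by simp [H, e]))
  obtain ⟨x, x', a2⟩ := h.exists_ne
  have a3 : w ≠ 0 := fun e => ten_ne_zero T'.h (show x ≠ 0 by rintro rfl; simp at a2) hy0 (by simp [H, e])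
  obtain ⟨x, rfl⟩ := a1 x
  obtain ⟨x', rfl⟩ := a1 x'
  have a4 : β w w = 0 := by simpa [H, h.map, a2, hy] using h'.map x y x' y
  have a5 : ∀ v, T.r (β w) v = 0 ↔ T'.r (β y) v = 0 := fun v =>
    ⟨fun e => h.sep _ fun u => by rw [← h'.B_r, H, h.B_r, e, map_zero], fun e => h.sep _ fun u => by
      obtain ⟨u, rfl⟩ := a1 u
      rw [← h.B_r, ← H, h'.B_r, e, map_zero]⟩
  refine ⟨a1, a3, a4, a5, fun k hk e => h.ls w a4 a3 k hk ⟨fun u => ?_, fun v hv => ?_⟩⟩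
  · obtain ⟨u, rfl⟩ := a1 u
    rw [← H, e.1]
  · obtain ⟨u, hu⟩ := e.2 v ((a5 v).mp hv)
    exact ⟨a u, by rw [hu, H]⟩

theorem step {s : W} (hs : β s s = 0) (hys : β y s = 0) : ∃ w', ∀ x, T'.t x s = T.t (a x) w' := by
  have D := h.sd
  obtain ⟨a1, a3, a4, a5, a6⟩ := h.basic h' hy hy0 H
  by_cases e : s ∈ F ∙ y
  · obtain ⟨c, rfl⟩ := Submodule.mem_span_singleton.mp e
    exact ⟨c • w, by simp [H]⟩
  obtain ⟨w₀, hw⟩ := D.exists_SP a4 a3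
  obtain ⟨y', hy'⟩ := D.exists_SP hy hy0
  obtain ⟨x₀, x₁, a2⟩ := h.exists_ne
  have hsy := D.comm0 hys
  obtain ⟨b₀, hb₀⟩ := a6 _ (h'.tv_mem y 1) ⟨by simp [T'.ie_tv D hy, hy], fun v hv => ⟨0, by simp [T'.ie_tv D hy, hv]⟩⟩
  obtain ⟨c, b1⟩ : ∃ c : F, ∀ v, a (T'.r (β y) v) = c • T.r (β w) v := ⟨-β w₀ (b₀ w₀), fun v => by
    have c1 := (a5 (v - T.t (T.r (β w) v) w₀)).mp (by simp [hw.ef])
    rw [map_sub, sub_eq_zero] at c1
    have := congrArg (T.r (β w₀)) (hb₀ (T.t (T.r (β w) v) w₀))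
    simp only [T'.ie_tv D hy (map_one σ), one_smul, H, map_add, TS.r_t, TS.i_t, hw.ff, hw.fe D, zero_smul, zero_add,
      neg_smul, ← c1] at this
    rw [neg_smul, ← this, neg_neg]⟩
  have b2 : σ c = c := by
    have := h.iso _ (h'.tv_mem y 1) (T.t x₀ w₀) (T.t x₁ w₀)
    simp [T'.ie_tv D hy, H, b1, hw.ef, h.map, hw.ff, hw.ee, hw.fe D] at this
    exact mul_right_cancel₀ a2 (by linear_combination this)
  have b3 : c ≠ 0 := fun e => by
    obtain ⟨x, rfl⟩ := a1 x₁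
    have := b1 (T'.t x y')
    simp [hy'.ef, e] at this
    simp [this] at a2
  have b4 : ∀ x x', γ (a x) (a x') = c * γ x x' := fun x x' => by
    have := h'.B_r x y (T'.t x' y')
    have e := b1 (T'.t x' y')
    rw [H, h.B_r] at this
    simp only [TS.r_t, hy'.ef, one_smul] at this e
    rw [e, map_smul, this, smul_eq_mul]
  have H1 : Adm β y s 0 := ⟨hy, hys, by simp [hs]⟩
  obtain ⟨b₁, hb₁⟩ := a6 _ (h'.rho_mem y s 0) ⟨by simp [T'.ie_rho D H1, hy, hsy], fun v hv =>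
    ⟨T'.r (β s) v, by simp [T'.ie_rho D H1, hv]⟩⟩
  obtain ⟨s₁, b5⟩ : ∃ s₁, ∀ x, ∃ x', T'.t x s + T'.t x' y = T.t (a x) s₁ := ⟨c⁻¹ • (b₁ w₀ - w₀), fun x => by
    have c1 : T'.r (β y) (T.t (c⁻¹ • a x) w₀) = x := LinearMap.injective_iff_surjective.mpr a1 (by
      simp [b1, hw.ef, b3])
    have := hb₁ (T.t (c⁻¹ • a x) w₀)
    rw [T'.ie_rho D H1, c1, add_assoc, ← eq_sub_iff_add_eq'] at this
    exact ⟨_, this.trans (by simp [smul_sub])⟩⟩
  obtain ⟨x₀, rfl⟩ := a1 x₀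
  obtain ⟨x₁, rfl⟩ := a1 x₁
  obtain ⟨z₀, c0⟩ := b5 x₀
  obtain ⟨z₁, c1⟩ := b5 x₁
  have b6 : β w s₁ = 0 := by simpa [← H, ← c1, h'.map, hy, hys, a2] using (h.map (a x₀) w (a x₁) s₁).symm
  have b7 : β s₁ s₁ = 0 := by simpa [← c0, ← c1, h'.map, hy, hys, hsy, hs, a2] using (h.map (a x₀) s₁ (a x₁) s₁).symm
  have b8 : ∀ v, T'.r (β y) v = 0 → a (T'.r (β s) v) = c • T.r (β s₁) v := fun v hv => h.ext fun u => by
    obtain ⟨u, rfl⟩ := a1 u
    obtain ⟨z, e⟩ := b5 u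
    rw [b4, map_smul, ← h.B_r, ← e]; simp [h'.B_r, hv]
  have b9 : σ (-c) = -c := by rw [map_neg, b2]
  have c2 : ∀ u, T'.r (β s) (T.t u s₁) = 0 := fun u => by
    obtain ⟨u, rfl⟩ := a1 u
    obtain ⟨z, e⟩ := b5 u
    simp [← e, hs, hsy]
  obtain ⟨b₂, hb₂⟩ := a6 (T'.ie (tv β s 1).1 * T.ie (tv β s₁ (-c)).1) (mul_mem (h'.tv_mem s 1) (h.tv_mem s₁ _))
    ⟨fun u => by
      rw [LinearEquiv.mul_apply, T.ie_tv D b7 b9, H, T.r_t, D.comm0 b6, ← H]; simp [T'.ie_tv D hs, hsy], fun v hv => by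
      obtain ⟨z, e⟩ := b5 (T'.r (β s) v)
      refine ⟨-z, ?_⟩
      rw [b8 v hv, ← eq_sub_iff_add_eq] at e
      simp [T.ie_tv D b7 b9, T'.ie_tv D hs, c2, e]; abel⟩
  obtain ⟨s₂, c3, c4⟩ := D.exists_perp_one (F ∙ w) (x := s₁) fun e' => e (by
    obtain ⟨d, rfl⟩ := Submodule.mem_span_singleton.mp e'
    by_contra e'
    obtain ⟨χ, d1, d2⟩ := exists_dual_one_zero e'
    have := congrArg (T'.r χ) (c1.trans (show _ = d • T'.t x₁ y by simp [H]))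
    simp [d1, d2] at this
    simp [this] at a2)
  have c5 := c3 w (Submodule.mem_span_singleton_self w)
  refine ⟨c⁻¹ • (b₂ (s₂ + c • s₁) - s₂), fun x => ?_⟩
  have c6 : T'.r (β s) (T.t (c⁻¹ • a x) s₂) = x := LinearMap.injective_iff_surjective.mpr a1 (by
    rw [b8 _ ((a5 _).mp (by simp [c5]))]; simp [c4, b3])
  have := hb₂ (T.t (c⁻¹ • a x) (s₂ + c • s₁))
  rw [LinearEquiv.mul_apply, show T.ie (tv β s₁ (-c)).1 (T.t (c⁻¹ • a x) (s₂ + c • s₁)) = T.t (c⁻¹ • a x) s₂ by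
    simp [tv_apply D b7 b9, c4, b7], T'.ie_tv D hs (map_one σ), c6, one_smul, ← eq_sub_iff_add_eq'] at this
  rw [this]; simp [smul_sub, smul_smul, b3]

theorem sa_of_perp (hn : σ = RingHom.id F ∨ 2 ≤ finrank F W) (hN : NS σ)
    (hK : ∀ z, β z z = 0 → ∃ s, s ≠ 0 ∧ β s s = 0 ∧ β y s = 0 ∧ β s z = 0) : T.SA T' := by
  obtain ⟨x, hx⟩ := _root_.exists_ne (0 : U)
  obtain ⟨x, rfl⟩ := (h.basic h' hy hy0 H).1 x
  obtain ⟨l, hl⟩ := Module.Projective.exists_dual_eq_one F hx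
  refine T.act_of_SA hl (h.sd.iso_induction' hN hn (fun z hz => ?_) fun _ _ ⟨w, a⟩ ⟨w', b⟩ =>
    ⟨w + w', fun x => by simp [a, b]⟩)
  obtain ⟨s, a1, a2, a3, a4⟩ := hK z hz
  obtain ⟨w', e⟩ := h.step h' hy hy0 H a2 a3
  exact h.step h' a2 a1 e hz a4

theorem sa_of_torus {g g' : UG β} (hg : g ∈ SUG β) (hg' : g' ∈ SUG β) {l μ : F} (h1 : g.1 w = l • w)
    (h2 : g'.1 y = l • y) (h3 : ∀ s, β w s = 0 → g.1 s - μ • s ∈ F ∙ w) (h4 : ∀ s, β y s = 0 → g'.1 s - μ • s ∈ F ∙ y)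
    (h5 : (σ l)⁻¹ ≠ l) (h6 : (σ l)⁻¹ ≠ μ) {y' : W} (hy' : SP β y y') (h7 : g'.1 y' = (σ l)⁻¹ • y') :
    ∃ w', ∀ x, T'.t x y' = T.t (T.r (β w) (T'.t x y')) w' := by
  have D := h.sd
  obtain ⟨a1, a3, a4, a5, a6⟩ := h.basic h' hy hy0 H
  obtain ⟨w₀, hw⟩ := D.exists_SP a4 a3
  have l0 : l ≠ 0 := fun e => UG_ne_zero g a3 (by simp [h1, e])
  have b1 : ∀ v, T.r (β w) v = 0 → ∃ u, T.ie g.1 v = μ • v + T.t u w := fun v hv =>
    T.ind_ker hw.ef (p := fun v => ∃ u, T.ie g.1 v = μ • v + T.t u w) ⟨0, by simp⟩ (fun u s hs => by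
      obtain ⟨d, hd⟩ := Submodule.mem_span_singleton.mp (h3 s hs)
      exact ⟨d • u, by simp [← eq_sub_iff_add_eq.mp hd, add_comm]⟩)
      (fun _ _ ⟨u, a⟩ ⟨u', b⟩ => ⟨u + u', by simp [a, b]; abel⟩) hv
  have b2 : ∀ v, T'.r (β y) v = 0 → ∃ u, T'.ie g'.1 v = μ • v + T'.t u y := fun v hv =>
    T'.ind_ker hy'.ef (p := fun v => ∃ u, T'.ie g'.1 v = μ • v + T'.t u y) ⟨0, by simp⟩ (fun u s hs => by
      obtain ⟨d, hd⟩ := Submodule.mem_span_singleton.mp (h4 s hs)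
      exact ⟨d • u, by simp [← eq_sub_iff_add_eq.mp hd, add_comm]⟩)
      (fun _ _ ⟨u, a⟩ ⟨u', b⟩ => ⟨u + u', by simp [a, b]; abel⟩) hv
  have b3 : T'.Lv β y ((T.ie g.1)⁻¹ * T'.ie g'.1) := ⟨fun u => by
    rw [LinearEquiv.mul_apply, T'.ie_t, h2, map_smul, H, ← map_smul, ← h1, ← T.ie_t]
    exact (T.ie g.1).symm_apply_apply _, fun v hv => by
    obtain ⟨u, e⟩ := b1 v ((a5 v).mpr hv)
    obtain ⟨u', e'⟩ := b2 v hv
    obtain ⟨u, rfl⟩ := a1 u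
    refine ⟨l⁻¹ • (u' - u), (T.ie g.1).symm_apply_eq.mpr ?_⟩
    simp [e, e', H, h1, l0, smul_sub]⟩
  obtain ⟨b, hb⟩ := a6 _ (mul_mem (inv_mem (h.rt g hg)) (h'.rt g' hg')) b3
  replace hb : ∀ v, T'.ie g'.1 v = T.i (g.1.toLinearMap * b) v := fun v => by
    simpa [LinearEquiv.symm_apply_eq, TS.ie_apply] using hb v
  obtain ⟨x₀, hx⟩ := _root_.exists_ne (0 : U)
  have b4 : ∀ v, T.r (β w) v = 0 → T'.ie g'.1 v = (σ l)⁻¹ • v → v = 0 := fun v hv e => by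
    obtain ⟨u, e'⟩ := b2 v ((a5 v).mp hv)
    have c1 : v = T'.t (((σ l)⁻¹ - μ)⁻¹ • u) y := by
      rw [e, ← sub_eq_iff_eq_add', ← sub_smul] at e'
      simp [← e', sub_ne_zero.mpr h6]
    rw [c1, T'.ie_t, h2, map_smul, ← c1, ← sub_eq_zero, ← sub_smul] at e
    simpa [sub_ne_zero.mpr h5.symm] using e
  have b5 : ∀ v, T.r (β w) (T'.ie g'.1 v) = (σ l)⁻¹ • T.r (β w) v := fun v => h.ext fun u => by
    obtain ⟨u, rfl⟩ := a1 u
    have := h.iso _ (h'.rt g' hg') (T'.t u y) v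
    rw [T'.ie_t, h2, map_smul, H, LinearMap.map_smulₛₗ, LinearMap.smul_apply, h.B_r, h.B_r] at this
    simp [← this, D.σ_ne_zero l0]
  let n : End F (LinearMap.ker (β w)) := (g.1.toLinearMap * b - (σ l)⁻¹ • 1).restrict
    (p := LinearMap.ker (β w)) (q := LinearMap.ker (β w)) fun s hs => by
      have := b5 (T.t x₀ s)
      rw [hb] at this
      simpa [LinearMap.mem_ker.mp hs, hx] using this
  obtain ⟨s, hs⟩ := (LinearMap.injective_iff_surjective (f := n)).mp ((injective_iff_map_eq_zero _).mpr fun s hs =>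
    Subtype.ext (by_contra fun c => ten_ne_zero T.h hx c (b4 _ (by simp [LinearMap.mem_ker.mp s.2]) (by
      rw [hb, T.i_t, sub_eq_zero.mp (show (g.1.toLinearMap * b) s.1 - (σ l)⁻¹ • s.1 = 0 from congrArg Subtype.val hs)]
      simp))))
    ⟨(g.1.toLinearMap * b - (σ l)⁻¹ • 1) w₀, by
      have := b5 (T.t x₀ w₀)
      rw [hb] at this
      simpa [hw.ef, hx, sub_eq_zero] using smul_left_injective F hx (by simpa [hw.ef] using this)⟩
  refine ⟨w₀ - s, fun x => sub_eq_zero.mp (b4 _ (by simp [hw.ef, LinearMap.mem_ker.mp s.2]) ?_)⟩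
  have c1 : (g.1.toLinearMap * b) (w₀ - s) = (σ l)⁻¹ • (w₀ - s) := by
    have : (g.1.toLinearMap * b) s - (σ l)⁻¹ • s.1 = (g.1.toLinearMap * b) w₀ - (σ l)⁻¹ • w₀ := congrArg Subtype.val hs
    rw [map_sub, smul_sub]; linear_combination (norm := abel) -this
  rw [map_sub, T'.ie_t, h7, hb, T.i_t, c1]; simp [smul_sub]

end CW

end Cfsg.Agent.H12
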