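import Mathlib
import Cfsg.Agent.H12.FtA

/-!
Tensor factors carrying a skew form form a weak system.
-/

set_option autoImplicit false

namespace Cfsg.Agent.H12

open Module

variable {F V : Type*} [Field F] [AddCommGroup V] [Module F V] {M : Subgroup (V ≃ₗ[F] V)}
  {U W : Type*} [AddCommGroup U] [Module F U] [AddCommGroup W] [Module F W] {σ : F →+* F}
  {B : V →ₛₗ[σ] V →ₗ[F] F} {γ : U →ₛₗ[σ] U →ₗ[F] F} {β : W →ₛₗ[σ] W →ₗ[F] F} {T T' : TS F U W V}

/-- Long root elements. -/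
def RR (β : W →ₛₗ[σ] W →ₗ[F] F) (y : W) (φ : Dual F W) : Prop :=
  β y y = 0 ∧ y ≠ 0 ∧ ∃ c, c ≠ 0 ∧ σ c = c ∧ φ = c • β y

/-- The admissible factors. -/
def HC (β : W →ₛₗ[σ] W →ₗ[F] F) : Prop :=
  4 ≤ finrank F W ∨ (σ ≠ RingHom.id F ∧ finrank F W = 3 ∧ 3 ≤ q0 σ) ∨
    (σ = RingHom.id F ∧ finrank F W = 2 ∧ 5 ≤ q0 σ ∧ (2 : F) ≠ 0)

theorem HC.two (h : HC β) : 2 ≤ finrank F W := by rcases h with h | h | h <;> omega

theorem HC.three (h : HC β) : σ = RingHom.id F ∨ 3 ≤ finrank F W := by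
  rcases h with h | h | h
  exacts [.inr (by omega), .inr (by omega), .inl h.1]

theorem FT.ex_eq (h : FT B γ β M T) {y : W} {c : F} (hy : β y y = 0) (hc : σ c = c) :
    ex (T.i ((c • β y).smulRight y)) = T.ie (tv β y c).1 := LinearEquiv.ext fun v => by
  rw [ex_apply (T.sq (by simp [hy])), T.ie_tv h.sd hy hc]; simp [T.i_rk]

variable [FiniteDimensional F W]

theorem SD.adjoin_top (D : SD β) (hN : NS σ) (h2 : 2 ≤ finrank F W) {A : Submodule F (End F W)}
    (H : ∀ y z, β y y = 0 → β z z = 0 → y ≠ 0 → z ≠ 0 → (β z).smulRight y ∈ A) (a : End F W) : a ∈ A := by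
  have a1 : ∀ y z, (β z).smulRight y ∈ A := D.iso_induction' hN (.inr h2) (fun y hy => D.iso_induction' hN (.inr h2)
    (fun z hz => by
      by_cases e : y = 0
      · simp [e]
      by_cases e' : z = 0
      · simp [e']
      exact H y z hy hz e e') fun z z' a b => by
        convert add_mem a b using 1; ext; simp [add_smul]) fun y y' a b z => by
      convert add_mem (a z) (b z) using 1; ext; simp
  rw [show a = ∑ i, ((finBasis F W).coord i).smulRight (a (finBasis F W i)) from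
    (finBasis F W).ext fun i => by simp [Finsupp.single_apply]]
  refine sum_mem fun i _ => ?_
  obtain ⟨z, hz⟩ := D.exists_repr ((finBasis F W).coord i)
  exact (show β z = _ from LinearMap.ext hz) ▸ a1 _ z

variable [Finite F]

theorem exists_fix_ne (h : 3 ≤ q0 σ) : ∃ a : F, σ a = a ∧ a ≠ 0 ∧ a ≠ 1 := by
  by_contra! e
  have := Nat.card_le_card_of_surjective (β := {a // σ a = a}) ![⟨0, map_zero σ⟩, ⟨1, map_one σ⟩] fun ⟨a, ha⟩ => by
    by_cases e' : a = 0
    exacts [⟨0, Subtype.ext e'.symm⟩, ⟨1, Subtype.ext (e a ha e').symm⟩]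
  rw [Nat.card_fin] at this
  exact absurd (h.trans this) (by norm_num)

theorem HC.exists_norm (D : SD β) (h : HC β) (h4 : ¬ 4 ≤ finrank F W) : ∃ l : F, l ≠ 0 ∧ σ l * l ≠ 1 := by
  rcases h with h | ⟨a, -, b⟩ | ⟨rfl, -, b, -⟩
  · exact absurd h h4
  · obtain ⟨c, c1, c2, c3⟩ := exists_fix_ne b
    obtain ⟨x, rfl⟩ := D.ns.resolve_left a c c1
    exact ⟨x, right_ne_zero_of_mul c2, c3⟩
  · by_contra! e
    have := Nat.card_le_card_of_surjective (β := F) ![0, 1, -1] fun a => by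
      by_cases e' : a = 0
      · exact ⟨0, e'.symm⟩
      rcases mul_self_eq_one_iff.mp (e a e') with c | c
      exacts [⟨1, c.symm⟩, ⟨2, c.symm⟩]
    rw [Nat.card_fin, ← q0_id] at this
    omega

variable [FiniteDimensional F U] [Nontrivial U]

theorem CW.sa_of_one (hC : HC β) (h4 : ¬ 4 ≤ finrank F W) (h : CW B γ β M T) (h' : FT B γ β M T') {y : W}
    (hy : β y y = 0) (hy0 : y ≠ 0) {a : End F U} (H : ∀ x, T'.t x y = T.t (a x) y) : T.SA T' := by
  have D := h.sd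
  obtain ⟨l, l0, l1⟩ := hC.exists_norm D h4
  have l2 : (σ l)⁻¹ ≠ l := fun e => l1 (by rw [← e]; nth_rw 1 [e]; exact mul_inv_cancel₀ (D.σ_ne_zero l0))
  have a1 : ∀ y', SP β y y' → ∃ w', ∀ x, T'.t x y' = T.t (T.r (β y) (T'.t x y')) w' := fun y' hy' => by
    obtain ⟨g, b1, b2, b3⟩ := hy'.exists_EG D D.ns hC.three (hy'.smul D l0)
    obtain ⟨μ, b4, b5⟩ : ∃ μ, (σ l)⁻¹ ≠ μ ∧ ∀ s : spp β y y', g.1 s = μ • s := by
      by_cases e : ∀ s : spp β y y', s = 0
      · exact ⟨l, l2, fun s => by simp [e s]⟩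
      obtain ⟨s, hs⟩ := not_forall.mp e
      have c1 : ∀ s' : spp β y y', ∃ c : F, c • s = s' := (finrank_eq_one_iff_of_nonzero' s hs).mp (by
        have := hy'.finrank_spp D
        have := (finrank_pos_iff_exists_ne_zero (R := F)).mpr ⟨s, hs⟩
        omega)
      obtain ⟨μ, c2⟩ := c1 ⟨g.1 s, mem_sperp_pair.mpr ⟨by simpa [b2, l0, spp_left s] using UG_map g y s, by
        simpa [b3, l0, spp_right s] using UG_map g y' s⟩⟩
      replace c2 : g.1 s = μ • s := (congrArg Subtype.val c2).symm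
      refine ⟨μ, fun e => hs ((hy'.sd D).sep s fun s' => ?_), fun s' => ?_⟩
      · obtain ⟨c, rfl⟩ := c1 s'
        have := UG_map g s s
        simp only [c2, ← e, map_smul, LinearMap.map_smulₛₗ, LinearMap.smul_apply, smul_eq_mul, map_inv₀, D.invol] at this
        have c3 : β s s = 0 := by_contra fun c3 => l1 (by
          have c4 := D.σ_ne_zero l0
          field_simp at this
          grind)
        simp [c3]
      · obtain ⟨c, rfl⟩ := c1 s'
        simp [c2, smul_comm c]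
    have b6 : ∀ s, β y s = 0 → g.1 s - μ • s ∈ F ∙ y := fun s hs => by
      obtain ⟨c, s, rfl⟩ := hy'.exists_eq_of_perp D hs
      exact Submodule.mem_span_singleton.mpr ⟨c * l - μ * c, by simp [b5, b2, sub_smul, mul_smul]⟩
    exact h.sa_of_torus h' hy hy0 H (D.EG_le_SUG b1) (D.EG_le_SUG b1) b2 b2 b6 b6 l2 b4 hy' b3
  obtain ⟨y', hy'⟩ := D.exists_SP hy hy0
  have a2 : ∀ z, SP β y z → ∃ w', ∀ x, T'.t x z = T.t ((T.r (β y) ∘ₗ T'.t.flip y') x) w' := fun z hz =>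
    (a1 z hz).imp fun w' e x => (e x).trans (congrArg (T.t · w') (h.ext fun u => by
      obtain ⟨u, rfl⟩ := (h.basic h' hy hy0 H).1 u
      simp [← h.B_r, ← H, h'.map, hz.ef, hy'.ef]))
  obtain ⟨x, hx⟩ := _root_.exists_ne (0 : U)
  obtain ⟨φ, hφ⟩ := Module.Projective.exists_dual_eq_one F (x := (T.r (β y) ∘ₗ T'.t.flip y') x) fun e => by
    obtain ⟨w', e'⟩ := a2 y' hy'
    exact ten_ne_zero T'.h hx hy'.ne_right (by rw [e', e]; simp)
  let A : AddSubgroup W :=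
    { carrier := {z | ∃ w', ∀ x, T'.t x z = T.t ((T.r (β y) ∘ₗ T'.t.flip y') x) w'}
      add_mem' := fun ⟨w, a⟩ ⟨w', b⟩ => ⟨w + w', fun x => by rw [map_add, map_add, a, b]⟩
      zero_mem' := ⟨0, by simp⟩
      neg_mem' := fun ⟨w, a⟩ => ⟨-w, fun x => by rw [map_neg, map_neg, a]⟩ }
  have a3 : ∀ (c : F) z, z ∈ A → c • z ∈ A := fun c z ⟨w, a⟩ => ⟨c • w, fun x => by rw [map_smul, map_smul, a]⟩
  refine T.act_of_SA hφ (D.iso_gen hy hy0 (A := A) (fun c => a3 c _ ?_) fun z b1 b2 => ?_)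
  · simpa using sub_mem (show y' + y ∈ A from a2 _ ⟨hy, by simp [hy, hy'.ff, hy'.ef, hy'.fe D], by simp [hy, hy'.ef]⟩)
      (show y' ∈ A from a2 _ hy')
  · simpa [smul_smul, b2] using a3 (β y z) _ (a2 ((β y z)⁻¹ • z) ⟨hy, by simp [b1], by simp [b2]⟩)

theorem ws_CW (D : SD β) (hC : HC β) : WS M {T : TS F U W V | CW B γ β M T} (RR β) where
  act _ h _ hk := h.act hk
  nil y φ := by
    rintro ⟨a, b, c, c0, -, rfl⟩
    obtain ⟨z, hz⟩ := D.exists_ne b
    exact ⟨by simp [a], b, fun e => hz (by simpa [c0] using LinearMap.congr_fun e z)⟩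
  rt T h y φ := by
    rintro ⟨a, b, c, c0, c1, rfl⟩
    exact ⟨_, h.tv_mem y c, fun v => by rw [← h.ex_eq a c1, ex_apply (T.sq (by simp [a]))]⟩
  stab T h T' h' y φ w h0 H := by
    obtain ⟨x, hx⟩ := _root_.exists_ne (0 : U)
    obtain ⟨χ, hχ⟩ := Module.Projective.exists_dual_eq_one F (x := w) fun e => by
      obtain ⟨x', e'⟩ := H x
      exact ten_ne_zero T'.h hx h0.2.1 (by simp [e', e])
    replace H : ∀ x, T'.t x y = T.t ((T.r χ ∘ₗ T'.t.flip y) x) w := fun x => by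
      obtain ⟨x', e⟩ := H x
      simp [e, hχ]
    by_cases h4 : 4 ≤ finrank F W
    · refine h.sa_of_perp h'.toFT h0.1 h0.2.1 H (.inr (by omega)) D.ns fun z hz => ?_
      by_cases e : β y z = 0
      · exact ⟨y, h0.2.1, h0.1, h0.1, e⟩
      obtain ⟨s, a1, a2, a3, a4⟩ := D.exists_iso_perp h4 h0.1 e
      exact ⟨s, a1, a2, D.comm0 a3, a4⟩
    obtain ⟨-, a1, a2, -⟩ := h.basic h'.toFT h0.1 h0.2.1 H
    obtain ⟨g, b1, rfl⟩ := D.erel D.ns hC.three h0.1 h0.2.1 a2 a1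
    exact (T.sa_ie g.1).trans (CW.sa_of_one hC h4 (h.act (h.rt g (D.EG_le_SUG b1))) h'.toFT h0.1 h0.2.1 fun x => by
      rw [TS.act_t, T.ie_t]; exact H x)
  gen := eq_top_iff.mpr fun a _ => D.adjoin_top D.ns hC.two (A := Subalgebra.toSubmodule _) (fun y z b1 b2 b3 b4 => by
    obtain ⟨w, c1, c2, c3⟩ := D.exists_iso_ne₂ D.ns (.inr hC.two) b3 b4
    have c4 : ∀ y, β y y = 0 → y ≠ 0 → (β y).smulRight y ∈ Algebra.adjoin F {n | ∃ y φ, RR β y φ ∧ n = φ.smulRight y} :=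
      fun y a b => Algebra.subset_adjoin ⟨y, _, ⟨a, b, 1, one_ne_zero, map_one σ, rfl⟩, by rw [one_smul]⟩
    rw [Subalgebra.mem_toSubmodule]
    convert Subalgebra.smul_mem _ (mul_mem (mul_mem (c4 y b1 b3) (c4 w c1 (by rintro rfl; simp at c2))) (c4 z b2 b4))
      (β y w * β w z)⁻¹ using 1
    have := D.ne0 c3
    ext; simp only [LinearMap.smulRight_apply, LinearMap.smul_apply, End.mul_apply, map_smul, smul_smul, smul_eq_mul]
    congr 1; field_simp) a
  exi := by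
    obtain ⟨y, a, b⟩ := D.exists_iso D.ns hC.two
    exact ⟨y, _, b, a, 1, one_ne_zero, map_one σ, rfl⟩
  dim := by
    rcases hC with h | h | h
    exacts [.inl (by omega), .inl (by omega), .inr h.2.2.2]

omit [FiniteDimensional F U] in
theorem FT.fix (hC : HC β) (h : FT B γ β M T) {e : V ≃ₗ[F] V} (he : e ∈ M) (hn : IsNilpotent (e.toLinearMap - 1))
    (H : T.SA (T.act e)) : ∃ y, β y y = 0 ∧ y ≠ 0 ∧ Commute e.toLinearMap (T.i ((β y).smulRight y)) := by
  have D := h.sd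
  have := Fintype.ofFinite F
  obtain ⟨y₀, hy0, hy⟩ := D.exists_iso D.ns hC.two
  have : Nontrivial W := ⟨y₀, 0, hy0⟩
  obtain ⟨u, u', hu⟩ := h.exists_ne
  have u0 : u' ≠ 0 := by rintro rfl; simp at hu
  have : Nontrivial V := ⟨_, 0, ten_ne_zero T.h u0 hy0⟩
  obtain ⟨a, b, H⟩ := H
  simp only [TS.act_t] at H
  obtain ⟨p, _, n, hp, hn'⟩ := FiniteField.card' F
  have := Fact.mk hp
  have := charP_of_injective_algebraMap (algebraMap F (End F V)).injective p
  have := charP_of_injective_algebraMap (algebraMap F (End F W)).injective p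
  obtain ⟨m, hm⟩ := hn
  have a1 : e.toLinearMap ^ p ^ (n * m) = 1 := by
    rw [← sub_eq_zero, ← one_pow (p ^ (n * m)), ← sub_pow_char_pow_of_commute _ _ (Commute.one_right _)]
    exact pow_eq_zero_of_le ((Nat.le_mul_of_pos_left m n.2).trans (Nat.lt_pow_self hp.one_lt).le) hm
  have a2 : ∀ (k : ℕ) x z, (e.toLinearMap ^ k) (T.t x z) = T.t ((a ^ k) x) ((b ^ k) z) := fun k => by
    induction k with
    | zero => simp
    | succ k ih => intro x z; simp [pow_succ, H, ih]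
  obtain ⟨l, hl⟩ := Module.Projective.exists_dual_eq_one F u0
  obtain ⟨μ, hμ⟩ : ∃ μ : F, ∀ z, μ • (b ^ p ^ (n * m)) z = z := ⟨l ((a ^ p ^ (n * m)) u'), fun z => by
    simpa [a1, hl] using (congrArg (cL T.h l) (a2 (p ^ (n * m)) u' z)).symm⟩
  have a3 : ∀ c : F, c ^ p ^ (n * m) = c := fun c => by rw [pow_mul, ← hn']; exact FiniteField.pow_card_pow m c
  have a4 : (μ • b) ^ p ^ (n * m) = 1 := LinearMap.ext fun z => by simp [smul_pow, a3, hμ]
  have μ0 : μ ≠ 0 := fun e => hy0 (by simpa [e] using (hμ y₀).symm)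
  obtain ⟨ν, a5⟩ : ∃ ν, ∀ w w', ν * β ((μ • b) w) ((μ • b) w') = β w w' :=
    ⟨γ (a u) (a u') / γ u u' / (σ μ * μ), fun w w' => by
      have c := D.σ_ne_zero μ0
      have := h.iso e he (T.t u w) (T.t u' w')
      simp only [H, h.map] at this
      simp only [LinearMap.smul_apply, map_smul, LinearMap.map_smulₛₗ, smul_eq_mul]
      field_simp; grind⟩
  have a6 : ∀ (k : ℕ) w w', ν ^ k * β (((μ • b) ^ k) w) (((μ • b) ^ k) w') = β w w' := fun k => by
    induction k with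
    | zero => simp
    | succ k ih => intro w w'; rw [pow_succ', pow_succ, mul_assoc, End.mul_apply, End.mul_apply, ih, a5]
  obtain ⟨y', hy'⟩ := D.exists_SP hy hy0
  obtain rfl : ν = 1 := by simpa [a3, a4, hy'.ef] using a6 (p ^ (n * m)) y₀ y'
  obtain ⟨y, b1, b2, b3⟩ : ∃ y, β y y = 0 ∧ y ≠ 0 ∧ (μ • b) y = y := by
    by_cases e : μ • b - 1 = 0
    · exact ⟨y₀, hy, hy0, by rw [sub_eq_zero.mp e]; rfl⟩
    have b1 : IsNilpotent (μ • b - 1) := ⟨p ^ (n * m), by
      rw [sub_pow_char_pow_of_commute _ _ (Commute.one_right _), a4, one_pow, sub_self]⟩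
    obtain ⟨k, hk⟩ : ∃ k, nilpotencyClass (μ • b - 1) = k + 2 := ⟨nilpotencyClass (μ • b - 1) - 2, by
      have := pos_nilpotencyClass_iff.mpr b1
      have : nilpotencyClass (μ • b - 1) ≠ 1 := fun c => e (nilpotencyClass_eq_one.mp c)
      omega⟩
    obtain ⟨b2, b3⟩ := (nilpotencyClass_eq_succ_iff (k := k + 1)).mp hk
    obtain ⟨v, hv⟩ := DFunLike.ne_iff.mp b3
    have b4 : (μ • b) (((μ • b - 1) ^ (k + 1)) v) = ((μ • b - 1) ^ (k + 1)) v := by
      have := LinearMap.congr_fun b2 v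
      rwa [pow_succ', End.mul_apply, LinearMap.sub_apply, LinearMap.zero_apply, sub_eq_zero] at this
    refine ⟨_, ?_, hv, b4⟩
    have := a5 (((μ • b - 1) ^ k) v) (((μ • b - 1) ^ (k + 1)) v)
    rw [b4, one_mul] at this
    nth_rw 1 [pow_succ']
    rw [End.mul_apply, LinearMap.sub_apply, map_sub, LinearMap.sub_apply, this]; simp
  refine ⟨y, b1, b2, T.ext fun x z => ?_⟩
  have b4 := a5 y z
  rw [b3] at b4
  have b5 : b y = μ⁻¹ • y := by rw [eq_inv_smul_iff₀ μ0]; exact b3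
  simp only [LinearMap.smul_apply, map_smul, smul_eq_mul, one_mul] at b4
  simp [H, b5, ← b4, smul_smul, mul_right_comm, μ0]

end Cfsg.Agent.H12
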