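import Mathlib
import Cfsg.Agent.H12.FtB

/-!
Conjugate tensor factors carrying a skew form coincide or commute.
-/

set_option autoImplicit false

namespace Cfsg.Agent.H12

open Module

section
variable {K F : Type*} [Field K] [Field F] {κ : Type} {Y V : Type*} [AddCommGroup Y] [Module F Y]
  [AddCommGroup V] [Module F V] {d e : ℕ}

/-- Polynomial functions of degree at most `d` over a subfield. -/
structure KD (ι : K →+* F) (d : ℕ) (f : (κ → K) → Y) : Prop where
  mem : f ∈ Submodule.span F {f | ∃ (p : MvPolynomial κ K) (y : Y), p.totalDegree ≤ d ∧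
    f = fun c => ι (MvPolynomial.eval c p) • y}

namespace KD
variable {ι : K →+* F} {f f' : (κ → K) → Y}

theorem of {p : MvPolynomial κ K} (hp : p.totalDegree ≤ d) (y : Y) :
    KD ι d fun c => ι (MvPolynomial.eval c p) • y := ⟨Submodule.subset_span ⟨p, y, hp, rfl⟩⟩

theorem const (y : Y) : KD ι d fun _ : κ → K => y := by
  simpa using of (ι := ι) (κ := κ) (d := d) (p := 1) (by simp) y

theorem coord (i : κ) (y : Y) : KD ι 1 fun c : κ → K => ι (c i) • y := by
  simpa using of (ι := ι) (d := 1) (p := MvPolynomial.X i) (by simp) y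

theorem add (h : KD ι d f) (h' : KD ι d f') : KD ι d fun c => f c + f' c := ⟨add_mem h.1 h'.1⟩

theorem sub (h : KD ι d f) (h' : KD ι d f') : KD ι d fun c => f c - f' c := ⟨sub_mem h.1 h'.1⟩

theorem mono (h : KD ι d f) (H : d ≤ e) : KD ι e f :=
  ⟨Submodule.span_mono (by rintro _ ⟨p, y, h1, h2⟩; exact ⟨p, y, h1.trans H, h2⟩) h.1⟩

theorem app {f : (κ → K) → V →ₗ[F] Y} {g : (κ → K) → V} (hf : KD ι d f) (hg : KD ι e g) :
    KD ι (d + e) fun c => f c (g c) := by
  obtain ⟨hf⟩ := hf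
  obtain ⟨hg⟩ := hg
  induction hf using Submodule.span_induction with
  | zero => exact const 0
  | add f f' _ _ h h' => exact h.add h'
  | smul c f _ h => exact ⟨Submodule.smul_mem _ c h.1⟩
  | mem f hf =>
    obtain ⟨p, y, h1, rfl⟩ := hf
    induction hg using Submodule.span_induction with
    | zero => simpa using const 0
    | add g g' _ _ h h' => simpa using h.add h'
    | smul c g _ h => exact ⟨by simpa [Pi.smul_def] using Submodule.smul_mem _ c h.1⟩
    | mem g hg =>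
      obtain ⟨p', x, h2, rfl⟩ := hg
      simpa [mul_smul] using of (ι := ι) ((MvPolynomial.totalDegree_mul p' p).trans
        (add_comm e d ▸ add_le_add h2 h1)) (y x)

theorem map {g : (κ → K) → V} (hg : KD ι e g) (f : V →ₗ[F] Y) : KD ι e fun c => f (g c) := by
  simpa using (const (d := 0) f).app hg

theorem smul {f : (κ → K) → F} {g : (κ → K) → V} (hf : KD ι d f) (hg : KD ι e g) :
    KD ι (d + e) fun c => f c • g c := (hf.map (LinearMap.lsmul F V)).app hg

theorem sum [Fintype K] [Fintype κ] [DecidableEq κ] (hf : KD ι d f)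
    (h : d < (Fintype.card K - 1) * Fintype.card κ) : ∑ c, f c = 0 := by
  classical
  obtain ⟨hf⟩ := hf
  induction hf using Submodule.span_induction with
  | zero => simp
  | add f f' _ _ h h' => simp [Finset.sum_add_distrib, h, h']
  | smul c f _ h => simp [← Finset.smul_sum, h]
  | mem f hf =>
    obtain ⟨p, y, h1, rfl⟩ := hf
    rw [← Finset.sum_smul, ← map_sum, MvPolynomial.sum_eval_eq_zero p (h1.trans_lt h), map_zero, zero_smul]

end KD
end

variable {F V : Type*} [Field F] [AddCommGroup V] [Module F V] {M : Subgroup (V ≃ₗ[F] V)}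
  {U W : Type*} [AddCommGroup U] [Module F U] [AddCommGroup W] [Module F W] {σ : F →+* F}
  {B : V →ₛₗ[σ] V →ₗ[F] F} {γ : U →ₛₗ[σ] U →ₗ[F] F} {β : W →ₛₗ[σ] W →ₗ[F] F} {T T' T₁ : TS F U W V}
  [FiniteDimensional F U] [FiniteDimensional F W] [Nontrivial U]

omit [FiniteDimensional F U] in
theorem CW.ls2 (h : CW B γ β M T) {y s : W} (hy : β y y = 0) (hs : β s s = 0) (hys : β y s = 0) (hy0 : y ≠ 0)
    (h0 : s ∉ F ∙ y) {k : V ≃ₗ[F] V} (hk : k ∈ M) (H : ∀ v, T.r (β y) v = 0 → T.r (β s) v = 0 → k v = v) :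
    ∃ b : End F W, ∀ v, k v = T.i b v := by
  have D := h.sd
  have hsy := D.comm0 hys
  obtain ⟨s', a1, a2, a3⟩ := D.exists_partner (F ∙ y) hs h0 fun _ e => by
    obtain ⟨c, rfl⟩ := Submodule.mem_span_singleton.mp e; simp [hys]
  replace a3 := a3 y (Submodule.mem_span_singleton_self y)
  have a4 : β s' s = -1 := by rw [D.skew, a2, map_one]
  have a5 : ∀ v, ∃ x, k v = v + T.t x y - T.t (T.r (β s') (k v - v)) s := fun v => by
    obtain ⟨x, hx⟩ := T.eq_right D hy0 (v := k v - v + T.t (T.r (β s') (k v - v)) s) fun w hw => by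
      have := h.r_fix hk (z := w + σ (β w s) • s') (fun u => H _
        (by simp [D.comm0 hw, a3]) (by simp [a2, D.skew w s])) v
      simp only [map_add, LinearMap.map_smulₛₗ, D.invol, LinearMap.add_apply, map_smul, LinearMap.smul_apply] at this
      simp only [map_add, map_sub, TS.r_t, smul_sub, LinearMap.sub_apply]
      linear_combination (norm := module) this
    exact ⟨x, by rw [← hx]; abel⟩
  have b1 : ∀ u, k (T.t u y) = T.t u y := fun u => H _ (by simp [hy]) (by simp [hsy])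
  have H1 : Adm β y s' 0 := ⟨hy, a3, by simp [a1]⟩
  have b2 : ∀ v, T.r (β y) v = 0 → (k⁻¹ * (T.ie (rho β y s' 0).1 * k * (T.ie (rho β y s' 0).1)⁻¹)) v =
      v + T.t (T.r (β s') (k v - v)) y := fun v hv => by
    have c1 : (T.ie (rho β y s' 0).1)⁻¹ v = v - T.t (T.r (β s') v) y := (T.ie _).symm_apply_eq.mpr (by
      simp [T.ie_rho D H1, hv, hy, D.comm0 a3])
    obtain ⟨x, hx⟩ := a5 v
    rw [LinearEquiv.mul_apply, LinearEquiv.mul_apply, LinearEquiv.mul_apply, c1]
    refine k.symm_apply_eq.mpr ?_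
    rw [map_add, b1, map_sub, b1]
    generalize T.r (β s') (k v - v) = x' at hx
    simp [hx, T.ie_rho D H1, hv, hy, D.comm0 a3, hys, a4]; abel
  obtain ⟨b, hb⟩ := h.ls y hy hy0 _ (mul_mem (inv_mem hk) (mul_mem (mul_mem (h.rho_mem y s' 0) hk)
    (inv_mem (h.rho_mem y s' 0)))) ⟨fun u => by rw [b2 _ (by simp [hy])]; simp [b1], fun v hv => ⟨_, b2 v hv⟩⟩
  obtain ⟨χ, hχ⟩ := Module.Projective.exists_dual_eq_one F hy0
  obtain ⟨c, b3⟩ : ∃ c : F, ∀ v, T.r (β y) v = 0 → T.r (β s') (k v - v) = c • T.r (β s) v :=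
    ⟨χ (b s') - χ s', fun v hv => by
      have c1 := congrArg (T.r χ) ((hb _).symm.trans (b2 (T.t (T.r (β s) v) s') (by simp [a3])))
      have c2 := H (v - T.t (T.r (β s) v) s') (by simp [hv, a3]) (by simp [a2])
      rw [show k v - v = k (T.t (T.r (β s) v) s') - T.t (T.r (β s) v) s' by
        rw [map_sub] at c2; linear_combination (norm := abel) c2]
      simp only [TS.i_t, TS.r_t, map_add, hχ, one_smul] at c1
      rw [sub_smul, c1]; abel⟩
  have b4 : σ c = c := by
    obtain ⟨u, u', hu⟩ := h.exists_ne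
    obtain ⟨x, hx⟩ := a5 (T.t u s')
    obtain ⟨x', hx'⟩ := a5 (T.t u' s')
    have := h.iso k hk (T.t u s') (T.t u' s')
    rw [hx, hx', b3 _ (by simp [a3]), b3 _ (by simp [a3])] at this
    simp [h.map, a1, a2, a3, a4, D.comm0 a3, hy, hs, hys, hsy] at this
    exact mul_right_cancel₀ hu (by linear_combination -this)
  obtain ⟨b', hb'⟩ := h.ls y hy hy0 _ (mul_mem (h.tv_mem s c) hk) ⟨fun u => by
    simp [b1, T.ie_tv D hs b4, hsy], fun v hv => (a5 v).imp fun x hx => by
      rw [LinearEquiv.mul_apply, hx, b3 v hv]; simp [T.ie_tv D hs b4, hsy, hs]⟩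
  refine ⟨(tv β s c).1.symm.toLinearMap * b', fun v => ?_⟩
  rw [map_mul, End.mul_apply, ← hb']
  exact ((T.ie (tv β s c).1).symm_apply_apply _).symm

variable [Finite F] (hC : HC β) (h : CW B γ β M T) (h' : CW B γ β M T')
include hC h h'

theorem CW.ti_root {b : UG β} {z : W} {φ : Dual F W} (hz : β z z = 0) (hb : ∀ w, b.1 w = w + φ w • z) (h1 : b ≠ 1)
    (H : T'.SA (T'.act (T.ie b.1))) : T.Rel T' := by
  have D := h.sd
  have : Nontrivial W := Module.nontrivial_of_finrank_pos (R := F) (by have := hC.two; omega)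
  have z0 : z ≠ 0 := fun e => h1 (UG_ext (by simp [hb, e]))
  obtain ⟨z', hz'⟩ := D.exists_SP hz z0
  have a1 : ∀ w, φ w = σ (φ z') * β z w := fun w => by
    have := UG_map b z' w
    simp [hb, hz, hz'.fe D] at this
    linear_combination -this
  have a2 : σ (φ z') = φ z' := by simpa [hz'.ef] using (a1 z').symm
  have a3 : RR β z φ := ⟨hz, z0, φ z', fun e => h1 (UG_ext fun w => by simp [hb, a1 w, e]), a2,
    LinearMap.ext fun w => by simp [a1 w, a2]⟩
  refine ((ws_CW D hC).rel_of_sa h' h a3 ?_).symm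
  rwa [show ex (T.i (φ.smulRight z)) = T.ie b.1 from LinearEquiv.ext fun v => by
    rw [ex_apply (T.sq ((ws_CW (M := M) (B := B) (γ := γ) D hC).nil _ _ a3).1), T.ie_apply,
      show b.1.toLinearMap = 1 + φ.smulRight z from LinearMap.ext hb]; simp]

theorem CW.ti_of {b : UG β} (hb : b ∈ SUG β) (hn : IsNilpotent (b.1.toLinearMap - 1)) (H : T'.SA (T'.act (T.ie b.1)))
    (h2 : ∀ k ∈ M, Commute k.toLinearMap (T.i (b.1.toLinearMap - 1)) → T.SA (T.act k)) : T.Rel T' := by
  have : Nontrivial W := Module.nontrivial_of_finrank_pos (R := F) (by have := hC.two; omega)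
  have e : (T.ie b.1).toLinearMap = T.i b.1.toLinearMap := rfl
  obtain ⟨y, a1, a2, a3⟩ := h'.fix hC (h.rt b hb) (by simpa [e] using hn.map T.i) H
  have a4 : RR β y (β y) := ⟨a1, a2, 1, one_ne_zero, map_one σ, by simp⟩
  refine (ws_CW h.sd hC).rel_of_sa h h' a4 (h2 _ ((ws_CW h.sd hC).ex_mem h' a4) ?_)
  rw [show (ex (T'.i ((β y).smulRight y))).toLinearMap = 1 + T'.i ((β y).smulRight y) from
    LinearMap.ext (ex_apply (T'.sq a1)), map_sub, map_one]
  exact (Commute.one_left _).add_left ((e ▸ a3).symm.sub_right (Commute.one_right _))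

theorem CW.ti_plane {y s z₁ z₂ : W} (hy : β y y = 0) (hs : β s s = 0) (hys : β y s = 0) (hy0 : y ≠ 0)
    (h0 : s ∉ F ∙ y) (h1 : ∀ z ∈ Submodule.span F {z₁, z₂}, β y z = 0 ∧ β s z = 0 ∧ β z z = 0) {b : UG β}
    (hb' : b ∈ SUG β) (hb : ∀ w, b.1 w = w + β y w • z₁ + β s w • z₂) (h2 : b ≠ 1)
    (H : T'.SA (T'.act (T.ie b.1))) : T.Rel T' := by
  have : Nontrivial W := Module.nontrivial_of_finrank_pos (R := F) (by have := hC.two; omega)
  obtain ⟨a1, a2, a3⟩ := h1 z₁ (Submodule.subset_span (by simp))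
  obtain ⟨a4, a5, a6⟩ := h1 z₂ (Submodule.subset_span (by simp))
  by_cases e : z₂ ∈ F ∙ z₁
  · obtain ⟨c, rfl⟩ := Submodule.mem_span_singleton.mp e
    exact h.ti_root hC h' (φ := β y + c • β s) a3 (by simp [hb, add_smul, add_assoc, smul_smul, mul_comm]) h2 H
  by_cases e' : z₁ = 0
  · exact h.ti_root hC h' (φ := β s) a6 (by simp [hb, e']) h2 H
  have a7 : b.1.toLinearMap - 1 = (β y).smulRight z₁ + (β s).smulRight z₂ := by ext; simp [hb, add_assoc]
  refine h.ti_of hC h' hb' ⟨2, by rw [a7]; ext; simp [sq, a1, a2, a4, a5]⟩ H fun k hk c => ?_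
  have a8 : RR β y (β y) := ⟨hy, hy0, 1, one_ne_zero, map_one σ, by simp⟩
  obtain ⟨χ, b1, b2⟩ := exists_dual_one_zero (notMem_span_symm e e')
  obtain ⟨b', hb'⟩ := h.ls2 hy hs hys hy0 h0 ((h.act hk).tv_mem y 1) fun v c1 c2 => by
    have c3 := congrArg (fun v => T.r χ (k.symm v)) (LinearMap.congr_fun c.eq (k.symm v))
    simp [a7, T.i_rk, c1, c2, b1, b2] at c3
    simp [TS.ie_tv _ h.sd hy, T.act_r, c3]
  exact (ws_CW h.sd hC).sa_of_mem h (h.act hk) a8 (b := b' - 1) (LinearMap.ext fun v => by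
    simp [← hb', TS.ie_tv _ h.sd hy, TS.i_rk])

theorem CW.ti_rho {y s : W} {c : F} (H1 : Adm β y s c) (hy0 : y ≠ 0) (hs : β s s ≠ 0)
    (H : T'.SA (T'.act (T.ie (rho β y s c).1))) : T.Rel T' := by
  have D := h.sd
  have a1 : ((rho β y s c).1.toLinearMap - 1) * ((rho β y s c).1.toLinearMap - 1) = β s s • (β y).smulRight y := by
    ext; simp [rho_apply D H1, H1.ee, H1.eu, D.comm0 H1.eu, smul_smul, mul_comm]
  refine h.ti_of hC h' (rho_mem_SUG D y s c) ⟨4, by
    rw [show 4 = 2 + 2 from rfl, pow_add, sq, a1]; ext; simp [H1.ee]⟩ H fun k hk e => ?_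
  refine (ws_CW h.sd hC).sa_of_comm h (φ := β y) ⟨H1.ee, hy0, 1, one_ne_zero, map_one σ, by simp⟩ hk fun v => ?_
  have := LinearMap.congr_fun (e.mul_right e).eq v
  rw [← map_mul, a1] at this
  simpa [hs] using this

omit h' in
theorem CW.van (h₁ : CW B γ β M T₁) {S : Finset (V →ₗ[F] Dual F V →ₗ[F] End F V)} (hS : ∀ ξ, ξ ∈ S ↔ NC M T T₁ ξ)
    {C : Type*} [AddGroup C] [Fintype C] (a : C → UG β) (h1 : ∀ c c', a (c + c') = a c * a c') (h2 : ∀ c, a c ∈ SUG β)
    {w : W} (h3 : ∀ c, (a c).1 w = w)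
    (h4 : ∀ c ≠ 0, ∀ T', CW B γ β M T' → T'.SA (T'.act (T.ie (a c).1)) → T.Rel T')
    {K : Type*} [Field K] [Fintype K] {ι : K →+* F} {r d : ℕ} (π : (Fin r → K) → C)
    (h5 : ∀ φ : C → F, ∑ c, φ (π c) = 0 → ∑ c, φ c = 0) (h6 : KD ι d fun c => (a (π c)).1.toLinearMap)
    (h7 : KD ι d fun c => (a (π c)).1.symm.toLinearMap) (h8 : d + (d + d) < (Fintype.card K - 1) * r) (u : U) :
    (∑ ξ ∈ S, ξ) (T.t u w) = 0 := by
  have : Nontrivial W := Module.nontrivial_of_finrank_pos (R := F) (by have := hC.two; omega)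
  refine LinearMap.ext fun f => LinearMap.ext fun v => (forall_dual_apply_eq_zero_iff F _).mp fun g => ?_
  refine (ws_CW h.sd hC).sum_vanish h₁ hS (fun c => T.ie (a c).1) (fun c c' => by rw [h1]; exact map_mul _ _ _)
    (fun c => h.rt _ (h2 c)) (fun c => T.sa_ie _) h4 fun ξ => h5 _ ?_
  have b1 : ∀ c, (T.ie (a c).1).symm (T.t u w) = T.t u w := fun c => (T.ie _).symm_apply_eq.mpr (by simp [h3])
  simp only [cjS_apply, b1]
  have b2 := h6.map T.i.toLinearMap
  exact ((b2.app (((b2.map (LinearMap.llcomp F V V F f)).map (ξ (T.t u w))).app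
    ((h7.map T.i.toLinearMap).app (KD.const (d := 0) v)))).map g).sum (by simpa)

end Cfsg.Agent.H12
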