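import Mathlib
import Cfsg.Agent.H12.FtC

/-!
The averaging argument for tensor factors carrying a skew form.
-/

set_option autoImplicit false

namespace Cfsg.Agent.H12

open Module

variable {F V : Type*} [Field F] [AddCommGroup V] [Module F V] {M : Subgroup (V ≃ₗ[F] V)}
  {U W : Type*} [AddCommGroup U] [Module F U] [AddCommGroup W] [Module F W] {σ : F →+* F}
  {B : V →ₛₗ[σ] V →ₗ[F] F} {γ : U →ₛₗ[σ] U →ₗ[F] F} {β : W →ₛₗ[σ] W →ₗ[F] F} {T T' T₁ : TS F U W V}

/-- The fixed field. -/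
abbrev FK (σ : F →+* F) : Subfield F := σ.eqLocusField (RingHom.id F)

theorem FK_fix (c : FK σ) : σ c = c := c.2

theorem sum_prod_trick {K X : Type*} [Field K] [Fintype K] (ι : K →+* F) (φ : K → X → F) [Fintype X] :
    ∑ x, ∑ a, ∑ b, φ (a * b) x = -∑ x, ∑ a, φ a x := by
  classical
  rw [← Finset.sum_neg_distrib]
  refine Finset.sum_congr rfl fun x _ => ?_
  have a0 : (Fintype.card K : F) = 0 := by rw [← map_natCast ι, FiniteField.cast_card_eq_zero, map_zero]
  rw [← Finset.add_sum_erase _ _ (Finset.mem_univ 0), Finset.sum_congr rfl (g := fun _ => ∑ b, φ b x) fun a ha =>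
    Equiv.sum_comp (Equiv.mulLeft₀ a (Finset.ne_of_mem_erase ha)) fun b => φ b x]
  simp [a0, Nat.cast_sub Fintype.card_pos]

variable [FiniteDimensional F U] [FiniteDimensional F W] [Nontrivial U] [Finite F] [Fintype (FK σ)] (hC : HC β)
  (h : CW B γ β M T) (h₁ : CW B γ β M T₁) {S : Finset (V →ₗ[F] Dual F V →ₗ[F] End F V)} (hS : ∀ ξ, ξ ∈ S ↔ NC M T T₁ ξ)
  {w : W} (hw : β w w = 0) (hw0 : w ≠ 0)
include hC h h₁ hS hw hw0

theorem CW.van_plane (h4 : 4 ≤ finrank F W) {r : ℕ} (l : (Fin (r + 2) → FK σ) →+ F)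
    (h1 : ∀ c, c 0 = 0 → c 1 = 0 → l c = 0 → c = 0) (h2 : KD (FK σ).subtype 1 l) (h3 : KD (FK σ).subtype 1 fun c => σ (l c))
    (h5 : 3 < (q0 σ - 1) * (r + 2)) (u : U) : (∑ ξ ∈ S, ξ) (T.t u w) = 0 := by
  classical
  have D := h.sd
  obtain ⟨w', hw'⟩ := D.exists_SP hw hw0
  obtain ⟨s, a1, a2, a3, a4⟩ := D.exists_iso_perp h4 hw (z' := w') (by simp [hw'.ef])
  have a5 := D.comm0 a3
  have a6 : s ∉ F ∙ w := fun e => by
    obtain ⟨c, rfl⟩ := Submodule.mem_span_singleton.mp e
    simp [hw'.ef, D.σ_eq_zero] at a4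
    simp [a4] at a1
  let n : (Fin (r + 2) → FK σ) → End F W := fun c =>
    (β w).smulRight ((c 0).1 • w + l c • s) + (β s).smulRight (σ (l c) • w + (c 1).1 • s)
  have b1 : ∀ c c' v, n c (n c' v) = 0 := fun c c' v => by simp [n, hw, a2, a3, a5]
  let a : (Fin (r + 2) → FK σ) → UG β := fun c => D.mkU (1 + n c) fun x y => by
    simp [n, hw, a2, a3, a5, FK_fix, D.invol, D.skew w x, D.skew s x]; ring
  have b2 : ∀ c v, (a c).1 v = v + n c v := fun _ _ => rfl
  have b3 : ∀ c, a c ∈ SUG β := fun c => mem_SUG_of_nilp ⟨2, LinearMap.ext fun v => by simp [sq, b2, b1]⟩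
  have b4 : KD (FK σ).subtype 1 n := by
    convert (((KD.coord 0 ((β w).smulRight w)).add (h2.smul (KD.const (d := 0) ((β w).smulRight s)))).add
      (h3.smul (KD.const (d := 0) ((β s).smulRight w)))).add (KD.coord 1 ((β s).smulRight s)) using 2 with c
    ext; simp [n, smul_smul, mul_comm, add_assoc]
  refine h.van hC h₁ hS a (fun c c' => UG_ext fun v => by
    rw [UG_mul_apply, b2, b2, b2, map_add, b1]; simp [n, add_smul]; abel) b3 (fun c => by simp [b2, n, hw, a3])
    (fun c c0 T' h' => h.ti_plane hC h' hw a2 a5 hw0 a6 (fun z hz => ?_) (b3 c)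
      (fun v => by rw [b2, add_assoc]; rfl) fun e => c0 ?_) id (fun _ => id) (d := 1) (ι := (FK σ).subtype)
    ((KD.const 1).add b4) ?_ (by rwa [← Nat.card_eq_fintype_card]) u
  · obtain ⟨x, y, rfl⟩ := Submodule.mem_span_pair.mp hz
    simp [hw, a2, a3, a5]
  · obtain ⟨χ, c1, c2⟩ := exists_dual_one_zero a6
    obtain ⟨χ', c3, c4⟩ := exists_dual_one_zero (notMem_span_symm a6 hw0)
    obtain ⟨s', c5, c6⟩ := D.exists_perp_one (F ∙ w) a6
    have c7 := DFunLike.congr_fun (congrArg Subtype.val e) w'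
    have c8 := DFunLike.congr_fun (congrArg Subtype.val e) s'
    have c9 := c5 w (Submodule.mem_span_singleton_self w)
    simp only [b2, OneMemClass.coe_one, LinearEquiv.coe_one, id, add_eq_left] at c7 c8
    exact h1 c (by simpa [n, c3, c4, hw'.ef, a4] using congrArg χ' c7) (by simpa [n, c1, c2, c6, c9] using congrArg χ c8)
      (by simpa [n, c1, c2, hw'.ef, a4] using congrArg χ c7)
  · convert (KD.const (d := 1) 1).sub b4 using 2 with c
    exact LinearMap.ext fun v => (a c).1.symm_apply_eq.mpr (by simp [b2, b1])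

theorem CW.van_root (h5 : 5 ≤ q0 σ) (u : U) : (∑ ξ ∈ S, ξ) (T.t u w) = 0 := by
  classical
  have D := h.sd
  have b1 : ∀ c : FK σ, (tv β w c).1.toLinearMap = 1 + c.1 • (β w).smulRight w := fun c => by
    ext; simp [tv_apply D hw (FK_fix c), smul_smul]
  refine h.van hC h₁ hS (C := Fin 1 → FK σ) (fun c => tv β w (c 0)) (fun c c' => (tv_mul D hw (FK_fix _) (FK_fix _)).symm)
    (fun _ => tv_mem_SUG D _ _) (fun c => tv_apply_of_perp D _ hw) (fun c c0 T' h' => h.ti_root hC h' hw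
      (φ := (c 0).1 • β w) (tv_apply D hw (FK_fix _)) (D.tv_ne_one hw hw0 (FK_fix _) fun e => c0 (funext fun i => by
        rw [Subsingleton.elim i 0]; exact Subtype.ext e))) id (fun _ => id) (d := 1) (ι := (FK σ).subtype) ?_ ?_
    (by rw [← Nat.card_eq_fintype_card]; change _ < (q0 σ - 1) * 1; omega) u
  · simpa [b1] using (KD.const 1).add (KD.coord (ι := (FK σ).subtype) 0 ((β w).smulRight w))
  · convert (KD.const (d := 1) 1).sub (KD.coord (ι := (FK σ).subtype) (0 : Fin 1) ((β w).smulRight w)) using 2 with c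
    exact LinearMap.ext fun v => (tv β w (c 0)).1.symm_apply_eq.mpr (by simp [tv_apply D hw (FK_fix _), hw, smul_smul])

theorem CW.van_three (hσ : σ ≠ RingHom.id F) (h3 : finrank F W = 3) (h5 : 3 ≤ q0 σ) (u : U) :
    (∑ ξ ∈ S, ξ) (T.t u w) = 0 := by
  classical
  have D := h.sd
  obtain ⟨w', hw'⟩ := D.exists_SP hw hw0
  obtain ⟨ε, hε⟩ : ∃ ε, σ ε ≠ ε := not_forall.mp fun e => hσ (RingHom.ext e)
  obtain ⟨s, hs, a1⟩ := finrank_eq_one_iff'.mp (show finrank F (spp β w w') = 1 by have := hw'.finrank_spp D; omega)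
  have a2 : β s s ≠ 0 := fun e => hs ((hw'.sd D).sep s fun s' => by obtain ⟨c, rfl⟩ := a1 s'; simp [e])
  obtain ⟨d, hd⟩ := D.trace s
  let Q : Subgroup (UG β) :=
    { carrier := {g | ∃ (l : F) (c : F), Adm β w (l • s) c ∧ g = rho β w (l • s) c}
      mul_mem' := by
        rintro _ _ ⟨l, c, b, rfl⟩ ⟨l', c', b', rfl⟩
        exact ⟨l + l', _, add_smul l l' s.1 ▸ b.add D b', by rw [rho_mul D b b', add_smul]⟩
      one_mem' := ⟨0, 0, by simpa using adm_zero hw (map_zero σ), by simp [rho_zero D]⟩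
      inv_mem' := by
        rintro _ ⟨l, c, b, rfl⟩
        exact ⟨-l, _, neg_smul l s.1 ▸ b.neg D, by rw [rho_inv D b, neg_smul]⟩ }
  have := Module.finite_of_finite F (M := W)
  have : Finite (W ≃ₗ[F] W) := Finite.of_injective _ (DFunLike.coe_injective (F := W ≃ₗ[F] W))
  have := Fintype.ofFinite Q
  have a3 : ∀ (l : F) (t : FK σ), Adm β w (l • s) (t + l * σ l * d) := fun l t =>
    ⟨hw, by simp [spp_left s], by simp [FK_fix, D.invol, ← hd]; ring⟩
  let π : FK σ → FK σ × FK σ → Additive Q := fun t x => .ofMul ⟨_, _, _, a3 (x.1 + x.2 * ε) t, rfl⟩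
  have a4 : Function.Bijective (fun x : (FK σ × FK σ) × FK σ => π x.2 x.1) := by
    refine ⟨fun ⟨⟨x, y⟩, t⟩ ⟨⟨x', y'⟩, t'⟩ e => ?_, fun ⟨_, l, c, b, e⟩ => ?_⟩
    · have b1 := DFunLike.congr_fun (congrArg (fun g : Additive Q => g.toMul.1.1) e) w'
      simp only [π, toMul_ofMul, rho_apply D (a3 _ _), hw'.ef] at b1
      have b2 := congrArg (β s) b1
      simp [D.spp_left', D.spp_right', a2] at b2
      have b3 := congrArg σ b2
      simp only [map_add, map_mul, FK_fix] at b3
      obtain rfl : y = y' := Subtype.ext (mul_right_cancel₀ (sub_ne_zero.mpr hε) (by linear_combination b3 - b2))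
      obtain rfl : x = x' := Subtype.ext (by simpa using b2)
      obtain rfl : t = t' := Subtype.ext (by simpa [hw0] using b1)
      rfl
    · have b1 := sub_ne_zero.mpr hε
      have b2 := sub_ne_zero.mpr hε.symm
      let y : FK σ := ⟨(σ l - l) / (σ ε - ε), show σ _ = (σ l - l) / _ by simp [D.invol]; field_simp; ring⟩
      let x : FK σ := ⟨l - y * ε, show σ _ = l - y * ε by rw [map_sub, map_mul, FK_fix]; simp [y]; field_simp; ring⟩
      refine ⟨⟨⟨x, y⟩, ⟨c - l * σ l * d, show σ _ = c - _ by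
        have := b.cc; simp [D.invol, ← hd] at this ⊢; linear_combination -this⟩⟩, Subtype.ext ?_⟩
      simp [π, x, e]; rfl
  let L : (Fin 4 → FK σ) → F := fun c => c 0 + c 1 * ε
  have k0 : ∀ i, KD (FK σ).subtype 1 fun c : Fin 4 → FK σ => (c i).1 := fun i => by
    simpa using KD.coord (ι := (FK σ).subtype) i (1 : F)
  have k1 : KD (FK σ).subtype 1 L := (k0 0).add ((k0 1).smul (KD.const (d := 0) ε))
  have k2 : KD (FK σ).subtype 1 fun c => σ (L c) := by
    simpa [L, FK_fix] using (k0 0).add ((k0 1).smul (KD.const (d := 0) (σ ε)))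
  have k3 : ∀ (z : F) (e : F), KD (FK σ).subtype 2 fun c : Fin 4 → FK σ => 1 + (z * L c) • (β w).smulRight s.1 +
      ((z * ((c 2).1 * (c 3).1) + L c * σ (L c) * e) • (β w).smulRight w + (z * σ (L c)) • (β s).smulRight w) :=
    fun z e => ((KD.const _).add ((((KD.const (d := 0) z).smul k1).smul (KD.const (d := 1) _)))).add
      (((((KD.const (d := 0) z).smul ((k0 2).smul (k0 3))).add ((k1.smul k2).smul (KD.const (d := 0) e))).smul
        (KD.const (d := 0) _)).add (((KD.const (d := 0) z).smul k2).smul (KD.const (d := 1) _)))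
  refine h.van hC h₁ hS (C := Additive Q) (fun c => c.toMul.1) (fun _ _ => rfl) (fun c => ?_) (fun c => ?_)
    (fun c c0 T' h' => ?_) (fun c : Fin 4 → FK σ => π (c 2 * c 3) (c 0, c 1)) (fun φ e => ?_) (d := 2)
    (ι := (FK σ).subtype) ?_ ?_ (by rw [← Nat.card_eq_fintype_card]; change _ < (q0 σ - 1) * 4; omega) u
  · obtain ⟨l, c, -, e⟩ := c.toMul.2
    exact e ▸ rho_mem_SUG D _ _ _
  · obtain ⟨l, c, -, e⟩ := c.toMul.2
    exact e ▸ rho_apply_self D _ _ _
  · obtain ⟨l, c', b, e⟩ := c.toMul.2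
    rw [e]
    by_cases e' : l = 0
    · exact h.ti_root hC h' hw (φ := c' • β w) (fun v => by rw [rho_apply D b]; simp [e']) fun e1 => c0 (Subtype.ext (e.trans e1))
    exact h.ti_rho hC h' b hw0 (by simp [a2, e', D.σ_eq_zero])
  · rw [← a4.sum_comp, Fintype.sum_prod_type, ← neg_eq_zero, ← sum_prod_trick (FK σ).subtype fun t x => φ (π t x), ← e]
    simp only [← Fintype.sum_prod_type']
    exact Fintype.sum_equiv ⟨fun x => ![x.1.1, x.1.2, x.2.1, x.2.2], fun c => ((c 0, c 1), c 2, c 3), fun _ => rfl,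
      fun c => funext fun i => by fin_cases i <;> rfl⟩ _ _ fun _ => rfl
  · convert k3 1 d using 2 with c
    refine LinearMap.ext fun v => (rho_apply D (a3 _ _) v).trans ?_
    simp [L]; module
  · convert k3 (-1) (-σ d) using 2 with c
    change ((rho β w _ _)⁻¹).1.toLinearMap = _
    rw [rho_inv D (a3 _ _)]
    refine LinearMap.ext fun v => (rho_apply D ((a3 _ _).neg D) v).trans ?_
    simp [L, FK_fix, D.invol]; module

omit h₁ hS hw hw0 [Fintype (FK σ)] in
theorem CW.rel (hq : σ ≠ RingHom.id F ∨ 3 ≤ q0 σ) (h' : CW B γ β M T') : T.Rel T' := by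
  have := Fintype.ofFinite (FK σ)
  have D := h.sd
  have : Nontrivial W := Module.nontrivial_of_finrank_pos (R := F) (by have := hC.two; omega)
  refine (ws_CW D hC).rel_of_sum (fun T h T₁ h₁ S hS => T.ext fun u => D.iso_induction' D.ns (.inr hC.two)
    (fun w hw => ?_) fun _ _ a b => by rw [map_add, map_add, a, b]; simp) h h'
  by_cases hw0 : w = 0
  · simp [hw0]
  have k0 : ∀ r i, KD (FK σ).subtype 1 fun c : Fin r → FK σ => (c i).1 := fun r i => by
    simpa using KD.coord (ι := (FK σ).subtype) i (1 : F)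
  rcases id hC with h4 | ⟨a, b, c⟩ | ⟨-, -, c, -⟩
  · rcases hq with a | a
    · obtain ⟨ε, hε⟩ : ∃ ε, σ ε ≠ ε := not_forall.mp fun e => a (RingHom.ext e)
      refine CW.van_plane hC h h₁ hS hw hw0 h4 (r := 2) (.mk' (fun c => c 2 + c 3 * ε) fun _ _ => by simp; ring)
        (fun c b1 b2 b3 => ?_) ((k0 _ 2).add ((k0 _ 3).smul (KD.const (d := 0) ε)))
        (by simpa [FK_fix] using (k0 _ 2).add ((k0 _ 3).smul (KD.const (d := 0) (σ ε)))) ?_ u
      · have b4 := congrArg σ b3
        simp only [AddMonoidHom.mk'_apply, map_add, map_mul, FK_fix, map_zero] at b3 b4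
        have b5 : c 3 = 0 := Subtype.ext (mul_right_cancel₀ (sub_ne_zero.mpr hε) (by
          rw [ZeroMemClass.coe_zero]; linear_combination b4 - b3))
        have b6 : c 2 = 0 := by simpa [b5] using b3
        exact funext fun i => by fin_cases i <;> assumption
      · have : 1 < q0 σ := Finite.one_lt_card (α := FK σ)
        omega
    · exact CW.van_plane hC h h₁ hS hw hw0 h4 (r := 1) (.mk' (fun c => c 2) fun _ _ => by simp)
        (fun c b1 b2 b3 => funext fun i => by fin_cases i; exacts [b1, b2, Subtype.ext b3]) (k0 _ 2)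
        (by simpa [FK_fix] using k0 3 2) (by omega) u
  · exact CW.van_three hC h h₁ hS hw hw0 a b c u
  · exact CW.van_root hC h h₁ hS hw hw0 c u

end Cfsg.Agent.H12
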