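import Mathlib
import Cfsg.Agent.H12.FtD

/-!
Subspaces of endomorphisms invariant under the special group of a tensor factor.
-/

set_option autoImplicit false

namespace Cfsg.Agent.H12

open Module

variable {F V : Type*} [Field F] [AddCommGroup V] [Module F V]
  {U W : Type*} [AddCommGroup U] [Module F U] [AddCommGroup W] [Module F W] {σ : F →+* F}

namespace TS
variable (T : TS F U W V) (β : W →ₛₗ[σ] W →ₗ[F] F)

/-- Rank one maps of the factor. -/
noncomputable def n (z y : W) : End F V := T.i ((β z).smulRight y)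

/-- Coefficients. -/
noncomputable def co (y z : W) (c : End F V) : End F V := T.j (T.r (β y) ∘ₗ c ∘ₗ T.t.flip z)

/-- The centraliser of the factor. -/
def Cm (c : End F V) : Prop := ∀ a, Commute c (T.i a)

/-- Invariance under the special group. -/
def Inv (X : Set (End F V)) : Prop := ∀ g ∈ SUG β, ∀ c ∈ X, (T.ie g.1).conjAlgEquiv F c ∈ X

variable {β}

theorem n_apply (z y : W) (v : V) : T.n β z y v = T.t (T.r (β z) v) y := T.i_rk ..

theorem n_mul (z y z' y' : W) : T.n β z y * T.n β z' y' = β z y' • T.n β z' y := by ext; simp [n_apply]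

theorem n_c_n (y y' z z' : W) (c : End F V) : T.n β y y' * c * T.n β z' z = T.co β y z c * T.n β z' y' := by
  ext; simp [n_apply, co]

theorem n_add_left (z z' y : W) : T.n β (z + z') y = T.n β z y + T.n β z' y := by ext; simp [n_apply]

theorem n_add_right (z y y' : W) : T.n β z (y + y') = T.n β z y + T.n β z y' := by ext; simp [n_apply]

theorem n_smul_left (c : F) (z y : W) : T.n β (c • z) y = σ c • T.n β z y := by ext; simp [n_apply]

theorem n_smul_right (c : F) (z y : W) : T.n β z (c • y) = c • T.n β z y := by ext; simp [n_apply]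

theorem co_cm (y z : W) (c : End F V) : T.Cm (T.co β y z c) := fun _ => T.comm_ij _ _

variable {T}

theorem Cm.n {c : End F V} (h : T.Cm c) (z y : W) : T.n β z y * c = c * T.n β z y := (h _).eq.symm

theorem Cm.mul {c c' : End F V} (h : T.Cm c) (h' : T.Cm c') : T.Cm (c * c') := fun a => (h a).mul_left (h' a)

theorem Cm.cj {c : End F V} (h : T.Cm c) (g : W ≃ₗ[F] W) : (T.ie g).conjAlgEquiv F c = c := LinearMap.ext fun v =>
  (LinearMap.congr_fun (h g).eq _).symm.trans (congrArg c ((T.ie g).apply_symm_apply v))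

theorem cj_n (g : UG β) (z y : W) : (T.ie g.1).conjAlgEquiv F (T.n β z y) = T.n β (g.1 z) (g.1 y) :=
  LinearMap.ext fun v => by
    obtain ⟨v, rfl⟩ := (T.ie g.1).surjective v
    simp [LinearEquiv.conjAlgEquiv_apply, n_apply, T.r_ie]

theorem cj_tv (D : SD β) {y : W} (hy : β y y = 0) {t : F} (ht : σ t = t) (c : End F V) :
    (T.ie (tv β y t).1).conjAlgEquiv F c = (1 + t • T.n β y y) * c * (1 - t • T.n β y y) := LinearMap.ext fun v => by
  have : (T.ie (tv β y t).1).symm v = v - t • T.n β y y v := (T.ie _).symm_apply_eq.mpr (by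
    simp [T.ie_tv D hy ht, n_apply, hy])
  simp [LinearEquiv.conjAlgEquiv_apply, this, T.ie_tv D hy ht, n_apply]

theorem co_comm {T' : TS F U W V} [Nontrivial W] [FiniteDimensional F W] (h : T'.CM T) {c : End F V} {a : End F W} (H : Commute c (T'.i a))
    (y z : W) : Commute (T.co β y z c) (T'.i a) := by
  obtain ⟨θ, hθ⟩ := TS.exists_j fun a' => h a a'
  rw [hθ] at H ⊢
  refine Commute.map (LinearMap.ext fun u => ?_) T.j
  simpa using congrArg (T.r (β y)) (LinearMap.congr_fun H.eq (T.t u z))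

theorem Cm.eq_zero [Nontrivial W] [FiniteDimensional F W] {c : End F V} (h : T.Cm c) {a : End F W} (ha : a ≠ 0)
    (H : c * T.i a = 0) : c = 0 := by
  obtain ⟨θ, rfl⟩ := TS.exists_j h
  obtain ⟨w, hw⟩ := DFunLike.ne_iff.mp ha
  rw [show θ = 0 from LinearMap.ext fun u => ten_left_inj T.h hw (by simpa using LinearMap.congr_fun H (T.t u w)),
    map_zero]

variable (D : SD β) {y z : W} {c ρ ρ' : End F V}
include D

section
variable {X : AddSubgroup (End F V)} (h : T.Inv β X)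
include h

theorem Inv.ex1 (hy : β y y = 0) (hz : β z z = 0) (hyz : β y z = 0) (hc : c ∈ X) :
    T.co β y z c * T.n β z y + T.co β z y c * T.n β y z ∈ X := by
  have a1 : ∀ y c, β y y = 0 → c ∈ X → T.n β y y * c - c * T.n β y y - T.n β y y * c * T.n β y y ∈ X :=
    fun y c hy hc => by
      convert sub_mem (h _ (tv_mem_SUG D y 1) c hc) hc using 1
      rw [cj_tv D hy (map_one σ), one_smul]; noncomm_ring
  convert neg_mem (a1 y _ hy (a1 z c hz hc)) using 1
  rw [← T.n_c_n, ← T.n_c_n]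
  simp [mul_sub, sub_mul, mul_assoc, T.n_mul, D.comm0 hyz]
  simp [← mul_assoc, T.n_mul, hyz, add_comm]

theorem Inv.ex2 [Finite F] (hq : 3 ≤ q0 σ) (hX : ∀ t, σ t = t → ∀ c ∈ X, t • c ∈ X) (hy : β y y = 0) (hc : c ∈ X) :
    T.co β y y c * T.n β y y ∈ X := by
  obtain ⟨t, a1, a2, a3⟩ := exists_fix_ne hq
  have a4 := sub_ne_zero.mpr a3
  convert hX (t - t * t)⁻¹ (by simp [a1]) _ (sub_mem (sub_mem (h _ (tv_mem_SUG D y t) c hc) hc)
    (hX t a1 _ (sub_mem (h _ (tv_mem_SUG D y 1) c hc) hc))) using 1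
  rw [cj_tv D hy (map_one σ), cj_tv D hy a1, eq_inv_smul_iff₀ (by
    rw [← mul_one_sub]; exact mul_ne_zero a2 (sub_ne_zero.mpr a3.symm)), ← T.n_c_n]
  simp only [mul_sub, add_mul, mul_one, one_mul, smul_mul_assoc, mul_smul_comm, one_smul]; module

end

variable [FiniteDimensional F W] [Finite F]

theorem cm_of_co (hC : HC β) (h1 : ∀ y, β y y = 0 → T.co β y y c = 0)
    (h2 : σ = RingHom.id F → ∀ y z, β y z = 0 → T.co β y z c = 0) : T.Cm c := by
  have : Nontrivial W := Module.nontrivial_of_finrank_pos (R := F) (by have := hC.two; omega)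
  have a0 : ∀ y z, T.co β y z c = 0 → ∀ u, T.r (β y) (c (T.t u z)) = 0 := fun y z e u => by
    obtain ⟨w, hw⟩ := exists_ne (0 : W)
    exact ten_left_inj T.h hw (by simpa [co] using LinearMap.congr_fun e (T.t u w))
  have a1 : ∀ e f w u, SP β e f → β e w = 0 → T.r (β e) (c (T.t u w)) = 0 ∧ T.r (β w) (c (T.t u e)) = 0 ∧
      T.r (β f) (c (T.t u e)) = -T.r (β e) (c (T.t u f)) := fun e f w u h hw => by
    have b0 := a0 _ _ (h1 e h.ee) u
    have b1 := a0 _ _ (h1 (e + f) (by simp [h.ee, h.ff, h.ef, h.fe D])) u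
    simp only [map_add, LinearMap.add_apply, b0, a0 _ _ (h1 f h.ff) u, zero_add, add_zero] at b1
    refine and_assoc.mp ⟨?_, eq_neg_of_add_eq_zero_left b1⟩
    by_cases hσ : σ = RingHom.id F
    · exact ⟨a0 _ _ (h2 hσ _ _ hw) u, a0 _ _ (h2 hσ _ _ (D.comm0 hw)) u⟩
    obtain ⟨ε, hε⟩ : ∃ ε, σ ε ≠ ε := not_forall.mp fun e => hσ (RingHom.ext e)
    have b2 : ∀ l : F, l • T.r (β e) (c (T.t u w)) + σ l • T.r (β w) (c (T.t u e)) = 0 := fun l => by
      obtain ⟨a, ha⟩ := D.exists_iso_add (x := f + l • w) h.ee (by simp [h.ef, hw])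
      generalize hx : f + l • w + a • e = x at ha
      have c1 := a0 _ _ (h1 (x + e) (by
        simp only [map_add, LinearMap.add_apply, ha, h.ee]; simp [← hx, h.ee, h.ef, h.fe D, hw, D.comm0 hw])) u
      simp only [map_add, LinearMap.add_apply, b0, a0 _ _ (h1 x ha) u] at c1
      simp only [← hx, map_add, LinearMap.add_apply, map_smul, LinearMap.map_smulₛₗ, LinearMap.smul_apply, b0] at c1
      linear_combination (norm := module) c1 - b1
    have b3 : T.r (β e) (c (T.t u w)) = 0 := (smul_eq_zero_iff_right (sub_ne_zero.mpr hε)).mp (by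
      have := b2 1
      rw [map_one] at this
      linear_combination (norm := module) σ ε • this - b2 ε)
    exact ⟨b3, by simpa [b3] using b2 1⟩
  intro a
  refine (D.adjoin_top D.ns hC.two (A := ((Subalgebra.centralizer F {c}).comap T.i).toSubmodule)
    (fun y z b1 b2 b3 b4 => ?_) a) c rfl
  obtain ⟨w, c1, c2, c3⟩ := D.exists_iso_ne₂ D.ns (.inr hC.two) b3 b4
  have c4 : ∀ y, β y y = 0 → y ≠ 0 → T.n β y y ∈ Subalgebra.centralizer F {c} := fun e he e0 _ d => d ▸ T.ext fun u x => by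
    obtain ⟨f, hf⟩ := D.exists_SP he e0
    obtain ⟨u', d1⟩ := T.eq_right D e0 (v := c (T.t u e)) fun w hw => (a1 e f w u hf (D.comm0 hw)).2.1
    have d2 := (a1 e f 0 u hf (by simp)).2.2
    have d3 := (a1 e f (x - β e x • f) u hf (by simp [hf.ef])).1
    rw [d1, T.r_t, hf.fe D] at d2
    simp only [map_sub, map_smul, sub_eq_zero] at d3
    simp [n_apply, d1, d3, show u' = _ by simpa using d2]
  have := Subalgebra.smul_mem _ (mul_mem (mul_mem (c4 y b1 b3) (c4 w c1 (by rintro rfl; simp at c2))) (c4 z b2 b4))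
    (β y w * β w z)⁻¹
  rwa [T.n_mul, smul_mul_assoc, T.n_mul, smul_smul, smul_smul, mul_assoc, inv_mul_cancel₀ (mul_ne_zero c2 (D.ne0 c3)),
    one_smul] at this

omit [Finite F] in
theorem _root_.Cfsg.Agent.H12.SD.partner₂ (hz : β z z = 0) (hyz : β y z = 0) (h0 : z ∉ F ∙ y) :
    ∃ z', β z' z' = 0 ∧ β z z' = 1 ∧ β y z' = 0 := by
  obtain ⟨s', a1, a2, a3⟩ := D.exists_partner (F ∙ y) hz h0 fun _ e => by
    obtain ⟨c, rfl⟩ := Submodule.mem_span_singleton.mp e; simp [hyz]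
  exact ⟨s', a1, a2, a3 y (Submodule.mem_span_singleton_self y)⟩

theorem _root_.Cfsg.Agent.H12.SD.exists_ti₂ (h4 : 4 ≤ finrank F W) (hy : β y y = 0) (h0 : y ≠ 0) :
    ∃ s, β s s = 0 ∧ β y s = 0 ∧ s ∉ F ∙ y := by
  obtain ⟨w', hw'⟩ := D.exists_SP hy h0
  obtain ⟨s, a1, a2, a3, a4⟩ := D.exists_iso_perp h4 hy (z' := w') (by simp [hw'.ef])
  refine ⟨s, a2, D.comm0 a3, fun e => ?_⟩
  obtain ⟨c, rfl⟩ := Submodule.mem_span_singleton.mp e
  simp [hw'.ef, D.σ_eq_zero] at a4
  simp [a4] at a1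

theorem exists_ex (hC : HC β) (h : ¬ T.Cm c) :
    (4 ≤ finrank F W ∧ ∃ y z, β y y = 0 ∧ β z z = 0 ∧ β y z = 0 ∧ y ≠ 0 ∧ z ∉ F ∙ y ∧ T.co β y z c ≠ 0) ∨
      (3 ≤ q0 σ ∧ ∃ y, β y y = 0 ∧ T.co β y y c ≠ 0) := by
  by_contra! e
  have a0 : ∀ z, T.co β 0 z c = 0 := fun z => by simp [co]
  have a1 : ∀ y, β y y = 0 → T.co β y y c = 0 := fun y hy => by
    by_cases h4 : 4 ≤ finrank F W
    · by_cases h0 : y = 0
      · rw [h0, a0]
      obtain ⟨s, b1, b2, b3⟩ := D.exists_ti₂ h4 hy h0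
      have := e.1 h4 y (y + s) hy (by simp [hy, b1, b2, D.comm0 b2]) (by simp [hy, b2]) h0 fun d =>
        b3 (by simpa using sub_mem d (Submodule.mem_span_singleton_self y))
      rw [← this, ← add_zero (T.co β y y c), ← e.1 h4 y s hy b1 b2 h0 b3]; simp [co, LinearMap.comp_add]
    · exact e.2 (by rcases hC with h | h | h <;> omega) y hy
  refine h (cm_of_co D hC a1 fun hσ y z hyz => ?_)
  by_cases h0 : y = 0
  · rw [h0, a0]
  by_cases h1 : z ∈ F ∙ y
  · obtain ⟨d, rfl⟩ := Submodule.mem_span_singleton.mp h1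
    rw [← smul_zero d, ← a1 y (D.self_eq_zero hσ y)]; simp [co, LinearMap.comp_smul]
  refine e.1 ?_ y z (D.self_eq_zero hσ y) (D.self_eq_zero hσ z) hyz h0 h1
  rcases hC with h | h | h
  · exact h
  · exact absurd hσ h.1
  obtain ⟨f, hf⟩ := D.exists_SP (D.self_eq_zero hσ y) h0
  obtain ⟨a, w, rfl⟩ := hf.exists_eq_of_perp D hyz
  have : finrank F (spp β y f) = 0 := by have := hf.finrank_spp D; omega
  rw [finrank_zero_iff_forall_zero.mp this w] at h1
  exact absurd (by simp [Submodule.mem_span_singleton]) h1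

variable {E : Submodule F (End F V)} (h : T.Inv β E)
include h

omit D [FiniteDimensional F W] [Finite F] in
theorem Inv.mv (h1 : T.Cm ρ) (h2 : T.Cm ρ') {y' z' : W} (H : ρ * T.n β z y + ρ' * T.n β y z ∈ E) {g : UG β}
    (hg : g ∈ SUG β) (e : g.1 y = y') (e' : g.1 z = z') : ρ * T.n β z' y' + ρ' * T.n β y' z' ∈ E := by
  simpa [h1.cj, h2.cj, cj_n, e, e'] using h g hg _ H

theorem Inv.mvN (hC : HC β) (h1 : T.Cm ρ) (hy : β y y = 0) (h0 : y ≠ 0) (H : ρ * T.n β y y ∈ E) (hz : β z z = 0) :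
    ρ * T.n β z z ∈ E := by
  by_cases e : z = 0
  · simp [e, n]
  obtain ⟨g, a1, a2⟩ := D.erel D.ns hC.three hy h0 hz e
  simpa [h1.cj, cj_n, a2] using h g (D.EG_le_SUG a1) _ H

omit [Finite F] in
theorem Inv.mvA (h1 : T.Cm ρ) (h2 : T.Cm ρ') (hy : β y y = 0) (hz : β z z = 0) (hyz : β y z = 0) (h0 : z ∉ F ∙ y)
    (H : ρ * T.n β z y + ρ' * T.n β y z ∈ E) (l : F) : (σ l • ρ + l • ρ') * T.n β y y ∈ E := by
  obtain ⟨z', a1, a2, a3⟩ := D.partner₂ hz hyz h0
  have a4 : Adm β y (-σ l • z') 0 := ⟨hy, by simp [a3], by simp [a1]⟩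
  convert sub_mem (h.mv h1 h2 H (rho_mem_SUG D y (-σ l • z') 0) (rho_apply_self D ..) (z' := z + l • y) (by
    rw [rho_apply D a4]; simp [hyz, D.invol, D.skew z z', a2])) H using 1
  simp [n_add_left, n_add_right, n_smul_left, n_smul_right, mul_add, add_mul]; abel

variable (hE : ∀ a ∈ E, ∀ b ∈ E, a * b ∈ E)
include hE

theorem Inv.prodNN (hC : HC β) (h1 : T.Cm ρ) (h2 : T.Cm ρ') (H : ∀ y, β y y = 0 → ρ * T.n β y y ∈ E)
    (H' : ∀ y, β y y = 0 → ρ' * T.n β y y ∈ E) (a : End F W) : ρ * ρ' * T.i a ∈ E := by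
  refine D.adjoin_top D.ns hC.two (A := E.comap (LinearMap.mulLeft F (ρ * ρ') ∘ₗ T.i.toLinearMap))
    (fun y z b1 _ b3 _ => ?_) a
  have a1 : ∀ w, β w w = 0 → β y w ≠ 0 → ρ * ρ' * T.n β w y ∈ E := fun w c1 c2 => by
    have := hE _ (H y b1) _ (H' w c1)
    rwa [mul_assoc, ← mul_assoc _ ρ', h2.n, mul_assoc, T.n_mul, ← mul_assoc, mul_smul_comm, E.smul_mem_iff c2] at this
  let A : AddSubgroup W :=
    { carrier := {w | ρ * ρ' * T.n β w y ∈ E}
      add_mem' := fun a b => by simpa [n_add_left, mul_add] using add_mem a b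
      zero_mem' := by simp [n]
      neg_mem' := fun {w} a => by
        rw [Set.mem_ofPred_eq, ← neg_one_smul F w, n_smul_left]; simpa using a }
  refine D.iso_gen b1 b3 (A := A) (fun d => ?_) a1 z
  obtain ⟨f, hf⟩ := D.exists_SP b1 b3
  have := E.smul_mem (σ d) (sub_mem
    (a1 (f + y) (by simp [hf.ee, hf.ff, hf.ef, hf.fe D]) (by simp [hf.ee, hf.ef])) (a1 f hf.ff (by simp [hf.ef])))
  change _ * T.n β (d • y) y ∈ E
  simpa [n_smul_left, n_add_left, mul_add] using this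

end TS

end Cfsg.Agent.H12
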