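import Mathlib
import Cfsg.Agent.H12.FtE

/-!
Invariant subalgebras for tensor powers carrying forms.
-/

set_option autoImplicit false

namespace Cfsg.Agent.H12

open Module

variable {F V : Type*} [Field F] [AddCommGroup V] [Module F V]
  {U W : Type*} [AddCommGroup U] [Module F U] [AddCommGroup W] [Module F W] {σ : F →+* F} {κ : Type*}

namespace TS
variable (T : TS F U W V) (β : W →ₛₗ[σ] W →ₗ[F] F) (E : Submodule F (End F V))

/-- The centraliser of the factor as a subspace. -/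
def CmS : Subalgebra F (End F V) := Subalgebra.centralizer F (Set.range T.i)

theorem mem_CmS {c : End F V} : c ∈ T.CmS ↔ T.Cm c :=
  ⟨fun h a => (h _ ⟨a, rfl⟩).symm, by rintro h _ ⟨a, rfl⟩; exact (h a).symm⟩

/-- Coefficients of long roots. -/
def Em : Submodule F (End F V) where
  carrier := {ρ | T.Cm ρ ∧ ∀ y, β y y = 0 → ρ * T.n β y y ∈ E}
  add_mem' a b := ⟨fun c => (a.1 c).add_left (b.1 c), fun y h => add_mul _ _ (T.n β y y) ▸ add_mem (a.2 y h) (b.2 y h)⟩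
  zero_mem' := ⟨fun _ => Commute.zero_left _, by simp⟩
  smul_mem' c _ a := ⟨fun b => (a.1 b).smul_left c, fun y h => by simpa using E.smul_mem c (a.2 y h)⟩

/-- Coefficients of self-adjoint roots. -/
def Xm : Submodule F (End F V) where
  carrier := {ρ | T.Cm ρ ∧ ∀ y z, β y y = 0 → β z z = 0 → β y z = 0 → ρ * (T.n β z y - T.n β y z) ∈ E}
  add_mem' a b := ⟨fun c => (a.1 c).add_left (b.1 c), fun y z h h' h'' =>
    add_mul _ _ (T.n β z y - T.n β y z) ▸ add_mem (a.2 y z h h' h'') (b.2 y z h h' h'')⟩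
  zero_mem' := ⟨fun _ => Commute.zero_left _, by simp⟩
  smul_mem' c _ a := ⟨fun b => (a.1 b).smul_left c, fun y z h h' h'' => by simpa using E.smul_mem c (a.2 y z h h' h'')⟩

variable {T β E} {T' : TS F U W V}

theorem Cm.cj' {c : End F V} (h : T.Cm c) {g : V ≃ₗ[F] V} (hg : T.Cm g) : T.Cm (g.conjAlgEquiv F c) := fun a => by
  have : g.conjAlgEquiv F (T.i a) = T.i a := LinearMap.ext fun v =>
    (LinearMap.congr_fun (hg a).eq _).trans (congrArg (T.i a) (g.apply_symm_apply v))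
  exact this ▸ (h a).map _

theorem Cm.cj_mul {g : V ≃ₗ[F] V} (hg : T.Cm g) (c : End F V) (a : End F W) :
    g.conjAlgEquiv F (c * T.i a) = g.conjAlgEquiv F c * T.i a := by
  rw [map_mul]; congr 1
  exact LinearMap.ext fun v => (LinearMap.congr_fun (hg a).eq _).trans (congrArg (T.i a) (g.apply_symm_apply v))

variable [FiniteDimensional F W] [Finite F] (D : SD β) (hC : HC β) (h3 : 3 ≤ finrank F W) (h : T.Inv β E)
include D hC h3 h

theorem Inv.exists_mem {c : End F V} (hc : c ∈ E) (H : ¬ T.Cm c) {S : Submodule F (End F V)}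
    (hS : ∀ y z, T.co β y z c ∈ S) : ∃ ρ ∈ S, ρ ≠ 0 ∧ ρ ∈ T.Em β E ⊔ T.Xm β E := by
  have a0 : ∀ ρ y, T.Cm ρ → β y y = 0 → y ≠ 0 → ρ * T.n β y y ∈ E → ρ ∈ T.Em β E ⊔ T.Xm β E := fun ρ y b1 b2 b3 b4 =>
    Submodule.mem_sup_left ⟨b1, fun z hz => h.mvN D hC b1 b2 b3 b4 hz⟩
  rcases exists_ex D hC H with ⟨h4, y, z, a1, a2, a3, a4, a5, a6⟩ | ⟨hq, y, a1, a2⟩
  · have a7 := Inv.ex1 (X := E.toAddSubgroup) D h a1 a2 a3 hc
    have a8 := h.mvA D (T.co_cm _ _ _) (T.co_cm _ _ _) a1 a2 a3 a5 a7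
    by_cases hσ : σ = RingHom.id F
    · by_cases e : T.co β y z c + T.co β z y c = 0
      · refine ⟨_, hS y z, a6, Submodule.mem_sup_right ⟨T.co_cm _ _ _, fun y' z' b1 b2 b3 => ?_⟩⟩
        by_cases e1 : y' = 0
        · simp [e1, n]
        by_cases e2 : z' ∈ F ∙ y'
        · obtain ⟨d, rfl⟩ := Submodule.mem_span_singleton.mp e2
          simp [n_smul_left, n_smul_right, hσ]
        have li : ∀ {y z : W}, y ≠ 0 → z ∉ F ∙ y → LinearIndependent F ![y, z] := fun a b =>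
          (LinearIndependent.pair_iff' a).mpr fun d e => b (e ▸ Submodule.smul_mem _ _ (Submodule.mem_span_singleton_self _))
        obtain ⟨g, c1, c2, c3⟩ := D.witt_SUG_two (li a4 a5) (li e1 e2) (b1.trans a1.symm) (b3.trans a3.symm)
          (b2.trans a2.symm) (.inl hσ)
        simpa [eq_neg_of_add_eq_zero_right e, mul_add, sub_eq_add_neg] using
          h.mv (T.co_cm _ _ _) (T.co_cm _ _ _) a7 c1 c2 c3
      · exact ⟨_, add_mem (hS y z) (hS z y), e, a0 _ y (fun a => (T.co_cm _ _ _ a).add_left (T.co_cm _ _ _ a)) a1 a4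
          (by simpa using a8 1)⟩
    obtain ⟨ε, hε⟩ : ∃ ε, σ ε ≠ ε := not_forall.mp fun e => hσ (RingHom.ext e)
    refine ⟨_, hS y z, a6, a0 _ y (T.co_cm _ _ _) a1 a4 ((E.smul_mem_iff (sub_ne_zero.mpr hε)).mp ?_)⟩
    convert sub_mem (a8 ε) (E.smul_mem ε (a8 1)) using 1
    simp [add_mul, sub_smul]
  · exact ⟨_, hS y y, a2, a0 _ y (T.co_cm _ _ _) a1 (by rintro rfl; simp [co] at a2)
      (Inv.ex2 (X := E.toAddSubgroup) D h hq (fun t _ _ => E.smul_mem t) a1 hc)⟩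

theorem Inv.mul_mem (hE : ∀ a ∈ E, ∀ b ∈ E, a * b ∈ E) {ρ ρ' : End F V} (H : ρ ∈ T.Em β E ⊔ T.Xm β E)
    (H' : ρ' ∈ T.Em β E ⊔ T.Xm β E) : ρ * ρ' ∈ T.Em β E := by
  have a0 : ∀ ρ ∈ T.Em β E, ∀ ρ' ∈ T.Em β E, ρ * ρ' ∈ T.Em β E := fun ρ a ρ' b =>
    ⟨a.1.mul b.1, fun y _ => h.prodNN D hE hC a.1 b.1 a.2 b.2 _⟩
  by_cases h4 : 4 ≤ finrank F W
  · obtain ⟨a, ha, b, hb, rfl⟩ := Submodule.mem_sup.mp H
    obtain ⟨a', ha', b', hb', rfl⟩ := Submodule.mem_sup.mp H'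
    obtain ⟨y, y0, hy⟩ := D.exists_iso D.ns hC.two
    obtain ⟨z, b1, b2, b3⟩ := D.exists_ti₂ h4 hy y0
    obtain ⟨z', b4, b5, b6⟩ := D.partner₂ b1 b2 b3
    have b7 : z' ∉ F ∙ y := fun e => by
      obtain ⟨d, rfl⟩ := Submodule.mem_span_singleton.mp e
      simp [D.comm0 b2] at b5
    have b8 : β z' z = -1 := by rw [D.skew, b5, map_one]
    have a1 : ∀ {ρ ρ' : End F V} (n n' : End F W), T.Cm ρ' → ρ * T.i n * (ρ' * T.i n') = ρ * ρ' * (T.i n * T.i n') :=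
      fun n n' e => by rw [mul_assoc, ← mul_assoc (T.i n), ← (e n).eq]; simp only [mul_assoc]
    have a2 : ∀ z y, T.n β z y - T.n β y z = T.i ((β z).smulRight y - (β y).smulRight z) := fun _ _ => (map_sub ..).symm
    rw [add_mul, mul_add, mul_add]
    refine add_mem (add_mem (a0 a ha a' ha') ⟨ha.1.mul hb'.1, fun _ => h.mvN D hC (ha.1.mul hb'.1) hy y0 ?_⟩)
      (add_mem ⟨hb.1.mul ha'.1, fun _ => h.mvN D hC (hb.1.mul ha'.1) hy y0 ?_⟩
        ⟨hb.1.mul hb'.1, fun _ => h.mvN D hC (hb.1.mul hb'.1) hy y0 ?_⟩)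
    · have := hE _ (ha.2 z' b4) _ (hb'.2 y z hy b1 b2)
      rw [a2, n, a1 _ _ hb'.1, ← a2, ← n, mul_sub, n_mul, n_mul, D.comm0 b6, b8] at this
      simpa using h.mvA D (ρ := 0) (fun _ => Commute.zero_left _) (ha.1.mul hb'.1) hy b4 b6 b7 (by simpa using this) 1
    · have := hE _ (hb.2 y z hy b1 b2) _ (ha'.2 z' b4)
      rw [a2, n, a1 _ _ ha'.1, ← a2, ← n, sub_mul, n_mul, n_mul, b6, b5] at this
      simpa using h.mvA D (ρ' := 0) (hb.1.mul ha'.1) (fun _ => Commute.zero_left _) hy b4 b6 b7 (by simpa using this) 1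
    · have := hE _ (hb.2 y z hy b1 b2) _ (hb'.2 y z' hy b4 b6)
      rw [a2, a2, a1 _ _ hb'.1, ← a2, ← a2] at this
      simpa [mul_sub, sub_mul, n_mul, hy, b5, b6, D.comm0 b2] using neg_mem this
  · have hσ : σ ≠ RingHom.id F := by rcases hC with h | h | h; exacts [absurd h h4, h.1, by omega]
    obtain ⟨ε, hε⟩ : ∃ ε, σ ε ≠ ε := not_forall.mp fun e => hσ (RingHom.ext e)
    have a1 : T.Em β E ⊔ T.Xm β E ≤ T.Em β E := sup_le le_rfl fun ρ a => ⟨a.1, fun y hy =>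
      (E.smul_mem_iff (sub_ne_zero.mpr hε)).mp (by
        simpa [n_smul_left, n_smul_right, ← sub_smul] using a.2 y (ε • y) hy (by simp [hy]) (by simp [hy]))⟩
    exact a0 _ (a1 H) _ (a1 H')

end TS

theorem Wr.nuf [DecidableEq κ] [FiniteDimensional F U] [FiniteDimensional F W] [Finite F] {β : W →ₛₗ[σ] W →ₗ[F] F}
    (D : SD β) (hC : HC β) (h3 : 3 ≤ finrank F W) {T : κ → TS F U W V} (h : Wr T) (J : Finset κ)
    (E : Submodule F (End F V)) (h1 : ∀ a ∈ E, ∀ b ∈ E, a * b ∈ E) (h2 : ∀ l ∉ J, ∀ c ∈ E, (T l).Cm c)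
    (h4 : ∀ l ∈ J, (T l).Inv β E) {j : κ} {c : End F V} (hc : c ∈ E) (h5 : ¬ (T j).Cm c) (a : End F W) :
    (T j).i a ∈ E := by
  induction hJ : J.card using Nat.strong_induction_on generalizing J E j c a with | h n ih => ?_
  have : Nontrivial W := Module.nontrivial_of_finrank_pos (R := F) (by omega)
  have hj : j ∈ J := by_contra fun e => h5 (h2 j e c hc)
  let S : Submodule F (End F V) := ⨅ l : {l // l ∉ J.erase j}, (T l).CmS.toSubmodule
  have a0 : ∀ ρ, ρ ∈ S ↔ ∀ l ∉ J.erase j, (T l).Cm ρ := fun ρ => by simp [S, TS.mem_CmS]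
  obtain ⟨ρ, b1, b2, b3⟩ := (h4 j hj).exists_mem D hC h3 hc h5 (S := S) fun y z => (a0 _).mpr fun l hl => by
    by_cases e : l = j
    · rw [e]; exact (T j).co_cm _ _ _
    exact fun a => TS.co_comm (h.cm l j e) (h2 l (fun d => hl (Finset.mem_erase.mpr ⟨e, d⟩)) c hc a) y z
  have a5 : (1 : End F V) ∈ S ⊓ ((T j).Em β E ⊔ (T j).Xm β E) := by
    by_cases e : ∀ l, (T l).Cm ρ
    · obtain ⟨d, rfl⟩ := h.cen e
      exact (Submodule.smul_mem_iff _ (left_ne_zero_of_smul b2)).mp ⟨b1, b3⟩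
    obtain ⟨l, hl⟩ := not_forall.mp e
    refine map_one (T l).i ▸ ih _ (hJ ▸ Finset.card_erase_lt_of_mem hj) (J.erase j)
      (S ⊓ ((T j).Em β E ⊔ (T j).Xm β E)) (fun a ha b hb => ⟨(a0 _).mpr fun l hl => ((a0 _).mp ha.1 l hl).mul ((a0 _).mp hb.1 l hl),
        Submodule.mem_sup_left ((h4 j hj).mul_mem D hC h3 h1 ha.2 hb.2)⟩) (fun l hl c hc => (a0 c).mp hc.1 l hl)
      (fun l hl g hg c hc => ⟨(a0 _).mpr fun l' hl' => ((a0 c).mp hc.1 l' hl').cj' fun a =>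
        h.cm l l' (by rintro rfl; exact hl' hl) _ a, ?_⟩) ⟨b1, b3⟩ hl 1 rfl
    have c1 : (T j).Cm ((T l).ie g.1) := fun a => h.cm l j (Finset.ne_of_mem_erase hl) _ a
    have c2 := h4 l (Finset.mem_of_mem_erase hl) g hg
    obtain ⟨x, hx, x', hx', rfl⟩ := Submodule.mem_sup.mp hc.2
    rw [map_add]
    exact Submodule.add_mem_sup ⟨hx.1.cj' c1, fun y hy => c1.cj_mul x _ ▸ c2 _ (hx.2 y hy)⟩
      ⟨hx'.1.cj' c1, fun y z d1 d2 d3 => by
        have := c2 _ (hx'.2 y z d1 d2 d3)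
        rwa [mul_sub, map_sub, TS.n, TS.n, c1.cj_mul, c1.cj_mul, ← mul_sub] at this⟩
  have a6 := (h4 j hj).mul_mem D hC h3 h1 a5.2 a5.2
  simpa using (h4 j hj).prodNN D h1 hC a6.1 a6.1 a6.2 a6.2 a

end Cfsg.Agent.H12
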