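import Mathlib
import Cfsg.Agent.H12.FtF

/-!
The unipotent radicals attached to a tensor factor carrying a skew form.
-/

set_option autoImplicit false

namespace Cfsg.Agent.H12

open Module

variable {F V : Type*} [Field F] [AddCommGroup V] [Module F V] {M : Subgroup (V ≃ₗ[F] V)}
  {U W : Type*} [AddCommGroup U] [Module F U] [AddCommGroup W] [Module F W] {σ : F →+* F}
  {B : V →ₛₗ[σ] V →ₗ[F] F} {γ : U →ₛₗ[σ] U →ₗ[F] F} {β : W →ₛₗ[σ] W →ₗ[F] F} {T T' : TS F U W V}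

namespace TS
variable (T β M)

theorem Cm.sq {T : TS F U W V} {c' : End F V} (h : T.Cm c') {y : W} (hy : β y y = 0) (v : V) :
    T.n β y y (c' (T.n β y y v)) = 0 := by
  rw [← End.mul_apply, h.n]; simp [n_apply, hy]

/-- Coefficients of long root elements. -/
def JJ : AddSubgroup (End F V) where
  carrier := {c | T.Cm c ∧ ∀ y, β y y = 0 → ∀ t, σ t = t → EN M (t • c * T.n β y y)}
  add_mem' a b := ⟨fun c => (a.1 c).add_left (b.1 c), fun y h t ht => by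
    simpa [add_mul] using (a.2 y h t ht).add (b.2 y h t ht) fun v => by simp [b.1.sq β h v]⟩
  zero_mem' := ⟨fun _ => Commute.zero_left _, by simp [EN.zero]⟩
  neg_mem' a := ⟨fun b => (a.1 b).neg_left, fun y h t ht => by simpa using a.2 y h (-t) (by simp [ht])⟩

variable {β} in
/-- Coefficients of short root elements. -/
def BB (D : SD β) : Submodule F (End F V) where
  carrier := {c | T.Cm c ∧ ∀ y s, β y y = 0 → β y s = 0 →
    ∃ k ∈ M, (∀ u, k (T.t u y) = T.t u y) ∧ ∀ v, T.r (β y) v = 0 → k v = v + c (T.n β s y v)}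
  add_mem' {c c'} a b := ⟨fun c => (a.1 c).add_left (b.1 c), fun y s h h' => by
    obtain ⟨k, a1, a2, a3⟩ := a.2 y s h h'
    obtain ⟨k', b1, b2, b3⟩ := b.2 y s h h'
    refine ⟨k * k', mul_mem a1 b1, fun u => by simp [a2, b2], fun v hv => ?_⟩
    rw [LinearEquiv.mul_apply, b3 v hv, map_add, a3 v hv, LinearMap.add_apply, add_assoc, ← End.mul_apply c', ← b.1.n,
      End.mul_apply, n_apply T s y (c' v), a2]⟩
  zero_mem' := ⟨fun _ => Commute.zero_left _, fun _ _ _ _ => ⟨1, one_mem _, by simp⟩⟩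
  smul_mem' d c a := ⟨fun b => (a.1 b).smul_left d, fun y s h h' => by
    simpa [n_smul_left, D.invol] using a.2 y (σ d • s) h (by simp [h'])⟩

variable {β} in
/-- The multipliers of the short root coefficients. -/
def AL (D : SD β) : Subalgebra F (End F V) where
  carrier := {c | T.Cm c ∧ ∀ c' ∈ T.BB M D, c * c' ∈ T.BB M D}
  add_mem' a b := ⟨fun c => (a.1 c).add_left (b.1 c), fun c' h => add_mul _ _ c' ▸ add_mem (a.2 c' h) (b.2 c' h)⟩
  mul_mem' a b := ⟨a.1.mul b.1, fun c' h => mul_assoc _ _ c' ▸ a.2 _ (b.2 c' h)⟩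
  algebraMap_mem' d := ⟨fun a => Algebra.commutes d _, fun c' h => Algebra.smul_def d c' ▸ Submodule.smul_mem _ d h⟩

variable {T β M} {g : V ≃ₗ[F] V} {c : End F V}

theorem jj_act (hg : g ∈ M) (H : ∀ a, (T.act g).i a = T'.i a) (hc : c ∈ T.JJ M β) : g.conjAlgEquiv F c ∈ T'.JJ M β := by
  have a1 : ∀ a, T'.i a = g.conjAlgEquiv F (T.i a) := fun a => LinearMap.ext fun v => by rw [← H, act_i]; rfl
  exact ⟨fun a => a1 a ▸ (hc.1 a).map _, fun y h t ht => (hc.2 y h t ht).conj hg fun v => by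
    simp [n, a1, LinearEquiv.conjAlgEquiv_apply]⟩

theorem Cm.act (h : T.Cm g) (a : End F W) : (T.act g).i a = T.i a := LinearMap.ext fun v => by
  rw [act_i]; exact (LinearMap.congr_fun (h a).eq _).trans (congrArg (T.i a) (g.apply_symm_apply v))

theorem Cm.inv (h : T.Cm g) : T.Cm g.symm := fun a => LinearMap.ext fun v => g.symm_apply_eq.mpr
  ((congrArg (T.i a) (g.apply_symm_apply v)).symm.trans (LinearMap.congr_fun (h a).eq _).symm)

variable [FiniteDimensional F W] [Nontrivial W] {D : SD β}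

theorem bb_conj (hg : g ∈ M) (h : T.Cm g) (hc : c ∈ T.BB M D) : g.conjAlgEquiv F c ∈ T.BB M D :=
  ⟨hc.1.cj' h, fun y s a b => by
    obtain ⟨k, a1, a2, a3⟩ := hc.2 y s a b
    obtain ⟨θ, hθ⟩ := TS.exists_j h.inv
    replace hθ : ∀ v, g.symm v = T.j θ v := LinearMap.congr_fun hθ
    refine ⟨g * k * g⁻¹, mul_mem (mul_mem hg a1) (inv_mem hg), fun u => ?_, fun v hv => ?_⟩
    · exact g.eq_symm_apply.mp (by simp [hθ, a2])
    · simp only [LinearEquiv.mul_apply, LinearEquiv.coe_inv]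
      rw [a3 _ (by simp [hθ, hv])]
      simp [LinearEquiv.conjAlgEquiv_apply, hθ, n_apply]
      simp [← hθ]⟩

theorem al_conj (hg : g ∈ M) (h : T.Cm g) (hc : c ∈ T.AL M D) : g.conjAlgEquiv F c ∈ T.AL M D :=
  ⟨hc.1.cj' h, fun c' h' => by
    convert bb_conj hg h (hc.2 _ (bb_conj (g := g.symm) (inv_mem hg) h.inv h')) using 1
    ext; simp [LinearEquiv.conjAlgEquiv_apply]⟩

end TS

theorem exists_half (h : σ ≠ RingHom.id F ∨ (2 : F) ≠ 0) (hσ : ∀ a, σ (σ a) = a) : ∃ d, d + σ d = 1 := by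
  by_cases h2 : (2 : F) = 0
  · obtain ⟨ε, hε⟩ : ∃ ε, σ ε ≠ ε := not_forall.mp fun e => h.resolve_right (not_not.mpr h2) (RingHom.ext e)
    have : ε + σ ε ≠ 0 := fun e => hε (by linear_combination e - ε * h2)
    exact ⟨ε / (ε + σ ε), by simp [hσ, add_comm (σ ε)]; field_simp⟩
  · exact ⟨2⁻¹, by simp [map_ofNat]; field_simp; norm_num⟩

variable [FiniteDimensional F W] [Nontrivial W]

namespace FT
variable (h : FT B γ β M T) {c : End F V}
include h

omit [FiniteDimensional F W] [Nontrivial W] in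
theorem one_jj : 1 ∈ T.JJ M β := ⟨fun _ => Commute.one_left _, fun y a t ht =>
  ⟨_, h.tv_mem y t, fun v => by simp [T.ie_tv h.sd a ht, TS.n_apply]⟩⟩

omit [Nontrivial W] in
theorem jj_of [Finite F] (hC : HC β) (h2 : σ ≠ RingHom.id F ∨ (2 : F) ≠ 0) (hc : T.Cm c) {z : W} (hz : β z z = 0)
    (h0 : z ≠ 0) (H : EN M (c * T.n β z z)) : c ∈ T.JJ M β := by
  have D := h.sd
  have a1 : ∀ y, β y y = 0 → EN M (c * T.n β y y) := fun y hy => by
    by_cases e : y = 0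
    · simpa [e, TS.n] using EN.zero
    obtain ⟨g, a1, rfl⟩ := D.erel D.ns hC.three hz h0 hy e
    refine H.conj (h.rt g (D.EG_le_SUG a1)) fun v => ?_
    rw [← TS.cj_n, ← hc.cj g.1, ← map_mul]; simp [LinearEquiv.conjAlgEquiv_apply, hc.cj]
  have a2 : ∀ (x : F) y, β y y = 0 → EN M ((σ x * x) • c * T.n β y y) := fun x y hy => by
    simpa [TS.n_smul_left, TS.n_smul_right, smul_smul, mul_comm] using a1 (x • y) (by simp [hy])
  refine ⟨hc, fun y hy t ht => ?_⟩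
  rcases D.ns with rfl | e
  · have := h2.resolve_left (not_not.mpr rfl)
    have b : ∀ (x x' : F) v, (x • c * T.n β y y) ((x' • c * T.n β y y) v) = 0 := fun x x' v => by
      simp [hc.sq β hy v]
    convert (a2 ((t + 1) / 2) y hy).add ((a2 ((t - 1) / 2) y hy).neg (b _ _)) (by simp [hc.sq β hy]) using 1
    rw [← sub_eq_add_neg, ← sub_mul, ← sub_smul]; congr 2; simp; field_simp; ring
  · obtain ⟨x, rfl⟩ := e t ht
    exact a2 x y hy

omit [FiniteDimensional F W] [Nontrivial W] in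
theorem one_bb : 1 ∈ T.BB M h.sd := ⟨fun _ => Commute.one_left _, fun y s a b => by
  obtain ⟨d, hd⟩ := exists_adm h.sd a b
  exact ⟨_, h.rho_mem y s d, fun u => by simp [rho_apply_self h.sd], fun v hv => by
    simp [T.ie_rho h.sd hd, hv, TS.n_apply]⟩⟩

omit [FiniteDimensional F W] [Nontrivial W] in
theorem al_bb (hc : c ∈ T.AL M h.sd) : c ∈ T.BB M h.sd := by simpa using hc.2 _ h.one_bb

theorem exists_h {ν : End F U} (h1 : T.j ν ∈ T.JJ M β) (h2 : ∀ u, ν (ν u) = 0) {y y' : W} (hy : SP β y y') :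
    ∃ g ∈ M, (∀ u, g (T.t u y) = T.t (u + ν u) y) ∧ (∀ u, g (T.t u y') = T.t (u - ν u) y') ∧
      ∀ u (w : spp β y y'), g (T.t u w) = T.t u w := by
  have D := h.sd
  obtain ⟨a, a1, a2⟩ := (add_mem h.one_jj h1).2 y hy.ee 1 (map_one σ)
  obtain ⟨b, b1, b2⟩ := (sub_mem h.one_jj h1).2 y' hy.ff 1 (map_one σ)
  obtain ⟨a', c1, c2⟩ := h.one_jj.2 y hy.ee (-1) (by simp)
  obtain ⟨b', d1, d2⟩ := h.one_jj.2 y' hy.ff (-1) (by simp)
  refine ⟨a * b * a * (a' * b' * a'), mul_mem (mul_mem (mul_mem a1 b1) a1) (mul_mem (mul_mem c1 d1) c1),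
    fun u => ?_, fun u => ?_, fun u w => ?_⟩ <;>
  simp [a2, b2, c2, d2, TS.n_apply, hy.ee, hy.ff, hy.ef, hy.fe D, h2, spp_left, spp_right]

theorem nil_al (h1 : c ∈ T.JJ M β) (h2 : c * c = 0) : c ∈ T.AL M h.sd := by
  have D := h.sd
  refine ⟨h1.1, fun c' h' => (add_mem_cancel_left h').mp ⟨fun a => (h'.1 a).add_left (h1.1.mul h'.1 a), fun y s a b => ?_⟩⟩
  by_cases e : y = 0
  · exact ⟨1, one_mem _, by simp [e, TS.n]⟩
  obtain ⟨ν, rfl⟩ := TS.exists_j h1.1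
  obtain ⟨θ, rfl⟩ := TS.exists_j h'.1
  obtain ⟨y', hy⟩ := D.exists_SP a e
  have h3 : ∀ u, ν (ν u) = 0 := fun u => ten_left_inj T.h e (by simpa using LinearMap.congr_fun h2 (T.t u y))
  obtain ⟨g, a1, a2, -, a3⟩ := h.exists_h h1 h3 hy
  obtain ⟨k, b1, b2, b3⟩ := h'.2 y s a b
  have a4 : ∀ u, g.symm (T.t u y) = T.t (u - ν u) y := fun u => g.symm_apply_eq.mpr (by rw [a2]; simp [h3])
  refine ⟨g * k * g⁻¹, mul_mem (mul_mem a1 b1) (inv_mem a1), fun u => by simp [a4, b2, a2, h3], fun v hv =>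
    T.ind_ker hy.ef (p := fun v => (g * k * g⁻¹) v = v + (T.j θ + T.j ν * T.j θ) (T.n β s y v)) (by simp)
      (fun u w hw => ?_) (fun _ _ a b => by simp only [map_add, a, b]; abel) hv⟩
  obtain ⟨d, w, rfl⟩ := hy.exists_eq_of_perp D hw
  have a5 : g.symm (T.t u w) = T.t u w := g.symm_apply_eq.mpr (a3 u w).symm
  simp [a4, a5, b2, a2, h3, b3 (T.t u w) (by simp [spp_left]), a3, TS.n_apply, D.comm0 b]; abel

omit [Nontrivial W] in
theorem lv2 {k : V ≃ₗ[F] V} (hk : ∀ x y, B (k x) (k y) = B x y) {y : W} (hy : β y y = 0) (h0 : y ≠ 0)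
    (H : ∀ v, T.r (β y) v = 0 → k v = v) : ∃ θ, ∀ v, k v = v + T.j θ (T.n β y y v) := by
  have D := h.sd
  obtain ⟨y', hy'⟩ := D.exists_SP hy h0
  refine ⟨-T.r (β y') ∘ₗ (k.toLinearMap - 1) ∘ₗ T.t.flip y', fun v => ?_⟩
  have a1 := H (v - T.t (T.r (β y) v) y') (by simp [hy'.ef])
  obtain ⟨x, hx⟩ := T.eq_right D h0 (v := k (T.t (T.r (β y) v) y') - T.t (T.r (β y) v) y') fun w hw => h.ext fun u => by
    rw [← h.B_r, map_sub, map_zero, sub_eq_zero, ← hk _ (T.t _ y'), H (T.t u w) (by simp [D.comm0 hw])]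
  rw [map_sub, sub_eq_iff_eq_add] at a1
  rw [sub_eq_iff_eq_add] at hx
  simp [TS.n_apply, a1, hx, hy'.fe D]

omit [Nontrivial W] in
theorem comm_lv {k : V ≃ₗ[F] V} (hk : k ∈ M) {y s : W} (hy : β y y = 0) (h0 : y ≠ 0) (H : T.Lv β y k) (hs : β y s = 0)
    {δ : End F U} (hδ : ∀ u, k (T.t u s) = T.t u s + T.t (δ u) y) :
    ∃ θ, EN M (T.j θ * T.n β y y) ∧ ∀ u x, γ u (θ x) = γ u (δ x) + γ (δ u) x := by
  have D := h.sd
  obtain ⟨d, hd⟩ := exists_adm D hy hs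
  obtain ⟨y', hy'⟩ := D.exists_SP hy h0
  have a0 := T.ie_rho D hd
  have a1 := h.r_fix hk H.1
  have a2 := mul_mem (inv_mem (mul_mem (h.rho_mem y s d) hk)) (mul_mem hk (h.rho_mem y s d))
  obtain ⟨θ, hθ⟩ := h.lv2 (h.iso _ a2) hy h0 fun v hv => LinearEquiv.symm_apply_eq _ |>.mpr (by
    obtain ⟨x, hx⟩ := H.2 v hv
    simp [a0, hv, hx, H.1, hy, D.comm0 hs])
  refine ⟨θ, ⟨_, a2, hθ⟩, fun u x => ?_⟩
  have b1 : k (T.ie (rho β y s d).1 _) = _ := (LinearEquiv.symm_apply_eq _).mp (hθ (T.t x y'))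
  simp only [LinearEquiv.mul_apply, TS.n_apply, TS.r_t, hy'.ef, one_smul, TS.j_t, map_add, H.1] at b1
  rw [a0 (T.t x y'), a0 (k _), a1, a0 (T.t _ y)] at b1
  have b2 := congrArg (T.r (β y')) b1
  have b3 := h.iso k hk (T.t u s) (T.t x y')
  simp [hδ, h.B_r, a1, hy'.ef] at b3
  simp [hy'.ef, hδ, H.1, hy'.fe D, hy, D.comm0 hs] at b2
  have b4 := congrArg (γ u) b2
  simp only [map_add, map_neg, map_smul, smul_eq_mul] at b4
  linear_combination b4 - b3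

theorem bb_jj [Finite F] (hC : HC β) (h3 : 3 ≤ finrank F W) (h2 : σ ≠ RingHom.id F ∨ (2 : F) ≠ 0)
    (hc : c ∈ T.BB M h.sd) : ∃ c' ∈ T.JJ M β, ∀ v w, B v (c' w) = B v (c w) + B (c v) w := by
  have D := h.sd
  obtain ⟨y, h0, hy⟩ := D.exists_iso D.ns hC.two
  obtain ⟨y', hy'⟩ := D.exists_SP hy h0
  have := hy'.nontrivial_spp D h3
  obtain ⟨s, hs⟩ := _root_.exists_ne (0 : spp β y y')
  obtain ⟨s', hs'⟩ := (hy'.sd D).exists_ne hs
  obtain ⟨k, a1, a2, a3⟩ := hc.2 y s hy (spp_left s)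
  obtain ⟨δ, rfl⟩ := TS.exists_j hc.1
  rw [res_apply] at hs'
  obtain ⟨θ, b1, b2⟩ := h.comm_lv a1 hy h0 ⟨a2, fun v hv => ⟨_, by rw [a3 v hv, TS.n_apply, TS.j_t]⟩⟩
    (s := (β s s')⁻¹ • s'.1) (by simp [spp_left]) (δ := δ) fun u => by
      rw [a3 _ (by simp [spp_left])]; simp [TS.n_apply, hs']
  exact ⟨_, h.jj_of hC h2 (fun _ => T.comm_ij _ _) hy h0 b1, fun v w => T.h.inductionOn v (by simp)
    (fun u z => by simp [h.B_r, b2]) fun _ _ a b => by simp only [map_add, LinearMap.add_apply, a, b]; ring⟩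

omit [Nontrivial W] in
theorem gen [FiniteDimensional F U] [Finite F] (hC : HC β) (E : SD B)
    (h1 : ∀ z, β z z = 0 → z ≠ 0 → ∀ g : UG B, (∀ v, T.r (β z) v = 0 → g.1 v = v) → g.1 ∈ M)
    (h2 : ∀ z s θ, β z z = 0 → β z s = 0 →
      ∃ k ∈ M, (∀ u, k (T.t u z) = T.t u z) ∧ ∀ v, T.r (β z) v = 0 → k v = v + T.j θ (T.n β s z v)) :
    SUG B ≤ M.comap (UG B).subtype := by
  have D := h.sd
  have := ten_fin T.h
  have a0 : ∀ x z, β z z = 0 → IS (M.comap (UG B).subtype) (T.t x z) := fun x z hz => by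
    by_cases e : z = 0
    · simpa [e] using IS.zero E
    exact ⟨by simp [h.map, hz], fun c => h1 z hz e _ fun v hv => tv_apply_of_perp E c (by simp [h.B_r, hv])⟩
  refine E.SUG_le_of_ES E.ns fun v _ v0 => ?_
  obtain ⟨x, z, hz, a1⟩ : ∃ x z, β z z = 0 ∧ B (T.t x z) v ≠ 0 := by
    by_contra! e
    exact v0 (E.sep v fun w => E.comm0 (T.h.inductionOn w (by simp) (fun x => D.iso_induction' D.ns (.inr hC.two) (e x)
      fun _ _ a b => by simp [a, b]) fun _ _ a b => by simp [a, b]))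
  have z0 : z ≠ 0 := by rintro rfl; simp at a1
  obtain ⟨z', hz'⟩ := D.exists_SP hz z0
  have a2 : ∀ u s, β z s = 0 → AM (M.comap (UG B).subtype) (T.t x z) (T.t u s) := fun u s hs => by
    obtain ⟨d, hd⟩ := exists_adm E (a0 x z hz).1 (u := T.t u s) (by simp [h.map, hs])
    obtain ⟨k, b1, b2, b3⟩ := h2 z s ((γ u).smulRight x) hz hs
    refine ⟨d, hd, (mul_mem_cancel_left (inv_mem b1)).mp
      (h1 z hz z0 ((⟨k, h.iso k b1⟩ : UG B)⁻¹ * rho B _ _ d) fun w hw => k.symm_apply_eq.mpr ?_)⟩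
    simp [rho_apply E hd, b3 w hw, h.B_r, hw, TS.n_apply]
  refine ⟨_, ES.of_AM E (a0 x z hz) fun w hw => ?_, a1⟩
  rw [← sub_add_cancel w (T.t (T.r (β z) w) z')]
  refine AM.add E (T.ind_ker hz'.ef (p := AM _ _) (AM.zero E (a0 x z hz).1) a2 (fun _ _ => AM.add E)
    (by simp [hz'.ef])) ?_
  rw [h.B_r] at hw
  generalize T.r (β z) w = x' at hw
  by_cases e : x' = 0
  · simpa [e] using AM.zero E (a0 x z hz).1
  obtain ⟨u, hu⟩ := E.exists_ne (ten_ne_zero T.h e hz'.ne_right)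
  have b1 : B (T.t x' z') (T.t x z) = 0 := E.comm0 (by simp [h.map, hw])
  have b2 : γ x' (T.r (β z') u) ≠ 0 := by rwa [h.B_r] at hu
  simpa [tv_apply E (a0 x' z' hz'.ff).1, h.map, hz'.fe D, b2] using (a2 (-(γ x' (T.r (β z') u))⁻¹ • T.r (β z') u) z hz).diff E
    ((a0 x' z' hz'.ff).2 1) (tv_apply_of_perp E _ b1)

end FT

end Cfsg.Agent.H12
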