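import Mathlib
import Cfsg.Agent.H12.FtG

/-!
Overgroups of tensor power stabilisers in groups of isometries.
-/

set_option autoImplicit false

namespace Cfsg.Agent.H12

open Module

variable {F V : Type*} [Field F] [AddCommGroup V] [Module F V] {M : Subgroup (V ≃ₗ[F] V)}
  {U W : Type*} [AddCommGroup U] [Module F U] [AddCommGroup W] [Module F W] {σ : F →+* F} {κ : Type*}
  {B : V →ₛₗ[σ] V →ₗ[F] F} {β : W →ₛₗ[σ] W →ₗ[F] F}

theorem TS.jj_smul {T : TS F U W V} (t : F) (ht : σ t = t) (c : End F V) (hc : c ∈ T.JJ M β) : t • c ∈ T.JJ M β :=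
  ⟨fun a => (hc.1 a).smul_left t, fun y hy t' h => by rw [smul_smul]; exact hc.2 y hy _ (by simp [h, ht])⟩

theorem FT.adj {γ : U →ₛₗ[σ] U →ₗ[F] F} {T : TS F U W V} (h : FT B γ β M T) (z y : W) (v w : V) :
    B (T.n β z y v) w = -B v (T.n β y z w) :=
  T.h.inductionOn v (by simp) (fun u x => by simp [TS.n_apply, h.B_r, h.sd.skew z x]) fun _ _ a b => by
    simp only [map_add, LinearMap.add_apply, a, b]; ring

variable [FiniteDimensional F U] [FiniteDimensional F W] [Finite F]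

omit [FiniteDimensional F U] in
theorem TS.Inv.exists_nil {T : TS F U W V} (D : SD β) (hC : HC β) {X : AddSubgroup (End F V)} (h : T.Inv β X)
    (hX : ∀ t, σ t = t → ∀ c ∈ X, t • c ∈ X) {c : End F V} (hc : c ∈ X) (H : ¬ T.Cm c) :
    ∃ ν ∈ X, ν ≠ 0 ∧ ν * ν = 0 := by
  have : Nontrivial W := Module.nontrivial_of_finrank_pos (R := F) (by have := hC.two; omega)
  have a0 : ∀ {y z : W}, y ≠ 0 → z ≠ 0 → (β z).smulRight y ≠ 0 := fun {y z} a b e => by
    obtain ⟨w, hw⟩ := D.exists_ne b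
    simpa [a, hw] using LinearMap.congr_fun e w
  have a9 : ∀ (ρ ρ' : End F V) y z y' z', T.Cm ρ' → β y z' = 0 → ρ * T.n β y z * (ρ' * T.n β y' z') = 0 :=
    fun ρ ρ' y z y' z' a b => by rw [mul_assoc, ← mul_assoc (T.n β y z), a.n, mul_assoc, T.n_mul, b]; simp
  rcases TS.exists_ex D hC H with ⟨h4, y, z, a1, a2, a3, a4, a5, a6⟩ | ⟨hq, y, a1, a2⟩
  · refine ⟨_, h.ex1 D a1 a2 a3 hc, fun e => a6 ?_, by
      simp [mul_add, add_mul, a9 _ _ _ _ _ _ (T.co_cm _ _ _), a1, a2, a3, D.comm0 a3]⟩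
    obtain ⟨z', b1, b2, b3⟩ := D.partner₂ a2 a3 a5
    exact (T.co_cm _ _ _).eq_zero (a0 a4 a4) (show _ * T.n β y y = 0 by
      simpa [add_mul, mul_assoc, TS.n_mul, b2, b3] using congrArg (· * T.n β y z') e)
  · have a3 : y ≠ 0 := by rintro rfl; simp [TS.co] at a2
    exact ⟨_, h.ex2 D hq hX a1 hc, fun e => a2 ((T.co_cm _ _ _).eq_zero (a0 a3 a3) e), a9 _ _ _ _ _ _ (T.co_cm _ _ _) a1⟩

variable {γ : κ → U →ₛₗ[σ] U →ₗ[F] F} {T : κ → TS F U W V} (h : Wr T) (hF : ∀ i, FT B (γ i) β M (T i))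
include h hF

omit [FiniteDimensional F U] [FiniteDimensional F W] [Finite F] in
theorem Wr.inv_jj {i j : κ} (e : j ≠ i) : (T j).Inv β ((T i).JJ M β) := fun g hg _ hc =>
  TS.jj_act ((hF j).rt g hg) (TS.Cm.act fun a => h.cm j i e _ a) hc

theorem Wr.jj_scalar [Finite κ] (hC : HC β) (h3 : 3 ≤ finrank F W) (h2 : σ ≠ RingHom.id F ∨ (2 : F) ≠ 0) (E : SD B)
    (cyc : ∀ i j k, i ≠ j → i ≠ k → j ≠ k → ∃ g ∈ M, (∀ a, ((T i).act g).i a = (T j).i a) ∧
      ∀ a, ((T j).act g).i a = (T k).i a) (hM : ¬ SUG B ≤ M.comap (UG B).subtype) (i : κ) {c : End F V}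
    (hc : c ∈ (T i).JJ M β) : ∃ d : F, c = d • 1 := by
  classical
  have := Fintype.ofFinite κ
  have : Nontrivial W := Module.nontrivial_of_finrank_pos (R := F) (by omega)
  have D := (hF i).sd
  by_contra a0
  obtain ⟨j₀, hj₀⟩ := not_forall.mp fun e => a0 (h.cen e)
  obtain ⟨ν, a1, a2, a3⟩ := (h.inv_jj hF (show j₀ ≠ i by rintro rfl; exact hj₀ hc.1)).exists_nil D hC TS.jj_smul hc hj₀
  obtain ⟨j, hj⟩ := not_forall.mp fun e : ∀ j, (T j).Cm ν => a2 (by
    obtain ⟨d, rfl⟩ := h.cen e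
    by_cases e' : d = 0
    · simp [e']
    · simpa [e'] using a3)
  have a4 : ∀ {k c}, c ∈ (T i).AL M D → ¬ (T k).Cm c → ∀ a, (T k).i a ∈ (T i).AL M D := fun {k c} =>
    h.nuf D hC h3 (Finset.univ.erase i) ((T i).AL M D).toSubmodule (fun _ a _ b => ((T i).AL M D).mul_mem a b)
      (fun l hl c hc => by obtain rfl : l = i := by simpa using hl
                           exact hc.1)
      fun l hl g hg c hc => TS.al_conj ((hF l).rt g hg) (fun a => h.cm l i (Finset.ne_of_mem_erase hl) _ a) hc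
  have a5 := a4 ((hF i).nil_al a1 a3) hj
  have a6 : i ≠ j := by rintro rfl; exact hj a1.1
  obtain ⟨y, y0, hy⟩ := D.exists_iso D.ns hC.two
  obtain ⟨y', hy'⟩ := D.exists_SP hy y0
  have a7 : ∀ k ≠ i, ∀ a, (T k).i a ∈ (T i).AL M D := fun k hk => by
    by_cases e : j = k
    · exact e ▸ a5
    obtain ⟨g, b1, b2, b3⟩ := cyc i j k a6 hk.symm e
    have := hy'.nontrivial_spp D h3
    obtain ⟨s, hs⟩ := exists_ne (0 : spp β y y')
    obtain ⟨c', b4, b5⟩ := (hF i).bb_jj hC h3 h2 ((hF i).al_bb (a5 ((β s).smulRight y)))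
    obtain rfl : c' = (T j).i ((β s).smulRight y - (β y).smulRight s.1) := LinearMap.ext fun w => E.ext_right fun v => by
      rw [b5, show (T j).i ((β s).smulRight y) v = (T j).n β s y v from rfl, (hF j).adj]; simp [TS.n, sub_eq_add_neg]
    have b6 := TS.jj_act b1 b2 b4
    rw [show g.conjAlgEquiv F ((T j).i _) = (T k).i _ from LinearMap.ext fun v => by rw [← b3, TS.act_i]; rfl] at b6
    generalize hb : (β s).smulRight y - (β y).smulRight s.1 = b at b6
    obtain ⟨g', c1, c2⟩ := b6.2 y hy 1 (map_one σ)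
    have c3 : (T i).Cm g' := fun a => by
      rw [show g'.toLinearMap = 1 + (T k).i b * (T j).n β y y from LinearMap.ext (by simpa using c2)]
      exact (Commute.one_left _).add_left ((h.cm k i hk _ _).mul_left (h.cm j i a6.symm _ _))
    have c4 := sub_mem (TS.al_conj c1 c3 (a5 ((β y').smulRight y))) (a5 ((β y').smulRight y))
    have c5 : g'.conjAlgEquiv F ((T j).n β y' y) - (T j).n β y' y = (T k).i b * (T j).n β y y := LinearMap.ext fun v => by
      obtain ⟨θ, hθ⟩ : ∃ θ, (T k).i b = (T j).j θ := TS.exists_j b6.1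
      have : g'.symm v = v - (T k).i b ((T j).n β y y v) := g'.symm_apply_eq.mpr (by simp [c2, hθ, TS.n_apply, hy])
      simp [LinearEquiv.conjAlgEquiv_apply, this, c2, hθ, TS.n_apply, hy, hy'.fe D]
    refine a4 (c5 ▸ c4) fun e' => hs (Subtype.ext ?_)
    obtain ⟨ψ, hψ⟩ := Module.Projective.exists_dual_eq_one F y0
    have c6 := TS.Cm.eq_zero (T := T j) (c := (T k).i (b * ψ.smulRight y' - ψ.smulRight y' * b)) (h.cm k j (Ne.symm e) _)
      (a := (β y).smulRight y) (fun d => y0 (by simpa [hy'.ef] using LinearMap.congr_fun d y')) (by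
        rw [map_sub, map_mul, map_mul, sub_mul, mul_assoc, (h.cm k j (Ne.symm e) _ _).eq, ← mul_assoc, mul_assoc _ ((T k).i b)]
        exact sub_eq_zero.mpr (e' _).eq)
    by_cases hU : ∀ u : U, u = 0
    · exact absurd ((T i).ext fun u _ => by simp [hU u]) a2
    obtain ⟨u, hu⟩ := not_forall.mp hU
    exact ten_right_inj (T k).h hu (by
      simpa [← hb, hψ, hy, hy'.ef, D.spp_left', D.spp_right'] using LinearMap.congr_fun c6 ((T k).t u y))
  have a8 : ∀ θ, (T i).j θ ∈ (T i).BB M D := fun θ => (hF i).al_bb (TS.all_of_gen h i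
    (B := ((T i).AL M D).comap (T i).j) (fun k hk a θ e => show (T i).j θ ∈ _ from e ▸ a7 k hk a) θ)
  refine hM ((hF i).gen hC E (fun z hz z0 g hg => ?_) fun z s θ => (a8 θ).2 z s)
  obtain ⟨θ, hθ⟩ := (hF i).lv2 g.2 hz z0 hg
  obtain ⟨d, hd⟩ := exists_half h2 D.invol
  obtain ⟨c', b1, b2⟩ := (hF i).bb_jj hC h3 h2 (a8 (d • θ))
  obtain ⟨z', hz'⟩ := D.exists_SP hz z0
  have b3 : ∀ u x, γ i (θ u) x = γ i u (θ x) := fun u x => by
    have := g.2 ((T i).t u z') ((T i).t x z')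
    simp [hθ, TS.n_apply, hz'.ef, (hF i).map, hz, hz'.ff, hz'.fe D] at this
    linear_combination this
  obtain rfl : c' = (T i).j θ := LinearMap.ext fun w => E.ext_right fun v => (b2 v w).trans
    ((T i).h.inductionOn v (by simp) (fun u x => by
      simp [(hF i).B_r, b3]; linear_combination (γ i u (θ ((T i).r (β x) w))) * hd) fun _ _ a b => by
        simp only [map_add, LinearMap.add_apply, ← a, ← b]; ring)
  obtain ⟨k, c1, c2⟩ := b1.2 z hz 1 (map_one σ)
  rwa [show g.1 = k from LinearEquiv.ext fun v => by simp [hθ, c2]]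

end Cfsg.Agent.H12
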