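import Mathlib
import Cfsg.Agent.H12.TenB
import Cfsg.Agent.H12.MaxB

/-!
Stabilisers of tensor decompositions with factors of different dimensions are maximal.
-/

set_option autoImplicit false

namespace Cfsg.Agent.H12

open Module Cfsg.Geo Matrix Kronecker

variable {ι : Type} [Fintype ι] [DecidableEq ι] {F : Type*} [Field F]
  {α β : Type} [Fintype α] [DecidableEq α] [Fintype β] [DecidableEq β]

/-- The tensor decomposition given by `e` and `P`. -/
def tP (e : ι ≃ α × β) (P : GL ι F) : (α → F) →ₗ[F] (β → F) →ₗ[F] (ι → F) :=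
  LinearMap.mk₂ F (fun x z => P.1 *ᵥ (H18.kronV x z ∘ e))
    (fun _ _ _ => by rw [← mulVec_add]; congr 1; ext; simp [H18.kronV, add_mul])
    (fun _ _ _ => by rw [← mulVec_smul]; congr 1; ext; simp [H18.kronV, mul_assoc])
    (fun _ _ _ => by rw [← mulVec_add]; congr 1; ext; simp [H18.kronV, mul_add])
    (fun _ _ _ => by rw [← mulVec_smul]; congr 1; ext; simp [H18.kronV, mul_left_comm])

omit [Fintype α] [DecidableEq α] [Fintype β] [DecidableEq β] in
theorem tP_apply (e : ι ≃ α × β) (P : GL ι F) (x : α → F) (z : β → F) :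
    tP e P x z = P.1 *ᵥ (H18.kronV x z ∘ e) := rfl

theorem isTen_tP (e : ι ≃ α × β) (P : GL ι F) : IsTensorProduct (tP e P) :=
  IsTensorProduct.of_equiv (((Pi.basisFun F α).tensorProduct (Pi.basisFun F β)).equivFun ≪≫ₗ
    LinearEquiv.funCongrLeft F F e ≪≫ₗ glEq ι F P) fun x z => by
      simp only [LinearEquiv.trans_apply, glEq_apply, tP_apply]
      congr 1; ext i
      simpa [H18.kronV, mul_comm] using
        Basis.tensorProduct_repr_tmul_apply (Pi.basisFun F α) (Pi.basisFun F β) x z (e i).1 (e i).2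

theorem trans_kron_tP (e : ι ≃ α × β) (P : GL ι F) (X : Matrix α α F) (Y : Matrix β β F)
    (x : α → F) (z : β → F) : H18.trans e P (X ⊗ₖ Y) *ᵥ tP e P x z = tP e P (X *ᵥ x) (Y *ᵥ z) := by
  rw [tP_apply, H18.trans_mulVec, H18.kron_mulVec, tP_apply]

theorem eq_trans_of_tP {e : ι ≃ α × β} {P : GL ι F} {X : Matrix α α F} {Y : Matrix β β F}
    {g : Matrix ι ι F} (h : ∀ x z, g *ᵥ tP e P x z = tP e P (X *ᵥ x) (Y *ᵥ z)) :
    g = H18.trans e P (X ⊗ₖ Y) :=
  mat_ext_mulVec fun v => LinearMap.congr_fun (ten_ext (isTen_tP e P) (f := g.mulVecLin)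
    (g := (H18.trans e P (X ⊗ₖ Y)).mulVecLin) fun x z => by simp [h, trans_kron_tP]) v

theorem mem_tensor_iff {a b : ℕ} (ha : 0 < a) (hb : 0 < b) {e : ι ≃ Fin a × Fin b} {P g : GL ι F} :
    g ∈ tensorProductSubgroup a b e P ↔ TN (tP e P) (glEq ι F g) := by
  rw [H18.mem_tensorProductSubgroup]
  refine ⟨fun ⟨x, y, h⟩ => ⟨x.1.mulVecLin, y.1.mulVecLin, fun u z => by
    simp [glEq_apply, h, trans_kron_tP]⟩, fun ⟨x, y, h⟩ => ?_⟩
  haveI : NeZero a := ⟨ha.ne'⟩
  haveI : NeZero b := ⟨hb.ne'⟩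
  obtain ⟨u₀, hu⟩ := exists_ne (0 : Fin a → F)
  obtain ⟨z₀, hz⟩ := exists_ne (0 : Fin b → F)
  have h1 : Function.Injective x := (injective_iff_map_eq_zero _).mpr fun u h0 => by
    by_contra e'
    exact ten_ne_zero (isTen_tP e P) e' hz ((glEq ι F g).map_eq_zero_iff.mp (by simp [h, h0]))
  have h2 : Function.Injective y := (injective_iff_map_eq_zero _).mpr fun u h0 => by
    by_contra e'
    exact ten_ne_zero (isTen_tP e P) hu e' ((glEq ι F g).map_eq_zero_iff.mp (by simp [h, h0]))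
  exact ⟨(glEq _ F).symm (.ofInjectiveEndo x h1), (glEq _ F).symm (.ofInjectiveEndo y h2),
    eq_trans_of_tP fun u z => by simpa [glEq_symm_mulVec, glEq_apply] using h u z⟩

theorem max_SL_tensor [Fintype F] {a b : ℕ} (ha : 2 ≤ a) (hb : a < b)
    (h : ¬ (a = 2 ∧ Fintype.card F = 2)) (e : ι ≃ Fin a × Fin b) (P : GL ι F) :
    IsMaximalIn (specialLinear ι F) (tensorProductSubgroup a b e P ⊓ specialLinear ι F) := by
  have h1 : 2 ≤ Fintype.card ι := by
    rw [Fintype.card_congr e]; simp; nlinarith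
  refine isMaximalIn_SL _ (fun _ => mem_tensor_iff (by omega) (by omega)) (fun H => ?_)
    fun M hM _ g hg hg' => SLV_le_of_ten (isTen_tP e P) hM (by simpa) (by simpa) ?_ hg hg'
  · obtain ⟨g, hg, U, h2, h3, h4⟩ := H18.exists_SL_small (ι := ι) (F := F) h1
    exact H18.not_mem_tensor_of_small h1 h2 h3 h4 ha (by omega) e P (H hg)
  · by_cases h2 : a = 2
    · have := Fintype.one_lt_card (α := F)
      classical
      obtain ⟨c, hc⟩ := Finset.exists_mem_notMem_of_card_lt_card (s := ({0, 1} : Finset F))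
        (t := Finset.univ) (by rw [Finset.card_pair zero_ne_one, Finset.card_univ]; omega)
      exact Or.inr ⟨c, by simpa using hc⟩
    · exact Or.inl (by simp; omega)

end Cfsg.Agent.H12
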