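import Mathlib
import Cfsg.Agent.H12.TfE
import Cfsg.Agent.H12.TfF

/-!
Tensor products of a symplectic and an orthogonal space: two conjugate root subgroups.
-/

set_option autoImplicit false

namespace Cfsg.Agent.H12

open Module Polynomial

variable {F V : Type*} [Field F] [AddCommGroup V] [Module F V]
  {U W : Type*} [AddCommGroup U] [Module F U] [AddCommGroup W] [Module F W] {τ : U →ₗ[F] W →ₗ[F] V}
  {B : V →ₛₗ[RingHom.id F] V →ₗ[F] F} {M : Subgroup (UG B)}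
  {B₁ : U →ₛₗ[RingHom.id F] U →ₗ[F] F} {β : W →ₗ[F] W →ₗ[F] F}

/-- The part of `e ⊗ W` mapped into `e ⊗ W`. -/
def JJ (τ : U →ₗ[F] W →ₗ[F] V) (e : U) (k : UG B) : Submodule F W :=
  (LinearMap.range (τ e)).comap (k.1.toLinearMap ∘ₗ τ e)

theorem mem_JJ {e : U} {k : UG B} {w : W} : w ∈ JJ τ e k ↔ ∃ w', k.1 (τ e w) = τ e w' :=
  exists_congr fun _ => eq_comm

/-- An element of `M` outside the tensor stabilizer with the largest intersection. -/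
structure MX (τ : U →ₗ[F] W →ₗ[F] V) (M : Subgroup (UG B)) (e : U) (k : UG B) : Prop where
  ne : e ≠ 0
  mem : k ∈ M
  ntn : ¬ TN τ k.1
  max : ∀ k' ∈ M, finrank F (JJ τ e k) < finrank F (JJ τ e k') → TN τ k'.1

namespace TF

variable (h : TF B B₁ β τ) {e : U} {k : UG B}

/-- The nilpotent part of a conjugate root element. -/
noncomputable def NN (e : U) (k : UG B) : End F V :=
  k.1.toLinearMap ∘ₗ τ e ∘ₗ h.cu e ∘ₗ k.1.symm.toLinearMap

theorem NN_apply (z : V) : h.NN e k z = k.1 (τ e (h.cu e (k.1.symm z))) := rfl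

/-- The self-adjoint map attached to two root subgroups. -/
noncomputable def SS (e : U) (k : UG B) : End F W := h.cu e ∘ₗ h.NN e k ∘ₗ τ e

theorem SS_apply (w : W) : h.SS e k w = h.cu e (h.NN e k (τ e w)) := rfl

@[simp] theorem NN_NN (z : V) : h.NN e k (h.NN e k z) = 0 := by simp [NN_apply, h.alt₁]

theorem B_NN (z z' : V) : B z (h.NN e k z') = B z' (h.NN e k z) := by
  rw [h.skew z, h.skew z', NN_apply, NN_apply, UG_map_left, UG_map_left, h.B_cu, h.B_cu, h.sy.symm]; rfl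

theorem SS_adj (w w' : W) : β (h.SS e k w) w' = β w (h.SS e k w') := by
  rw [h.sy.symm, SS_apply, SS_apply, ← h.B_cu, ← h.B_cu, B_NN]

theorem NN_of_mem {w : W} (hw : w ∈ JJ τ e k⁻¹) : h.NN e k (τ e w) = 0 := by
  obtain ⟨w', hw⟩ := mem_JJ.mp hw
  rw [NN_apply, show k.1.symm (τ e w) = τ e w' from hw]; simp [h.alt₁]

include h in
theorem exists_norm {g : UG B} (hg : TN τ g.1) (he : e ≠ 0) {w : W} (hw : w ∈ JJ τ e g) (h0 : w ≠ 0) :
    ∃ (a : End F U) (b : End F W), (∀ u w, g.1 (τ u w) = τ (a u) (b w)) ∧ a e = e := by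
  obtain ⟨a, b, hg⟩ := hg
  obtain ⟨w', hw⟩ := mem_JJ.mp hw
  have a1 := UG_ne_zero g (ten_ne_zero h.ten he h0)
  rw [hg] at hw a1
  obtain ⟨φ, a2⟩ := Module.Projective.exists_dual_eq_one F (show b w ≠ 0 by rintro e'; simp [e'] at a1)
  have a3 := congrArg (cR h.ten φ) hw
  simp only [cR_ten, a2, one_smul] at a3
  have a4 : φ w' ≠ 0 := fun e' => by simp [a3, e'] at a1
  exact ⟨(φ w')⁻¹ • a, φ w' • b, fun u w => by simp [hg, smul_smul, a4], by simp [a3, smul_smul, a4]⟩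

variable [FiniteDimensional F U] [FiniteDimensional F W]

omit [FiniteDimensional F U] in
include h in
theorem finrank_JJ_inv (he : e ≠ 0) (k : UG B) : finrank F (JJ τ e k⁻¹) = finrank F (JJ τ e k) := by
  obtain ⟨f, hf⟩ := h.exists_one he
  have key : ∀ k : UG B, finrank F (JJ τ e k⁻¹) ≤ finrank F (JJ τ e k) := fun k =>
    (Submodule.finrank_mono fun w hw => by
      obtain ⟨w', hw⟩ := mem_JJ.mp hw
      have a1 : k.1 (τ e w') = τ e w := by rw [← hw, UG_apply_inv]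
      exact ⟨w', mem_JJ.mpr ⟨_, a1⟩, by simp [a1, h.skew₁ f, hf]⟩).trans
    (Submodule.finrank_map_le (-h.cu f ∘ₗ k.1.toLinearMap ∘ₗ τ e) _)
  exact (key k).antisymm (by have := key k⁻¹; rwa [inv_inv] at this)

/-- A conjugate root element. -/
noncomputable def tt (e : U) (k : UG B) (c : F) : UG B := k * h.tL (tv B₁ e c) * k⁻¹

theorem tt_apply (c : F) (z : V) : (h.tt e k c).1 z = z + c • h.NN e k z := by
  simp [tt, h.tL_tv, NN_apply]

/-- The action of the two root subgroups in coordinates. -/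
def PP (M : Subgroup (UG B)) (e : U) (k g : UG B) (A : Matrix (Fin 2) (Fin 2) F[X]) : Prop :=
  g ∈ M ∧ (∀ w ∈ JJ τ e k⁻¹, g.1 (τ e w) = τ e w) ∧ (∀ z, ∃ w w', g.1 z = z + k.1 (τ e w) + τ e w') ∧
    ∀ b a, g.1 (h.NN e k (τ e b) + τ e (h.SS e k a)) =
      h.NN e k (τ e (aeval (h.SS e k) (A 0 0) b + aeval (h.SS e k) (A 0 1) a)) +
        τ e (h.SS e k (aeval (h.SS e k) (A 1 0) b + aeval (h.SS e k) (A 1 1) a))

omit [FiniteDimensional F U] [FiniteDimensional F W] in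
theorem PP_one : h.PP M e k 1 1 := ⟨one_mem _, by simp, fun _ => ⟨0, 0, by simp⟩, by simp⟩

omit [FiniteDimensional F U] [FiniteDimensional F W] in
theorem PP_mul {g g' : UG B} {A A' : Matrix (Fin 2) (Fin 2) F[X]} (H : h.PP M e k g A)
    (H' : h.PP M e k g' A') : h.PP M e k (g * g') (A * A') := by
  refine ⟨mul_mem H.1 H'.1, fun w hw => by simp [H.2.1 w hw, H'.2.1 w hw], fun z => ?_, fun b a => ?_⟩
  · obtain ⟨w₁, w₂, a1⟩ := H'.2.2.1 z
    obtain ⟨w₃, w₄, a2⟩ := H.2.2.1 (g'.1 z)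
    exact ⟨w₁ + w₃, w₂ + w₄, by rw [UG_mul_apply, a2, a1]; simp; abel⟩
  · rw [UG_mul_apply, H'.2.2.2, H.2.2.2]
    simp only [Matrix.mul_apply, Fin.sum_univ_two, map_add, map_mul, LinearMap.add_apply, End.mul_apply]
    abel

variable [Finite F] (hM : ∀ g : UG B, TN τ g.1 → g ∈ M)
include hM

omit [Finite F] in
theorem tt_mem (hk : k ∈ M) (c : F) : h.tt e k c ∈ M :=
  mul_mem (mul_mem hk (hM _ (h.tn_tL _))) (inv_mem hk)

omit [Finite F] in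
theorem PP_lower (c : F) : h.PP M e k (h.tL (tv B₁ e c)) !![1, 0; C c, 1] :=
  ⟨hM _ (h.tn_tL _), fun w _ => by rw [h.tL_tv]; simp [h.alt₁], fun z => ⟨0, c • h.cu e z, by simp [h.tL_tv]⟩,
    fun b a => by simp [h.tL_tv, h.alt₁, ← SS_apply]; abel⟩

omit [Finite F] in
theorem PP_upper (hk : k ∈ M) (c : F) : h.PP M e k (h.tt e k c) !![1, C c * X; 0, 1] :=
  ⟨h.tt_mem hM hk c, fun w hw => by simp [tt_apply, h.NN_of_mem hw],
    fun z => ⟨c • h.cu e (k.1.symm z), 0, by simp [tt_apply, NN_apply]⟩,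
    fun b a => by simp [tt_apply]; abel⟩

variable (H : ¬ SUG B ≤ M) (h3 : 3 ≤ finrank F W)
  (hq : (∃ c : F, c ≠ 0 ∧ c * c ≠ 1) ∨ 4 ≤ finrank F W) (hd : 5 ≤ finrank F W ∨ finrank F W < 2 * finrank F U)
  (X : MX τ M e k)
include h X

omit [Finite F] hM in
theorem mx_inv : MX τ M e k⁻¹ :=
  ⟨X.ne, inv_mem X.mem, fun e' => X.ntn (by simpa using e'.inv h.ten), fun k' a b =>
    X.max k' a (h.finrank_JJ_inv X.ne k ▸ b)⟩

omit [Finite F] hM in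
theorem tn_of_mem {g : UG B} (hg : g ∈ M) (h1 : ∀ w ∈ JJ τ e k⁻¹, g.1 (τ e w) = τ e w) {w : W}
    (hw : w ∈ JJ τ e g) (h2 : w ∉ JJ τ e k⁻¹) : TN τ g.1 :=
  (h.mx_inv X).max g hg (Submodule.finrank_lt_finrank_of_lt
    (lt_of_le_of_ne (fun w hw => mem_JJ.mpr ⟨w, h1 w hw⟩) fun e' => h2 (e' ▸ hw)))

include H h3 hq hd

theorem mem_of_NN {w : W} (hw : ∃ w', h.NN e k (τ e w) = τ e w') : w ∈ JJ τ e k⁻¹ := by
  by_contra h1
  obtain ⟨w', hw⟩ := hw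
  exact X.ntn (h.tn_of_conj hM H h3 hq hd X.ne X.mem (h.tn_of_mem X (g := h.tt e k 1) (h.tt_mem hM X.mem 1)
    (h.PP_upper hM X.mem 1).2.1 (mem_JJ.mpr ⟨w + w', by simp [tt_apply, hw]⟩) h1))

theorem mem_of_cu {w : W} (hw : h.cu e (k.1 (τ e w)) ∈ JJ τ e k⁻¹) : w ∈ JJ τ e k := by
  simpa using h.mem_of_NN hM H h3 hq hd (h.mx_inv X) (mem_JJ.mp hw)

theorem mem_of_SS {w : W} (hw : h.SS e k w ∈ JJ τ e k⁻¹) : w ∈ JJ τ e k⁻¹ :=
  h.mem_of_NN hM H h3 hq hd X (mem_JJ.mp (h.mem_of_cu hM H h3 hq hd X hw))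

theorem SS_eq_zero {w : W} : h.SS e k w = 0 ↔ w ∈ JJ τ e k⁻¹ :=
  ⟨fun a => h.mem_of_SS hM H h3 hq hd X (a ▸ zero_mem _), fun a => by simp [SS_apply, h.NN_of_mem a]⟩

theorem SS_SS {w : W} (hw : h.SS e k (h.SS e k w) = 0) : h.SS e k w = 0 :=
  (h.SS_eq_zero hM H h3 hq hd X).mpr (h.mem_of_SS hM H h3 hq hd X ((h.SS_eq_zero hM H h3 hq hd X).mp hw))

omit hd in
theorem exists_notMem : ∃ w, w ∉ JJ τ e k⁻¹ := by
  by_contra! a
  exact (h.mx_inv X).ntn (h.tn_of_stab hM H h3 hq X.ne (inv_mem X.mem) fun w => mem_JJ.mp (a w))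

theorem nds_JJ : NDS β (JJ τ e k⁻¹) := fun v hv h0 => by
  obtain ⟨w, hw⟩ := h.sy.exists_ne h0
  have a1 : JJ τ e k⁻¹ ⊔ LinearMap.range (h.SS e k) = ⊤ := Submodule.eq_top_of_disjoint _ _ (by
    rw [← (h.SS e k).finrank_range_add_finrank_ker, add_comm,
      show LinearMap.ker (h.SS e k) = JJ τ e k⁻¹ from Submodule.ext fun _ => h.SS_eq_zero hM H h3 hq hd X])
    (Submodule.disjoint_def.mpr (by
      rintro _ a ⟨x, rfl⟩
      exact (h.SS_eq_zero hM H h3 hq hd X).mpr (h.mem_of_SS hM H h3 hq hd X a)))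
  obtain ⟨w₀, a2, _, ⟨x, rfl⟩, rfl⟩ := Submodule.mem_sup.mp (a1 ▸ Submodule.mem_top : w ∈ _)
  exact ⟨w₀, a2, by simpa [← h.SS_adj, (h.SS_eq_zero hM H h3 hq hd X).mpr hv] using hw⟩

theorem exists_PP {g : UG B} {A : Matrix (Fin 2) (Fin 2) F[X]} (hg : h.PP M e k g A) {x₀ : W}
    (h0 : h.SS e k x₀ ≠ 0) (h1 : A 0 1 ∈ annP (h.SS e k) (h.SS e k x₀)) :
    ∃ (a : End F U) (b : End F W) (μ : F), (∀ u w, g.1 (τ u w) = τ (a u) (b w)) ∧ a e = e ∧ μ ≠ 0 ∧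
      (∀ z, b (h.cu e z) = μ • h.cu e (g.1 z)) ∧ (JJ τ e k⁻¹ ≠ ⊥ → μ = 1) ∧
      (∀ x, aeval (h.SS e k) (A 0 1) (h.SS e k x) = 0) ∧
      (∀ x, b (h.SS e k x) = aeval (h.SS e k) (A 1 1) (h.SS e k x)) ∧
      ∀ x, b (h.SS e k x) = μ • aeval (h.SS e k) (A 0 0) (h.SS e k x) := by
  have hS := fun w => h.SS_eq_zero hM H h3 hq hd X (w := w)
  have a1 := fun x => hg.2.2.2 0 x
  simp only [map_zero, zero_add] at a1
  have a2 : h.SS e k x₀ ∈ JJ τ e g := mem_JJ.mpr ⟨_, by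
    rw [a1, h.NN_of_mem ((hS _).mp ((aeval_comm _ _).symm.trans h1)), zero_add]⟩
  obtain ⟨a, b, a3, a4⟩ := h.exists_norm (h.tn_of_mem X hg.1 hg.2.1 a2
    fun e' => h0 (h.SS_SS hM H h3 hq hd X ((hS _).mpr e'))) X.ne a2 h0
  obtain ⟨μ, a5, a6, a7⟩ := h.exists_sim hM H h3 hq X.ne hg.1 (b := b) fun w => by rw [a3, a4]
  have a8 : ∀ x, aeval (h.SS e k) (A 0 1) x ∈ JJ τ e k⁻¹ := fun x => h.mem_of_NN hM H h3 hq hd X
    ⟨b (h.SS e k x) - _, by rw [map_sub, eq_sub_iff_add_eq, ← a1, a3, a4]⟩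
  refine ⟨a, b, μ, a3, a4, a5, a6, fun e' => ?_, fun x => by rw [aeval_comm, hS]; exact a8 x,
    fun x => ten_right_inj h.ten X.ne ?_, fun x => ?_⟩
  · obtain ⟨w, b1, b2⟩ := (Submodule.ne_bot_iff _).mp e'
    obtain ⟨w', b3, b4⟩ := h.nds_JJ hM H h3 hq hd X w b1 b2
    have b5 : ∀ w ∈ JJ τ e k⁻¹, b w = w := fun w hw =>
      ten_right_inj h.ten X.ne (by rw [← hg.2.1 w hw, a3, a4])
    have := a7 w w'
    rw [b5 w b1, b5 w' b3] at this
    exact mul_right_cancel₀ b4 (by rw [← this, one_mul])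
  · have := a1 x
    rwa [h.NN_of_mem (a8 x), zero_add, a3, a4, ← aeval_comm] at this
  · have := hg.2.2.2 x 0
    simp only [map_zero, add_zero] at this
    rw [SS_apply, a6, this, ← SS_apply, aeval_comm]; simp [h.alt₁, SS_apply]

end TF

end Cfsg.Agent.H12
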