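import Mathlib
import Cfsg.Agent.H12.TfG

/-!
Tensor products of a symplectic and an orthogonal space: the maximality argument.
-/

set_option autoImplicit false

namespace Cfsg.Agent.H12

open Module Polynomial

variable {F V : Type*} [Field F] [AddCommGroup V] [Module F V]
  {U W : Type*} [AddCommGroup U] [Module F U] [AddCommGroup W] [Module F W] {τ : U →ₗ[F] W →ₗ[F] V}
  {B : V →ₛₗ[RingHom.id F] V →ₗ[F] F} {M : Subgroup (UG B)}
  {B₁ : U →ₛₗ[RingHom.id F] U →ₗ[F] F} {β : W →ₗ[F] W →ₗ[F] F}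

theorem aeval_of_smul {S : End F W} {v : W} {l : F} (h : S v = l • v) (p : F[X]) :
    aeval S p v = p.eval l • v := by
  by_cases h0 : v = 0
  · simp [h0]
  exact End.aeval_apply_of_hasEigenvector ⟨End.mem_eigenspace_iff.mpr h, h0⟩

namespace TF

variable (h : TF B B₁ β τ) {e : U} {k : UG B} [FiniteDimensional F U] [FiniteDimensional F W]
  [Finite F] (hM : ∀ g : UG B, TN τ g.1 → g ∈ M) (H : ¬ SUG B ≤ M) (h3 : 3 ≤ finrank F W)
  (hq : (∃ c : F, c ≠ 0 ∧ c * c ≠ 1) ∨ 4 ≤ finrank F W) (hd : 5 ≤ finrank F W ∨ finrank F W < 2 * finrank F U)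
  (X : MX τ M e k)
include h hM H h3 hq X

theorem le_of_cw {Y : Submodule F U} (hY : finrank F Y ≤ 2) (h1 : ∀ y w, h.cw y (k.1 (τ e w)) ∈ Y) :
    finrank F W ≤ finrank F (JJ τ e k) + 2 := by
  have E := h.sy
  by_contra! h2
  have key : ∀ y, β y y ≠ 0 → ∀ w, ∃ w', τ (h.cw y (k.1 (τ e w))) y = k.1 (τ e w') := fun y hy w => by
    let φ := (h.cw y ∘ₗ k.1.toLinearMap ∘ₗ τ e).codRestrict Y (h1 y)
    have a1 := φ.finrank_range_add_finrank_ker
    have a2 := (LinearMap.range φ).finrank_le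
    have a3 : finrank F (LinearMap.ker φ) ≤ finrank F (JJ τ e (k⁻¹ * h.sR hy * k)) :=
      Submodule.finrank_mono fun w hw => mem_JJ.mpr ⟨w, UG_inv_apply_eq (by
        simp [h.sR_apply, show h.cw y (k.1 (τ e w)) = 0 from congrArg Subtype.val hw])⟩
    obtain ⟨w₀, a4, a5⟩ := exists_notMem_of_finrank_lt (H := ⊥) (W := JJ τ e (k⁻¹ * h.sR hy * k))
      (by rw [finrank_bot]; omega)
    obtain ⟨a, b, a6, a7⟩ := h.exists_norm (X.max (k⁻¹ * h.sR hy * k) (mul_mem (mul_mem (inv_mem X.mem)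
      (hM _ (h.tn_tR _ _))) X.mem) (by omega)) X.ne a4 a5
    have a8 := congrArg k.1 (a6 e w)
    simp only [UG_mul_apply, UG_apply_inv, a7, h.sR_apply] at a8
    refine ⟨(β y y / 2) • (w - b w), ?_⟩
    simp only [map_smul, map_sub, ← a8, sub_sub_cancel, smul_smul]
    rw [show β y y / 2 * (2 / β y y) = 1 by field_simp [E.two], one_smul]
  by_cases h0 : JJ τ e k⁻¹ = ⊥
  · haveI : Nontrivial W := Module.nontrivial_of_finrank_pos (R := F) (by omega)
    obtain ⟨w, hw⟩ := exists_ne (0 : W)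
    obtain ⟨u, y, a1⟩ : ∃ u y, B (τ u y) (k.1 (τ e w)) ≠ 0 := by
      by_contra! e'
      exact UG_ne_zero k (ten_ne_zero h.ten X.ne hw) (h.ext_B (by simpa using e'))
    obtain ⟨z, a2, a3⟩ := E.exists_aniso_ne (φ := B.flip (k.1 (τ e w)) ∘ₗ τ u) a1
    have a4 : h.cw z (k.1 (τ e w)) ≠ 0 := fun e' => a2 (by simp [h.B_cw, e'])
    obtain ⟨w', a5⟩ := key z a3 w
    obtain ⟨g, hg⟩ := h.sd₁.witt_one X.ne a4 (by simp only [h.alt₁])
    have a6 : w' ≠ 0 := by
      rintro rfl; exact ten_ne_zero h.ten a4 (z := z) (by rintro rfl; simp at a3) (by simpa using a5)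
    have := X.max _ (mul_mem (inv_mem (hM _ (h.tn_tL g))) X.mem) (by
      rw [← h.finrank_JJ_inv X.ne k, h0]
      exact Submodule.finrank_lt_finrank_of_lt (bot_lt_iff_ne_bot.mpr ((Submodule.ne_bot_iff _).mpr
        ⟨w', mem_JJ.mpr ⟨z, UG_inv_apply_eq (by simp [hg, a5])⟩, a6⟩)))
    exact X.ntn (by simpa using (h.tn_tL g).mul this)
  obtain ⟨a, a1, a2⟩ := (Submodule.ne_bot_iff _).mp h0
  obtain ⟨w, hw⟩ := h.exists_notMem hM H h3 hq X
  refine hw (E.irr E.nds_top (Or.inr (by simpa using h3)) a1 trivial a2 (fun z _ hz a ha a3 => ?_) trivial)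
  obtain ⟨w, hw⟩ := mem_JJ.mp ha
  obtain ⟨w', a4⟩ := key z hz w
  rw [← hw, UG_apply_inv] at a4
  exact (Submodule.smul_mem_iff _ a3).mp (mem_JJ.mpr ⟨w', UG_inv_apply_eq (by simpa using a4.symm)⟩)

include hd

theorem false_of_mx : False := by
  have E := h.sy
  have hS := fun w => h.SS_eq_zero hM H h3 hq hd X (w := w)
  have hS' := fun w => h.SS_SS hM H h3 hq hd X (w := w)
  haveI : Finite W := Module.finite_of_finite F
  obtain ⟨f, hf⟩ := h.exists_one X.ne
  obtain ⟨x₀, h0, ⟨A, ⟨g, hg⟩, a1, a2, a3⟩, alt⟩ := dickson_poly (S := h.SS e k) E.two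
    ((h.exists_notMem hM H h3 hq X).imp fun w hw => mt (hS w).mp hw) hS'
    (p := fun A => ∃ g, h.PP M e k g A) ⟨1, h.PP_one⟩ (fun _ _ ⟨_, a⟩ ⟨_, b⟩ => ⟨_, h.PP_mul a b⟩)
    (fun c => ⟨_, h.PP_lower hM c⟩) fun c => ⟨_, h.PP_upper hM X.mem c⟩
  obtain ⟨a, b, μ, b1, b2, -, b4, -, -, b7, b8⟩ := h.exists_PP hM H h3 hq hd X hg h0 a1
  rw [mem_annP, map_add, map_one, LinearMap.add_apply, End.one_apply, add_eq_zero_iff_eq_neg] at a2 a3
  obtain rfl : μ = 1 := smul_left_injective F (neg_ne_zero.mpr h0) (by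
    simp only [one_smul]; rw [← a2, ← b8, b7, a2, a3])
  simp only [one_smul] at b4 b8
  have c1 : ∀ x, h.SS e k (aeval (h.SS e k) (A 0 0) x + x) = 0 → ∃ w,
      g.1 (h.NN e k (τ e x)) = τ e (h.SS e k w) - h.NN e k (τ e x) := fun x hx => by
    have d1 := hg.2.2.2 x 0
    have d2 := h.NN_of_mem ((hS _).mp hx)
    simp only [map_zero, add_zero, map_add (τ e), map_add (h.NN e k)] at d1 d2
    exact ⟨_, by rw [d1, eq_neg_of_add_eq_zero_left d2, neg_add_eq_sub]⟩
  by_cases hU : ∀ u, B₁ e u = 0 → u ∈ F ∙ e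
  swap
  · have c2 : ∀ z, h.cu e z = 0 → ∃ w, g.1 z = z + τ e w := fun z hz => by
      obtain ⟨w, w', d1⟩ := hg.2.2.1 z
      obtain ⟨w'', d2⟩ := mem_JJ.mp (h.mem_of_cu hM H h3 hq hd X (w := w) (by
        have := b4 z
        simp [d1, hz, h.alt₁] at this
        exact this ▸ zero_mem _))
      exact ⟨w'' + w', by simp [d1, d2, add_assoc]⟩
    push Not at hU
    obtain ⟨u, d1, d2⟩ := hU
    obtain ⟨ψ, d3, d4⟩ := exists_dual_one_zero d2
    have d5 : ∀ w, ψ (a u) • b w = w := fun w => by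
      obtain ⟨w', d⟩ := c2 (τ u w) (by simp [d1])
      simpa [b1, d3, d4] using congrArg (cL h.ten ψ) d
    have d6 : ψ (a u) = -1 := smul_left_injective F h0 (by simpa [b7, a3, neg_eq_iff_eq_neg] using d5 (h.SS e k x₀))
    have d7 : ∀ w, b w = -w := fun w => by simpa [d6, neg_eq_iff_eq_neg] using d5 w
    have d8 : ∀ w ∈ JJ τ e k⁻¹, w = 0 := fun w hw => by
      have := ten_right_inj h.ten X.ne (z := -w) (z' := w) (by rw [← hg.2.1 w hw, b1, b2, d7])
      rw [neg_eq_iff_add_eq_zero, ← two_smul F] at this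
      simpa [E.two] using this
    have d9 : ∀ y z, h.cw y (g.1 z) = -a (h.cw y z) := fun y z =>
      LinearMap.congr_fun (ten_ext h.ten (f := h.cw y ∘ₗ g.1.toLinearMap) (g := -a ∘ₗ h.cw y)
        fun u w => by simp [b1, d7]) z
    have e1 : ∀ u, a u + u ∈ Submodule.span F {e, a f + f} := fun u => by
      obtain ⟨φ, e2⟩ := Module.Projective.exists_dual_eq_one F h0
      obtain ⟨w, e3⟩ := c2 (τ (u - B₁ e u • f) (h.SS e k x₀)) (by simp [hf])
      have e4 := congrArg (cR h.ten φ) e3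
      simp [b1, d7, e2] at e4
      exact Submodule.mem_span_pair.mpr ⟨-φ w, B₁ e u, by linear_combination (norm := module) e4⟩
    have := h.le_of_cw hM H h3 hq X (finrank_span_pair_le e (a f + f)) fun y w => by
      obtain ⟨x, rfl⟩ := LinearMap.injective_iff_surjective.mp (show Function.Injective
        (h.cu e ∘ₗ k.1.symm.toLinearMap ∘ₗ τ e) from (injective_iff_map_eq_zero _).mpr fun x hx =>
          d8 _ ((hS _).mp (by simp [SS_apply, NN_apply, show h.cu e (k.1.symm (τ e x)) = 0 from hx]))) w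
      obtain ⟨w, e2⟩ := c1 x (by simp [← aeval_comm, ← b8, d7])
      have e3 := d9 y (h.NN e k (τ e x))
      rw [e2, map_sub, cw_ten] at e3
      refine (Submodule.smul_mem_iff _ E.two).mp ?_
      convert add_mem (e1 (h.cw y (h.NN e k (τ e x)))) (Submodule.smul_mem _ (β y (h.SS e k w))
        (Submodule.subset_span (Set.mem_insert _ _))) using 1
      change (2 : F) • h.cw y (h.NN e k (τ e x)) = _
      linear_combination (norm := module) -e3
    rw [← h.finrank_JJ_inv X.ne k, (Submodule.eq_bot_iff _).mpr d8, finrank_bot] at this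
    omega
  have d0 : ∀ u, ∃ c : F, u = c • e + B₁ e u • f := fun u => by
    obtain ⟨c, hc⟩ := Submodule.mem_span_singleton.mp (hU (u - B₁ e u • f) (by simp [hf]))
    exact ⟨c, by simp [hc]⟩
  have d1 : finrank F (⊤ : Submodule F U) ≤ 2 :=
    (Submodule.finrank_mono fun u _ => by
      obtain ⟨c, hc⟩ := d0 u; exact Submodule.mem_span_pair.mpr ⟨_, _, hc.symm⟩).trans (finrank_span_pair_le e f)
  have d2 := h.le_of_cw hM H h3 hq X d1 fun _ _ => trivial
  rw [← h.finrank_JJ_inv X.ne k] at d2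
  rw [finrank_top] at d1
  have d3 : JJ τ e k⁻¹ ≠ ⊥ := fun e' => by rw [e', finrank_bot] at d2; omega
  rcases alt with ⟨A', ⟨g', hg'⟩, d4, d5⟩ | ⟨d4, l, d5, d6⟩
  · obtain ⟨a', b', μ, -, -, -, -, e1, -, e2, e3⟩ := h.exists_PP hM H h3 hq hd X hg' h0 d4
    exact d5 (by rw [mem_annP, map_sub, LinearMap.sub_apply, ← e2, e3, e1 d3, one_smul, sub_self])
  obtain ⟨r, d7, d8, d9⟩ := SY.exists_iso (β := β) (P := JJ τ e k⁻¹) (by
    have := hq.resolve_left fun ⟨c, a, b⟩ => b (d4 c a); omega)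
  have e1 : ∀ x, h.SS e k (h.SS e k x) = l • h.SS e k x := fun x => by
    obtain ⟨a', b', μ, -, -, -, -, -, e1, -⟩ := h.exists_PP hM H h3 hq hd X (h.PP_mul (h.PP_upper hM X.mem 1)
      (h.PP_mul (h.PP_lower hM (-2 / l)) (h.PP_upper hM X.mem 1))) h0 (by
        rw [mem_annP, aeval_of_smul d6]; simp [Matrix.mul_apply]; left; field_simp; ring)
    have e2 := hS' ((2 : F) • x - (2 / l) • h.SS e k x) (by
      rw [← e1 x]; simp [Matrix.mul_apply]; module)
    rw [map_sub, map_smul, map_smul, sub_eq_zero] at e2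
    refine smul_right_injective W (div_ne_zero E.two d5) ?_
    simp only [← e2, smul_smul]; rw [div_mul_cancel₀ _ d5]
  have e0 : ∀ x, β r (h.SS e k x) = 0 := fun x => by simp [← h.SS_adj, (hS r).mpr d7]
  have e2 : ∀ x, B (τ f r) (h.NN e k (τ e x)) = 0 := fun x => by
    have e3 : (A 0 0).eval l = -1 := smul_left_injective F h0 (by simpa [aeval_of_smul d6] using a2)
    obtain ⟨w, e4⟩ := c1 x (by simp [← aeval_comm, aeval_of_smul (e1 x), e3])
    have e5 : b r = r := ten_right_inj h.ten X.ne (by rw [← hg.2.1 r d7, b1, b2])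
    obtain ⟨c, e6⟩ := d0 (a f)
    have e7 : B₁ e (a f) = 1 := smul_left_injective F d8 (by simpa [b1, e5, hf] using (b4 (τ f r)).symm)
    have := UG_map g (τ f r) (h.NN e k (τ e x))
    rw [b1, e4, e5, e6, e7] at this
    simp [h.map, e0, h.B_NN (τ e r), h.NN_of_mem d7, neg_eq_iff_add_eq_zero, ← two_mul, E.two] at this
    exact this
  have e3 : ∀ u, h.cu e (h.NN e k (τ u r)) = 0 := fun u => E.ext fun x => by
    obtain ⟨c, hc⟩ := d0 u
    rw [← h.B_cu, h.B_NN, hc]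
    simp [e2, h.B_NN (τ e r), h.NN_of_mem d7]
  obtain ⟨x, hx⟩ := E.exists_ne h0
  have := h.perp_of_fix hM H d9 d8 (e0 x₀) (e0 x) (mul_mem (mul_mem (mul_mem (hM _ (h.tn_tL (tv B₁ e (-1))))
    (h.tt_mem (e := e) hM X.mem 1)) (hM _ (h.tn_tL (tv B₁ e 1)))) (h.tt_mem (e := e) hM X.mem (-1)))
    (fun u => by
      simp only [UG_mul_apply, tt_apply, tL_tv]
      simp [e3, h.NN_of_mem d7, h.alt₁]; abel) e
  simp only [UG_mul_apply, tt_apply, tL_tv, h.B_cu] at this
  simp [h.alt₁, ← SS_apply, d6, d5] at this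
  rw [h.SS_adj, d6] at this
  simp [d5, E.symm x, hx] at this

omit X in
theorem tn_of_mem_M (hk : k ∈ M) : TN τ k.1 := by
  by_contra h1
  haveI : Nontrivial U := Module.nontrivial_of_finrank_pos (R := F) (Nat.pos_of_ne_zero fun e' => by
    haveI := finrank_zero_iff.mp e'
    exact h1 ⟨0, 0, fun u w => by simp [Subsingleton.elim u 0]⟩)
  obtain ⟨e, he⟩ := exists_ne (0 : U)
  obtain ⟨g, ⟨a1, a2⟩, a3⟩ := Set.exists_max_image {g : UG B | g ∈ M ∧ ¬ TN τ g.1}
    (fun g => finrank F (JJ τ e g)) (by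
      haveI := h.fin
      haveI : Finite V := Module.finite_of_finite F
      haveI : Finite (V ≃ₗ[F] V) := Finite.of_injective _ DFunLike.coe_injective
      exact Set.toFinite _) ⟨k, hk, h1⟩
  exact h.false_of_mx hM H h3 hq hd ⟨he, a1, a2, fun k' a b => by_contra fun c => (a3 k' ⟨a, c⟩).not_gt b⟩

end TF

end Cfsg.Agent.H12
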