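import Mathlib
import Cfsg.Agent.H12.TfH
import Cfsg.Agent.H12.TenC
import Cfsg.Agent.H12.MaxC
import Cfsg.Agent.H18.SpCase

/-!
Maximality of tensor product stabilizers in symplectic groups.
-/

set_option autoImplicit false

namespace Cfsg.Agent.H12

open Module Matrix Cfsg.Geo
open scoped Kronecker

variable {F : Type*} [Field F]

theorem frm_kronV {α γ : Type} [Fintype α] [Fintype γ] (σ : F →+* F) (G : Matrix α α F) (G' : Matrix γ γ F)
    (u u' : α → F) (w w' : γ → F) :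
    H18.frm σ (G ⊗ₖ G') (H18.kronV u w) (H18.kronV u' w') = H18.frm σ G u u' * H18.frm σ G' w w' := by
  simp only [H18.frm_eq_sum, Fintype.sum_prod_type, Finset.sum_mul_sum, H18.kronV, kroneckerMap_apply, map_mul]
  refine Finset.sum_congr rfl fun _ _ => Finset.sum_congr rfl fun _ _ => Finset.sum_congr rfl fun _ _ =>
    Finset.sum_congr rfl fun _ _ => by ring

theorem tensor_form_apply {ι : Type} [Fintype ι] [DecidableEq ι] {σ : F →+* F} {f : (ι → F) → (ι → F) → F}
    {a b : ℕ} {f₁ : (Fin a → F) → (Fin a → F) → F} {f₂ : (Fin b → F) → (Fin b → F) → F}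
    {e : ι ≃ Fin a × Fin b} {P : GL ι F} (h1 : H18.Sesq σ f₁) (h2 : H18.Sesq σ f₂)
    (h : IsTensorFormStructure σ f f₁ f₂ e P) :
    ∃ c : F, c ≠ 0 ∧ ∀ u w u' w', f (tP e P u w) (tP e P u' w') = c * (f₁ u u' * f₂ w w') := by
  obtain ⟨c, hc, h⟩ := h
  exact ⟨c, hc, fun u w u' w' => by
    rw [tP_apply, tP_apply, h, H18.formOfGram_eq, frm_kronV, ← h1.eq_frm, ← h2.eq_frm]⟩

theorem max_sp_tensor [Fintype F] {m a b : ℕ} (h2 : (2 : F) ≠ 0) (hb : 3 ≤ b)
    (hq : Fintype.card F ≠ 3 ∨ 4 ≤ b) (hd : 5 ≤ b ∨ b < 2 * a) {e : (Fin m ⊕ Fin m) ≃ Fin a × Fin b}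
    {P : GL (Fin m ⊕ Fin m) F} {f₁ : (Fin a → F) → (Fin a → F) → F} {f₂ : (Fin b → F) → (Fin b → F) → F}
    (hf₁ : IsSymplecticForm f₁) (hf₂ : IsSymmetricForm f₂) (hm : 0 < m)
    (hT : IsTensorFormStructure id (sympForm m F) f₁ f₂ e P) :
    IsMaximalIn (spGL m F) (tensorProductSubgroup a b e P ⊓ spGL m F) := by
  have hf := tvF_sp hm F
  have a1 := Fintype.card_congr e
  have a2 := H18.even_card_of_symplectic hf₁
  simp only [Fintype.card_sum, Fintype.card_prod, Fintype.card_fin] at a1 a2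
  have a3 : 2 ≤ a := by
    obtain ⟨r, rfl⟩ := a2
    by_contra h; obtain rfl : r = 0 := by omega
    omega
  have : Nonempty (Fin a) := ⟨⟨0, by omega⟩⟩
  have a4 := H18.hform_of_symmetric hf₂
  obtain ⟨c, hc, h⟩ := tensor_form_apply (σ := RingHom.id F) (tvF_of_symplectic hf₁).toSesq a4.toSesq hT
  have T : TF (tB hf) (tB (tvF_of_symplectic hf₁)) (c • a4.toSesq.toMap) (tP e P) :=
    ⟨isTen_tP e P, sd_tB _, sd_tB _, ⟨fun x y => congrArg (c * ·) (hf₂.symm y x), fun x hx =>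
      a4.nondeg x fun y => (mul_eq_zero.mp (hx y)).resolve_left hc, h2⟩, fun u w u' w' => by
        rw [tB_apply, tB_apply, h]; change _ = _ * (c * f₂ w' w); ring⟩
  rw [spGL_eq_inf hm]
  refine isMaximalIn_iso hf _ (fun _ => mem_tensor_iff (by omega) (by omega)) (fun H => ?_)
    fun M hM _ g hg hg' => by_contra fun H => hg' (T.tn_of_mem_M
      (fun k => hM _ (((sd_tB hf).SUG_eq_top rfl).ge trivial)) H (by simpa) (hq.imp (fun h3 => ?_) (by simp))
      (by simpa) hg)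
  · obtain ⟨g, hg, U, h1, h2, h3⟩ := (has_SU hf).exists_small
    exact H18.not_mem_tensor_of_small (by simp; omega) h1 h2 h3 a3 (by omega) e P (H hg)
  · classical
    by_contra! H'
    have b1 : (Finset.univ : Finset F) = {0, 1, -1} := by
      ext x; by_cases hx : x = 0 <;> simp [hx, ← mul_self_eq_one_iff, H']
    have b2 : (1 : F) ≠ -1 := fun e' => h2 (by linear_combination e')
    exact h3 (by rw [← Finset.card_univ, b1, Finset.card_eq_three]; exact ⟨0, 1, -1, by simp, by simp, b2, rfl⟩)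

end Cfsg.Agent.H12
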