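import Mathlib
import Cfsg.Agent.H12.UtC
import Cfsg.Agent.H12.TfI

/-!
Maximality of the stabiliser of a unitary tensor decomposition.
-/

set_option autoImplicit false

namespace Cfsg.Agent.H12

open Module Geo

theorem max_su_tensor_of {F : Type*} [Field F] [Fintype F] {n q a b : ℕ} (hF : Fintype.card F = q ^ 2) (ha : 2 ≤ a)
    (hb : a < b) {e : Fin n ≃ Fin a × Fin b} {P : GL (Fin n) F} {f₁ : (Fin a → F) → (Fin a → F) → F}
    {f₂ : (Fin b → F) → (Fin b → F) → F} (hf₁ : IsUnitaryFormPow q f₁) (hf₂ : IsUnitaryFormPow q f₂)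
    (hT : IsTensorFormStructure (fun x : F => x ^ q) (hermForm n F q) f₁ f₂ e P)
    (H : ∀ B B₁ β ζ, UT (σ := frobq hF) B B₁ β (tP e P) ζ → ∀ M : Subgroup (UG B),
      (∀ g ∈ SUG B, TN (tP e P) g.1 → g ∈ M) → M ≤ SUG B → ¬ SUG B ≤ M → ∀ k ∈ M, TN (tP e P) k.1) :
    IsMaximalIn (GU n F q ⊓ specialLinear (Fin n) F)
      (tensorProductSubgroup a b e P ⊓ (GU n F q ⊓ specialLinear (Fin n) F)) := by
  have a1 : n = a * b := by simpa using Fintype.card_congr e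
  have a0 : 2 ≤ n := by nlinarith
  obtain ⟨t, hf⟩ := exists_tvF_su hF a0
  obtain ⟨t₁, h1⟩ := (H18.hform_of_unitaryPow (frobq_apply hF) (frobq_frobq hF) hf₁).tvF_herm (frobq_ne_id hF) (by simpa)
  obtain ⟨t₂, h2⟩ := (H18.hform_of_unitaryPow (frobq_apply hF) (frobq_frobq hF) hf₂).tvF_herm (frobq_ne_id hF)
    (by simp; omega)
  obtain ⟨c, hc, h⟩ := tensor_form_apply (σ := frobq hF) h1.toSesq h2.toSesq (by
    convert hT; exact frobq_apply hF _)
  have b1 : ∀ u w u' w', tB hf (tP e P u w) (tP e P u' w') = t * c / (t₁ * t₂) * (tB h1 u u' * tB h2 w w') :=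
    fun u w u' w' => by
      have := h1.ne; have := h2.ne
      rw [tB_apply, tB_apply, tB_apply, h]; field_simp
  obtain ⟨x, x1, x2⟩ := (sd_tB h1).exists_iso (sd_tB h1).ns (by simpa)
  obtain ⟨y, y1, y2⟩ := (sd_tB h2).exists_iso (sd_tB h2).ns (by simp; omega)
  obtain ⟨x', x3⟩ := (sd_tB h1).exists_SP x2 x1
  obtain ⟨y', y3⟩ := (sd_tB h2).exists_SP y2 y1
  have T : UT (tB hf) (tB h1) (tB h2) (tP e P) (t * c / (t₁ * t₂)) :=
    ⟨isTen_tP e P, sd_tB _, sd_tB _, sd_tB _, b1, div_ne_zero (mul_ne_zero hf.ne hc) (mul_ne_zero h1.ne h2.ne), by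
      simpa [b1, x3.ef, y3.ef, x3.fe (sd_tB h1), y3.fe (sd_tB h2), -map_div₀] using
        (sd_tB hf).σ_map (tP e P x y) (tP e P x' y'), frobq_ne_id hF⟩
  refine isMaximalIn_iso hf _ (fun _ => mem_tensor_iff (by omega) (by omega)) (fun H => ?_)
    fun M hM hS g hg hg' => by_contra fun H' => hg' (H _ _ _ _ T M hM hS H' g hg)
  obtain ⟨g, hg, U, h1, h2, h3⟩ := (has_SU hf).exists_small
  exact H18.not_mem_tensor_of_small (by simpa) h1 h2 h3 ha (by omega) e P (H hg)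

theorem max_su_tensor {F : Type*} [Field F] [Fintype F] {n q a b : ℕ} (hF : Fintype.card F = q ^ 2) (ha : 2 ≤ a)
    (hb : a < b) (h4 : 4 ≤ b) (hq : ¬ (a = 2 ∧ q = 2)) {e : Fin n ≃ Fin a × Fin b} {P : GL (Fin n) F}
    {f₁ : (Fin a → F) → (Fin a → F) → F} {f₂ : (Fin b → F) → (Fin b → F) → F} (hf₁ : IsUnitaryFormPow q f₁)
    (hf₂ : IsUnitaryFormPow q f₂) (hT : IsTensorFormStructure (fun x : F => x ^ q) (hermForm n F q) f₁ f₂ e P) :
    IsMaximalIn (GU n F q ⊓ specialLinear (Fin n) F)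
      (tensorProductSubgroup a b e P ⊓ (GU n F q ⊓ specialLinear (Fin n) F)) :=
  max_su_tensor_of hF ha hb hf₁ hf₂ hT fun _ _ _ _ T _ hM hS H _ hk => T.tn_of_four hM hS H (by simpa) (by simpa)
    (by have := two_le_of_card_eq_sq hF; simp [q0_frobq]; omega) (by simpa) hk

end Cfsg.Agent.H12
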