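import Mathlib
import Cfsg.Agent.H12.WrE
import Cfsg.Agent.H12.TenC
import Cfsg.Agent.H18.FormD

/-!
Maximality of the stabiliser of a tensor power decomposition in the special linear group.
-/

set_option autoImplicit false

namespace Cfsg.Agent.H12

open Module Matrix Cfsg.Geo
open scoped Kronecker

section
variable {F V : Type*} [Field F] [AddCommGroup V] [Module F V] {M : Subgroup (V ≃ₗ[F] V)}
  {U W : Type*} [AddCommGroup U] [Module F U] [AddCommGroup W] [Module F W] {κ : Type*}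
  [FiniteDimensional F U] [FiniteDimensional F W] (h3 : 3 ≤ finrank F W)
include h3

theorem TS.SLV_le (T : TS F U W V) (H : ∀ θ y (φ : Dual F W), φ y = 0 → EN M (T.j θ * T.i (φ.smulRight y))) :
    SLV F V ≤ M := by
  have h := T.h
  haveI := ten_fin h
  have a2 : ∀ x y (l : Dual F U) (φ : Dual F W), φ y = 0 → TR M (T.t x y) (l ∘ₗ T.r φ) :=
    fun x y l φ h0 => (H (l.smulRight x) y φ h0).tr (by simp [h0]) (by simp [T.i_rk])
  refine SLV_le_of_PS (eq_top_iff.mpr fun v _ => h.inductionOn v (zero_mem _) (fun x y γ hγ => ?_)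
    fun _ _ => add_mem)
  rcases eq_or_ne y 0 with rfl | hy
  · simpa using TR.zero_left γ
  rcases eq_or_ne x 0 with rfl | hx
  · simpa using TR.zero_left γ
  obtain ⟨ψ, hψ⟩ := Module.Projective.exists_dual_eq_one F hy
  obtain ⟨μ, hμ⟩ := Module.Projective.exists_dual_eq_one F hx
  refine TR.of_coann (S := {β | ∃ l φ, l x * φ y = 0 ∧ β = l ∘ₗ T.r φ}) ?_ fun u hu => ?_
  · rintro _ ⟨l, φ, b1, rfl⟩ c
    rw [← LinearMap.smul_comp]
    obtain ⟨w, b2, b3⟩ := exists_ker_notMem h3 φ y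
    obtain ⟨χ, b4, b5⟩ := exists_dual_one_zero b3
    simpa [b4, hμ] using (a2 x y μ χ b5).comm (a2 x w (c • l) φ b2) (by simp [mul_comm, b1])
  · have b1 := ten_eq_of_ann h (v := u) (fun φ h0 => (forall_dual_apply_eq_zero_iff F _).mp fun l =>
      hu _ ⟨l, φ, by simp [h0], rfl⟩) hψ
    obtain ⟨c, hc⟩ := Submodule.mem_span_singleton.mp <| show cR h ψ u ∈ F ∙ x by
      by_contra e
      obtain ⟨l, c1, c2⟩ := exists_dual_one_zero e
      exact one_ne_zero (c1.symm.trans (hu _ ⟨l, ψ, by simp [c2], rfl⟩))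
    rw [b1, ← hc]; simp [hγ]

/-- The algebra of twisted root elements. -/
def TS.B (T : TS F U W V) (rt : ∀ y (φ : Dual F W), φ y = 0 → EN M (T.i (φ.smulRight y))) : Subalgebra F (End F U) where
  carrier := {θ | ∀ y (φ : Dual F W), φ y = 0 → EN M (T.j θ * T.i (φ.smulRight y))}
  add_mem' {θ θ'} ha hb y φ h0 := by
    simpa [add_mul] using (ha y φ h0).add (hb y φ h0) (by simp [T.i_rk, h0])
  mul_mem' {θ θ'} ha hb y φ h0 := by
    obtain ⟨w, b1, b2⟩ := exists_ker_notMem h3 φ y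
    obtain ⟨χ, b3, b4⟩ := exists_dual_one_zero b2
    convert (ha y χ b4).comm (hb w φ b1) (by simp [T.i_rk, b4]) (by simp [T.i_rk, b1]) (by simp [T.i_rk, h0]) using 1
    ext; simp [T.i_rk, b3]
  algebraMap_mem' c y φ h0 := by
    convert rt (c • y) φ (by simp [h0]) using 1
    ext; simp [Algebra.algebraMap_eq_smul_one, T.i_rk]

theorem Wr.cs [Finite κ] {T : κ → TS F U W V} (h : Wr T)
    (rt : ∀ i y (φ : Dual F W), φ y = 0 → EN M ((T i).i (φ.smulRight y)))
    (cyc : ∀ i j k, i ≠ j → i ≠ k → j ≠ k → ∃ g ∈ M, (∀ a, ((T i).act g).i a = (T j).i a) ∧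
      ∀ a, ((T j).act g).i a = (T k).i a) (hM : ¬ SLV F V ≤ M) (i : κ) : CS M (T i) := by
  classical
  have := Fintype.ofFinite κ
  have : Nontrivial W := Module.nontrivial_of_finrank_pos (R := F) (by omega)
  refine ⟨rt i, fun θ y φ h0 hy hφ H => by_contra fun c => hM ((T i).SLV_le h3 ?_)⟩
  let E := fun i => ((T i).B h3 (rt i)).map (T i).j
  have a0 : ∀ i c, c ∈ E i → ∀ y (φ : Dual F W), φ y = 0 → EN M (c * (T i).i (φ.smulRight y)) := by
    rintro i _ ⟨θ, b, rfl⟩; exact b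
  have a1 : ∀ i c, (∀ a, Commute c ((T i).i a)) → (∀ y (φ : Dual F W), φ y = 0 → EN M (c * (T i).i (φ.smulRight y))) →
      c ∈ E i := fun i c b1 b2 => by
    obtain ⟨θ, rfl⟩ := TS.exists_j b1
    exact ⟨θ, b2, rfl⟩
  have a2 : ∀ i, ∀ c ∈ E i, ∀ a, Commute c ((T i).i a) := by
    rintro i _ ⟨θ, -, rfl⟩ a; exact (T i).comm_ij _ _
  have a3 : ∀ i, ∀ c ∈ E i, ∀ N, EN M N → (∀ x, N (N x) = 0) → (∀ a, Commute N ((T i).i a)) →
      N * c - c * N - N * c * N ∈ E i := fun i c hc N b1 b2 b3 => by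
    refine (add_mem_cancel_left hc).mp (a1 i _ (fun a => (a2 i c hc a).add_left ((((b3 a).mul_left (a2 i c hc a)).sub_left
      ((a2 i c hc a).mul_left (b3 a))).sub_left (((b3 a).mul_left (a2 i c hc a)).mul_left (b3 a)))) fun y φ h0 => ?_)
    convert (a0 i c hc y φ h0).conj_en b1 b2 using 1
    simp only [add_mul, sub_mul, mul_assoc, (b3 _).eq]
  have a4 : (T i).j θ ∈ E i := ⟨θ, fun z ψ hz => pair_move h3 (p := fun y φ => EN M ((T i).j θ * (T i).i (φ.smulRight y)))
    (fun d w χ e => by convert e using 3; ext; simp [smul_smul, mul_comm])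
    (fun w z χ χ' e c1 c2 c3 c4 => by
      convert (rt i z χ' c4).comm e ((T i).sq c4) (by simp [TS.i_rk, c1]) (by simp [TS.i_rk, c2]) using 1
      ext; simp [TS.i_rk, c3])
    (fun w x χ χ' e c1 c2 c3 c4 => by
      convert e.comm (rt i x χ' c4) (by simp [TS.i_rk, c1]) ((T i).sq c4) (by simp [TS.i_rk, c2]) using 1
      ext; simp [TS.i_rk, c3]) H h0 hy hφ hz, rfl⟩
  obtain ⟨j, hj⟩ : ∃ j, ¬ ∀ a, Commute ((T i).j θ) ((T j).i a) := not_forall.mp fun e => by
    obtain ⟨d, hd⟩ := h.cen e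
    obtain ⟨χ, hχ⟩ := Module.Projective.exists_dual_eq_one F hy
    exact c ⟨d, fun x => by simpa [hχ] using congrArg ((T i).r χ) (LinearMap.congr_fun hd ((T i).t x y))⟩
  have a5 : i ≠ j := by rintro rfl; exact hj fun a => (T i).comm_ij _ _
  have a6 := h.nu h3 (Finset.univ.erase i) (E i).toSubmodule (fun _ a _ b => (E i).mul_mem a b)
    (fun l hl c hc a => by obtain rfl : l = i := by simpa using hl
                           exact a2 _ c hc a)
    (fun l hl y φ h0 c hc N hN => a3 i c hc N (hN ▸ rt l y φ h0) (hN ▸ (T l).sq h0)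
      (hN ▸ h.cm l i (Finset.ne_of_mem_erase hl) _)) a4 hj
  refine fun θ => TS.all_of_gen h i (B := (T i).B h3 (rt i)) (fun k hk a θ e => a0 i _ (e ▸ ?_)) θ
  by_cases e : j = k
  · exact e ▸ a6 a
  obtain ⟨g, b1, b2, b3⟩ := cyc i j k a5 hk.symm e
  simpa using mem_of_rk h3 (E := (E i).toSubmodule.comap (LinearMap.mulLeft F ((T k).i a) ∘ₗ (T j).i.toLinearMap))
    (fun b hb b' _ => by simpa [mul_assoc] using (E i).mul_mem hb (a6 b')) (fun y χ h0 => by
      obtain ⟨φ, c1, c2, -⟩ := exists_dual_ker₂ h3 y y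
      obtain ⟨w, hw⟩ := φ.surjective_iff_ne_zero.mpr c1 1
      have c3 := h.cm k j (Ne.symm e) a
      have := a3 i _ (a6 (χ.smulRight w)) ((T k).i a * (T j).i (φ.smulRight y))
        ((a0 i _ (a6 a) y φ c2).conj b1 fun x => by simp [← b2, ← b3, TS.act_i])
        (fun x => by rw [End.mul_apply, End.mul_apply, ← End.mul_apply _ ((T k).i a), ← (c3 _).eq]; simp [TS.i_rk, c2])
        fun a' => (h.cm k i hk a a').mul_left (h.cm j i a5.symm _ a')
      rw [← mul_assoc, ← (c3 _).eq, mul_assoc, mul_assoc, mul_assoc, mul_assoc, ← mul_assoc _ ((T k).i a), ← (c3 _).eq,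
        mul_assoc, ← map_mul, ← map_mul, show χ.smulRight w * φ.smulRight y = 0 by ext; simp [h0],
        show φ.smulRight y * χ.smulRight w = χ.smulRight y by ext; simp [hw]] at this
      simpa using this) 1

end

variable {ι : Type} [Fintype ι] [DecidableEq ι] {F : Type*} [Field F] {s m : ℕ}

/-- The factors of the standard tensor power. -/
noncomputable def wT (e : ι ≃ (Fin (s + 1) → Fin m)) (P : GL ι F) (i : Fin (s + 1)) :
    TS F ((Fin s → Fin m) → F) (Fin m → F) (ι → F) :=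
  ⟨_, isTen_tP (e.trans ((Fin.insertNthEquiv (fun _ => Fin m) i).symm.trans (Equiv.prodComm _ _))) P⟩

variable {e : ι ≃ (Fin (s + 1) → Fin m)} {P : GL ι F}

theorem wT_i (i : Fin (s + 1)) (X : Matrix (Fin m) (Fin m) F) :
    (wT e P i).i (toLin' X) = toLin' (H18.trans e P (H18.embT i X)) := (wT e P i).ext fun u w => by
  rw [TS.i_t, toLin'_apply, toLin'_apply, ← one_mulVec u]
  refine (trans_kron_tP _ P 1 X u w).symm.trans ?_
  rw [one_mulVec, H18.trans_apply, H18.trans_apply]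
  congr 2
  ext x y
  simp [H18.embT, H18.pureT_apply, Fin.prod_univ_succAbove _ i, one_apply, Finset.prod_boole, funext_iff, Fin.removeNth]

/-- Transport of matrices. -/
noncomputable def trL (e : ι ≃ (Fin (s + 1) → Fin m)) (P : GL ι F) :
    Matrix (Fin (s + 1) → Fin m) (Fin (s + 1) → Fin m) F ≃ₐ[F] End F (ι → F) := (H18.trans e P).trans toLinAlgEquiv'

theorem wT_i' (i : Fin (s + 1)) (X : Matrix (Fin m) (Fin m) F) :
    (wT e P i).i (toLin' X) = trL e P (H18.embT i X) := wT_i i X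

theorem wr_wT : Wr (wT e P) where
  cm i j h a a' := by
    obtain ⟨a, rfl⟩ := toLin'.surjective a
    obtain ⟨a', rfl⟩ := toLin'.surjective a'
    rw [wT_i', wT_i']
    exact ((Pi.mulSingle_commute (f := fun _ => Matrix (Fin m) (Fin m) F) h a a').map H18.pureT).map (trL e P)
  gen B H := eq_top_iff.mpr fun a _ => by
    obtain ⟨a, rfl⟩ := (trL e P).surjective a
    rw [a.matrix_eq_sum_single]
    simp only [map_sum]
    refine sum_mem fun x _ => sum_mem fun y _ => ?_
    rw [← mul_one (a x y), ← smul_eq_mul, ← smul_single, map_smul, ← H18.pureT_single]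
    exact B.smul_mem (H18.pureT_mem_of_embT (A := (B.comap (trL e P).toAlgHom).toSubmonoid) _
      fun i => by have := H i (toLin' (single (x i) (y i) 1)); rwa [wT_i'] at this) _

theorem act_wT_i (g : GL ι F) (i : Fin (s + 1)) (X : Matrix (Fin m) (Fin m) F) :
    ((wT e P i).act (glEq ι F g)).i (toLin' X) = toLin' (H18.cj g (H18.trans e P (H18.embT i X))) :=
  LinearMap.ext fun v => by
    obtain ⟨v, rfl⟩ := (glEq ι F g).surjective v
    rw [TS.act_i, LinearEquiv.symm_apply_apply, wT_i, toLin'_apply, toLin'_apply, glEq_apply, glEq_apply, H18.cj_mulVec]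

theorem mem_wreath_of_PW (hm : 0 < m) {g : GL ι F} (h : PW (wT e P) (glEq ι F g)) :
    g ∈ tensorWreathSubgroup m (s + 1) e P := by
  obtain ⟨π, h⟩ := h
  refine H18.mem_tensorWreath_of_permutes hm s.succ_pos π fun i X => ?_
  obtain ⟨a, ha⟩ := h i (toLin' X)
  obtain ⟨a, rfl⟩ := toLin'.surjective a
  exact ⟨a, toLin'.injective (by rw [← act_wT_i, ha, wT_i])⟩

/-- The permutation of the factors. -/
noncomputable def wP (e : ι ≃ (Fin (s + 1) → Fin m)) (P : GL ι F) : Equiv.Perm (Fin (s + 1)) →* GL ι F :=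
  (Units.map (H18.trans e P).toMonoidHom).comp (MonoidHom.mk' (H18.permGL F (Fin m)) fun σ τ => Units.ext (by
    ext x y; exact (H18.permT_mul σ (H18.permT F (Fin m) τ) x y).symm))

theorem act_wP (σ : Equiv.Perm (Fin (s + 1))) (i : Fin (s + 1)) (a : End F (Fin m → F)) :
    ((wT e P i).act (glEq ι F (wP e P σ))).i a = (wT e P (σ i)).i a := by
  obtain ⟨a, rfl⟩ := toLin'.surjective a
  rw [act_wT_i, wT_i, H18.cj_trans (s := H18.permGL F (Fin m) σ) rfl, H18.embT, H18.cj_permGL, H18.mulSingle_comp_symm]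
  rfl

theorem exists_cyc {i j k : Fin (s + 1)} (h1 : i ≠ j) (h2 : i ≠ k) (h3 : j ≠ k) :
    ∃ σ, σ i = j ∧ σ j = k ∧ glEq ι F (wP e P σ) ∈ SLV F (ι → F) := by
  refine ⟨(Equiv.swap i j * Equiv.swap i k) ^ 2, ?_, ?_, glEq_mem_SLV.mpr ?_⟩
  · simp [sq, Equiv.swap_apply_of_ne_of_ne, h1, h2, h3, h1.symm, h2.symm, h3.symm]
  · simp [sq, Equiv.swap_apply_of_ne_of_ne, h1, h2, h3, h1.symm, h2.symm, h3.symm]
  change (GeneralLinearGroup.det.comp (wP e P)) _ = 1
  rw [map_pow, map_mul, mul_pow, ← map_pow, ← map_pow, sq, sq, Equiv.swap_mul_self, Equiv.swap_mul_self, map_one,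
    one_mul]

theorem max_SL_wreath [Fintype F] {t : ℕ} (hm : 3 ≤ m) (ht : 2 ≤ t) (e : ι ≃ (Fin t → Fin m)) (P : GL ι F) :
    IsMaximalIn (specialLinear ι F) (tensorWreathSubgroup m t e P ⊓ specialLinear ι F) := by
  obtain ⟨s, rfl⟩ : ∃ s, t = s + 1 := ⟨t - 1, by omega⟩
  have h1 : 2 ≤ Fintype.card ι := by
    rw [Fintype.card_congr e]; simp; nlinarith [Nat.one_le_pow s m (by omega), pow_succ m s]
  have h3 : 3 ≤ finrank F (Fin m → F) := by simpa
  have : NeZero m := ⟨by omega⟩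
  refine isMaximalIn_SL (fun g => (glEq ι F).symm g ∈ tensorWreathSubgroup m (s + 1) e P) (by simp) (fun H => ?_)
    fun M hM _ g hg hg' => by_contra fun c => hg' (mem_wreath_of_PW (by omega) ?_)
  · obtain ⟨g, hg, U, h2, h3, h4⟩ := H18.exists_SL_small (ι := ι) (F := F) h1
    exact H18.not_mem_wreath_of_small h1 h2 h3 h4 ht (Or.inl hm) e P (H hg)
  have hM' : ∀ g ∈ SLV F (ι → F), PW (wT e P) g → g ∈ M := fun g a b =>
    hM g a (mem_wreath_of_PW (by omega) (by simpa))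
  have a1 := (wr_wT (e := e) (P := P)).cs h3 (fun i y φ h0 => EN.of_sq hM' ((wT e P i).sq h0) fun g hg =>
    wr_wT.pw_i (i := i) (b := 1 + φ.smulRight y) (b' := 1 - φ.smulRight y) (by simpa) fun v => by
      rw [g.symm_apply_eq, hg]; simp [TS.sq _ h0]) (fun i j k a b c => by
    obtain ⟨σ, rfl, rfl, d⟩ := exists_cyc (e := e) (P := P) a b c
    exact ⟨_, hM' _ d ⟨σ, fun l a => ⟨a, act_wP σ l a⟩⟩, act_wP σ _, act_wP σ _⟩) c
  rw [MulEquiv.apply_symm_apply]
  refine wr_wT.pw_of_rel (by omega) fun i j => ?_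
  have := Fintype.one_lt_card (α := F)
  by_cases h2 : Fintype.card F = 2
  · by_cases h4 : m = 3
    · exact CS.rel_two h2 h3 (by simpa [h4] using Odd.pow (by decide)) (a1 j) ((a1 i).act hg)
    · exact CS.rel_of_large h3 (k := 3) (by simp; omega) (by simp [h2]) (a1 j) ((a1 i).act hg)
  · exact CS.rel_of_large h3 (k := 2) h3 (by omega) (a1 j) ((a1 i).act hg)

end Cfsg.Agent.H12
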