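import Mathlib
import Cfsg.Agent.H12.FtH
import Cfsg.Agent.H12.WrF
import Cfsg.Agent.H12.UtD

/-!
Maximality of tensor power stabilisers in unitary groups.
-/

set_option autoImplicit false

namespace Cfsg.Agent.H12

open Module Matrix Cfsg.Geo
open scoped Kronecker

section
variable {F V : Type*} [Field F] [AddCommGroup V] [Module F V] {M : Subgroup (V ≃ₗ[F] V)}
  {U W : Type*} [AddCommGroup U] [Module F U] [AddCommGroup W] [Module F W] {σ : F →+* F} {κ : Type*}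
  {B : V →ₛₗ[σ] V →ₗ[F] F} {γ : U →ₛₗ[σ] U →ₗ[F] F} {β : W →ₛₗ[σ] W →ₗ[F] F} {T : TS F U W V}

/-- Pure tensors. -/
structure PV [DecidableEq κ] [Fintype κ] (B : V →ₛₗ[σ] V →ₗ[F] F) (β : W →ₛₗ[σ] W →ₗ[F] F) (T : κ → TS F U W V)
    (pv : (κ → W) → V) (ζ : F) : Prop where
  ne : ζ ≠ 0
  i_pv : ∀ l a y, (T l).i a (pv y) = pv (Function.update y l (a (y l)))
  map : ∀ x y, B (pv x) (pv y) = ζ * ∏ l, β (x l) (y l)
  span : Submodule.span F (Set.range pv) = ⊤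

variable [FiniteDimensional F W] [Finite F] (h : FT B γ β M T)
include h

theorem FT.exists_delta {k : V ≃ₗ[F] V} {z s : W} (hz : β z z = 0) (h0 : z ≠ 0) (H : T.Lv β z k) (hs : β z s = 0) :
    ∃ δ : End F U, ∀ u, k (T.t u s) = T.t u s + T.t (δ u) z := by
  obtain ⟨z', hz'⟩ := h.sd.exists_SP hz h0
  refine ⟨-T.r (β z') ∘ₗ (k.toLinearMap - 1) ∘ₗ T.t.flip s, fun u => ?_⟩
  obtain ⟨y, hy⟩ := H.2 (T.t u s) (by simp [hs])
  simp [hy, hz'.fe h.sd]

variable (hC : HC β) (h2 : σ ≠ RingHom.id F ∨ (2 : F) ≠ 0) (hJ : ∀ c ∈ T.JJ M β, ∃ d : F, c = d • 1)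
include hC h2 hJ

theorem FT.th_scalar {θ : End F U} {z : W} (hz : β z z = 0) (h0 : z ≠ 0) (H : EN M (T.j θ * T.n β z z)) :
    ∃ d : F, ∀ x, θ x = d • x :=
  (hJ _ (h.jj_of hC h2 (fun _ => T.comm_ij _ _) hz h0 H)).imp fun d e x =>
    ten_left_inj T.h h0 (by simpa using LinearMap.congr_fun e (T.t x z))

theorem FT.cw_of [Nontrivial U] (hL : ∀ z, β z z = 0 → z ≠ 0 → ∀ k ∈ M, T.Lv β z k → ∀ s (δ : End F U), β z s = 0 →
    (∀ u, k (T.t u s) = T.t u s + T.t (δ u) z) → ∃ c : F, ∀ u, δ u = c • u) : CW B γ β M T := by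
  refine ⟨h, fun z hz h0 k hk H => ?_⟩
  have D := h.sd
  obtain ⟨z', hz'⟩ := D.exists_SP hz h0
  obtain ⟨u₀, hu⟩ := _root_.exists_ne (0 : U)
  obtain ⟨l, hl⟩ := Module.Projective.exists_dual_eq_one F hu
  obtain ⟨s₀, hs⟩ := D.exists_repr (-l ∘ₗ T.r (β z') ∘ₗ (k.toLinearMap - 1) ∘ₗ T.t u₀)
  have a1 : β z s₀ = 0 := D.comm0 (by simp [hs, H.1])
  obtain ⟨d, hd⟩ := exists_adm D hz a1
  have a2 := mul_mem (inv_mem (h.rho_mem z s₀ d)) hk
  obtain ⟨θ, hθ⟩ := h.lv2 (h.iso _ a2) hz h0 fun v hv => (LinearEquiv.symm_apply_eq _).mpr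
    (T.ind_ker hz'.ef (p := fun v => k v = T.ie (rho β z s₀ d).1 v) (by simp) (fun u s b => by
      obtain ⟨δ, b1⟩ := h.exists_delta hz h0 H b
      obtain ⟨c, b2⟩ := hL z hz h0 k hk H s δ b b1
      simp [T.ie_rho D hd, b, hs, b1, b2, hz'.fe D, hl]) (fun _ _ a b => by simp only [map_add, a, b]) hv)
  obtain ⟨c, hc⟩ := h.th_scalar hC h2 hJ hz h0 ⟨_, a2, hθ⟩
  refine ⟨(rho β z s₀ d).1.toLinearMap * (1 + c • (β z).smulRight z), fun v => ?_⟩
  have := (LinearEquiv.symm_apply_eq _).mp (hθ v)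
  simpa [TS.n_apply, hc, TS.ie_apply, TS.i_rk] using this

theorem FT.cw_su [Nontrivial U] (hσ : σ ≠ RingHom.id F) : CW B γ β M T :=
  h.cw_of hC h2 hJ fun z hz h0 k hk H s δ hs hδ => by
    obtain ⟨ε, hε⟩ : ∃ ε, σ ε ≠ ε := not_forall.mp fun e => hσ (RingHom.ext e)
    obtain ⟨θ, a1, a2⟩ := h.comm_lv hk hz h0 H hs hδ
    obtain ⟨θ', b1, b2⟩ := h.comm_lv hk hz h0 H (s := ε • s) (by simp [hs]) (δ := ε • δ) (by simp [hδ])
    obtain ⟨d, hd⟩ := h.th_scalar hC h2 hJ hz h0 a1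
    obtain ⟨d', hd'⟩ := h.th_scalar hC h2 hJ hz h0 b1
    refine ⟨(σ ε * d - d') / (σ ε - ε), fun x => h.ext fun u => ?_⟩
    have c1 := a2 u x
    have c2 := b2 u x
    have := sub_ne_zero.mpr hε
    simp [hd, hd'] at c1 c2 ⊢
    field_simp
    linear_combination c2 - σ ε * c1

end

variable {ι : Type} [Fintype ι] [DecidableEq ι] {F : Type*} [Field F] {s m : ℕ} {σ : F →+* F}
  {e : ι ≃ (Fin (s + 1) → Fin m)} {P : GL ι F} {ε a ε₁ a₁ : F} {f : (ι → F) → (ι → F) → F}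
  {f₁ : (Fin m → F) → (Fin m → F) → F}

theorem pv_wT (hf : H18.TvF σ ε f a) (h1 : H18.TvF σ ε₁ f₁ a₁) (hT : IsTensorPowerFormStructure σ f f₁ e P) :
    ∃ ζ, PV (tB hf) (tB h1) (wT e P) (fun y => P.1 *ᵥ (H18.pureV y ∘ e)) ζ := by
  obtain ⟨c, hc, H⟩ := hT
  refine ⟨a * c / a₁ ^ (s + 1), div_ne_zero (mul_ne_zero hf.ne hc) (pow_ne_zero _ h1.ne), fun l b y => ?_,
    fun x y => ?_, eq_top_iff.mpr fun v _ => ?_⟩
  · obtain ⟨b, rfl⟩ := toLin'.surjective b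
    rw [wT_i, toLin'_apply, H18.trans_mulVec, H18.embT, H18.pureT_mulVec]
    congr 3
    funext i
    by_cases e' : i = l
    · subst e'; simp
    · simp [e']
  · have := h1.ne
    simp only [tB_apply, H, Finset.prod_mul_distrib, Finset.prod_const, Finset.card_univ, Fintype.card_fin]
    conv_rhs => rw [h1.toSesq.eq_frm]
    simp only [H18.frm_eq_sum, H18.pureV, Finset.prod_univ_sum, Fintype.piFinset_univ, Finset.prod_mul_distrib, map_prod]
    field_simp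
  · obtain ⟨x, rfl⟩ := H18.exists_eq_mulVec_comp e P v
    rw [← Finset.univ_sum_single x, show (∑ i, Pi.single i (x i)) ∘ e = ∑ i, x i • (H18.pureV fun l =>
      Pi.single (i l) (1 : F)) ∘ e by
        ext j; simp [H18.pureV, Pi.single_apply, Finset.prod_boole, ← funext_iff], mulVec_sum]
    exact sum_mem fun i _ => by rw [mulVec_smul]; exact Submodule.smul_mem _ _ (Submodule.subset_span ⟨_, rfl⟩)

theorem max_wreath_of [Fintype F] (hf : H18.TvF σ ε f a) (h1 : H18.TvF σ ε₁ f₁ a₁)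
    (hT : IsTensorPowerFormStructure σ f f₁ e P) (hs : 1 ≤ s) (hm : 3 ≤ m ∨ (2 ≤ m ∧ 2 ≤ s)) (hC : HC (tB h1))
    (hq : σ ≠ RingHom.id F ∨ 3 ≤ q0 σ)
    (H : ∀ γ M, (∀ i, FT (tB hf) γ (tB h1) M (wT e P i)) → (∀ π, ∃ g : UG (tB hf), g.1 = glEq ι F (wP e P π) ∧
      (g ∈ SUG _ → g.1 ∈ M)) → ¬ SUG (tB hf) ≤ M.comap (UG _).subtype → ∀ i, CW (tB hf) γ (tB h1) M (wT e P i)) :
    IsMaximalIn (H18.isoG f ⊓ specialLinear ι F)
      (tensorWreathSubgroup m (s + 1) e P ⊓ (H18.isoG f ⊓ specialLinear ι F)) := by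
  have a0 : 2 ≤ m := by omega
  have a1 : 2 ≤ Fintype.card ι := by
    rw [Fintype.card_congr e]; simp; nlinarith [Nat.one_le_pow s m (by omega), pow_succ m s]
  have : NeZero m := ⟨by omega⟩
  refine isMaximalIn_iso hf (fun g => (glEq ι F).symm g ∈ tensorWreathSubgroup m (s + 1) e P) (by simp) (fun H => ?_)
    fun M hM _ g hg hg' => by_contra fun c => hg' (mem_wreath_of_PW (by omega) ?_)
  · obtain ⟨g, hg, U, h2, h3, h4⟩ := (has_SU hf).exists_small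
    exact H18.not_mem_wreath_of_small a1 h2 h3 h4 (by omega) (hm.imp id fun h => ⟨h.1, by omega⟩) e P (H hg)
  have hM' : ∀ g ∈ SUG (tB hf), PW (wT e P) g.1 → g.1 ∈ M.map (UG _).subtype := fun g a b =>
    ⟨g, hM g a (mem_wreath_of_PW (by omega) (by simpa)), rfl⟩
  obtain ⟨ζ, a2⟩ := pv_wT hf h1 hT
  obtain ⟨c, hc, hT⟩ := hT
  let γ := (a * c / a₁) • (H18.sesq_frm σ (H18.pureT fun _ : Fin s => gramMatrix f₁)).toMap
  have a3 : ∀ i u w u' w', tB hf ((wT e P i).t u w) ((wT e P i).t u' w') = γ u u' * tB h1 w w' := fun i u w u' w' => by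
    have := h1.ne
    have b := hT (H18.kronV u' w' ∘ ((Fin.insertNthEquiv (fun _ => Fin m) i).symm.trans (Equiv.prodComm _ _)))
      (H18.kronV u w ∘ ((Fin.insertNthEquiv (fun _ => Fin m) i).symm.trans (Equiv.prodComm _ _)))
    rw [tB_apply, tB_apply]
    refine (congrArg _ b).trans ?_
    change _ = a * c / a₁ * H18.frm σ _ u' u * _
    rw [congrFun₂ h1.toSesq.eq_frm w' w, show ∀ x y, a * c / a₁ * x * (a₁ * y) = a * (c * (x * y)) from fun x y => by field_simp, ← frm_kronV,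
      H18.frm_eq_sum]
    congr 2
    refine Fintype.sum_equiv ((Fin.insertNthEquiv (fun _ => Fin m) i).symm.trans (Equiv.prodComm _ _)) _ _ fun x =>
      Fintype.sum_equiv ((Fin.insertNthEquiv (fun _ => Fin m) i).symm.trans (Equiv.prodComm _ _)) _ _ fun y => ?_
    simp [H18.pureT_apply, Fin.prod_univ_succAbove _ i, Fin.removeNth, mul_comm]
  have D := sd_tB h1
  have a4 : ∀ i, FT (tB hf) γ (tB h1) (M.map (UG _).subtype) (wT e P i) := fun i => by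
    refine ⟨D, fun x hx => by_contra fun b => ?_, a3 i, by rintro _ ⟨k, -, rfl⟩; exact k.2, fun b hb => ?_⟩
    · obtain ⟨w, hw⟩ := exists_ne (0 : Fin m → F)
      exact ten_ne_zero (wT e P i).h b hw ((sd_tB hf).sep _ fun v => (sd_tB hf).comm0 ((wT e P i).h.inductionOn v
        (by simp) (fun u w' => by simp [a3, hx]) fun _ _ a b => by simp [a, b]))
    let φ : UG (tB h1) →* UG (tB hf) := ((wT e P i).ie.comp (UG _).subtype).codRestrict _ fun b x y =>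
      (wT e P i).h.inductionOn x (by simp) (fun u w => (wT e P i).h.inductionOn y (by simp)
        (fun u' w' => by simp [a3, UG_map]) fun _ _ a b => by simp only [map_add, a, b])
        fun _ _ a b => by simp only [map_add, LinearMap.add_apply, a, b]
    refine hM' (φ b) ((show EG _ ≤ (SUG _).comap φ from (Subgroup.closure_le _).mpr ?_) (D.EG_eq_SUG D.ns ▸ hb))
      (wr_wT.pw_i (i := i) (fun _ => rfl) fun _ => rfl)
    rintro _ ⟨z, s, c, rfl⟩
    by_cases H : Adm (tB h1) z s c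
    · refine mem_SUG_of_nilp ⟨3, (wT e P i).ext fun u w => ?_⟩
      change ((((wT e P i).ie (rho (tB h1) z s c).1).toLinearMap - 1 : End F _) ^ 3) _ = _
      simp [pow_succ, rho_apply D H, H.ee, H.eu, D.comm0 H.eu]; abel
    · rw [rho_of_not H]; exact one_mem _
  have a5 := H γ _ a4 (fun π => ⟨⟨glEq ι F (wP e P π), fun x y => ?_⟩, rfl, fun b =>
    hM' _ b ⟨π, fun l a => ⟨a, act_wP π l a⟩⟩⟩) (by rwa [Subgroup.comap_map_eq_self_of_injective Subtype.val_injective])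
  · rw [MulEquiv.apply_symm_apply]
    exact wr_wT.pw_of_rel (by simpa) fun i j => (a5 j).rel hC hq ((a5 i).act ⟨g, hg, rfl⟩)
  have b1 : ∀ y, glEq ι F (wP e P π) (P.1 *ᵥ (H18.pureV y ∘ e)) = P.1 *ᵥ (H18.pureV (y ∘ π.symm) ∘ e) := fun y => by
    rw [glEq_apply, ← H18.permT_mulVec, ← H18.trans_mulVec]; rfl
  refine LinearMap.congr_fun₂ (f := ((tB hf) ∘ₛₗ (glEq ι F (wP e P π)).toLinearMap).compl₂
    (glEq ι F (wP e P π)).toLinearMap) (LinearMap.ext_on_range a2.span fun x => LinearMap.ext_on_range a2.span fun y => ?_) x y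
  simp only [LinearMap.compl₂_apply, LinearMap.comp_apply, LinearEquiv.coe_coe, b1, a2.map]
  exact congrArg _ (Equiv.prod_comp π.symm fun l => tB h1 (x l) (y l))

theorem cyc_of {B : (ι → F) →ₛₗ[σ] (ι → F) →ₗ[F] F} {M : Subgroup ((ι → F) ≃ₗ[F] (ι → F))}
    (H : ∀ π, ∃ g : UG B, g.1 = glEq ι F (wP e P π) ∧ (g ∈ SUG _ → g.1 ∈ M)) (i j k : Fin (s + 1)) (h1 : i ≠ j)
    (h2 : i ≠ k) (h3 : j ≠ k) : ∃ g ∈ M, (∀ a, ((wT e P i).act g).i a = (wT e P j).i a) ∧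
      ∀ a, ((wT e P j).act g).i a = (wT e P k).i a := by
  obtain ⟨π, rfl, rfl, d⟩ := exists_cyc (e := e) (P := P) h1 h2 h3
  obtain ⟨g, a, b⟩ := H π
  exact ⟨_, a ▸ b (mem_SUG.mpr (mem_SLV.mp (a ▸ d))), act_wP π _, act_wP π _⟩

theorem max_su_wreath [Fintype F] {n q t : ℕ} (hF : Fintype.card F = q ^ 2) (hm : 3 ≤ m) (ht : 2 ≤ t)
    (hq : ¬ (q = 2 ∧ m = 3)) {e : Fin n ≃ (Fin t → Fin m)} {P : GL (Fin n) F} (hf₁ : IsUnitaryFormPow q f₁)
    (hT : IsTensorPowerFormStructure (fun x : F => x ^ q) (hermForm n F q) f₁ e P) :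
    IsMaximalIn (GU n F q ⊓ specialLinear (Fin n) F)
      (tensorWreathSubgroup m t e P ⊓ (GU n F q ⊓ specialLinear (Fin n) F)) := by
  obtain ⟨s, rfl⟩ : ∃ s, t = s + 1 := ⟨t - 1, by omega⟩
  have a1 : 2 ≤ n := by
    have := Fintype.card_congr e
    simp at this; nlinarith [Nat.one_le_pow s m (by omega), pow_succ m s]
  have : NeZero m := ⟨by omega⟩
  obtain ⟨t, hf⟩ := exists_tvF_su hF a1
  obtain ⟨t₁, h1⟩ := (H18.hform_of_unitaryPow (frobq_apply hF) (frobq_frobq hF) hf₁).tvF_herm (frobq_ne_id hF)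
    (by simp; omega)
  have hσ := frobq_ne_id hF
  have hC : HC (tB h1) := by
    have := two_le_of_card_eq_sq hF
    simp [HC, hσ, q0_frobq]; omega
  exact max_wreath_of hf h1 (by convert hT; exact frobq_apply hF _) (by omega) (.inl hm) hC (.inl hσ)
    fun γ M a b c i => (a i).cw_su hC (.inl hσ) (fun _ => wr_wT.jj_scalar (γ := fun _ => γ) a hC (by simpa) (.inl hσ)
      (sd_tB hf) (cyc_of b) c i) hσ

end Cfsg.Agent.H12
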