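import Mathlib
import Cfsg.Agent.H12.FtI

/-!
Products over several tensor factors; the symplectic case with factors of dimension at least four.
-/

set_option autoImplicit false

namespace Cfsg.Agent.H12

open Module Function

variable {F V : Type*} [Field F] [AddCommGroup V] [Module F V] {M : Subgroup (V ≃ₗ[F] V)}
  {U W : Type*} [AddCommGroup U] [Module F U] [AddCommGroup W] [Module F W] {κ : Type*} [Fintype κ] [DecidableEq κ]
  {B : V →ₗ[F] V →ₗ[F] F} {γ : U →ₗ[F] U →ₗ[F] F} {β : W →ₗ[F] W →ₗ[F] F}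

theorem SD.alt (D : SD β) (x : W) : β x x = 0 := (D.trace x).elim fun d e => by simpa using e.symm

theorem TS.co_mul (T : TS F U W V) (y z : W) {ρ : End F V} (h : T.Cm ρ) [Nontrivial W] [FiniteDimensional F W]
    (b : End F W) : T.co β y z (ρ * T.i b) = β y (b z) • ρ := by
  obtain ⟨θ, rfl⟩ := TS.exists_j h
  exact T.ext fun _ _ => by simp [TS.co]

namespace Wr
variable {T : κ → TS F U W V} (h : Wr T)

/-- Pure tensors of endomorphisms. -/
noncomputable def ph : (κ → End F W) →* End F V :=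
  MonoidHom.noncommPiCoprod (fun l => (T l).i.toMonoidHom) fun i j e x y => h.cm i j e x y

theorem ph_single (l : κ) (a : End F W) : h.ph (Pi.mulSingle l a) = (T l).i a :=
  MonoidHom.noncommPiCoprod_mulSingle (N := fun _ => End F W) _ l a

theorem ph_update (a : κ → End F W) (l : κ) (b : End F W) : h.ph (update a l b) = h.ph (update a l 1) * (T l).i b := by
  rw [← h.ph_single, ← map_mul]; congr 1; ext1 m
  by_cases e : m = l
  · subst e; simp
  · simp [e]

theorem ph_cm {a : κ → End F W} {l : κ} (H : a l = 1) : (T l).Cm (h.ph a) := fun b => by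
  rw [← h.ph_single]
  refine Commute.map (funext fun m => ?_) h.ph
  by_cases e : m = l
  · subst e; simp [H]
  · simp [e]

theorem ph_ind (p : Submonoid (κ → End F W)) (a : κ → End F W) (H : ∀ l, Pi.mulSingle l (a l) ∈ p) : a ∈ p :=
  Finset.noncommProd_mulSingle a ▸ p.noncommProd_mem _ _ _ fun l _ => H l

theorem ph_pv {pv : (κ → W) → V} {ζ : F} (H : PV B β T pv ζ) (a : κ → End F W) (y : κ → W) :
    h.ph a (pv y) = pv fun l => a l (y l) :=
  ph_ind (p := { carrier := {a | ∀ y, h.ph a (pv y) = pv fun l => a l (y l)}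
                 mul_mem' := fun a b y => by rw [map_mul, End.mul_apply, b, a]; rfl
                 one_mem' := fun y => by simp }) a (fun l y => by
    rw [h.ph_single, H.i_pv]; congr 1; ext1 m
    by_cases e : m = l
    · subst e; simp
    · simp [e]) y

theorem ph_conj {g : V ≃ₗ[F] V} {π : Equiv.Perm κ} (H : ∀ l a, ((T l).act g).i a = (T (π l)).i a) (a : κ → End F W)
    (v : V) : h.ph (a ∘ π.symm) (g v) = g (h.ph a v) :=
  ph_ind (p := { carrier := {a | ∀ v, h.ph (a ∘ π.symm) (g v) = g (h.ph a v)}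
                 mul_mem' := fun {a b} x y v => by
                   rw [show (a * b) ∘ π.symm = a ∘ π.symm * b ∘ π.symm from rfl, map_mul, map_mul, End.mul_apply, y, x]; rfl
                 one_mem' := fun y => by rw [show (1 : κ → End F W) ∘ π.symm = 1 from rfl]; simp }) a (fun l v => by
    rw [h.ph_single, show Pi.mulSingle l (a l) ∘ π.symm = Pi.mulSingle (π l) (a l) from funext fun m => by
      simp [Pi.mulSingle_apply, Equiv.symm_apply_eq], h.ph_single, ← H, TS.act_i, g.symm_apply_apply]) v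

theorem mv (hF : ∀ i, FT B γ β M (T i)) {a a' : κ → End F W} (H : ∀ l, ∃ g ∈ SUG β, a' l * g.1 = g.1 * a l) {t : F}
    (H' : EN M (t • h.ph a)) : EN M (t • h.ph a') := by
  choose g h1 h2 using H
  obtain ⟨G, a1, a2⟩ := ph_ind (p := {
    carrier := {a | ∃ G ∈ M, G.toLinearMap = h.ph a}
    mul_mem' := fun ⟨G, a, b⟩ ⟨G', c, d⟩ => ⟨G * G', mul_mem a c, by rw [map_mul, ← b, ← d]; rfl⟩
    one_mem' := ⟨1, one_mem _, by simp; rfl⟩ }) (fun l => (g l).1.toLinearMap)
    fun l => ⟨_, (hF l).rt _ (h1 l), by rw [h.ph_single]; rfl⟩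
  refine H'.conj a1 fun v => ?_
  have := LinearMap.congr_fun (congrArg h.ph (funext h2 : a' * (fun l => (g l).1.toLinearMap) = (fun l => _) * a)) v
  simpa [← a2] using congrArg (t • ·) this

/-- The product of copies of `n`. -/
noncomputable def pr (S : Finset κ) (n : End F W) : End F V := h.ph (S.piecewise (fun _ => n) 1)

variable {S : Finset κ} {n : End F W} {l : κ} {ρ : End F V}

theorem pr_cm (H : l ∉ S) : (T l).Cm (h.pr S n) := h.ph_cm (S.piecewise_eq_of_notMem _ _ H)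

theorem pr_insert (H : l ∉ S) : h.pr (insert l S) n = h.pr S n * (T l).i n := by
  rw [pr, Finset.piecewise_insert, h.ph_update, update_eq_self_iff.mpr (by simp [H])]; rfl

theorem pr_empty : h.pr ∅ n = 1 := by simp [pr]

theorem pr_comm (H : ∀ l ∈ S, (T l).Cm ρ) : Commute ρ (h.pr S n) := by
  induction S using Finset.induction_on with
  | empty => simp [pr_empty]
  | insert l S e ih => exact h.pr_insert e ▸ (ih fun m a => H m (by simp [a])).mul_right (H l (by simp) n)

theorem pr_sq (hn : n * n = 0) (hS : S.Nonempty) : h.pr S n * h.pr S n = 0 := by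
  obtain ⟨l, hl⟩ := hS
  rw [← S.insert_erase hl, h.pr_insert (S.notMem_erase l), mul_assoc, ← mul_assoc ((T l).i n),
    ← (h.pr_cm (S.notMem_erase l) n).eq, mul_assoc, ← map_mul, hn]; simp

theorem pr_faith [Nontrivial W] [FiniteDimensional F W] (hn : n ≠ 0) (H : ∀ l ∈ S, (T l).Cm ρ) (e : ρ * h.pr S n = 0) :
    ρ = 0 := by
  induction S using Finset.induction_on with
  | empty => simpa [pr_empty] using e
  | insert l S e' ih => exact ih (fun m a => H m (by simp [a])) (((H l (by simp)).mul (h.pr_cm e')).eq_zero hn (by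
      rwa [h.pr_insert e', ← mul_assoc] at e))

variable (M S n) in
/-- Coefficients of products. -/
def XP (ρ : End F V) : Prop := (∀ l ∈ S, (T l).Cm ρ) ∧ ∀ t : F, EN M (t • ρ * h.pr S n)

variable (M) in
/-- The space of coefficients. -/
def XS (hn : n * n = 0) (hS : S.Nonempty) : Submodule F (End F V) where
  carrier := {ρ | h.XP M S n ρ}
  add_mem' {a b} x y := ⟨fun l e c => (x.1 l e c).add_left (y.1 l e c), fun t => by
    rw [smul_add, add_mul]
    refine (x.2 t).add (y.2 t) fun v => ?_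
    rw [← End.mul_apply, smul_mul_assoc, smul_mul_assoc t b, smul_mul_smul_comm, mul_assoc, ← mul_assoc (h.pr S n),
      ← (h.pr_comm y.1).eq, mul_assoc, h.pr_sq hn hS]; simp⟩
  zero_mem' := ⟨fun _ _ _ => Commute.zero_left _, by simp [EN.zero]⟩
  smul_mem' c _ x := ⟨fun l e a => (x.1 l e a).smul_left c, fun t => by rw [smul_smul]; exact x.2 _⟩

theorem inv_XS (hF : ∀ i, FT B γ β M (T i)) (hn : n * n = 0) (hS : S.Nonempty) (H : l ∉ S) :
    (T l).Inv β (h.XS M hn hS) := fun g hg c hc =>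
  ⟨fun m e => (hc.1 m e).cj' fun a => h.cm l m (by rintro rfl; exact H e) _ a, fun t =>
    (hc.2 t).conj ((hF l).rt g hg) fun v => by
      have := LinearMap.congr_fun (h.pr_cm (n := n) H g.1).eq v
      simp only [End.mul_apply, ← TS.ie_apply] at this
      simp [LinearEquiv.conjAlgEquiv_apply, this]⟩

theorem XP.ins [Nontrivial W] [FiniteDimensional F W] (H : l ∉ S) {c : End F V} (hc : h.XP M S n c) (y z : W)
    (e : h.XP M S n ((T l).co β y z c * (T l).i n)) : h.XP M (insert l S) n ((T l).co β y z c) :=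
  ⟨fun m a => by
    rcases Finset.mem_insert.mp a with rfl | a'
    · exact TS.co_cm _ _ _ _
    · exact fun b => TS.co_comm (h.cm m l (by rintro rfl; exact H a')) (hc.1 m a' b) y z,
   fun t => by simpa [h.pr_insert H, (h.pr_cm H n).eq, mul_assoc] using e.2 t⟩

theorem extract (step : ∀ S j ρ, S.Nonempty → j ∉ S → h.XP M S n ρ → ¬ (T j).Cm ρ → ∃ ρ' ≠ 0, h.XP M (insert j S) n ρ')
    (hS : S.Nonempty) (h0 : ρ ≠ 0) (H : h.XP M S n ρ) : ∃ S', S ⊆ S' ∧ h.XP M S' n 1 := by
  induction S using WellFoundedGT.induction generalizing ρ with | _ S ih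
  by_cases e : ∀ j, (T j).Cm ρ
  · obtain ⟨d, rfl⟩ := h.cen e
    have : d ≠ 0 := by rintro rfl; simp at h0
    exact ⟨S, le_rfl, fun _ _ _ => Commute.one_left _, fun t => by simpa [smul_smul, this] using H.2 (t * d⁻¹)⟩
  obtain ⟨j, hj⟩ := not_forall.mp e
  have a1 : j ∉ S := fun a => hj (H.1 j a)
  obtain ⟨ρ', a2, a3⟩ := step S j ρ hS a1 H hj
  obtain ⟨S', a4, a5⟩ := ih _ (Finset.ssubset_insert a1) (S.insert_nonempty j) a2 a3
  exact ⟨S', (S.subset_insert j).trans a4, a5⟩

theorem parity {pv : (κ → W) → V} {ζ : F} (H : PV B β T pv ζ) (iso : ∀ k ∈ M, ∀ x y, B (k x) (k y) = B x y)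
    (hS : S.Nonempty) (e : h.XP M S n 1) {a b e' f : W} (h1 : β (n a) (n b) = 0) (h2 : β e' f = 1) :
    β a (n b) ^ S.card + β (n a) b ^ S.card = 0 := by
  obtain ⟨g, a1, a2⟩ := e.2 1
  set x := S.piecewise (fun _ => a) fun _ => e' with hx
  set y := S.piecewise (fun _ => b) fun _ => f with hy
  have := iso g a1 (pv x) (pv y)
  have b0 : ∀ (p : κ → F) (c : F), (∀ l ∈ S, p l = c) → (∀ l ∉ S, p l = 1) → ∏ l, p l = c ^ S.card := fun p c b1 b2 => by
    rw [← Finset.prod_subset S.subset_univ fun l _ => b2 l, Finset.prod_congr rfl b1]; simp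
  simp only [a2, one_smul, one_mul, pr, h.ph_pv H, map_add, LinearMap.add_apply, H.map] at this
  rw [b0 (fun l => β (x l) (S.piecewise (fun _ => n) 1 l (y l))) (β a (n b)),
    b0 (fun l => β (S.piecewise (fun _ => n) 1 l (x l)) (y l)) (β (n a) b),
    b0 (fun l => β (S.piecewise (fun _ => n) 1 l (x l)) (S.piecewise (fun _ => n) 1 l (y l))) 0,
    zero_pow hS.card_pos.ne'] at this
  · exact mul_left_cancel₀ H.ne (by linear_combination this)
  all_goals intro l hl; simp [hl, h1, h2, hx, hy]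

end Wr

variable [FiniteDimensional F W] [Finite F] (h2 : (2 : F) ≠ 0) (h4 : 4 ≤ finrank F W)
include h2 h4

theorem Wr.no_short {T : κ → TS F U W V} (h : Wr T) (hF : ∀ i, FT B γ β M (T i)) {pv : (κ → W) → V} {ζ : F}
    (H : PV B β T pv ζ) (hJ : ∀ i, ∀ c ∈ (T i).JJ M β, ∃ d : F, c = d • 1) {z s : W} (h0 : z ≠ 0) (hs : β z s = 0)
    (h1 : s ∉ F ∙ z) {i : κ} {ρ : End F V} (H' : h.XP M {i} ((β s).smulRight z - (β z).smulRight s) ρ) : ρ = 0 := by
  have D := (hF i).sd
  have : Nontrivial W := ⟨_, _, h0⟩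
  have hC : HC β := .inl h4
  obtain ⟨s', -, a1, a2⟩ := D.partner₂ (D.alt s) hs h1
  obtain ⟨z', hz⟩ := D.exists_SP (D.alt z) h0
  set n := (β s).smulRight z - (β z).smulRight s with hn
  have a3 : n s' = z := by simp [hn, a1, a2]
  have a4 : n * n = 0 := by ext; simp [hn, D.alt, hs, D.comm0 hs]
  have a5 : n ≠ 0 := fun e => h0 (by simp [← a3, e])
  by_contra c
  refine (h.extract (fun S j ρ b1 b2 b3 b4 => ?_) (Finset.singleton_nonempty i) c H').elim fun S ⟨b1, b2⟩ => ?_
  swap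
  · have := h.parity H (hF i).iso ((Finset.singleton_nonempty i).mono b1) b2 (a := z') (b := s')
      (by simp [hn, a1, a2, D.alt, D.comm0 hs]) hz.ef
    simp [hn, a1, a2, hz.ef, hz.fe D, ← two_mul, h2] at this
  have b5 := h.inv_XS hF a4 b1 b2
  have b6 : ∀ y, (T j).co β y y ρ = 0 := fun y => by
    by_cases e : y = 0
    · simp [e, TS.co]
    have c1 : h.XP M S n _ := TS.Inv.ex1 (X := (h.XS M a4 b1).toAddSubgroup) D b5 (D.alt y) (D.alt y) (D.alt y) b3
    have c2 : ∀ l ∈ S, (T l).Cm ((T j).co β y y ρ) := fun l a b =>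
      TS.co_comm (h.cm l j (by rintro rfl; exact b2 a)) (b3.1 l a b) y y
    obtain ⟨d, hd⟩ := hJ j _ ((hF j).jj_of hC (.inr h2) ((TS.co_cm _ y y ρ).mul (h.pr_cm (n := n) b2)) (D.alt y) e (by
      convert c1.2 2⁻¹ using 1
      rw [← two_smul F, smul_smul, inv_mul_cancel₀ h2, one_smul, mul_assoc, mul_assoc, (h.pr_cm b2).n]))
    refine h.pr_faith a5 c2 ?_
    by_cases e' : d = 0
    · simpa [e'] using hd
    have := congrArg (· * h.pr S n) hd
    simp only [mul_assoc, h.pr_sq a4 b1, mul_zero, smul_mul_assoc, one_mul] at this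
    rw [(smul_eq_zero_iff_right e').mp this.symm, mul_zero]
  rcases TS.exists_ex D hC b4 with ⟨-, y, y', c1, c2, c3, c4, c5, c6⟩ | ⟨-, y, -, c⟩
  swap
  · exact absurd (b6 y) c
  have c7 : (T j).co β y' y ρ = -(T j).co β y y' ρ := by
    have := b6 (y + y')
    simp only [TS.co, map_add, LinearMap.add_comp, LinearMap.comp_add] at this b6 ⊢
    linear_combination (norm := abel) this - b6 y - b6 y'
  obtain ⟨g, d1, d2, d3⟩ := D.witt_SUG_two (li_pair_of_notMem c4 c5) (li_pair_of_notMem h0 h1) (by simp [D.alt])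
    (hs.trans c3.symm) (by simp [D.alt]) (.inl rfl)
  refine ⟨_, c6, b3.ins h b2 y y' ?_⟩
  have := b5.mv (TS.co_cm _ _ _ _) (TS.co_cm _ _ _ _) (TS.Inv.ex1 (X := (h.XS M a4 b1).toAddSubgroup) D b5 c1 c2 c3 b3)
    d1 d2 d3
  rwa [c7, neg_mul, ← sub_eq_add_neg, ← mul_sub, TS.n, TS.n, ← map_sub] at this

omit [Finite F] h4 in
theorem FT.short {T : TS F U W V} (h : FT B γ β M T) {k : V ≃ₗ[F] V} (hk : k ∈ M) {z s : W} (h0 : z ≠ 0)
    (H : T.Lv β z k) (hs : β z s = 0) (h1 : s ∉ F ∙ z) {δ : End F U} (hδ : ∀ u, k (T.t u s) = T.t u s + T.t (δ u) z)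
    {d : F} (hd : ∀ u x, γ u (δ x) + γ (δ u) x = 2 * d * γ u x) (t : F) :
    EN M (t • T.j (δ - d • 1) * T.i ((β s).smulRight z - (β z).smulRight s)) := by
  have D := h.sd
  have a0 := D.alt
  have a1 := D.comm0 hs
  set δ' := δ - d • 1 with hδ'
  let X := fun a : F => a • T.j δ' * (T.n β s z - T.n β z s)
  have a2 : ∀ a v, X a v = a • (T.t (δ' (T.r (β s) v)) z - T.t (δ' (T.r (β z) v)) s) := fun a v => by
    simp [X, TS.n_apply]
  have a3 : ∀ v w, B (T.j δ' v) w = -B v (T.j δ' w) := fun v w => T.h.inductionOn v (by simp) (fun u x => by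
    simp [h.B_r, hδ']; linear_combination hd u (T.r (β x) w)) fun _ _ a b => by
      simp only [map_add, LinearMap.add_apply, a, b]; ring
  have a4 : ∀ v, X 1 (X 1 v) = 0 := fun v => by simp [a2, a0, hs, a1]
  have a5 : ∀ v w, B (X 1 v) w = -B v (X 1 w) := fun v w => by
    simp only [X, one_smul, End.mul_apply, a3, LinearMap.sub_apply, map_sub, h.adj]
    simp [TS.n_apply]
  have H1 : Adm β z (d • s) 0 := ⟨a0 z, by simp [hs], by simp [a0]⟩
  have a6 := mul_mem (h.rho_mem z (d • s) 0) (mul_mem (inv_mem hk) (mul_mem (h.tv_mem s 1)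
    (mul_mem hk (inv_mem (h.tv_mem s 1)))))
  generalize hG : T.ie (rho β z (d • s) 0).1 * (k⁻¹ * (T.ie (tv β s 1).1 * (k * (T.ie (tv β s 1).1)⁻¹))) = G at a6
  have a7 : ∀ v, T.r (β z) v = 0 → G v = v - T.t (δ' (T.r (β s) v)) z := fun v hv => by
    obtain ⟨x, hx⟩ := H.2 v hv
    have b1 : (T.ie (tv β s 1).1).symm v = v - T.t (T.r (β s) v) s :=
      (LinearEquiv.symm_apply_eq _).mpr (by simp [T.ie_tv D (a0 s), a0])
    have b2 : k.symm (T.ie (tv β s 1).1 (k (v - T.t (T.r (β s) v) s))) = v - T.t (δ (T.r (β s) v)) z :=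
      k.symm_apply_eq.mpr (by simp [hx, hδ, H.1, T.ie_tv D (a0 s), a0, a1, tv_apply_of_perp D _ a1]; abel)
    simp only [← hG, LinearEquiv.mul_apply, LinearEquiv.coe_inv, b1, b2]
    simp [T.ie_rho D H1, hv, a0, a1, hδ', rho_apply_self D]; abel
  obtain ⟨θ, hθ⟩ := h.lv2 (k := ex (X 1) * G) (fun x y => by
    simp [ex_apply a4, a5, a4, h.iso G a6]) (a0 z) h0 fun v hv => by
      simp [ex_apply a4, a7 v hv, a2, hv, a0, a1]
  have a8 : ∀ a ≠ 0, EN M (T.j θ * T.n β z z - X a) := fun a ha => by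
    obtain ⟨g, b1, b2, b3⟩ := D.witt_SUG_two (li_pair_of_notMem h0 h1) (li_pair_of_notMem h0 (y := a • s) (by
      rwa [Submodule.smul_mem_iff _ ha])) rfl (by simp [hs]) (by simp [a0]) (.inl rfl)
    refine EN.conj (N := T.j θ * T.n β z z - X 1) ⟨G, a6, fun v => ?_⟩ (h.rt g b1) fun v => ?_
    · rw [show G v = _ from (ex (X 1)).eq_symm_apply.mpr (hθ v), ex_symm a4]; simp [a2, TS.n_apply, a0, a1]; abel
    have c1 := T.r_ie g z v
    have c2 := T.r_ie g s v
    simp only [b2, b3, map_smul, LinearMap.smul_apply] at c1 c2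
    simp [a2, TS.n_apply, b2, b3, c1, ← c2, smul_sub]
  obtain ⟨a, b1, b2⟩ : ∃ a : F, a ≠ 0 ∧ a + t ≠ 0 := by
    by_cases e : 1 + t = 0
    · exact ⟨-1, by simp, fun e' => h2 (by linear_combination e - e')⟩
    · exact ⟨1, one_ne_zero, e⟩
  convert (a8 a b1).add ((a8 _ b2).neg (by simp [a2, TS.n_apply, a0, a1, hs])) (by simp [a2, TS.n_apply, a0, a1, hs])
    using 1
  simp only [X, map_sub, TS.n, add_smul, add_mul]; abel

theorem Wr.cw_four [Nontrivial U] {T : κ → TS F U W V} (h : Wr T) (hF : ∀ i, FT B γ β M (T i)) {pv : (κ → W) → V}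
    {ζ : F} (H : PV B β T pv ζ) (hJ : ∀ i, ∀ c ∈ (T i).JJ M β, ∃ d : F, c = d • 1) (i : κ) : CW B γ β M (T i) :=
  (hF i).cw_of (.inl h4) (.inr h2) (hJ i) fun z hz h0 k hk H' s δ hs hδ => by
    by_cases e : s ∈ F ∙ z
    · obtain ⟨c, rfl⟩ := Submodule.mem_span_singleton.mp e
      exact ⟨0, fun u => ten_left_inj (T i).h h0 (by simpa [H'.1] using hδ u)⟩
    obtain ⟨θ, a1, a2⟩ := (hF i).comm_lv hk hz h0 H' hs hδ
    obtain ⟨d, hd⟩ := (hF i).th_scalar (.inl h4) (.inr h2) (hJ i) hz h0 a1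
    have := h.no_short h2 h4 hF H hJ h0 hs e (i := i) (ρ := (T i).j (δ - (d / 2) • 1)) ⟨fun l hl _ => by
      rw [Finset.mem_singleton.mp hl]; exact (T i).comm_ij _ _, fun t => by
      rw [← insert_empty_eq, h.pr_insert (by simp), h.pr_empty, one_mul]
      exact (hF i).short h2 hk h0 H' hs e hδ (fun u x => by rw [← a2, hd, map_smul, smul_eq_mul]; field_simp) t⟩
    exact ⟨d / 2, fun u => ten_left_inj (T i).h h0 (by
      simpa [sub_eq_zero] using LinearMap.congr_fun this ((T i).t u z))⟩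

end Cfsg.Agent.H12
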