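import Mathlib
import Cfsg.Agent.H12.FtJ

/-!
Maximality of tensor power stabilisers in symplectic groups.
-/

set_option autoImplicit false

namespace Cfsg.Agent.H12

open Module Function

section
variable {F V : Type*} [Field F] [AddCommGroup V] [Module F V] {M : Subgroup (V ≃ₗ[F] V)}
  {U W : Type*} [AddCommGroup U] [Module F U] [AddCommGroup W] [Module F W] {κ : Type*} [Fintype κ] [DecidableEq κ]
  {B : V →ₗ[F] V →ₗ[F] F} {γ : U →ₗ[F] U →ₗ[F] F} {β : W →ₗ[F] W →ₗ[F] F}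

theorem SD.sp_gen [FiniteDimensional F V] [Finite F] (E : SD B) (hq : 4 ≤ Nat.card F) {M : Subgroup (UG B)} {P : Set V}
    (h1 : ∀ p ∈ P, IS M p) (h2 : Submodule.span F P = ⊤)
    (h3 : ∀ p ∈ P, ∀ p' ∈ P, p ≠ 0 → p' ≠ 0 → ∃ w, IS M w ∧ B w p ≠ 0 ∧ B w p' ≠ 0) : SUG B ≤ M := by
  classical
  have a1 : ∀ a b c d, IS M b → IS M c → B b a ≠ 0 → B b c ≠ 0 → B c d ≠ 0 → ∃ w, IS M w ∧ B w a ≠ 0 ∧ B w d ≠ 0 :=
    fun a b c d hb hc x y z => by
      by_cases e : B c a = 0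
      · by_cases e' : B b d = 0
        · exact ⟨_, hb.add E hc y (E.alt _), by simpa [e], by simpa [e']⟩
        · exact ⟨b, hb, x, e'⟩
      · exact ⟨c, hc, e, z⟩
  have a2 : ∀ a ≠ 0, ∃ p ∈ P, B p a ≠ 0 := fun a ha => by
    by_contra! e
    exact ha (E.ext_right fun v => by simpa using LinearMap.congr_fun (LinearMap.ext_on h2 (f := B.flip a) (g := 0) e) v)
  have a3 : ∀ a ≠ 0, ∀ b ≠ 0, ∃ w, IS M w ∧ B w a ≠ 0 ∧ B w b ≠ 0 := fun a ha b hb => by
    obtain ⟨p, b1, b2⟩ := a2 a ha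
    obtain ⟨p', c1, c2⟩ := a2 b hb
    obtain ⟨w, d1, d2, d3⟩ := h3 p b1 p' c1 (by rintro rfl; simp at b2) (by rintro rfl; simp at c2)
    obtain ⟨w', e1, e2, e3⟩ := a1 a p w p' (h1 p b1) d1 b2 (E.ne0 d2) d3
    exact a1 a w' p' b e1 (h1 p' c1) e2 e3 c2
  have a4 : ∀ a ≠ 0, ∀ b ≠ 0, ∀ c ≠ 0, ∃ w, IS M w ∧ B w a ≠ 0 ∧ B w b ≠ 0 ∧ B w c ≠ 0 := fun a ha b hb c hc => by
    obtain ⟨w, b1, b2, b3⟩ := a3 a ha b hb
    by_cases e : B w c = 0
    swap
    · exact ⟨w, b1, b2, b3, e⟩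
    obtain ⟨x, c1, c2, c3⟩ := a3 w (by rintro rfl; simp at b2) c hc
    have := Fintype.ofFinite F
    obtain ⟨μ, -, hμ⟩ := Finset.exists_mem_notMem_of_card_lt_card (s := {0, -B w a / B x a, -B w b / B x b})
      (t := Finset.univ) (Finset.card_le_three.trans_lt (by rw [Nat.card_eq_fintype_card] at hq; exact hq))
    simp only [Finset.mem_insert, Finset.mem_singleton, not_or] at hμ
    have d : ∀ s t : F, s ≠ 0 → μ ≠ -s / t → s + μ * t ≠ 0 := fun s t x y z => by
      by_cases e : t = 0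
      · simp [e, x] at z
      · exact y (by field_simp; linear_combination z)
    exact ⟨_, b1.add E (c1.smul E μ) (by simp [hμ.1, E.ne0 c2]) (E.alt _), by simpa using d _ _ b2 hμ.2.1,
      by simpa using d _ _ b3 hμ.2.2, by simp [e, hμ.1, c3]⟩
  refine E.SUG_le_of_IS E.ns (.inr (.inl rfl)) fun v _ => Submodule.span_induction (p := fun v _ => IS M v) h1 (IS.zero E)
    (fun a b _ _ x y => ?_) (fun c a _ x => x.smul E c) (h2.ge trivial)
  by_cases e : a = 0
  · simpa [e]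
  by_cases e' : b = 0
  · simpa [e']
  by_cases e'' : a + b = 0
  · simpa [e''] using IS.zero E
  by_cases e₀ : B a b = 0
  swap
  · exact x.add E y e₀ (E.alt _)
  obtain ⟨w, b1, b2, b3, b4⟩ := a4 a e b e' _ e''
  convert (x.add E b1 (E.ne0 b2) (E.alt _)).add E (y.add E (b1.neg E) (by simp [E.ne0 b3]) (E.alt _)) (by
    simpa [e₀, E.alt, E.skew w a] using b4) (E.alt _) using 1
  abel

variable (M β) in
/-- The space of coefficients of long root elements. -/
def TS.JS (T : TS F U W V) : Submodule F (End F V) :=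
  { T.JJ M β with smul_mem' := fun t c hc => TS.jj_smul t rfl c hc }

variable [FiniteDimensional F W] [Finite F] (h2 : (2 : F) ≠ 0) (hC : HC β)
include h2 hC

omit [Fintype κ] [DecidableEq κ] in
theorem FT.jordan {T : TS F U W V} (h : FT B γ β M T) {ν θ : End F V} (h1 : ν ∈ T.JS M β) (h3 : ν * ν = 0)
    (h4 : θ ∈ T.JS M β) : ν * θ + θ * ν ∈ T.JS M β := by
  have D := h.sd
  obtain ⟨y, y0, hy⟩ := D.exists_iso D.ns hC.two
  have : Nontrivial W := ⟨_, _, y0⟩
  obtain ⟨y', hy'⟩ := D.exists_SP hy y0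
  have a1 : ∀ ν ∈ T.JS M β, ν * ν = 0 → (1 + ν) * θ * (1 + ν) ∈ T.JS M β := fun ν b1 b2 => by
    obtain ⟨ν, rfl⟩ := TS.exists_j b1.1
    obtain ⟨θ, rfl⟩ := TS.exists_j h4.1
    have b3 : ∀ u, ν (ν u) = 0 := fun u => ten_left_inj T.h y0 (by simpa using LinearMap.congr_fun b2 (T.t u y))
    obtain ⟨g, c1, c2, c3, c4⟩ := h.exists_h b1 b3 hy'
    refine h.jj_of hC (.inr h2) (fun a => by simpa using T.comm_ij a ((1 + ν) * θ * (1 + ν))) hy y0
      ((h4.2 y hy 1 rfl).conj c1 fun v => T.h.inductionOn v (by simp) (fun u w => ?_) fun _ _ a b => by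
        simp only [map_add, a, b])
    obtain ⟨a, b, w, rfl⟩ := hy'.exists_eq D w
    simp [c2, c3, c4, TS.n_apply, hy, hy'.ef, spp_left, b3]
  convert Submodule.smul_mem _ 2⁻¹ (sub_mem (a1 ν h1 h3) (a1 _ (neg_mem h1) (by simpa))) using 1
  rw [eq_inv_smul_iff₀ h2, two_smul]; noncomm_ring

omit [Fintype κ] [DecidableEq κ] in
theorem FT.cw_two [Nontrivial U] {T : TS F U W V} (h : FT B γ β M T) (h4 : finrank F W = 2)
    (hJ : ∀ c ∈ T.JJ M β, ∃ d : F, c = d • 1) :
    CW B γ β M T :=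
  h.cw_of hC (.inr h2) hJ fun z hz h0 k hk H' s δ hs hδ => by
    obtain ⟨z', hz'⟩ := h.sd.exists_SP hz h0
    obtain ⟨c, w, rfl⟩ := hz'.exists_eq_of_perp h.sd hs
    have : Subsingleton (spp β z z') := (Module.finrank_zero_iff (R := F)).mp (by have := hz'.finrank_spp h.sd; omega)
    exact ⟨0, fun u => ten_left_inj T.h h0 (by simpa [H'.1, Subsingleton.elim w 0] using hδ u)⟩

variable {T : κ → TS F U W V} (h : Wr T) (hF : ∀ i, FT B γ β M (T i)) (h4 : finrank F W = 2) (hq : 5 ≤ Nat.card F)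
  {y y' : W} (hy : SP β y y')
include hF h4 hq hy

omit h2 in
theorem Wr.step_two (S : Finset κ) (j : κ) (ρ : End F V) (b1 : S.Nonempty) (b2 : j ∉ S)
    (b3 : h.XP M S ((β y).smulRight y) ρ) (b4 : ¬ (T j).Cm ρ) : ∃ ρ' ≠ 0, h.XP M (insert j S) ((β y).smulRight y) ρ' := by
  have D := (hF j).sd
  have : Nontrivial W := ⟨_, _, hy.ne_left⟩
  have a4 : (β y).smulRight y * (β y).smulRight y = 0 := by ext; simp [hy.ee]
  have b5 := h.inv_XS hF a4 b1 b2
  obtain ⟨c0, x, c1, c2⟩ := (TS.exists_ex D hC b4).resolve_left (by omega)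
  exact ⟨_, c2, b3.ins h b2 x x (b5.mvN D hC (TS.co_cm _ _ _ _) c1 (by rintro rfl; simp [TS.co] at c2)
    (TS.Inv.ex2 (X := (h.XS M a4 b1).toAddSubgroup) D b5 c0 (fun t _ _ => Submodule.smul_mem _ t) c1 b3) hy.ee)⟩

omit h2 h4 in
theorem Wr.ext_two {i : κ} (A : Finset κ) (hA : i ∉ A) {f f' : κ → End F W}
    (H : ∀ m ∈ A, f m = (β y').smulRight y' * (β y).smulRight y ∧ f' m = (β y).smulRight y * (β y').smulRight y')
    (H' : h.ph f + h.ph f' ∈ (T i).JS M β) : (-1 : F) ^ A.card • h.ph (A.piecewise (fun _ => (β y).smulRight y) f) +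
      h.ph (A.piecewise (fun _ => (β y).smulRight y) f') ∈ (T i).JS M β := by
  have D := (hF i).sd
  have : Nontrivial W := ⟨_, _, hy.ne_left⟩
  induction A using Finset.induction_on with
  | empty => simpa
  | insert m A e ih =>
    have a1 : (T m).Inv β ((T i).JS M β) := h.inv_jj (γ := fun _ => γ) hF (by rintro rfl; simp at hA)
    have a2 := TS.Inv.ex2 (X := ((T i).JS M β).toAddSubgroup) D a1 (by rw [q0_id]; omega)
      (fun t _ _ => Submodule.smul_mem _ t) (D.alt (y + y')) (ih (fun a => hA (by simp [a])) fun l a => H l (by simp [a]))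
    have a3 := a1.mvN D hC (TS.co_cm _ _ _ _) (D.alt _) (fun e => by simpa [hy.ee, hy.ef] using congrArg (β y) e) a2 hy.ee
    have a4 : ∀ (c : F) x ρ ρ', (T m).co β x x (c • ρ + ρ') = c • (T m).co β x x ρ + (T m).co β x x ρ' :=
      fun c x ρ ρ' => by
      simp [TS.co, LinearMap.add_comp, LinearMap.comp_add, LinearMap.smul_comp, LinearMap.comp_smul]
    have a5 : ∀ g : κ → End F W, h.ph g = h.ph (update g m 1) * (T m).i (g m) := fun g => by rw [← h.ph_update]; simp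
    rw [a4, a5, a5 (A.piecewise _ f'), TS.co_mul _ _ _ (h.ph_cm (by simp)), TS.co_mul _ _ _ (h.ph_cm (by simp)),
      A.piecewise_eq_of_notMem _ _ e, A.piecewise_eq_of_notMem _ _ e, (H m (by simp)).1, (H m (by simp)).2] at a3
    rw [Finset.piecewise_insert, Finset.piecewise_insert, h.ph_update, h.ph_update (A.piecewise _ f'),
      Finset.card_insert_of_notMem e]
    simpa [hy.ee, hy.ff, hy.ef, hy.fe D, add_mul, pow_succ, TS.n] using a3

omit h2 h4 hq in
theorem Wr.ps_two {S : Finset κ} (H : h.XP M S ((β y).smulRight y) 1) {x : κ → W} (hx : ∀ l, x l ≠ 0) (t : F) :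
    EN M (t • h.ph (S.piecewise (fun l => (β (x l)).smulRight (x l)) 1)) :=
  h.mv hF (a := S.piecewise (fun _ => (β y).smulRight y) 1) (fun l => by
    have D := (hF l).sd
    by_cases e : l ∈ S
    · obtain ⟨g, a1, a2⟩ := D.erel D.ns (.inl rfl) hy.ee hy.ne_left (D.alt _) (hx l)
      exact ⟨g, D.EG_le_SUG a1, by ext; simp [e, ← a2, UG_map]⟩
    · exact ⟨1, one_mem _, by simp [e]⟩) (by simpa [Wr.pr] using H.2 t)

omit h4 in
theorem Wr.grow {r : ℕ} (hr : Even r) (H : ∀ S : Finset κ, S.card = r + 3 → h.XP M S ((β y).smulRight y) 1)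
    (S : Finset κ) (hS : S.card = r + 2 + 3) : h.XP M S ((β y).smulRight y) 1 := by
  obtain ⟨i, S₀, hi, rfl, k0⟩ := Finset.card_eq_succ.mp hS
  obtain ⟨l, S₁, hl, e, k1⟩ := Finset.card_eq_succ.mp k0
  obtain ⟨l', S₂, hl', rfl, k2⟩ := Finset.card_eq_succ.mp k1
  obtain ⟨a, S₃, ha, rfl, k3⟩ := Finset.card_eq_succ.mp k2
  obtain ⟨b, A, hb, rfl, rfl⟩ := Finset.card_eq_succ.mp k3
  have hi' := hi
  simp only [← e, Finset.mem_insert, not_or] at hi' hl hl' ha
  have a0 : ∀ f : κ → End F W, f i = 1 → EN M (h.ph (update f i ((β y).smulRight y))) → h.ph f ∈ (T i).JS M β :=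
    fun f b1 b2 => (hF i).jj_of hC (.inr h2) (h.ph_cm b1) hy.ee hy.ne_left (by
      rwa [h.ph_update, update_eq_self_iff.mpr b1.symm] at b2)
  have a1 := a0 ((insert a (insert b A)).piecewise (fun _ => (β y).smulRight y) 1) (by simp [hi']) (by
    simpa [Wr.pr, Finset.piecewise_insert] using (H (insert i (insert a (insert b A))) (by simp [*])).2 1)
  have a2 := a0 ((insert l (insert l' A)).piecewise (fun m => (β (if m ∈ A then y' else y)).smulRight
    (if m ∈ A then y' else y)) 1) (by simp [hi']) (by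
      simpa [Finset.piecewise_insert, hi'] using h.ps_two hC hF hy (H (insert i (insert l (insert l' A))) (by simp [*]))
        (x := fun m => if m ∈ A then y' else y) (fun m => by split_ifs; exacts [hy.ne_right, hy.ne_left]) 1)
  have a3 := (hF i).jordan h2 hC a2 (by
    rw [← map_mul, ← update_eq_self l (_ * _), h.ph_update]
    convert mul_zero _
    convert map_zero (T l).i
    ext; simp [hl, hy.ee]) a1
  rw [← map_mul, ← map_mul] at a3
  have a4 := h.ext_two hC hF hq hy A hi'.2.2.2.2 (fun m hm => by simp [hm]) a3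
  rw [hr.neg_one_pow, one_smul, show A.piecewise _ _ = S₀.piecewise (fun _ => (β y).smulRight y) 1 from ?_,
    show A.piecewise _ _ = S₀.piecewise (fun _ => (β y).smulRight y) 1 from ?_, ← two_smul F] at a4
  · exact ⟨fun _ _ _ => Commute.one_left _, fun t => by
      rw [h.pr_insert hi]; simpa [smul_smul, h2, Wr.pr, TS.n] using a4.2 y hy.ee (t * 2⁻¹) rfl⟩
  all_goals
    ext1 m
    by_cases c : m ∈ A
    · simp [c, ← e]
    by_cases c1 : m = l
    · simp [c1, ← e, hl]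
    by_cases c2 : m = l'
    · simp [c2, ← e, hl']
    simp [← e, Finset.piecewise, c, c1, c2]

include h in
theorem Wr.jj_two {pv : (κ → W) → V} {ζ : F} (H : PV B β T pv ζ) (E : SD B) [FiniteDimensional F V]
    (hP : ∀ π : Equiv.Perm κ, ∃ g ∈ M, ∀ l a, ((T l).act g).i a = (T (π l)).i a) (hκ : Odd (Fintype.card κ))
    (hM : ¬ SUG B ≤ M.comap (UG B).subtype) (i : κ) (c : End F V) (hc : c ∈ (T i).JJ M β) : ∃ d : F, c = d • 1 := by
  have D := (hF i).sd
  by_contra a0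
  obtain ⟨j, hj⟩ := not_forall.mp fun e => a0 (h.cen e)
  obtain ⟨ρ, a1, a2⟩ := h.step_two hC hF h4 hq hy {i} j c (by simp) (by rintro e; exact hj (Finset.mem_singleton.mp e ▸ hc.1))
    ⟨fun l hl => Finset.mem_singleton.mp hl ▸ hc.1, fun t => by
      rw [← insert_empty_eq, h.pr_insert (by simp), h.pr_empty, one_mul]; exact hc.2 y hy.ee t rfl⟩ hj
  obtain ⟨S, a3, a4⟩ := h.extract (h.step_two hC hF h4 hq hy) (by simp) a1 a2
  have a5 : 2 ≤ S.card := by
    have := Finset.card_le_card a3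
    rwa [Finset.card_pair (by rintro rfl; exact hj hc.1)] at this
  have a6 : Odd S.card := Nat.not_even_iff_odd.mp fun e => h2 (by
    have := h.parity H (hF i).iso (Finset.card_pos.mp (by omega)) a4 (a := y') (b := y') (by simp [hy.ee]) hy.ef
    simp [hy.ef, hy.fe D, e.neg_one_pow] at this
    linear_combination this)
  have a7 : ∀ S S' : Finset κ, S.card = S'.card → h.XP M S ((β y).smulRight y) 1 → h.XP M S' ((β y).smulRight y) 1 :=
    fun S S' e b => ⟨fun _ _ _ => Commute.one_left _, fun t => by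
      obtain ⟨π, rfl⟩ := Equiv.Perm.exists_map_finset_eq S S' e
      obtain ⟨g, b1, b2⟩ := hP π
      refine (b.2 t).conj b1 fun v => ?_
      rw [Wr.pr, show (S.map π.toEmbedding).piecewise _ _ = S.piecewise (fun _ => (β y).smulRight y) 1 ∘ π.symm from
        funext fun m => by simp [Finset.piecewise]]
      simp [h.ph_conj b2, Wr.pr]⟩
  obtain ⟨r, hr⟩ := a6
  have a8 : ∀ m, ∀ S' : Finset κ, S'.card = 2 * (r - 1 + m) + 3 → h.XP M S' ((β y).smulRight y) 1 := fun m => by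
    induction m with
    | zero => exact fun S' e => a7 S S' (by omega) a4
    | succ m ih => exact fun S' e => h.grow h2 hC hF hq hy (even_two_mul _) ih S' (by omega)
  obtain ⟨r', hr'⟩ := hκ
  have a9 := a8 (r' - r) Finset.univ (by have := S.card_le_univ; rw [Finset.card_univ]; omega)
  have b0 : ∀ v v', (∀ x, B (pv x) v = B (pv x) v') → v = v' := fun v v' e => E.ext_right fun w =>
    LinearMap.congr_fun (LinearMap.ext_on_range H.span (f := B.flip v) (g := B.flip v') e) w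
  have b1 : ∀ x, pv x ≠ 0 → ∀ l, x l ≠ 0 := fun x e l e' => e (b0 _ _ fun x' => by
    rw [H.map, Finset.prod_eq_zero (Finset.mem_univ l) (by simp [e'])]; simp)
  have b2 : ∀ x, (∀ l, x l ≠ 0) → IS (M.comap (UG B).subtype) (pv x) := fun x e => ⟨E.alt _, fun t => by
    obtain ⟨g, c1, c2⟩ := h.ps_two hC hF hy a9 e (t * ζ)
    rwa [← show (tv B (pv x) t).1 = g from LinearEquiv.toLinearMap_injective (LinearMap.ext_on_range H.span fun x' =>
      b0 _ _ fun x'' => by simp [c2, tv_apply E (E.alt _), h.ph_pv H, H.map, Finset.prod_mul_distrib]; ring)] at c1⟩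
  refine hM (E.sp_gen (by omega) (P := Set.range pv) ?_ H.span ?_)
  · rintro _ ⟨x, rfl⟩
    by_cases e : pv x = 0
    · exact e ▸ IS.zero E
    · exact b2 x (b1 x e)
  rintro _ ⟨x, rfl⟩ _ ⟨x', rfl⟩ e e'
  choose w c0 c1 c2 using fun l => D.exists_iso_ne₂ D.ns (.inl rfl) (b1 x e l) (b1 x' e' l)
  refine ⟨_, b2 w fun l e => by simpa [e] using c1 l, E.ne0 ?_, E.ne0 ?_⟩ <;> simp [H.map, H.ne, Finset.prod_ne_zero_iff, *]

end

open Cfsg.Geo in
theorem max_sp_wreath {F : Type*} [Field F] [Fintype F] {m k t : ℕ} (hm : 2 ≤ m) (hodd : Odd (Fintype.card F))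
    (ht : Odd t) (ht3 : 3 ≤ t) (hq : ¬ (Fintype.card F = 3 ∧ k = 2)) {e : (Fin m ⊕ Fin m) ≃ (Fin t → Fin k)}
    {P : GL (Fin m ⊕ Fin m) F} {f₁ : (Fin k → F) → (Fin k → F) → F} (hf₁ : IsSymplecticForm f₁)
    (hT : IsTensorPowerFormStructure id (sympForm m F) f₁ e P) :
    IsMaximalIn (spGL m F) (tensorWreathSubgroup k t e P ⊓ spGL m F) := by
  obtain ⟨s, rfl⟩ : ∃ s, t = s + 1 := ⟨t - 1, by omega⟩
  have hf := tvF_sp (by omega : 0 < m) F
  have a1 := Fintype.card_congr e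
  obtain ⟨r, a2⟩ := H18.even_card_of_symplectic hf₁
  simp only [Fintype.card_sum, Fintype.card_fun, Fintype.card_fin] at a1 a2
  have a3 : 2 ≤ k := by
    by_contra h; obtain rfl : k = 0 := by omega
    simp at a1; omega
  have : NeZero k := ⟨by omega⟩
  have h1 := tvF_of_symplectic hf₁
  have h2 : (2 : F) ≠ 0 := fun e => by
    have := FiniteField.even_card_iff_char_two.mp (ringChar.eq_iff.mpr (CharTwo.of_one_ne_zero_of_two_eq_zero one_ne_zero e))
    obtain ⟨_, _⟩ := hodd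
    omega
  have a4 : 3 ≤ Fintype.card F := by have := Fintype.one_lt_card (α := F); obtain ⟨_, _⟩ := hodd; omega
  have hC : HC (tB h1) := by
    obtain ⟨_, _⟩ := hodd
    simp [HC, h2, q0_id]; omega
  obtain ⟨ζ, H⟩ := pv_wT hf h1 hT
  rw [spGL_eq_inf (by omega)]
  refine max_wreath_of hf h1 hT (by omega) (.inr ⟨a3, by omega⟩) hC (.inr (by simpa [q0_id])) fun γ M a b c i => ?_
  by_cases h4 : 4 ≤ k
  · exact wr_wT.cw_four h2 (by simpa) a H (fun i _ => wr_wT.jj_scalar (γ := fun _ => γ) a hC (by simp; omega) (.inr h2)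
      (sd_tB hf) (cyc_of b) c i) i
  obtain ⟨y, y0, hy⟩ := (sd_tB h1).exists_iso (sd_tB h1).ns (by simpa)
  obtain ⟨y', hy'⟩ := (sd_tB h1).exists_SP hy y0
  refine (a i).cw_two h2 hC (by simp; omega) (wr_wT.jj_two h2 hC a (by simp; omega) (by
    obtain ⟨_, _⟩ := hodd; simp; omega) hy' H (sd_tB hf) (fun π => ?_) (by simpa) c i)
  obtain ⟨g, b1, b2⟩ := b π
  exact ⟨_, b1 ▸ b2 (((sd_tB hf).SUG_eq_top rfl).ge trivial), act_wP π⟩

end Cfsg.Agent.H12
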