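import Mathlib
import Cfsg.Agent.H18.OMxD

/-!
Stabilisers of non-degenerate subspaces of more than half the dimension, via reflections.
-/

set_option autoImplicit false

namespace Cfsg.Agent.H12

open Module QuadraticMap H13 H18

variable {F V : Type*} [Field F] [AddCommGroup V] [Module F V] {Q : QuadraticForm F V}
  {M : Subgroup (OG Q)} {U : Submodule F V} {a b p u v w x y z : V} {t : F}

theorem refl_mem_stO [FiniteDimensional F V] (h : v ∈ U ∨ v ∈ perp Q U) : refl Q v ∈ stO Q U :=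
  mem_stO_of_maps fun w hw => by
    rcases h with h | h
    · rw [refl_apply]; exact sub_mem hw (U.smul_mem _ h)
    · rwa [refl_apply_of_perp (perp_pair_zero h hw)]

theorem mb_of_refl (h : MB M U) (hu : u ∈ U) (h0 : u ≠ 0) (h1 : Q u = 0) (h2 : polar Q u a = 0)
    (h3 : Q a ≠ 0) (ht : t ≠ 0) (H : refl Q a * refl Q (a + t • u) ∈ M) : a ∈ U := by
  have c0 : -t / Q a ≠ 0 := by simp [ht, h3]
  have a1 : polar Q u ((-t / Q a) • a) = 0 := by simp [h2]
  refine (U.smul_mem_iff c0).mp (h.mem u hu h0 _ ⟨h1, a1, ?_⟩)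
  rw [sieg_eq_refl_mul_refl h1 a1 (by simp [Q_smul, ht, h3]), refl_smul c0,
    show (-t / Q a) • a - Q ((-t / Q a) • a) • u = (-t / Q a) • (a + t • u) by
      rw [Q_smul]; match_scalars <;> field_simp, refl_smul c0]
  exact H

/-- linked reflections -/
def RLk (M : Subgroup (OG Q)) (U : Submodule F V) (v : V) : Prop :=
  Q v ≠ 0 ∧ ∀ w, (w ∈ U ∨ w ∈ perp Q U) → Q w = Q v → refl Q v * refl Q w ∈ M

variable [FiniteDimensional F V] [Finite F] (hQ : ND Q) (hM : ∀ g ∈ Om Q, g ∈ stO Q U → g ∈ M)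
include hQ hM

theorem lnk (h1 : v ∈ U ∨ v ∈ perp Q U) (h2 : w ∈ U ∨ w ∈ perp Q U) (h3 : Q v ≠ 0) (h4 : Q w = Q v) :
    refl Q v * refl Q w ∈ M :=
  hM _ (hQ.refl_mul_refl_mem_commutator h3 h4.symm) (mul_mem (refl_mem_stO h1) (refl_mem_stO h2))

theorem rlk_of (h1 : w ∈ U ∨ w ∈ perp Q U) (h3 : Q v ≠ 0) (h4 : Q w = Q v)
    (H : refl Q v * refl Q w ∈ M) : RLk M U v := ⟨h3, fun z a1 a2 => by
  have := mul_mem H (lnk hQ hM h1 a1 (h4 ▸ h3) (a2.trans h4.symm))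
  rwa [mul_assoc, ← mul_assoc (refl Q w), refl_mul_self, one_mul] at this⟩

theorem lnk_map {g : OG Q} (hg : g ∈ M) (h1 : g.1 v ∈ U) (h2 : g.1 w ∈ U) (h3 : Q v ≠ 0) (h4 : Q w = Q v) :
    refl Q v * refl Q w ∈ M := by
  have := mul_mem (mul_mem (inv_mem hg) (lnk hQ hM (Or.inl h1) (Or.inl h2) (by simpa) (by simpa))) hg
  rwa [← conj_refl, ← conj_refl, show ∀ a b : OG Q, g⁻¹ * (g * a * g⁻¹ * (g * b * g⁻¹)) * g = a * b from
    fun a b => by group] at this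

variable (h : MB M U)
include h

theorem RLk.lk (H : RLk M U v) (h1 : (refl Q v).1 y ∈ U) (h2 : (refl Q v).1 z ∈ U) (h3 : Q y ≠ 0)
    (h4 : Q z = Q y) : refl Q y * refl Q z ∈ M := by
  obtain ⟨w, hw⟩ := h.nd.exists_eq (h.three.trans' (by omega)) (Q v)
  have a1 := inv_mem (H.2 w (Or.inl w.2) hw)
  rw [mul_inv_rev, refl_inv, refl_inv] at a1
  exact lnk_map hQ hM a1 (((refl_mem_stO (Or.inl w.2)) _).mp h1) (((refl_mem_stO (Or.inl w.2)) _).mp h2) h3 h4

variable (h2 : (2 : F) ≠ 0)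
include h2

theorem RLk.false_of_ne (H : RLk M U (x + z)) (hx : x ∈ U) (hz : z ∈ perp Q U) (a1 : Q x ≠ 0) (a2 : Q z ≠ 0)
    (a3 : Q x ≠ Q z) : False := by
  have b0 := mem_perp.mp hz
  obtain ⟨u, b1, b2, b3⟩ := exists_sing_ne (x := x) h.nd h.three fun H' => a1 (by
    simpa [polar_self', h2] using mem_perp.mp H' x hx)
  obtain ⟨b, c1, c2, c3⟩ := exists_norm_perp h.nd h.three hx (by simpa [polar_self', h2]) (Q z)
  have c4 : Q (x + z) = Q x + Q z := by rw [Q_add, b0 x hx, add_zero]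
  have c5 := H.1
  have c6 : Q (z + ((Q x - Q z) / polar Q u x) • u) = Q z := by
    simp [Q_add, Q_smul, b2, perp_pair_zero hz b1]
  have d1 := H.lk hQ hM h (y := z + ((Q x - Q z) / polar Q u x) • u) (z := b) (by
    rw [refl_apply, show polar Q (x + z) (z + ((Q x - Q z) / polar Q u x) • u) = Q (x + z) by
      simp only [polar_add_left, polar_add_right, polar_smul_right, b0 x hx, perp_pair_zero hz b1,
        polar_self', polar_comm Q x u, smul_eq_mul, c4]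
      field_simp; ring, mul_inv_cancel₀ c5, one_smul,
      show z + ((Q x - Q z) / polar Q u x) • u - (x + z) = ((Q x - Q z) / polar Q u x) • u - x by abel]
    exact sub_mem (U.smul_mem _ b1) hx) (by
    rwa [refl_apply_of_perp (by simp [c2, perp_pair_zero hz c1])]) (by rwa [c6]) (c3.trans c6.symm)
  have d2 := mul_mem (lnk hQ hM (Or.inr hz) (Or.inl c1) a2 c3) (inv_mem d1)
  rw [mul_inv_rev, refl_inv, refl_inv, mul_assoc, ← mul_assoc (refl Q b), refl_mul_self, one_mul] at d2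
  exact a2 (by rw [nd_sep h.nd (mb_of_refl h b1 (by rintro rfl; simp at b3) b2 (b0 u b1) a2
    (by simp [b3, sub_eq_zero, a3]) d2) b0, map_zero])

theorem RLk.mem (hq : 3 < Nat.card F) (H : RLk M U v) : v ∈ U ∨ v ∈ perp Q U := by
  obtain ⟨x, hx, z, hz, rfl⟩ := exists_add_perp hQ h.nd v
  have b0 := mem_perp.mp hz
  by_cases x0 : x = 0
  · simp [x0, hz]
  by_cases z0 : z = 0
  · simp [z0, hx]
  refine (z0 (nd_sep h.nd ?_ b0)).elim
  have c4 : Q (x + z) = Q x + Q z := by rw [Q_add, b0 x hx, add_zero]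
  by_cases a1 : Q x = 0
  · have a2 : Q z ≠ 0 := by simpa [c4, a1] using H.1
    have := inv_mem (H.2 z (Or.inr hz) (by simp [c4, a1]))
    rw [mul_inv_rev, refl_inv, refl_inv, add_comm, ← one_smul F x] at this
    exact mb_of_refl h hx x0 a1 (b0 x hx) a2 one_ne_zero this
  by_cases a2 : Q z = 0
  · have a3 := inv_mem (H.2 x (Or.inl hx) (by simp [c4, a2]))
    rw [mul_inv_rev, refl_inv, refl_inv] at a3
    have a4 : polar Q z ((-1 / Q x) • x) = 0 := by simp [perp_pair_zero hz hx]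
    have c0 : -1 / Q x ≠ 0 := by simp [a1]
    have a5 : AS M z ((-1 / Q x) • x) := ⟨a2, a4, by
      rwa [sieg_eq_refl_mul_refl a2 a4 (by simp [Q_smul, a1]), refl_smul c0,
        show (-1 / Q x) • x - Q ((-1 / Q x) • x) • z = (-1 / Q x) • (x + z) by
          rw [Q_smul]; match_scalars <;> field_simp, refl_smul c0]⟩
    obtain ⟨u, b1, b2, b3⟩ := exists_sing_ne (x := (-1 / Q x) • x) h.nd h.three fun H' => a1 (by
      simpa [polar_self', h2, a1] using mem_perp.mp H' x hx)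
    have u0 : u ≠ 0 := by rintro rfl; simp at b3
    obtain ⟨f, hf, hp⟩ := exists_hp_mem h.nd b1 b2 u0
    obtain ⟨a, d1, b, d2, d3, -, d4, -, d5⟩ := exists_pair_perp h.nd h.three b1 hf hp
    obtain ⟨c, e1, e2⟩ := exists_Q_ne (W := U ⊓ perp Q (F ∙ u)) ⟨d1, mem_perp_singleton.mpr d3⟩
      ⟨d2, mem_perp_singleton.mpr d4⟩ d5
    have e3 := mem_perp_singleton.mp e1.2
    have e4 := a5.fix (h.as u b1 c e1.1 b2 e3).mem (sieg_apply_of_perp_perp (b0 u b1) (b0 c e1.1))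
    rw [sieg_apply b2 e3, add_sub_assoc, add_sub_cancel_left] at e4
    generalize polar Q c ((-1 / Q x) • x) = α, polar Q u ((-1 / Q x) • x) = β at e4 b3
    have e5 : polar Q u (α • u - β • (c + Q c • u)) = 0 := by simp [hp.uu, e3]
    have e6 := h.mem u b1 u0 _ ((h.as u b1 _ (sub_mem (U.smul_mem α b1) (U.smul_mem β
      (add_mem e1.1 (U.smul_mem (Q c) b1)))) b2 e5).act e4 (perp_pair_zero hz b1) (by rwa [polar_comm]))
    rw [e4.ua, zero_smul, sub_zero, U.smul_mem_iff] at e6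
    · exact e6
    · simp [polar_self', Q_sub, Q_add, Q_smul, b2, e3, polar_comm Q c u, h2, b3, e2]
  by_cases a3 : Q x = Q z
  swap
  · exact (H.false_of_ne hQ hM h h2 hx hz a1 a2 a3).elim
  obtain ⟨s, s1, s2⟩ := exists_sq_ne_one hq
  have xx : polar Q x x ≠ 0 := by simpa [polar_self', h2]
  obtain ⟨l, c1, c2, c3⟩ := exists_norm_perp h.nd h.three hx xx (s * Q z)
  have c5 : Q (l + z) = (s + 1) * Q z := by rw [Q_add, b0 l c1, c3]; ring
  have c6 : Q (l + z) ≠ 0 := c5 ▸ mul_ne_zero (fun e => s2 (by rw [eq_neg_of_add_eq_zero_left e]; simp)) a2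
  obtain ⟨b, d1, d2, d3⟩ := exists_norm_perp h.nd h.three hx xx (Q (l + z))
  refine ((rlk_of hQ hM (Or.inl d1) c6 d3 (H.lk hQ hM h ?_ ?_ c6 d3)).false_of_ne hQ hM h h2 c1 hz
    (c3 ▸ mul_ne_zero s1 a2) a2 fun e => s2 ?_).elim
  · rw [refl_apply, show polar Q (x + z) (l + z) = Q (x + z) by
      simp [c2, b0 x hx, perp_pair_zero hz c1, polar_self', c4, a3, two_mul], mul_inv_cancel₀ H.1, one_smul,
      add_sub_add_right_eq_sub]
    exact sub_mem c1 hx
  · rwa [refl_apply_of_perp (by simp [d2, perp_pair_zero hz d1])]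
  · rw [show s = 1 from mul_right_cancel₀ a2 (by rw [← c3, e, one_mul]), one_pow]

omit h

/-- Stabilisers of non-degenerate subspaces of more than half the dimension are maximal. -/
theorem Om_le_of_nd3 (hn : 5 ≤ finrank F V) (hU : ND (Q.restrict U)) (hd : finrank F V < 2 * finrank F U)
    (hq : 3 < Nat.card F) {g : OG Q} (hg : g ∈ M) (hg' : g ∉ stO Q U) : Om Q ≤ M := by
  by_contra H
  have h0 : Blk (stO Q U) U := ⟨hU, by omega, fun _ => mem_stO_of_fix_perp hQ⟩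
  obtain ⟨s, s1, s2⟩ := exists_sq_ne_one hq
  have h := h0.mb hQ hn hM (fun B h1 h2 h3 => le_of_invariant hQ (hQ.nd_perp hU) (Or.inl ⟨s, s1, s2⟩) h1 h2
    fun g h4 => by
      rw [hQ.perp_perp] at h4
      exact h3 g (mem_stO_of_maps fun w hw => by rwa [h4 w hw]) h4) H
  have hB := h.map (inv_mem hg)
  have a0 : ∀ x, x ∈ U.map (g⁻¹).1.toLinearMap ↔ g.1 x ∈ U := fun x =>
    ⟨by rintro ⟨y, hy, rfl⟩; rwa [LinearEquiv.coe_coe, OG_apply_inv], fun e => ⟨_, e, OG_inv_apply_apply g x⟩⟩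
  have a1 := finrank_map_OG U g⁻¹
  generalize U.map (g⁻¹).1.toLinearMap = B at hB a0 a1
  have k : ∀ v ∈ B, ∀ w ∈ B, w ∈ U → Q w = Q v → ∀ p ∈ U, polar Q p v ≠ 0 → Q v ≠ 0 → v ∈ U :=
    fun v b1 w b2 b3 b4 p b5 b6 b7 => ((rlk_of hQ hM (Or.inl b3) b7 b4 (lnk_map hQ hM hg ((a0 _).mp b1)
      ((a0 _).mp b2) b7 b4)).mem hQ hM h h2 hq).resolve_right fun e => b6 (mem_perp.mp e p b5)
  obtain ⟨p, b1, b2, b3⟩ : ∃ p ∈ U, p ∈ B ∧ Q p ≠ 0 := by
    have c1 := Submodule.finrank_sup_add_finrank_inf_eq U B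
    have c2 := Submodule.finrank_le (U ⊔ B)
    obtain ⟨u, ⟨c3, c4⟩, u0⟩ := (U ⊓ B).ne_bot_iff.mp fun e => by rw [e, finrank_bot] at c1; omega
    by_cases b2 : Q u = 0
    swap
    · exact ⟨u, c3, c4, b2⟩
    obtain ⟨f, hf, hp⟩ := exists_hp_mem h.nd c3 b2 u0
    obtain ⟨a, d1, b, d2, d3, -, d4, -, d5⟩ := exists_pair_perp h.nd h.three c3 hf hp
    obtain ⟨c, e1, e2⟩ := exists_Q_ne (W := U ⊓ perp Q (F ∙ u)) ⟨d1, mem_perp_singleton.mpr d3⟩
      ⟨d2, mem_perp_singleton.mpr d4⟩ d5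
    exact ⟨c, e1.1, hB.mem u c4 u0 c (h.as u c3 c e1.1 b2 (mem_perp_singleton.mp e1.2)), e2⟩
  have pp : polar Q p p ≠ 0 := by simpa [polar_self', h2]
  obtain ⟨w, c1, c2, c3⟩ := exists_norm_perp hB.nd hB.three b2 pp ((s ^ 2 - 1) * Q p)
  have c4 : Q w ≠ 0 := c3 ▸ mul_ne_zero (sub_ne_zero.mpr s2) b3
  have c5 : Q (p + w) = s ^ 2 * Q p := by rw [Q_add, c2, c3]; ring
  have c6 : w ∈ U := (U.add_mem_iff_right b1).mp (k _ (add_mem b2 c1) (s • p) (B.smul_mem _ b2) (U.smul_mem _ b1)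
    (by rw [Q_smul, c5]) p b1 (by simpa [c2] using pp) (c5 ▸ mul_ne_zero (pow_ne_zero _ s1) b3))
  have hL : ND (Q.restrict (Submodule.span F {p, w})) := nd_restrict_iff.mpr (Submodule.disjoint_def.mpr
    fun y d1 d2 => by
      obtain ⟨a, b, rfl⟩ := Submodule.mem_span_pair.mp d1
      obtain ⟨d3, d4⟩ := mem_perp_pair.mp d2
      simp [c2, polar_comm Q w p, polar_self', h2, b3, c4] at d3 d4
      simp [d3, d4])
  have hL' : 2 ≤ finrank F (Submodule.span F {p, w}) := (finrank_span_pair_eq (linearIndependent_pair_of_notMem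
    (by rintro rfl; simp at b3) fun e => by
      obtain ⟨c, rfl⟩ := Submodule.mem_span_singleton.mp e
      simp [polar_self', h2, b3] at c2
      simp [c2] at c4)).ge
  have d1 : Submodule.span F {p, w} ≤ U ⊓ B := sp_le.mpr ⟨⟨b1, b2⟩, c6, c1⟩
  generalize Submodule.span F {p, w} = L at hL hL' d1
  refine hg' (inv_mem_iff.mp (mem_stO_of_maps fun x hx => ?_))
  have hx' := (a0 ((g⁻¹).1 x)).mpr (by rwa [OG_apply_inv])
  generalize (g⁻¹).1 x = y at hx'
  obtain ⟨l, e1, n, e2, rfl⟩ := exists_add_perp hQ hL y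
  have e3 : n ∈ B := (B.add_mem_iff_right (d1 e1).2).mp hx'
  obtain ⟨c, e4, e5⟩ : ∃ c : F, c ≠ 0 ∧ c + Q n ≠ 0 := by
    by_cases e : 1 + Q n = 0
    · exact ⟨-1, by simp, fun e' => h2 (by linear_combination e - e')⟩
    · exact ⟨1, one_ne_zero, e⟩
  obtain ⟨l', e6⟩ := hL.exists_eq hL' c
  change Q l' = c at e6
  have e7 : Q (l' + n) = c + Q n := by rw [Q_add, mem_perp.mp e2 _ l'.2, e6, add_zero]
  obtain ⟨l'', e8⟩ := hL.exists_eq hL' (Q (l' + n))
  exact add_mem (d1 e1).1 ((U.add_mem_iff_right (d1 l'.2).1).mp (k _ (add_mem (d1 l'.2).2 e3) l'' (d1 l''.2).2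
    (d1 l''.2).1 e8 l' (d1 l'.2).1 (by simp [mem_perp.mp e2 _ l'.2, polar_self', e6, h2, e4]) (e7 ▸ e5)))

end Cfsg.Agent.H12
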