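import Mathlib
import Cfsg.Agent.H12.MaxD

/-!
Orthogonal similarity groups are maximal in special linear groups of odd characteristic.
-/

set_option autoImplicit false

namespace Cfsg.Agent.H12

open Module QuadraticMap H13

variable {F V : Type*} [Field F] [AddCommGroup V] [Module F V] [FiniteDimensional F V] [Finite F]
  {Q : QuadraticForm F V} (hQ : ND Q)
include hQ

omit [Finite F] in
theorem mem_span_of_polar {S : Submodule F V} {w : V} (h : ∀ z ∈ perp Q S, polar Q w z = 0) :
    w ∈ S := by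
  by_contra hw
  obtain ⟨y, h1, h2⟩ := hQ.exists_perp_polar_ne hw
  exact h2 (h y h1)

/-- An additive invariant set of vectors orthogonal to `v` is everything. -/
theorem perp_of_sieg (hn : 5 ≤ finrank F V) {v c : V} {p : V → Prop} (h0 : p 0)
    (h1 : ∀ x y, p x → p y → p (x - y))
    (h2 : ∀ e b x, Q e = 0 → polar Q e b = 0 → polar Q e v = 0 → polar Q b v = 0 → p x →
      p ((sieg Q e b).1 x)) (hc : p c) (hc' : c ∉ F ∙ v) (hc0 : polar Q v c = 0) (x : V)
    (hx : polar Q v x = 0) : p x := by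
  have add : ∀ x y, p x → p y → p (x + y) := fun x y hx hy => by
    simpa using h1 x _ hx (h1 0 y h0 hy)
  have k1 : ∀ c e, p c → Q e = 0 → polar Q e v = 0 → polar Q e c = 0 →
      c ∉ Submodule.span F {e, v} → ∀ t : F, p (t • e) := fun c e a1 a2 a3 a4 a5 t => by
    obtain ⟨b, b1, b2⟩ := hQ.exists_perp_one _ a5
    have b3 := b1 e (Submodule.subset_span (by simp))
    simpa [sieg_apply_of_perp a2 (show polar Q e (t • b) = 0 by simp [polar_comm Q e, b3]) a4, b2]
      using h1 _ _ (h2 e (t • b) c a2 (by simp [polar_comm Q e, b3]) a3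
        (by simp [b1 v (Submodule.subset_span (by simp))]) a1) a1
  have k2 : ∀ c e, p c → Q e = 0 → polar Q e v = 0 → polar Q e c ≠ 0 → ∀ t : F, p (t • e) :=
    fun c e a1 a2 a3 a4 t => by
      obtain ⟨b, d, b1⟩ := hQ.exists_perp_pair_polar hn e v
      have b2 := h1 _ _ (h2 e b c a2 (pp_left b) a3 (pp_right' b) a1) a1
      have b3 : polar Q e ((sieg Q e b).1 c - c) = 0 := by
        simp [sieg_apply a2 (pp_left b), polar_self', a2, pp_left b]
      refine k1 _ e b2 a2 a3 b3 (fun H => a4 ?_) t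
      obtain ⟨s, s', H⟩ := Submodule.mem_span_pair.mp H
      simpa [sieg_apply a2 (pp_left b), pp_left' d, pp_right' d, polar_comm Q d b, b1] using
        congrArg (polar Q d) H
  obtain ⟨u, a1, a2, a3, a4⟩ : ∃ u, Q u = 0 ∧ polar Q v u = 0 ∧ polar Q u c ≠ 0 ∧ u ∉ F ∙ v := by
    by_contra! H
    obtain ⟨b, b1, b2⟩ := hQ.exists_perp_one _ hc'
    have := hQ.singular_induction_perp hn v (p := fun u => polar Q u c = 0) (fun u a1 a2 => by
      by_contra a3
      obtain ⟨t, rfl⟩ := Submodule.mem_span_singleton.mp (H u a2 a1 a3)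
      simp [hc0] at a3) (fun x y _ _ hx hy => by simp [hx, hy]) b
      ((polar_comm _ _ _).trans (b1 v (Submodule.mem_span_singleton_self v)))
    simp [b2] at this
  have k3 := k2 c u hc a1 ((polar_comm _ _ _).trans a2) a3
  have k4 : ∀ z, polar Q v z = 0 → polar Q u z ≠ 0 → p z := fun z b1 b2 => by
    have b3 : Q (z - (Q z / polar Q u z) • u) = 0 := by
      rw [Q_sub, Q_smul, a1, polar_smul_right, polar_comm Q z, smul_eq_mul, div_mul_cancel₀ _ b2]; simp
    simpa using add _ _ (k2 u _ (by simpa using k3 1) b3 (by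
      simp [polar_comm Q _ v, b1, a2]) (by simpa [polar_self', a1, polar_comm Q z] using b2) 1)
      (k3 (Q z / polar Q u z))
  by_cases h3 : polar Q u x = 0
  · obtain ⟨b, b1, b2⟩ := hQ.exists_perp_one _ a4
    have b3 := (polar_comm _ _ _).trans (b1 v (Submodule.mem_span_singleton_self v))
    rw [polar_comm] at b2
    simpa using h1 _ _ (k4 (x + b) (by simp [hx, b3]) (by simp [h3, b2])) (k4 b b3 (by simp [b2]))
  · exact k4 x hx h3

variable {M : Subgroup (V ≃ₗ[F] V)} (h2 : (2 : F) ≠ 0)
include h2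

theorem SLV_le_of_TR_sieg (hn : 5 ≤ finrank F V) (hM : ∀ e b, (sieg Q e b).1 ∈ M) {v : V}
    {ψ : Dual F V} (h : TR M v ψ) (hv : v ≠ 0) (hψ : ψ ≠ 0) : SLV F V ≤ M := by
  have k0 : ∀ {v c} (k : OG Q), k.1 ∈ M → TR M v (polarBilin Q c) →
      TR M (k.1 v) (polarBilin Q (k.1 c)) := fun k hk h => h.conj hk fun x => by simp
  have key : ∀ {v c}, TR M v (polarBilin Q c) → v ≠ 0 → c ∉ F ∙ v → SLV F V ≤ M :=
    fun {v c} h hv hc => by
      have h1 : v ∈ PS M := fun φ h0 => by
        obtain ⟨x, hx⟩ := hQ.exists_polar_eq_dual φ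
        obtain rfl : polarBilin Q x = φ := LinearMap.ext hx
        refine perp_of_sieg hQ hn (p := fun x => TR M v (polarBilin Q x)) (by simpa using TR.zero_right v)
          (fun x y hx hy => by simpa using hx.sub_right hy) (fun e b x a1 a2 a3 a4 hx => ?_) h hc
          ((polar_comm _ _ _).trans h.1) x ((polar_comm _ _ _).trans h0)
        simpa only [sieg_apply_of_perp_perp a3 a4] using k0 _ (hM e b) hx
      obtain ⟨u, a1, a2⟩ : ∃ u, Q u = 0 ∧ polar Q u v ≠ 0 := by
        by_contra! H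
        exact hv (hQ v fun y => (polar_comm _ _ _).trans (hQ.singular_induction_top
          (exists_singular Q (by omega)).choose_spec.2 (exists_singular Q (by omega)).choose_spec.1
          (p := fun y => polar Q y v = 0) H (fun x y hx hy => by simp [hx, hy]) y))
      have h3 := perp_of_sieg hQ hn (v := 0) (p := (· ∈ PS M)) (zero_mem _) (fun _ _ => sub_mem)
        (fun e b x _ _ _ _ hx => map_mem_PS hx (hM e b)) h1 (by simpa) (by simp)
      exact SLV_le_of_PS (eq_top_iff.mpr fun x _ => h3 x (by simp))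
  obtain ⟨c, hc⟩ := hQ.exists_polar_eq_dual ψ
  obtain rfl : polarBilin Q c = ψ := LinearMap.ext hc
  by_cases h1 : c ∈ F ∙ v
  · obtain ⟨t, rfl⟩ := Submodule.mem_span_singleton.mp h1
    have t0 : t ≠ 0 := by rintro rfl; simp at hψ
    have a1 : Q v = 0 := by simpa [t0, h2] using h.1
    obtain ⟨f, hf⟩ := hQ.exists_hp a1 hv
    obtain ⟨b, b1, b2⟩ := hQ.exists_nonsingular_perp (F ∙ f) (by
      rw [finrank_span_singleton hf.ne_right]; omega)
    rw [mem_perp_singleton] at b1
    have b3 := k0 _ (hM f b) h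
    rw [map_smul _ t v] at b3
    set w := (sieg Q f b).1 v
    have b4 : polar Q v w = -Q b := by
      simp [w, sieg_apply hf.Qv b1, hf.uv, hf.vu, a1, polar_comm Q v b]
    have b5 : Q w = 0 := by rw [OG_map, a1]
    have b6 := b3.conj_tr h
    rw [← map_smul (polarBilin Q), ← map_sub] at b6
    refine key b6 (fun e => b2 ?_) fun H => ?_
    · simpa [b5, polar_comm Q w, b4] using congrArg (polar Q w) e
    · obtain ⟨s, hs⟩ := Submodule.mem_span_singleton.mp H
      have c1 := congrArg (polar Q w) hs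
      have c2 := congrArg (polar Q v) hs
      simp [b5, polar_comm Q w, b4, a1, b2] at c1 c2
      exact mul_ne_zero h2 (mul_ne_zero t0 (mul_ne_zero t0 (mul_ne_zero b2 b2)))
        (by rw [c1] at c2; linear_combination c2)
  · exact key h hv h1

variable (hn : 6 ≤ finrank F V) (hM : ∀ g ∈ SLV F V, (∀ v, Q (g v) = Q v) → g ∈ M)
include hn hM

omit hn h2 [Finite F] in
theorem sieg_mem_of_SO (hG : Good Q) (e b : V) : (sieg Q e b).1 ∈ M :=
  hM _ (MonoidHom.mem_ker.mpr (Abelianization.commutator_subset_ker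
    (LinearEquiv.det.comp (OG Q).subtype) (hQ.sieg_mem_commutator hG e b))) (sieg Q e b).2

theorem mem_OG_of_fix (H : ¬ SLV F V ≤ M) {s : V ≃ₗ[F] V} (hs : s ∈ M) (hs' : s ∈ SLV F V) {e : V}
    (he : Q e = 0) (e0 : e ≠ 0) (h1 : s e = e) (h3 : ∀ y, polar Q e (s y) = polar Q e y) (v : V) :
    Q (s v) = Q v := by
  have hS := sieg_mem_of_SO hQ hM (good_of_two_ne_zero h2)
  have k : ∀ ψ, TR M e ψ → ψ = 0 := fun ψ h => by
    by_contra h0; exact H (SLV_le_of_TR_sieg hQ h2 (by omega) hS h e0 h0)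
  have k1 : ∀ b, polar Q e b = 0 → ∀ y, polar Q b y - polar Q e y * Q b =
      polar Q (s b) (s y) - polar Q e y * Q (s b) := fun b hb y => by
    have hb' := (h3 b).trans hb
    have := k ((polarBilin Q b - Q b • polarBilin Q e - (polarBilin Q (s b) - Q (s b) • polarBilin Q e)
        ∘ₗ s.toLinearMap) ∘ₗ s.symm.toLinearMap ∘ₗ (sieg Q e (s b))⁻¹.1.toLinearMap) ⟨?_, _,
      mul_mem (mul_mem (mul_mem hs (hS e b)) (inv_mem hs)) (inv_mem (hS e (s b))), fun y => ?_⟩
    · have := DFunLike.congr_fun this ((sieg Q e (s b)).1 (s y))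
      simp [h3] at this
      linear_combination this
    · have : (sieg Q e (s b)).1.symm e = e := by rw [LinearEquiv.symm_apply_eq, sieg_apply_self]
      have h4 : s.symm e = e := by rw [LinearEquiv.symm_apply_eq, h1]
      simp [this, h4, h1, he, polar_comm Q _ e, hb, hb']
    · obtain ⟨y, rfl⟩ := (sieg Q e (s b)).1.surjective y
      obtain ⟨y, rfl⟩ := s.surjective y
      simp [sieg_apply he hb, h1]
      rw [sieg_apply he hb', h3]
      module
  have k2 : ∀ b, polar Q e b = 0 → ∀ y, polar Q (s b) (s y) = polar Q b y := fun b hb y => by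
    have a1 := k1 b hb y
    have a2 := k1 (-b) (by simp [hb]) y
    simp only [_root_.map_neg, polar_neg_left, QuadraticMap.map_neg] at a2
    exact mul_left_cancel₀ h2 (by linear_combination a2 - a1)
  obtain ⟨f, hf⟩ := hQ.exists_hp he e0
  have k3 : ∀ y, Q (s y) = Q y + Q (s f) * polar Q e y ^ 2 := fun y => by
    have a1 : polar Q e (y - polar Q e y • f) = 0 := by simp [hf.uv]
    have a2 := k2 _ a1 (y - polar Q e y • f)
    have a3 := k2 _ a1 f
    rw [polar_self', polar_self', mul_right_inj' h2] at a2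
    conv_lhs => rw [← sub_add_cancel y (polar Q e y • f), map_add, Q_add, a2, map_smul, Q_smul,
      polar_smul_right, a3]
    conv_rhs => rw [← sub_add_cancel y (polar Q e y • f), Q_add, Q_smul, polar_smul_right, hf.Qv]
    simp [hf.uv]; ring
  obtain ⟨-, t, t1, t2⟩ := TR.of_SLV (M := SLV F V) (P := fun _ => True) (fun _ h _ => h)
    (v := e) (φ := -Q (s f) • polarBilin Q e) (by simp [he]) fun _ _ => trivial
  have := k (-Q (s f) • polarBilin Q e) ⟨by simp [he], t, (M.mul_mem_cancel_right hs).mp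
    (hM _ (mul_mem t1 hs') fun y => by
      rw [LinearEquiv.mul_apply, t2, Q_add, Q_smul, he, polar_smul_right, polar_comm Q _ e]
      simp [h3, k3 y]; ring), t2⟩
  rw [k3, show Q (s f) = 0 by simpa [hf.uv] using DFunLike.congr_fun this f]; simp

theorem SLV_le_of_quad {g : V ≃ₗ[F] V} (hg : g ∈ M) (hg' : ¬ ∃ c : Fˣ, ∀ v, Q (g v) = c * Q v) :
    SLV F V ≤ M := by
  by_contra H
  have hG : Good Q := good_of_two_ne_zero h2
  have k1 : ∀ u, Q u = 0 → u ≠ 0 → ∃ c, ∀ y, polar Q (g u) (g y) = c * polar Q u y := fun u a1 a2 => by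
    obtain ⟨w, hw⟩ := hQ.exists_polar_eq_dual (polarBilin Q u ∘ₗ g.symm.toLinearMap)
    replace hw : ∀ y, polar Q w (g y) = polar Q u y := fun y => by simp [hw]
    have a3 := hQ.finrank_perp (Submodule.span F {g u, w})
    have a4 := H13.finrank_span_pair_le (F := F) (g u) w
    obtain ⟨e, b1, b2, b3⟩ := exists_singular_mem Q (H := perp Q (Submodule.span F {g u, w})) (by omega)
    rw [mem_perp_pair] at b1
    obtain ⟨e', he'⟩ := hQ.exists_polar_eq_dual (polarBilin Q e ∘ₗ g.toLinearMap)
    have a5 := hQ.finrank_perp (Submodule.span F {u, e', g.symm e})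
    have a6 := H13.finrank_span_triple_le (F := F) u e' (g.symm e)
    have a7 := H13.finrank_span_pair_le (F := F) u (g.symm w)
    obtain ⟨a, c1, c2⟩ := H13.exists_notMem_of_finrank_lt (H := Submodule.span F {u, g.symm w})
      (W := perp Q (Submodule.span F {u, e', g.symm e})) (by omega)
    simp only [mem_perp_span, Set.mem_insert_iff, Set.mem_singleton_iff, forall_eq_or_imp,
      forall_eq, he'] at c1
    have d1 : ∀ y, (g * (sieg Q u a).1 * g⁻¹) (g y) =
        g y + polar Q a y • g u - polar Q u y • (g a + Q a • g u) := fun y => by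
      simp [sieg_apply a1 c1.1]
    have d2 := mem_OG_of_fix hQ h2 hn hM H (mul_mem (mul_mem hg (sieg_mem_of_SO hQ hM hG u a))
      (inv_mem hg)) ((MonoidHom.normal_ker _).conj_mem _ (sieg_mem_of_SO hQ (fun _ h _ => h) hG u a) g)
      b3 b2 (by
        have := d1 (g.symm e)
        rwa [polar_comm Q a, c1.2.2, ← hw, g.apply_symm_apply, b1.2, zero_smul, zero_smul, add_zero,
          sub_zero] at this) fun y => by
        obtain ⟨y, rfl⟩ := g.surjective y
        simp [d1, polar_comm Q e (g u), b1.1, show polar Q e (g a) = 0 from c1.2.1]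
    have d3 : w ∈ Submodule.span F {g u, g a} := mem_span_of_polar hQ fun z hz => by
      rw [mem_perp_pair] at hz
      obtain ⟨z, rfl⟩ := g.surjective z
      have d4 : (g * (sieg Q u a).1 * g⁻¹) (g z) = g z := (⟨_, d2⟩ : OG Q)⁻¹.1.injective <|
        (OG_inv_apply_apply _ _).trans <| sub_eq_zero.mp <| hQ _ fun y => by
          obtain ⟨y, rfl⟩ := g.surjective y
          rw [polar_sub_left, ← OG_polar_right, sub_eq_zero]
          simp [d1, polar_comm Q (g z) (g u), polar_comm Q (g z) (g a), hz]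
      rw [d1, add_sub_assoc, add_eq_left, ← map_smul, ← map_smul, ← map_add, ← map_smul, ← map_sub,
        map_eq_zero_iff _ g.injective] at d4
      rw [hw]
      by_contra d5
      refine c2 (Submodule.mem_span_pair.mpr ⟨polar Q a z / polar Q u z - Q a, 0, ?_⟩)
      refine smul_right_injective V d5 ?_
      simp only
      linear_combination (norm := module) d4 + (mul_div_cancel₀ (polar Q a z) d5) • u
    obtain ⟨s, t, d4⟩ := Submodule.mem_span_pair.mp d3
    have t0 : t = 0 := by
      by_contra t0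
      refine c2 (Submodule.mem_span_pair.mpr ⟨-s / t, t⁻¹, ?_⟩)
      rw [← d4]; simp; match_scalars <;> field_simp; ring
    have s0 : s ≠ 0 := by
      rintro rfl
      refine a2 (hQ u fun y => ?_)
      rw [← hw, ← d4, t0]; simp
    exact ⟨s⁻¹, fun y => by rw [← hw, ← d4, t0]; simp [s0]⟩
  obtain ⟨u, a2, a1⟩ := exists_singular Q (by omega)
  obtain ⟨c, hc⟩ := k1 u a1 a2
  have k2 : ∀ {u v c}, Q v = 0 → polar Q u v ≠ 0 → (∀ y, polar Q (g u) (g y) = c * polar Q u y) →
      ∀ y, polar Q (g v) (g y) = c * polar Q v y := fun {u v c} b1 b2 b3 => by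
    obtain ⟨d, hd⟩ := k1 v b1 (by rintro rfl; simp at b2)
    rwa [mul_right_cancel₀ b2 ((b3 v).symm.trans ((polar_comm _ _ _).trans
      ((hd u).trans (by rw [polar_comm]))))]
  have k3 := hQ.singular_induction_top a1 a2 (p := fun v => ∀ y, polar Q (g v) (g y) = c * polar Q v y)
    (fun v hv => by
      by_cases v0 : v = 0
      · simp [v0]
      by_cases h1 : polar Q u v = 0
      · obtain ⟨z, b1, b2, b3⟩ := hQ.exists_common_nonperp a1 a2 v0 h1
        exact k2 hv (by rwa [polar_comm]) (k2 b1 b2 hc)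
      · exact k2 hv h1 hc) fun x y hx hy z => by simp [hx, hy, mul_add]
  refine hg' ⟨Units.mk0 c ?_, fun v => mul_left_cancel₀ h2 ?_⟩
  · rintro rfl
    exact a2 (g.injective ((hQ _ fun y => by simpa using hc (g.symm y)).trans (map_zero g).symm))
  · rw [← polar_self', k3, polar_self', Units.val_mk0]; ring

omit hQ h2 hn hM in
open Cfsg.Geo in
theorem max_SL_quad {ι : Type} [Fintype ι] [DecidableEq ι] (h2 : (2 : F) ≠ 0)
    (hn : 6 ≤ Fintype.card ι) {Q : (ι → F) → F} (hQ : IsNondegenerateQuadraticForm Q) :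
    IsMaximalIn (specialLinear ι F) (quadSimilarityGroup Q ⊓ specialLinear ι F) :=
  isMaximalIn_SL (fun g => ∃ c : Fˣ, ∀ v, Q (g v) = c * Q v) (fun _ => Iff.rfl)
    (fun h => H18.SL_not_le_similarity (by omega) (H18.hform_of_quad hQ)
      (h.trans (H18.quadSimilarityGroup_le Q)))
    fun _ hM _ _ hg hg' => SLV_le_of_quad (H18.nd_mkQ hQ) h2 (by simpa)
      (fun g hg h => hM g hg ⟨1, fun v => (h v).trans (one_mul _).symm⟩) hg hg'

end Cfsg.Agent.H12
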