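import Mathlib
import Cfsg.Agent.H12.MaxB
import Cfsg.Agent.H12.SubB

/-!
Subfield subgroups of matrix groups as stabilisers of rational structures.
-/

set_option autoImplicit false

namespace Cfsg.Agent.H12

open Module Cfsg.Geo Matrix

variable {ι : Type} [Fintype ι] [DecidableEq ι] {F : Type*} [Field F]

/-- The rational structure spanned by the columns of a matrix. -/
noncomputable def jP (K : Subfield F) (P : GL ι F) : (ι → K) →ₗ[K] (ι → F) :=
  (glEq ι F P).toLinearMap.restrictScalars K ∘ₗ (Algebra.linearMap K F).compLeft ι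

theorem jP_apply (K : Subfield F) (P : GL ι F) (u : ι → K) :
    jP K P u = (P : Matrix ι ι F) *ᵥ fun i => (u i : F) := rfl

theorem bc_jP (K : Subfield F) (P : GL ι F) : IsBaseChange F (jP K P) :=
  ((IsBaseChange.linearMap K F).finitePow ι).comp (IsBaseChange.ofEquiv (glEq ι F P))

theorem mem_subfield_iff {K : Subfield F} {P g : GL ι F} :
    g ∈ subfieldSubgroup K P ↔ RT (jP K P) (glEq ι F g) := by
  rw [H18.mem_subfieldSubgroup_iff]
  have h1 : ∀ v, (g : Matrix ι ι F) *ᵥ ((P : Matrix ι ι F) *ᵥ v) =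
      (P : Matrix ι ι F) *ᵥ (H18.cj P⁻¹ (g : Matrix ι ι F) *ᵥ v) := fun v => by
    change _ = _ *ᵥ ((P⁻¹).1 * _ * (P⁻¹⁻¹).1) *ᵥ v
    simp [← Matrix.mul_assoc]
  refine exists_congr fun ζ => and_congr_right fun _ => ⟨fun h x => ?_, fun h i k => ?_⟩
  · refine ⟨fun i => ⟨ζ * (H18.cj P⁻¹ (g : Matrix ι ι F) *ᵥ fun i => (x i : F)) i, ?_⟩, ?_⟩
    · rw [mulVec, dotProduct, Finset.mul_sum]
      exact sum_mem fun k _ => mul_assoc ζ _ _ ▸ mul_mem (h i k) (x k).2
    · rw [glEq_apply, jP_apply, h1, ← mulVec_smul]; rfl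
  · obtain ⟨y, hy⟩ := h (Pi.single k 1)
    rw [glEq_apply, jP_apply, h1, ← mulVec_smul, jP_apply] at hy
    have h2 := congrFun ((glEq ι F P).injective hy) i
    have h3 : (fun i => ((Pi.single k 1 : ι → K) i : F)) = Pi.single k 1 := by
      ext l; by_cases h : l = k <;> simp [h]
    rw [h3] at h2
    simpa [← h2] using (y i).2

variable [Fintype F] {K : Subfield F} {r : ℕ}

theorem finrank_of_card_eq_pow (h : Fintype.card F = Nat.card K ^ r) : finrank K F = r := by
  have := Module.natCard_eq_pow_finrank (K := K) (V := F)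
  rw [Nat.card_eq_fintype_card, h] at this
  exact (Nat.pow_right_injective (Finite.one_lt_card (α := K)) this).symm

theorem max_SL_subfield (h4 : 4 ≤ Fintype.card ι) (hr : r.Prime)
    (h : Fintype.card F = Nat.card K ^ r) (P : GL ι F) :
    IsMaximalIn (specialLinear ι F) (subfieldSubgroup K P ⊓ specialLinear ι F) :=
  isMaximalIn_SL _ (fun _ => mem_subfield_iff)
    (H18.SL_not_le_subfield (by omega) (H18.ne_top_of_card_eq_pow hr h) P) fun _ hM _ _ hg hg' =>
      SLV_le_of_RT (bc_jP K P) (by rwa [finrank_of_card_eq_pow h]) (by simp; omega)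
        (fun x χ h1 => TR.of_SLV hM (by simp [(bc_jP K P).toDual_comp_apply, h1]) fun g hg =>
          ⟨1, one_ne_zero, fun y => ⟨y + χ y • x, by
            rw [hg, map_add, j_smul F, (bc_jP K P).toDual_comp_apply, one_smul]⟩⟩) (by simpa) hg hg'

end Cfsg.Agent.H12
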