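import Mathlib
import Cfsg.Agent.H12.SubC
import Cfsg.Agent.H12.SubD

/-!
Maximality of subfield subgroups in symplectic and unitary matrix groups.
-/

set_option autoImplicit false

namespace Cfsg.Agent.H12

open Module Cfsg.Geo Matrix

theorem exists_BF {F V U : Type*} [Field F] [AddCommGroup V] [Module F V] {σ : F →+* F}
    {B : V →ₛₗ[σ] V →ₗ[F] F} (D : SD B) {K : Subfield F} [AddCommGroup U] [Module K U]
    {j : U →ₗ[K] V} (h : IsBaseChange F j) (hσ : ∀ c ∈ K, σ c ∈ K) (hB : ∀ x y, B (j x) (j y) ∈ K)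
    (hθ : (∃ θ ∈ K, σ θ ≠ θ) ∨ ∀ x, B (j x) (j x) = 0) :
    ∃ (σ₀ : K →+* K) (B₀ : U →ₛₗ[σ₀] U →ₗ[K] K), BF B B₀ j := by
  refine ⟨σ.restrict K K hσ, LinearMap.mk₂'ₛₗ _ _ (fun x y => ⟨_, hB x y⟩)
    (fun _ _ _ => Subtype.ext (by simp)) (fun c x y => Subtype.ext ?_)
    (fun _ _ _ => Subtype.ext (by simp)) (fun c x y => Subtype.ext ?_),
    h, fun _ _ => rfl, fun _ => rfl, D, fun a => Subtype.ext (D.invol a),
    fun x y => Subtype.ext (D.skew _ _), fun x hx => bc_injective h ?_, fun x => ?_⟩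
  · change B (j (c • x)) (j y) = σ c * B (j x) (j y)
    rw [j_smul F, LinearMap.map_smulₛₗ]; rfl
  · change B (j x) (j (c • y)) = c * B (j x) (j y)
    rw [j_smul F, map_smul]; rfl
  · rw [map_zero]
    exact D.sep _ (bc_induction h (fun a y => by
      have : B (j x) (j y) = 0 := congrArg Subtype.val (hx y)
      rw [map_smul, this, smul_zero])
      fun y z h1 h2 => by rw [map_add, h1, h2, add_zero])
  · rcases hθ with ⟨θ, h1, h2⟩ | h1
    · have h3 := sub_ne_zero.mpr h2.symm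
      have h4 := sub_ne_zero.mpr h2
      refine ⟨⟨B (j x) (j x) * θ / (θ - σ θ), div_mem (mul_mem (hB x x) h1) (sub_mem h1 (hσ _ h1))⟩,
        Subtype.ext ?_⟩
      change B (j x) (j x) * θ / (θ - σ θ) - σ (B (j x) (j x) * θ / (θ - σ θ)) = B (j x) (j x)
      rw [map_div₀, map_mul, map_sub, D.invol, D.σ_map]
      field_simp
      ring
    · exact ⟨0, Subtype.ext (by simpa using (h1 x).symm)⟩

variable {ι : Type} [Fintype ι] [DecidableEq ι] {F : Type*} [Field F] [Fintype F] {σ : F →+* F}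
  {ε a : F} {f : (ι → F) → (ι → F) → F} {K : Subfield F} {r : ℕ}

theorem exists_ne_of_odd (hσ : σ ≠ RingHom.id F) (h2 : ∀ a, σ (σ a) = a) (hr : Odd r)
    (h : Fintype.card F = Nat.card K ^ r) : ∃ θ ∈ K, σ θ ≠ θ := by
  by_contra! H
  let τ : F ≃ₐ[K] F := AlgEquiv.ofBijective ⟨σ, fun c => H c c.2⟩ (Function.Involutive.bijective h2)
  have h3 : orderOf τ = 2 := orderOf_eq_prime (AlgEquiv.ext h2) fun e =>
    hσ (RingHom.ext fun x => DFunLike.congr_fun e x)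
  have h4 := orderOf_dvd_natCard τ
  rw [h3, IsGalois.card_aut_eq_finrank, finrank_of_card_eq_pow h] at h4
  exact (Nat.not_even_iff_odd.mpr hr) (even_iff_two_dvd.mpr h4)

theorem max_iso_subfield' (hf : H18.TvF σ ε f a) (h4 : 4 ≤ Fintype.card ι) (hr : r.Prime)
    (h : Fintype.card F = Nat.card K ^ r) (P : GL ι F) {σ₀ : K →+* K}
    {B₀ : (ι → K) →ₛₗ[σ₀] (ι → K) →ₗ[K] K} (hB : BF (tB hf) B₀ (jP K P))
    (hA : ∀ M : Subgroup (UG (tB hf)), ¬ SUG (tB hf) ≤ M → (∀ e u c, Adm B₀ e u c →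
      rho (tB hf) (jP K P e) (jP K P u) (algebraMap K F c) ∈ M) → ∀ {e y}, AM M (jP K P e) y →
        B₀ e e = 0 → e ≠ 0 → ∀ u, B₀ e u = 0 → tB hf (jP K P u) y ∈ (algebraMap K F).range) :
    IsMaximalIn (H18.isoG f ⊓ specialLinear ι F)
      (subfieldSubgroup K P ⊓ (H18.isoG f ⊓ specialLinear ι F)) := by
  refine isMaximalIn_iso hf _ (fun _ => mem_subfield_iff) ((has_SU hf).not_le_subfield (by omega)
    (H18.ne_top_of_card_eq_pow hr h) P) fun M hM _ g hg hg' => ?_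
  by_contra H
  have h1 : ∀ e u c, Adm B₀ e u c → rho (tB hf) (jP K P e) (jP K P u) (algebraMap K F c) ∈ M :=
    fun e u c h1 => hM _ (rho_mem_SUG hB.sd _ _ _) ⟨1, one_ne_zero, fun x =>
      ⟨_, (one_smul _ _).trans (hB.rho_j h1 x)⟩⟩
  exact hg' (hB.RT_of_mem h1 (by simpa) (hA M H h1) hg)

theorem max_iso_subfield (hf : H18.TvF σ ε f a) (h6 : 6 ≤ Fintype.card ι) (hr : r.Prime)
    (h : Fintype.card F = Nat.card K ^ r) (P : GL ι F) (hσ : ∀ c ∈ K, σ c ∈ K)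
    (hB : ∀ x y, a * f (jP K P x) (jP K P y) ∈ K)
    (hθ : (∃ θ ∈ K, σ θ ≠ θ) ∨ ∀ x, f (jP K P x) (jP K P x) = 0) :
    IsMaximalIn (H18.isoG f ⊓ specialLinear ι F)
      (subfieldSubgroup K P ⊓ (H18.isoG f ⊓ specialLinear ι F)) := by
  obtain ⟨σ₀, B₀, h1⟩ := exists_BF (sd_tB hf) (bc_jP K P) hσ (fun x y => hB y x)
    (hθ.imp_right fun h x => (tB_eq_zero hf).mpr (h x))
  exact max_iso_subfield' hf (by omega) hr h P h1 fun M H hM _ _ =>
    h1.mem_range_of_AM hM (by rwa [finrank_of_card_eq_pow h]) (by simpa) H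

theorem max_sp_subfield {m : ℕ} (hm : 3 ≤ m) (hr : r.Prime) (h : Fintype.card F = Nat.card K ^ r)
    {P : GL (Fin m ⊕ Fin m) F} {ζ : F} (hζ : ζ ≠ 0)
    (hP : IsFormRationalStructure (sympForm m F) K ζ P) :
    IsMaximalIn (spGL m F) (subfieldSubgroup K P ⊓ spGL m F) := by
  have hf := tvF_sp (by omega : 0 < m) F
  rw [spGL_eq_inf (by omega)]
  exact max_iso_subfield (a := ζ) ⟨hf.toHForm, hζ, by simp, hf.tr, hf.iso⟩ (by simp; omega) hr h P
    (fun _ => id) (fun x y => hP _ _ (fun i => (x i).2) fun i => (y i).2)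
    (Or.inr fun x => (H18.symplectic_sympForm m).alternating _)

variable {n q : ℕ}

theorem max_su_subfield_odd (hF : Fintype.card F = q ^ 2) (hn : 6 ≤ n) (hr : r.Prime) (hro : Odd r)
    (h : Fintype.card F = Nat.card K ^ r) {P : GL (Fin n) F}
    (hP : IsFormRationalStructure (hermForm n F q) K 1 P) :
    IsMaximalIn (GU n F q ⊓ specialLinear (Fin n) F)
      (subfieldSubgroup K P ⊓ (GU n F q ⊓ specialLinear (Fin n) F)) := by
  obtain ⟨_, hf⟩ := exists_tvF_su hF (n := n) (by omega)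
  obtain ⟨θ, h1, h2⟩ := exists_ne_of_odd (frobq_ne_id hF) (frobq_frobq hF) hro h
  have hσ : ∀ c ∈ K, frobq hF c ∈ K := fun c hc => pow_mem hc q
  exact max_iso_subfield (a := θ - frobq hF θ) ⟨hf.toHForm, sub_ne_zero.mpr h2.symm,
    by simp [frobq_frobq], hf.tr, hf.iso⟩ (by simpa) hr h P hσ (fun x y => mul_mem
      (sub_mem h1 (hσ _ h1)) (by simpa [jP_apply] using hP _ _ (fun i => (x i).2) fun i => (y i).2))
    (Or.inl ⟨θ, h1, h2⟩)

theorem max_su_subfield_sp (hF : Fintype.card F = q ^ 2) (hn : 6 ≤ n)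
    (h : Fintype.card F = Nat.card K ^ 2) {P : GL (Fin n) F} {ζ : F} (h0 : ζ ≠ 0)
    (hζ : ζ + ζ ^ q = 0) (hP : IsFormRationalStructure (hermForm n F q) K ζ P)
    (halt : ∀ u : Fin n → F, (∀ i, u i ∈ K) →
      hermForm n F q ((P : Matrix _ _ F) *ᵥ u) ((P : Matrix _ _ F) *ᵥ u) = 0) :
    IsMaximalIn (GU n F q ⊓ specialLinear (Fin n) F)
      (subfieldSubgroup K P ⊓ (GU n F q ⊓ specialLinear (Fin n) F)) := by
  obtain ⟨_, hf⟩ := exists_tvF_su hF (n := n) (by omega)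
  exact max_iso_subfield (a := ζ) ⟨hf.toHForm, h0, by rwa [mul_one], hf.tr, hf.iso⟩ (by simpa)
    Nat.prime_two h P (fun c hc => pow_mem hc q)
    (fun x y => hP _ _ (fun i => (x i).2) fun i => (y i).2) (Or.inr fun x => halt _ fun i => (x i).2)

end Cfsg.Agent.H12
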