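import Mathlib
import Cfsg.Agent.H12.SubE
import Cfsg.Agent.H12.MaxO

/-!
Orthogonal subfield subgroups of unitary groups.
-/

set_option autoImplicit false

namespace Cfsg.Agent.H12

open Module QuadraticMap H13

variable {F V : Type*} [Field F] [AddCommGroup V] [Module F V]
  {K U : Type*} [Field K] [AddCommGroup U] [Module K U] [Algebra K F] [Module K V]
  [IsScalarTower K F V] {j : U →ₗ[K] V}

theorem exists_eq_of_RP (h : IsBaseChange F j) {g : V ≃ₗ[F] V} {x y a : U} {ζ : F} (a1 : ζ ≠ 0)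
    (a2 : ζ • g (j x) = j a) (h0 : x ≠ 0) (hy : RP F j (g (j y))) (hc : RP F j (g (j (y + x)))) :
    ∃ b, ζ • g (j y) = j b := by
  by_cases h3 : y ∈ K ∙ x
  · obtain ⟨c, rfl⟩ := Submodule.mem_span_singleton.mp h3
    exact ⟨c • a, by rw [j_smul F, j_smul F, ← a2, map_smul, smul_comm]⟩
  obtain ⟨η, b1, b, b2⟩ := hy
  obtain ⟨ξ, c1, e, c2⟩ := hc
  have h4 : j e = (ξ / η) • j b + (ξ / ζ) • j a := by
    rw [← c2, ← a2, ← b2, map_add, map_add]
    match_scalars <;> field_simp
  have h5 : ∀ {x y a b : U} {ζ η : F}, η ≠ 0 → ζ • g (j x) = j a → η • g (j y) = j b →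
      y ∉ K ∙ x → b ∉ K ∙ a := fun {x y a b ζ η} b1 a2 b2 h3 H => by
    obtain ⟨d, rfl⟩ := Submodule.mem_span_singleton.mp H
    refine bc_notMem_span h h3 (Submodule.mem_span_singleton.mpr
      ⟨algebraMap K F d * ζ / η, g.injective (smul_right_injective V b1 ?_)⟩)
    simp only [b2, j_smul F, map_smul g, ← a2]
    match_scalars; field_simp
  obtain ⟨s, hs⟩ := mem_range_of_comb h h4 (h5 b1 a2 b2 h3)
  obtain ⟨t, ht⟩ := mem_range_of_comb h (h4.trans (add_comm _ _)) (h5 a1 b2 a2 fun H => by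
    obtain ⟨d, rfl⟩ := Submodule.mem_span_singleton.mp H
    exact h3 (Submodule.mem_span_singleton.mpr ⟨d⁻¹, inv_smul_smul₀ (left_ne_zero_of_smul h0) y⟩))
  refine ⟨(s / t) • b, ?_⟩
  rw [j_smul F, ← b2, map_div₀, hs, ht]
  match_scalars; field_simp

theorem RT.of_singular (h : IsBaseChange F j) [FiniteDimensional K U] [Finite K]
    {Q : QuadraticForm K U} (hQ : ND Q) (hn : 5 ≤ finrank K U) {g : V ≃ₗ[F] V}
    (H : ∀ x, Q x = 0 → RP F j (g (j x))) : RT j g := by
  obtain ⟨x, x0, hx⟩ := exists_singular Q (by omega)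
  obtain ⟨ζ, a1, a, a2⟩ := H x hx
  refine ⟨ζ, a1, hQ.singular_induction_top hx x0 (fun y hy => ?_) fun y z ⟨a, ha⟩ ⟨b, hb⟩ =>
    ⟨a + b, by simp only [map_add, smul_add, ha, hb]⟩⟩
  have a3 := hQ.finrank_perp (Submodule.span K {x, y})
  have a4 := H13.finrank_span_pair_le (F := K) x y
  obtain ⟨z, b1, b2, b3⟩ := exists_singular_mem Q (H := perp Q (Submodule.span K {x, y})) (by omega)
  rw [mem_perp_pair] at b1
  obtain ⟨c, hc⟩ := exists_eq_of_RP h a1 a2 x0 (H z b3) (H _ (by
    rw [Q_add, b3, hx, polar_comm, b1.1]; simp))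
  exact exists_eq_of_RP h a1 hc b2 (H y hy) (H _ (by rw [Q_add, b3, hy, b1.2]; simp))

theorem j_pr_map (h : IsBaseChange F j) {s : V ≃ₗ[F] V} (hs : ∀ x, ∃ y, s (j x) = j y)
    (τ : F →ₗ[K] K) (v : V) : j (pr h τ (s v)) = s (j (pr h τ v)) := by
  refine bc_induction h (p := fun v => j (pr h τ (s v)) = s (j (pr h τ v))) (fun a x => ?_)
    (fun x y hx hy => by simp [hx, hy]) v
  obtain ⟨y, hy⟩ := hs x
  rw [map_smul, hy, pr_smul, pr_smul, j_smul F, j_smul F, map_smul, hy]

variable {σ : F →+* F} {B : V →ₛₗ[σ] V →ₗ[F] F} {M : Subgroup (UG B)} {Q : QuadraticForm K U} {a : F}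

/-- A skew-hermitian form obtained from a quadratic form over the fixed field. -/
structure BO (B : V →ₛₗ[σ] V →ₗ[F] F) (Q : QuadraticForm K U) (j : U →ₗ[K] V) (a : F) : Prop where
  bc : IsBaseChange F j
  map : ∀ x y, B (j x) (j y) = a * algebraMap K F (polar Q x y)
  fix : ∀ c, σ c = c ↔ c ∈ (algebraMap K F).range
  skew : σ a = -a
  ne : a ≠ 0
  two : (2 : F) ≠ 0
  sd : SD B
  nd : ND Q

/-- The extension of a Siegel transformation. -/
noncomputable def sgB (B : V →ₛₗ[σ] V →ₗ[F] F) (Q : QuadraticForm K U) (j : U →ₗ[K] V) (a : F)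
    (e b : U) : UG B := rho B (j e) (-a⁻¹ • j b) (-algebraMap K F (Q b) / a)

namespace BO

variable (h : BO B Q j a)
include h

theorem conj (c : K) : σ (algebraMap K F c) = algebraMap K F c := (h.fix _).mpr ⟨c, rfl⟩

theorem zero {x y : U} (H : polar Q x y = 0) : B (j x) (j y) = 0 := by simp [h.map, H]

theorem self {x : U} (H : Q x = 0) : B (j x) (j x) = 0 := h.zero (by simp [H])

theorem adm {e b : U} (he : Q e = 0) (hb : polar Q e b = 0) :
    Adm B (j e) (-a⁻¹ • j b) (-algebraMap K F (Q b) / a) :=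
  ⟨h.self he, by simp [h.zero hb], by
    have := h.ne
    simp [h.map, h.conj, h.skew, two_mul]; field_simp; ring⟩

theorem sg_j {e b : U} (he : Q e = 0) (hb : polar Q e b = 0) (x : U) :
    (sgB B Q j a e b).1 (j x) = j ((sieg Q e b).1 x) := by
  have := h.ne
  simp only [sgB, rho_apply h.sd (h.adm he hb), sieg_apply he hb, h.map, map_add, map_sub, j_smul F,
    LinearMap.map_smulₛₗ, LinearMap.smul_apply, _root_.map_neg, map_inv₀, h.skew, smul_eq_mul]
  match_scalars <;> field_simp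
  ring

theorem sg_sub {e b : U} (he : Q e = 0) (hb : polar Q e b = 0) (v : V) :
    (sgB B Q j a e b).1 v - v = B (j e) v • (-a⁻¹ • j b) +
      (-algebraMap K F (Q b) / a * B (j e) v + a⁻¹ * B (j b) v) • j e := by
  simp only [sgB, rho_apply h.sd (h.adm he hb), LinearMap.map_smulₛₗ, LinearMap.smul_apply,
    _root_.map_neg, map_inv₀, h.skew, smul_eq_mul, inv_neg, neg_neg]
  abel

theorem exists_add_mul {l : F} (hl : l ∉ (algebraMap K F).range) (m : F) :
    ∃ s t : K, m = algebraMap K F s + algebraMap K F t * l := by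
  have h1 := sub_ne_zero.mpr (mt (h.fix l).mp hl)
  have h2 := sub_ne_zero.mpr (Ne.symm (mt (h.fix l).mp hl))
  obtain ⟨t, ht⟩ := (h.fix ((σ m - m) / (σ l - l))).mp (by
    simp only [map_div₀, map_sub, h.sd.invol]; field_simp; ring)
  obtain ⟨s, hs⟩ := (h.fix (m - algebraMap K F t * l)).mp (by
    rw [map_sub, map_mul, h.conj, ht]; field_simp; ring)
  exact ⟨s, t, by rw [hs]; ring⟩

theorem notMem : a ∉ (algebraMap K F).range := fun H => mul_ne_zero h.two h.ne (by
  linear_combination h.skew - (h.fix a).mpr H)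

theorem exists_add (v : V) : ∃ x y, v = j x + a • j y := by
  refine bc_induction h.bc (p := fun v => ∃ x y, v = j x + a • j y) (fun c x => ?_)
    (fun _ _ ⟨x, y, h1⟩ ⟨x', y', h2⟩ => ⟨x + x', y + y', by simp [h1, h2]; abel⟩) v
  obtain ⟨s, t, rfl⟩ := h.exists_add_mul h.notMem c
  exact ⟨s • x, t • x, by rw [j_smul F, j_smul F]; module⟩

variable [FiniteDimensional K U] [Finite F]

theorem exists_eq_add {e : U} {w : V}
    (H : ∀ u, polar Q e u = 0 → ∃ c, B (j u) w = a * algebraMap K F c) :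
    ∃ (y : U) (m : F), w = j y + m • j e := by
  obtain ⟨x, y, rfl⟩ := h.exists_add w
  obtain ⟨c, rfl⟩ := Submodule.mem_span_singleton.mp (mem_span_of_polar h.nd (S := K ∙ e) (w := y)
    fun u hu => by
      by_contra h1
      obtain ⟨c, hc⟩ := H u (mem_perp_singleton.mp hu)
      simp only [map_add, map_smul, h.map, smul_eq_mul, ← mul_add, mul_assoc, mul_left_comm a,
        mul_right_inj' h.ne] at hc
      refine h.notMem ⟨(c - polar Q u x) / polar Q y u, ?_⟩
      rw [polar_comm] at h1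
      rw [map_div₀, map_sub, ← hc, polar_comm Q y, div_eq_iff (by simpa using h1)]
      ring)
  exact ⟨x, _, by rw [j_smul F, smul_smul]⟩

variable (hn : 6 ≤ finrank K U) (hM : ∀ g ∈ SUG B, (∀ x, ∃ y, g.1 (j x) = j y) → g ∈ M)
  (H : ¬ SUG B ≤ M)
include hM

omit [FiniteDimensional K U] [Finite F] in
theorem sg_mem {e b : U} (he : Q e = 0) (hb : polar Q e b = 0) : sgB B Q j a e b ∈ M :=
  hM _ (rho_mem_SUG h.sd _ _ _) fun x => ⟨_, h.sg_j he hb x⟩

include hn H

theorem mem_range_of_AM {e u : U} {y : V} (hy : AM M (j e) y) (he : Q e = 0) (e0 : e ≠ 0)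
    (hu : polar Q e u = 0) : B (j u) y ∈ (algebraMap K F).range := by
  have D := h.sd
  have : Finite K := Finite.of_injective _ (algebraMap K F).injective
  have := bc_finite h.bc
  have a0 := h.ne
  have k0 : ∀ {e' b y}, Q e' = 0 → polar Q e' b = 0 → polar Q e' e = 0 → polar Q b e = 0 →
      AM M (j e) y → AM M (j e) ((sgB B Q j a e' b).1 y) := fun a1 a2 a3 a4 a5 => by
    simpa only [h.sg_j a1 a2, sieg_apply_of_perp_perp a3 a4] using a5.map D (h.sg_mem hM a1 a2)
  refine h.nd.singular_induction_perp (by omega) e (p := fun u => B (j u) y ∈ (algebraMap K F).range)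
    (fun u a1 a2 => ?_) (fun x y _ _ hx hy => by
      simpa only [map_add, LinearMap.add_apply] using add_mem hx hy) u hu
  by_contra a3
  obtain ⟨b, d, a4⟩ := h.nd.exists_perp_pair_polar (by omega) e u
  have a5 := (polar_comm _ _ _).trans a1
  have b1 := (k0 a2 (pp_right b) a5 (pp_left' b) hy).sub D hy
  have b2 : ∀ m : F, AM M (j e) (m • j u) := fun m => by
    obtain ⟨s, t, b3⟩ := h.exists_add_mul a3 (-m * a)
    have b4 := (k0 a2 (pp_right (t • d)) a5 (pp_left' _) b1).sub D b1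
    have b5 : AM M (j e) _ := ⟨_, h.adm he (b := s • u) (by simp [a1]), h.sg_mem hM he (by simp [a1])⟩
    convert b4.add D b5 using 1
    rw [h.sg_sub a2 (pp_right _), h.sg_sub a2 (pp_right _)]
    simp only [map_add, map_smul, h.self a2, h.zero (pp_right _), Submodule.coe_smul, j_smul F,
      LinearMap.map_smulₛₗ, LinearMap.smul_apply, h.map, polar_comm Q d b, a4, pp_right' d, h.conj,
      smul_eq_mul, mul_zero, add_zero, zero_smul, zero_add, map_zero, map_one]
    match_scalars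
    simp only [Algebra.algebraMap_self, RingHom.id_apply]
    linear_combination (-a⁻¹) * b3 + (a⁻¹ * B (j u) y * algebraMap K F t - m) * mul_inv_cancel₀ a0
  have b3 := perp_of_sieg h.nd (by omega) (v := e) (p := fun u => ∀ m : F, AM M (j e) (m • j u))
    (fun m => by simpa using AM.zero D (h.self he))
    (fun x y hx hy m => by simpa only [map_sub, smul_sub] using (hx m).sub D (hy m))
    (fun e' b x a1 a2 a3 a4 hx m => by
      simpa only [map_smul, h.sg_j a1 a2] using k0 a1 a2 a3 a4 (hx m)) b2 (fun hx => a3 (by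
      obtain ⟨c, rfl⟩ := Submodule.mem_span_singleton.mp hx
      obtain ⟨_, b6, -⟩ := hy
      exact ⟨0, by rw [j_smul F, LinearMap.map_smulₛₗ, LinearMap.smul_apply, b6.eu, smul_zero,
        map_zero]⟩)) a1
  have b4 : ES M (j e) := ES.of_AM D (IS.of_fix (h.self he) fun c hc => by
    obtain ⟨x, rfl⟩ := exists_add_conj_eq (fun e => h.notMem ((h.fix a).mp (by simp [e]))) D.invol hc
    convert (b3 b (pp_left b) 1).tv_mem D (b3 d (pp_left d) (a⁻¹ * x)) using 2
    simp [h.map, a4, h.skew]; field_simp) fun y hy => by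
      obtain ⟨x, z, rfl⟩ := h.exists_add y
      have c1 : polar Q e z = 0 := by
        by_contra c1
        refine h.notMem ⟨-polar Q e x / polar Q e z, ?_⟩
        simp only [map_add, map_smul, h.map, smul_eq_mul] at hy
        rw [map_div₀, div_eq_iff (by simpa using c1), _root_.map_neg]
        exact mul_left_cancel₀ a0 (by linear_combination -hy)
      have c2 : polar Q e x = 0 := by simpa [h.map, c1, a0] using hy
      simpa using (b3 x c2 1).add D (b3 z c1 a)
  obtain ⟨f, hf⟩ := h.nd.exists_hp he e0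
  obtain ⟨r, c1, c2⟩ := h.nd.exists_nonsingular_perp (K ∙ f) (by
    rw [finrank_span_singleton hf.ne_right]; omega)
  rw [mem_perp_singleton] at c1
  exact H (D.SUG_le_of_ES₂ D.ns b4 (b4.map D (h.sg_mem hM hf.Qv c1)) (by
    simp [h.sg_j hf.Qv c1, h.map, sieg_apply hf.Qv c1, hf.uv, hf.vu, he, polar_comm Q e r, a0, c2,
      Algebra.smul_def, mul_comm a]))

theorem eq_zero_of_tv {e : U} {c : F} (he : Q e = 0) (e0 : e ≠ 0) (hc : σ c = c)
    (h1 : tv B (j e) c ∈ M) : c = 0 := by
  have D := h.sd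
  have : Finite K := Finite.of_injective _ (algebraMap K F).injective
  by_contra c0
  obtain ⟨u, a1, a2, a3⟩ := h.nd.exists_singular_perp_notMem (by omega) e
  obtain ⟨b, b1, b2⟩ := h.nd.exists_perp_one (K ∙ u) (x := e) fun hx => by
    obtain ⟨t, rfl⟩ := Submodule.mem_span_singleton.mp hx
    exact a3 (Submodule.mem_span_singleton.mpr ⟨t⁻¹, inv_smul_smul₀ (left_ne_zero_of_smul e0) u⟩)
  have b3 := (polar_comm _ _ _).trans (b1 u (Submodule.mem_span_singleton_self u))
  have b4 := h.sg_mem hM a1 b3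
  have b5 := mul_mem (mul_mem b4 h1) (inv_mem b4)
  rw [polar_comm] at a2
  rw [conj_tv D, h.sg_j a1 b3, sieg_apply_of_perp a1 b3 a2, b2, one_smul, map_add, add_comm] at b5
  obtain ⟨t, ht⟩ := h.mem_range_of_AM hn hM H (AM.of_tv D (h.self a1) (h.self he) (h.zero a2) hc b5 h1)
    a1 (by rintro rfl; simp at a3) b3
  obtain ⟨c, rfl⟩ := (h.fix c).mp hc
  exact h.notMem ⟨t / c, by rw [map_div₀, div_eq_iff c0, ht]; simp [h.map, b2, mul_comm, Algebra.smul_def]⟩

theorem rat_of_fix {e : U} (he : Q e = 0) (e0 : e ≠ 0) {s : UG B} (hs : s ∈ M) (hs' : s ∈ SUG B)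
    (h1 : s.1 (j e) = j e) (x : U) : ∃ y, s.1 (j x) = j y := by
  have D := h.sd
  have a0 := h.ne
  have k1 : ∀ s ∈ M, s.1 (j e) = j e → ∀ b, polar Q e b = 0 → ∃ y, s.1 (j b) = j y :=
    fun s hs h1 b hb => by
      have a1 := mul_mem (mul_mem hs (h.sg_mem hM he hb)) (inv_mem hs)
      have a2 := (adm_conj s).mpr (h.adm he hb)
      rw [sgB, conj_rho D, h1, map_smul] at a1
      rw [h1, map_smul] at a2
      obtain ⟨y, m, a3⟩ := h.exists_eq_add (e := e) (w := s.1 (j b)) fun u hu => by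
        obtain ⟨c, hc⟩ := h.mem_range_of_AM hn hM H ⟨_, a2, a1⟩ he e0 hu
        exact ⟨-c, by rw [_root_.map_neg, hc]; simp [a0]⟩
      have a4 : polar Q e y = 0 := by
        have := congrArg (B (j e)) a3
        rw [← h1, UG_map, h1] at this
        simpa [h.map, hb, he, a0] using this.symm
      have a5 : algebraMap K F (Q y) = algebraMap K F (Q b) := by
        have := congrArg₂ (B · ·) a3 a3
        simpa [UG_map, h.map, he, a4, polar_comm Q y e, a0, h.two, map_ofNat] using this.symm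
      rw [a3, smul_add, smul_smul, ← a5, rho_add_smul D (h.adm he a4), rho_eq_tv_mul_rho D (h.adm he a4)
        ⟨h.self he, (h.adm he a4).eu, by rw [← (h.adm he a4).cc]; simp [D.invol]; ring⟩] at a1
      have a6 := h.eq_zero_of_tv hn hM H he e0 (by simp [D.invol, add_comm])
        ((M.mul_mem_cancel_right (h.sg_mem hM he a4)).mp a1)
      obtain ⟨m, rfl⟩ := (h.fix m).mp (mul_left_cancel₀ (inv_ne_zero a0) (by
        simp [h.skew] at a6; linear_combination a6))
      exact ⟨y + m • e, by rw [a3, map_add, j_smul F]⟩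
  obtain ⟨f, hf⟩ := h.nd.exists_hp he e0
  obtain ⟨y, m, a1⟩ := h.exists_eq_add (e := e) (w := s.1 (j f)) fun u hu => by
    obtain ⟨y, hy⟩ := k1 _ (inv_mem hs) (UG_inv_apply_eq h1) u hu
    exact ⟨_, by rw [UG_map_right, hy, h.map]⟩
  obtain ⟨m, c, rfl⟩ := h.exists_add_mul h.notMem m
  have a2 : ∀ v, B (j e) (s.1 v) = B (j e) v := fun v => by rw [← UG_map s (j e) v, h1]
  have a3 : ∀ x, ∃ y, (tv B (j e) (-algebraMap K F c) * s).1 (j x) = j y := fun x => by
    obtain ⟨z, hz⟩ := k1 s hs h1 (x - polar Q e x • f) (by simp [hf.uv])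
    refine ⟨z + polar Q e x • (y + m • e), ?_⟩
    rw [map_sub, map_sub, j_smul F, map_smul, sub_eq_iff_eq_add] at hz
    rw [UG_mul_apply, tv_apply D (h.self he) (by simp [h.conj]), a2, hz, a1, h.map]
    simp only [map_add, j_smul F]
    module
  have a4 := h.eq_zero_of_tv hn hM H he e0 (by simp [h.conj]) ((M.mul_mem_cancel_right hs).mp
    (hM _ (mul_mem (tv_mem_SUG D _ _) hs') a3))
  simpa [a4, tv_zero D] using a3 x

theorem RT_of_mem {g : UG B} (hg : g ∈ M) : RT j g.1 := by
  have D := h.sd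
  have a0 := h.ne
  have : Finite K := Finite.of_injective _ (algebraMap K F).injective
  have := bc_finite h.bc
  refine RT.of_singular h.bc h.nd (by omega) fun e he => ?_
  by_cases e0 : e = 0
  · exact ⟨1, one_ne_zero, 0, by simp [e0]⟩
  obtain ⟨x, y, h1⟩ := h.exists_add (g.1 (j e))
  have a3 := h.nd.finrank_perp (Submodule.span K {x, y})
  have a4 := H13.finrank_span_pair_le (F := K) x y
  obtain ⟨e', b1, b2, b3⟩ := exists_singular_mem Q (H := perp Q (Submodule.span K {x, y})) (by omega)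
  rw [mem_perp_pair] at b1
  obtain ⟨p, q, h2⟩ := h.exists_add ((g⁻¹).1 (j e'))
  have a5 := h.nd.finrank_perp (Submodule.span K {e, p, q})
  have a6 := H13.finrank_span_triple_le (F := K) e p q
  obtain ⟨φ, hφ⟩ := Module.Projective.exists_dual_ne_zero F (UG_ne_zero g (bc_ne_zero h.bc e0))
  obtain ⟨τ, hτ⟩ := exists_pr_ne h.bc hφ
  have key : ∀ b ∈ perp Q (Submodule.span K {e, p, q}), b ∉ K ∙ e → ∃ s t : F,
      j (pr h.bc τ (g.1 (j e))) = s • g.1 (j e) + t • g.1 (j b) := fun b c1 c2 => by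
    simp only [mem_perp_span, Set.mem_insert_iff, Set.mem_singleton_iff, forall_eq_or_imp,
      forall_eq] at c1
    have c3 := (adm_conj g).mpr (h.adm he c1.1)
    have c4 := h.rat_of_fix hn hM H b3 b2 (mul_mem (mul_mem hg (h.sg_mem hM he c1.1)) (inv_mem hg))
      (instNormalSUG.conj_mem _ (rho_mem_SUG D _ _ _) g) (by
        rw [sgB, conj_rho D]
        refine rho_apply_of_perp D _ (by simp [h1, h.zero, b1]) ?_
        rw [UG_map_left, h2]
        simp [h.zero, polar_comm Q b, c1])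
    rw [sgB, conj_rho D] at c4
    obtain ⟨z, c5, c6⟩ := D.exists_perp_one (F ∙ j e) (x := -a⁻¹ • j b) (by
      rw [Submodule.smul_mem_iff _ (by simpa)]; exact bc_notMem_span h.bc c2)
    have c7 := j_pr_map h.bc c4 τ (g.1 z)
    rw [rho_apply D c3, rho_apply D c3, UG_map, UG_map, c6,
      c5 _ (Submodule.mem_span_singleton_self _)] at c7
    simp only [zero_smul, add_zero, mul_zero, zero_add, one_smul, map_add, add_assoc, add_right_inj,
      map_smul, smul_smul, zero_mul, map_zero] at c7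
    exact ⟨_, _, c7.trans (add_comm _ _)⟩
  obtain ⟨b', c1, c2⟩ := H13.exists_notMem_of_finrank_lt (H := K ∙ e)
    (W := perp Q (Submodule.span K {e, p, q})) (by rw [finrank_span_singleton e0]; omega)
  have a7 := H13.finrank_span_pair_le (F := K) e b'
  obtain ⟨b, c3, c4⟩ := H13.exists_notMem_of_finrank_lt (H := Submodule.span K {e, b'})
    (W := perp Q (Submodule.span K {e, p, q})) (by omega)
  obtain ⟨s, t, d1⟩ := key b c3 fun hx => c4 (Submodule.span_mono (by simp) hx)
  obtain ⟨s', t', d2⟩ := key b' c1 c2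
  obtain ⟨χ, d3, d4⟩ := exists_dual_one c4
  have d5 := congrArg (fun v => h.bc.toDual χ ((g⁻¹).1 v)) (d1.symm.trans d2)
  simp [h.bc.toDual_comp_apply, d3, d4 e (Submodule.subset_span (by simp)),
    d4 b' (Submodule.subset_span (by simp))] at d5
  rw [d5, zero_smul, add_zero] at d1
  exact ⟨s, by rintro rfl; simp [d1] at hτ, _, d1.symm⟩

end BO

theorem exists_BO (D : SD B) (h : IsBaseChange F j) (h1 : ∀ c, σ c = c ↔ c ∈ (algebraMap K F).range)
    (h2 : σ a = -a) (h3 : a ≠ 0) (h4 : (2 : F) ≠ 0)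
    (h5 : ∀ x y, ∃ c, B (j x) (j y) = a * algebraMap K F c) : ∃ Q, BO B Q j a := by
  choose β hβ using h5
  have k : ∀ {c d : K}, a * algebraMap K F c = a * algebraMap K F d → c = d := fun H =>
    (algebraMap K F).injective (mul_left_cancel₀ h3 H)
  have k1 : ∀ c, σ (algebraMap K F c) = algebraMap K F c := fun c => (h1 _).mpr ⟨c, rfl⟩
  have k2 : (2 : K) ≠ 0 := fun H => h4 (by rw [← map_ofNat (algebraMap K F), H, map_zero])
  let β' : U →ₗ[K] U →ₗ[K] K := LinearMap.mk₂ K β
    (fun x y z => k (by simp [← hβ, mul_add]))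
    (fun c x y => k (by 
      rw [← hβ, j_smul F, LinearMap.map_smulₛₗ, LinearMap.smul_apply, hβ, k1]; simp [mul_left_comm a]))
    (fun x y z => k (by simp [← hβ, mul_add]))
    (fun c x y => k (by rw [← hβ, j_smul F, LinearMap.map_smul, hβ]; simp [mul_left_comm a]))
  have k3 : ∀ x y, polar (LinearMap.BilinMap.toQuadraticMap ((2 : K)⁻¹ • β')) x y = β x y :=
    fun x y => by
      have : β y x = β x y := k (by rw [← hβ, D.skew, hβ, map_mul, h2, k1]; ring)
      simp only [LinearMap.BilinMap.polar_toQuadraticMap, LinearMap.smul_apply, β',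
        LinearMap.mk₂_apply, this, smul_eq_mul]
      field_simp; ring
  refine ⟨_, h, fun x y => by rw [k3, hβ], h1, h2, h3, h4, D, fun x hx => bc_injective h ?_⟩
  rw [map_zero]
  exact D.sep _ (bc_induction h (fun c y => by rw [map_smul, hβ, ← k3, hx]; simp)
    fun y z h1 h2 => by rw [map_add, h1, h2, add_zero])

open Cfsg.Geo Matrix in
theorem max_su_subfield_orth {F : Type*} [Field F] [Fintype F] {K : Subfield F} {n q : ℕ}
    (hF : Fintype.card F = q ^ 2) (hn : 6 ≤ n) (hq : Odd q) (h : Fintype.card F = Nat.card K ^ 2)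
    {P : GL (Fin n) F} (hP : IsFormRationalStructure (hermForm n F q) K 1 P) :
    IsMaximalIn (GU n F q ⊓ specialLinear (Fin n) F)
      (subfieldSubgroup K P ⊓ (GU n F q ⊓ specialLinear (Fin n) F)) := by
  obtain ⟨a, hf⟩ := exists_tvF_su hF (n := n) (by omega)
  have h1 : Nat.card K = q := Nat.pow_left_injective two_ne_zero (h.symm.trans hF)
  have h2 : ∀ c : K, frobq hF c = c := fun c => by
    have := Fintype.ofFinite K
    rw [frobq_apply, ← h1, Nat.card_eq_fintype_card, ← SubmonoidClass.coe_pow, FiniteField.pow_card]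
  obtain ⟨Q, hQ⟩ := exists_BO (sd_tB hf) (bc_jP K P) (fun c => ⟨fun hc => by
      by_contra h3
      have := eq_top_of_finrank_prime (by rw [finrank_of_card_eq_pow h]; exact Nat.prime_two)
        (S := (frobq hF).eqLocus (RingHom.id F)) h2 hc h3
      exact frobq_ne_id hF (RingHom.ext fun x => (this ▸ Subring.mem_top x :
        x ∈ (frobq hF).eqLocus (RingHom.id F))), by rintro ⟨c, rfl⟩; exact h2 c⟩)
    (by linear_combination hf.tr0) hf.ne (H18.two_ne_zero_iff_odd.mpr (hF ▸ hq.pow))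
    fun x y => ⟨⟨_, hP _ _ (fun i => (y i).2) fun i => (x i).2⟩, by
      rw [tB_apply, jP_apply, jP_apply]; exact congrArg _ (one_mul _).symm⟩
  refine isMaximalIn_iso hf _ (fun _ => mem_subfield_iff) ((has_SU hf).not_le_subfield (by simp; omega)
    (H18.ne_top_of_card_eq_pow Nat.prime_two h) P) fun M hM _ g hg hg' => ?_
  by_contra H
  exact hg' (hQ.RT_of_mem (by simpa) (fun g h1 h2 => hM g h1 ⟨1, one_ne_zero, by simpa using h2⟩) H hg)

end Cfsg.Agent.H12
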