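import Mathlib
import Cfsg.Agent.H18.FrG

/-!
Orthonormal frames in dimension five: the three-dimensional case.
-/

set_option autoImplicit false

namespace Cfsg.Agent.H12

open Module QuadraticMap H13 H18
open scoped MatrixGroups Pointwise

local notation "pm" => Matrix.ProjGenLinGroup.mk

variable {F V : Type*} [Field F] [AddCommGroup V] [Module F V] {Q : QuadraticForm F V}
  {M : Subgroup (OG Q)} {ι : Type*} [Fintype ι] [DecidableEq ι] {e : ι → V}

theorem pow4_of_mon [Finite V] (h : ON Q e) {d : OG Q} {l m : ι} (h1 : d ∈ Mon Q e)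
    (h2 : ∀ a, a ≠ l → a ≠ m → d.1 (e a) = e a) : d * d * (d * d) = 1 := by
  choose π c hc using mem_Mon.mp h1
  have a0 := fun a => h.sq_eq (hc a)
  have a1 : ∀ a b, π a = π b → a = b := fun a b H => by
    by_contra hab
    have := OG_polar d (e a) (e b)
    simp [hc, H, h.pol_ne hab, h.pol_self, left_ne_zero_of_mul_eq_one (a0 _), -polar_self] at this
  have a2 : ∀ a, a ≠ l → a ≠ m → π a = a := fun a b1 b2 => by
    by_contra H
    have := congrArg (polar Q (e a)) ((h2 a b1 b2).symm.trans (hc a))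
    simp [h.pol_self, h.pol_ne (Ne.symm H), -polar_self] at this
  have a3 : ∀ a, π (π a) = a := fun a => by
    by_contra H
    have b1 : π a ≠ a := fun e => H (by rw [e, e])
    have b2 : π (π a) ≠ π a := fun e => b1 (a1 _ _ e)
    have b3 : π (π (π a)) ≠ π (π a) := fun e => b2 (a1 _ _ e)
    have c : ∀ a, π a ≠ a → a = l ∨ a = m := fun a H => by
      by_contra! H'
      exact H (a2 a H'.1 H'.2)
    rcases c _ b1 with c1 | c1 <;> rcases c _ b2 with c2 | c2 <;> rcases c _ b3 with c3 | c3 <;>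
      first | exact b1 (c2.trans c1.symm) | exact b2 (c3.trans c2.symm) | exact H (c3.trans c1.symm)
  refine h.OG_ext fun a => ?_
  simp only [OG_mul_apply, hc, map_smul, a3, smul_smul, OG_one_apply]
  rw [show c a * c (π a) * (c a * c (π a)) = c a * c a * (c (π a) * c (π a)) by ring, a0, a0, one_mul, one_smul]

theorem sq_mem5 [Fintype F] [Finite V] (h : ON Q e) (hp : (Fintype.card F).Prime)
    (hM : ∀ g ∈ Om Q, g ∈ Mon Q e → g ∈ M) (hn : 5 ≤ Fintype.card ι) {i j k b : ι} (hij : i ≠ j)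
    (hik : i ≠ k) (hjk : j ≠ k) {f : V} (hf : Cl M (e b) f) (h1 : spt Q e f ⊆ {i, j, k})
    (h3 : refl Q f ∉ Mon Q e) {v w : V} (hv : spt Q e v ⊆ {i, j, k}) (hw : spt Q e w ⊆ {i, j, k})
    (h4 : Q v ≠ 0) (h5 : Q w = Q v) : refl Q v * refl Q w * (refl Q v * refl Q w) * (refl Q v * refl Q w * (refl Q v * refl Q w)) ∈ M := by
  have h2 := h.two
  obtain ⟨I, J, hq, -⟩ := exists_QP h2 (⊤ : Subfield F)
  let X : V →ₗ[F] Matrix (Fin 2) (Fin 2) F := (polarBilin Q (e i)).smulRight I +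
    (polarBilin Q (e j)).smulRight J + (polarBilin Q (e k)).smulRight (I * J)
  have X0 : ∀ x, X x = polar Q (e i) x • I + polar Q (e j) x • J + polar Q (e k) x • (I * J) :=
    fun _ => rfl
  have q1 : I * (I * J) = -J := by rw [← mul_assoc, hq.l, neg_one_mul]
  have q2 : I * J * I = J := by rw [mul_assoc, hq.anti, mul_neg, q1, neg_neg]
  have q3 : I * J * J = -I := by rw [mul_assoc, hq.r, mul_neg_one]
  have q4 : J * (I * J) = I := by rw [← mul_assoc, hq.anti, neg_mul, q3, neg_neg]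
  have q5 : I * J * (I * J) = -1 := by rw [← mul_assoc, q2, hq.r]
  have X1 : ∀ x y, spt Q e x ⊆ {i, j, k} → X x * X y + X y * X x = (-2 * polar Q x y) • 1 :=
    fun x y hx => by
      rw [h.pol_eq x y, ← Finset.sum_subset (Finset.subset_univ {i, j, k}) fun l _ hl => by
        rw [not_not.mp (mt mem_spt.mpr fun h => hl (hx h)), zero_mul]]
      simp only [X0, add_mul, mul_add, smul_mul_smul_comm, hq.l, hq.r, hq.anti, q1, q2, q3, q4, q5]
      rw [Finset.sum_insert (by simp [hij, hik]), Finset.sum_pair hjk]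
      module
  have X2 : ∀ x, spt Q e x ⊆ {i, j, k} → X x * X x = (-2 * Q x) • 1 := fun x hx =>
    smul_right_injective _ h2 (by
      simp only [two_smul, X1 x x hx, polar_self']; module)
  have X3 : ∀ x, spt Q e x ⊆ {i, j, k} → Q x ≠ 0 → (glX (X x)).1 = X x := fun x hx h =>
    glX_coe (X2 x hx) (mul_ne_zero (neg_ne_zero.mpr h2) h)
  have s0 : ∀ s ∈ ({i, j, k} : Finset ι), spt Q e (e s) ⊆ {i, j, k} := fun s hs t ht => by
    by_cases hst : t = s
    · rwa [hst]
    · exact absurd (h.pol_ne hst) (mem_spt.mp ht)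
  have X4 : ∀ x y, X x = X y → ∀ s ∈ ({i, j, k} : Finset ι), polar Q (e s) x = polar Q (e s) y :=
    fun x y H s hs => by
      have := X1 _ x (s0 s hs)
      rw [H, X1 _ y (s0 s hs)] at this
      simpa [h2, eq_comm] using congrFun (congrFun this 0) 0
  have X5 : ∀ x, spt Q e x ⊆ {i, j, k} → Q x ≠ 0 → ∀ y,
      X x * X y = (-1 : F) • (X ((refl Q x).1 y) * X x) := fun x hx h0 y => by
    rw [refl_apply, map_sub, map_smul, sub_mul, smul_mul_assoc, X2 x hx, smul_smul,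
      eq_sub_of_add_eq (X1 x y hx)]
    match_scalars <;> field_simp
  obtain ⟨l, m, hlm, hl, hm⟩ := exists_two_not_mem ({i, j, k} : Finset ι)
    (by have := Finset.card_le_three (a := i) (b := j) (c := k); omega)
  have k3 : ∀ {d : OG Q}, (∀ a, a ≠ l → a ≠ m → d.1 (e a) = e a) → ∀ a ∈ ({i, j, k} : Finset ι), d.1 (e a) = e a :=
    fun H a ha => H a (fun h => hl (h ▸ ha)) fun h => hm (h ▸ ha)
  let Y₀ : Submonoid PGL(2, F) :=
    { carrier := {g | ∃ A, pm A = g ∧ ∃ n ∈ M, (∃ d ∈ Mon Q e, (∀ a, a ≠ l → a ≠ m → d.1 (e a) = e a) ∧ ∀ z,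
        (∀ a ∈ ({i, j, k} : Finset ι), polar Q (e a) z = 0) → n.1 z = d.1 z) ∧
        ∃ ε : F, ε * ε = 1 ∧ ∀ y, A.1 * X y = ε • (X (n.1 y) * A.1)}
      one_mem' := ⟨1, rfl, 1, one_mem _, ⟨1, one_mem _, fun _ _ _ => rfl, fun _ _ => rfl⟩, 1, one_mul 1, fun y => by
        simp [OG_one_apply]⟩
      mul_mem' := by
        rintro _ _ ⟨A, rfl, n, a1, ⟨d, a5, a6, a2⟩, ε, a3, a4⟩ ⟨B, rfl, n', b1, ⟨d', b5, b6, b2⟩, ε', b3, b4⟩
        refine ⟨A * B, map_mul _ _ _, n * n', mul_mem a1 b1, ⟨d * d', mul_mem a5 b5, fun a c1 c2 => by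
          rw [OG_mul_apply, b6 a c1 c2, a6 a c1 c2], fun z hz => ?_⟩,
          ε * ε', by linear_combination ε' * ε' * a3 + b3, fun y => ?_⟩
        · rw [OG_mul_apply, b2 z hz, a2 _ fun a ha => by rw [OG_polar_fix (k3 b6 a ha), hz a ha], OG_mul_apply]
        · rw [Units.val_mul, mul_assoc, b4, mul_smul_comm, ← mul_assoc, a4, smul_mul_assoc,
            smul_smul, mul_assoc, mul_comm ε, OG_mul_apply] }
  let Y : Subgroup PGL(2, F) :=
    { Y₀ with inv_mem' := fun {g} hg => (Submonoid.powers_le (P := Y₀)).mpr hg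
                (mem_powers_iff_mem_zpowers.mpr (inv_mem (Subgroup.mem_zpowers g))) }
  have y1 : ∀ x, spt Q e x ⊆ {i, j, k} → Q x ≠ 0 → ∀ d ∈ Mon Q e, (∀ a, a ≠ l → a ≠ m → d.1 (e a) = e a) →
      refl Q x * d ∈ M → pm (glX (X x)) ∈ Y := fun x hx h0 d d1 d2 H => by
    refine ⟨_, rfl, _, H, ⟨d, d1, d2, fun z hz => refl_apply_of_perp ?_⟩, -1, by simp, fun y => ?_⟩
    · rw [h.pol_eq]
      refine Finset.sum_eq_zero fun a _ => ?_
      by_cases ha : a ∈ ({i, j, k} : Finset ι)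
      · exact mul_eq_zero_of_right _ ((OG_polar_fix (k3 d2 a ha) z).trans (hz a ha))
      · rw [not_not.mp (mt mem_spt.mpr fun h => ha (hx h)), zero_mul]
    · rw [X3 x hx h0, OG_mul_apply, ← X5 x hx h0, X0 (d.1 y), X0 y, OG_polar_fix (k3 d2 i (by simp)),
        OG_polar_fix (k3 d2 j (by simp)), OG_polar_fix (k3 d2 k (by simp))]
  have y2 : ∀ x, Cl M (e b) x → spt Q e x ⊆ {i, j, k} → pm (glX (X x)) ∈ Y := fun x h1 h3 =>
    y1 x h3 (h1.1 ▸ h.Q_ne b) _ (h.refl_e_mem l) (fun a c _ => refl_apply_of_perp (h.pol_ne c.symm))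
      (h1.mul (h.cl_e hM b l))
  have y3 := fun s hs => y2 _ (h.cl_e hM b s) (s0 s hs)
  have z1 : ∀ x, spt Q e x ⊆ {i, j, k} → Q x ≠ 0 → pm (glX (X x)) * pm (glX (X x)) = 1 ∧
      pm (glX (X x)) ≠ 1 := fun x hx h0 => by
    refine ⟨by
      rw [← map_mul, eq_comm, ← map_one pm, pm_eq]
      exact ⟨_, mul_ne_zero (neg_ne_zero.mpr h2) h0, by simp [X3 x hx h0, X2 x hx]⟩, fun H => ?_⟩
    obtain ⟨c, hc, H⟩ := pm_eq.mp (H.symm : pm 1 = _)
    have := congrArg Matrix.trace H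
    rw [X3 x hx h0] at this
    simp [X0, hq.tl, hq.tr, hq.trace_mul h2, hc, h2] at this
  have z2 := fun s hs => z1 _ (s0 s hs) (h.Q_ne s)
  have e1 : X (e i) = I := by simp [X0, h.pol, hij.symm, hik.symm]
  have e2 : X (e j) = J := by simp [X0, h.pol, hij, hjk.symm]
  have e3 : X (e k) = I * J := by simp [X0, h.pol, hik, hjk]
  have z3 : ∀ s ∈ ({i, j, k} : Finset ι), ∀ t ∈ ({i, j, k} : Finset ι),
      ∀ u ∈ ({i, j, k} : Finset ι), s ≠ t → X (e s) * X (e t) = X (e u) →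
      (pm (glX (X (e s))) * pm (glX (X (e t))) = pm (glX (X (e u)))) ∧
        ∃ a ∈ Y, a * a = pm (glX (X (e u))) := fun s hs t ht u hu hst H => by
    have b1 : spt Q e (e s - (1 : F) • e t) ⊆ {i, j, k} := fun a ha => by
      have : a ∈ ({s, t} : Finset ι) := h.spt_pair s t 1 (-1) (by simpa [sub_eq_add_neg] using ha)
      rcases Finset.mem_insert.mp this with rfl | h
      exacts [hs, Finset.mem_singleton.mp h ▸ ht]
    have b2 : Q (e s - (1 : F) • e t) ≠ 0 := by simp [h.Q_root hst (one_mul 1), -one_smul]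
    have b3 := fun s hs => X3 _ (s0 s hs) (h.Q_ne s)
    have b4 : ∀ s ∈ ({i, j, k} : Finset ι), X (e s) * X (e s) = -1 := fun s hs => by
      rw [X2 _ (s0 s hs), h.Q_e, neg_mul, mul_inv_cancel₀ h2, neg_smul, one_smul]
    refine ⟨by rw [← map_mul]; exact congrArg pm (Units.ext (by simp [b3, hs, ht, hu, H])),
      _, mul_mem (y3 s hs) (y1 _ b1 b2 _ (h.refl_root_mem hlm (one_mul 1))
        (fun a c1 c2 => h.refl_root_ne c1.symm c2.symm) (h.cl_root hM hlm (one_mul 1) hst (one_mul 1)).2), ?_⟩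
    rw [← map_mul, ← map_mul, eq_comm, pm_eq]
    refine ⟨2, h2, ?_⟩
    simp only [Units.val_mul, b3 s hs, b3 u hu, X3 _ b1 b2]
    simp only [map_sub, one_smul, mul_sub, b4 s hs, H, sub_mul, b4 u hu, two_smul]
    noncomm_ring
  have z4 : ∀ u ∈ ({i, j, k} : Finset ι), ∃ a ∈ Y, a * a = pm (glX (X (e u))) := by
    simp only [Finset.mem_insert, Finset.mem_singleton, forall_eq_or_imp, forall_eq]
    exact ⟨(z3 j (by simp) k (by simp) i (by simp) hjk (by rw [e1, e2, e3, q4])).2,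
      (z3 k (by simp) i (by simp) j (by simp) hik.symm (by rw [e1, e2, e3, q2])).2,
      (z3 i (by simp) j (by simp) k (by simp) hij (by rw [e1, e2, e3])).2⟩
  have z5 := (z3 i (by simp) j (by simp) k (by simp) hij (by rw [e1, e2, e3])).1
  have f0 : Q f ≠ 0 := hf.1 ▸ h.Q_ne b
  have s1 : ∀ x y, spt Q e x ⊆ {i, j, k} → spt Q e y ⊆ {i, j, k} →
      spt Q e ((refl Q x).1 y) ⊆ {i, j, k} := fun x y hx hy a ha => by_contra fun H => by
    simp [mem_spt, refl_apply, not_not.mp (mt mem_spt.mpr fun h => H (hx h)),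
      not_not.mp (mt mem_spt.mpr fun h => H (hy h))] at ha
  have s2 : ∀ x y, spt Q e x ⊆ {i, j, k} → spt Q e y ⊆ {i, j, k} → X x = X y → x = y :=
    fun x y hx hy H => h.ext fun a => by
      by_cases ha : a ∈ ({i, j, k} : Finset ι)
      · exact X4 x y H a ha
      · rw [not_not.mp (mt mem_spt.mpr fun h => ha (hx h)), not_not.mp (mt mem_spt.mpr fun h => ha (hy h))]
  have s3 : ∀ (c : F) x, spt Q e x ⊆ {i, j, k} → spt Q e (c • x) ⊆ {i, j, k} := fun c x hx a ha =>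
    hx (mem_spt.mpr fun h => by simp [mem_spt, h] at ha)
  rcases dick hp h2 (y3 i (by simp)) (y3 j (by simp)) (z2 i (by simp)).1 (z2 j (by simp)).1
    (z5 ▸ (z2 k (by simp)).1) (z2 i (by simp)).2 (z2 j (by simp)).2 (z5 ▸ (z2 k (by simp)).2) with
    H | H
  · have h6 : Q w ≠ 0 := h5 ▸ h4
    have d : ∀ x, spt Q e x ⊆ {i, j, k} → (X x).det = 2 * Q x := fun x hx => by
      have := Matrix.aeval_self_charpoly (X x)
      simp only [Matrix.charpoly_fin_two, map_add, map_sub, map_pow, map_mul, Polynomial.aeval_X,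
        Polynomial.aeval_C, pow_two, X2 x hx, show (X x).trace = 0 by
          simp [X0, hq.tl, hq.tr, hq.trace_mul h2]] at this
      have := congrFun (congrFun this 0) 0
      simp [Matrix.algebraMap_matrix_apply] at this
      linear_combination this
    obtain ⟨A, a0, g, a1, ⟨d', d1, d2, a2⟩, ε, a3, a4⟩ := H (mem_range_toPGL_of_det
      (g := glX (X v) * glX (X w)) (c := (2 * Q v)⁻¹) (by
        simp only [Units.val_mul, X3 v hv h4, X3 w hw h6, Matrix.det_mul, d v hv, d w hw, h5,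
          Fintype.card_fin]
        field_simp))
    obtain ⟨c, hc, a5⟩ := pm_eq.mp a0
    have a6 : ∀ y, X ((refl Q v * refl Q w).1 y) = X (ε • g.1 y) := fun y => by
      refine A.mul_left_inj.mp (smul_right_injective _ hc ?_)
      simp only [map_smul, smul_mul_assoc, ← a4]
      rw [← mul_smul_comm, ← smul_mul_assoc, a5, Units.val_mul, X3 v hv h4, X3 w hw h6, mul_assoc,
        X5 w hw h6, mul_smul_comm, ← mul_assoc (X v), X5 v hv h4 ((refl Q w).1 y), OG_mul_apply]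
      simp [mul_assoc]
    have a9 : ∀ z, (∀ a ∈ ({i, j, k} : Finset ι), polar Q (e a) z = 0) →
        ∀ a ∈ ({i, j, k} : Finset ι), polar Q (e a) (g.1 z) = 0 := fun z hz a ha => by
      rw [a2 z hz, OG_polar_fix (k3 d2 a ha), hz a ha]
    have a7 : ∀ z, (∀ a ∈ ({i, j, k} : Finset ι), polar Q (e a) z = 0) → g.1 (g.1 (g.1 (g.1 z))) = z :=
      fun z hz => by
        rw [a2 _ (a9 _ (a9 _ (a9 _ hz))), a2 _ (a9 _ (a9 _ hz)), a2 _ (a9 _ hz), a2 z hz]
        exact congrArg (fun x : OG Q => x.1 z) (pow4_of_mon h d1 d2)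
    have a8 : ∀ y, spt Q e y ⊆ {i, j, k} → (refl Q v * refl Q w).1 y = ε • g.1 y := fun y hy =>
      s2 _ _ (s1 _ _ hv (s1 _ _ hw hy)) (s3 _ _ fun a ha => by_contra fun H => mem_spt.mp ha (by
        have b1 : ∀ s ∈ ({i, j, k} : Finset ι), polar Q (e s) (e a) = 0 := fun s hs =>
          h.pol_ne fun h => H (h ▸ hs)
        rw [← a7 _ b1, OG_polar, h.pol_eq]
        refine Finset.sum_eq_zero fun s _ => ?_
        by_cases hs : s ∈ ({i, j, k} : Finset ι)
        · rw [a9 _ (a9 _ (a9 _ b1)) s hs, zero_mul]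
        · rw [not_not.mp (mt mem_spt.mpr fun h => hs (hy h)), mul_zero])) (a6 y)
    have a10 : ∀ y, spt Q e y ⊆ {i, j, k} → (refl Q v * refl Q w * (refl Q v * refl Q w)).1 y = g.1 (g.1 y) :=
      fun y hy => by
        rw [OG_mul_apply, a8 ((refl Q v * refl Q w).1 y) (s1 _ _ hv (s1 _ _ hw hy)),
          a8 _ hy, map_smul, smul_smul, a3, one_smul]
    convert mul_mem (mul_mem a1 a1) (mul_mem a1 a1) using 1
    refine h.OG_ext fun a => ?_
    by_cases ha : a ∈ ({i, j, k} : Finset ι)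
    · rw [OG_mul_apply, a10 ((refl Q v * refl Q w * (refl Q v * refl Q w)).1 (e a))
        (s1 _ _ hv (s1 _ _ hw (s1 _ _ hv (s1 _ _ hw (s0 a ha))))), a10 _ (s0 a ha)]
      rfl
    · have b1 : ∀ x, spt Q e x ⊆ {i, j, k} → (refl Q x).1 (e a) = e a := fun x hx =>
        refl_apply_of_perp ((polar_comm _ _ _).trans (not_not.mp (mt mem_spt.mpr fun h => ha (hx h))))
      simp only [OG_mul_apply, b1 v hv, b1 w hw, a7 (e a) fun s hs => h.pol_ne fun h => ha (h ▸ hs)]
  refine absurd (mem_Mon.mpr fun s => ?_) h3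
  by_cases hs : s ∈ ({i, j, k} : Finset ι)
  swap
  · exact ⟨s, 1, by rw [one_smul, refl_apply_of_perp ((polar_comm _ _ _).trans
      (not_not.mp (mt mem_spt.mpr fun h => hs (h1 h))))]⟩
  have b1 := s1 _ _ h1 (s0 s hs)
  have b2 : Q ((refl Q f).1 (e s)) ≠ 0 := by simp [h.Q_ne]
  have b3 : pm (glX (X f)) * pm (glX (X (e s))) * (pm (glX (X f)))⁻¹ =
      pm (glX (X ((refl Q f).1 (e s)))) := by
    rw [mul_inv_eq_iff_eq_mul, ← map_mul, ← map_mul, eq_comm, pm_eq]
    exact ⟨-1, by simp, by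
      simp only [Units.val_mul, X3 _ h1 f0, X3 _ b1 b2, X3 _ (s0 s hs) (h.Q_ne s), X5 f h1 f0]⟩
  by_contra! H'
  refine H' s 0 (h.ext fun t => ?_)
  rw [zero_smul, polar_zero_right]
  by_contra b4
  have ht := b1 (mem_spt.mpr b4)
  obtain ⟨a, a1, a2⟩ := z4 s hs
  obtain ⟨a', a3, a4⟩ := z4 t ht
  have a5 := H _ (mul_mem (mul_mem (y2 f hf h1) a1) (inv_mem (y2 f hf h1))) a' a3
  rw [conj_mul, a2, a4, b3] at a5
  obtain ⟨c, -, a6⟩ := pm_eq.mp (by
    simpa only [← map_mul] using a5 (z1 _ b1 b2).1 (z1 _ b1 b2).2 (z2 t ht).1 (z2 t ht).2)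
  simp only [Units.val_mul, X3 _ b1 b2, X3 _ (s0 t ht) (h.Q_ne t)] at a6
  have a7 := X1 _ ((refl Q f).1 (e s)) (s0 t ht)
  by_cases a8 : c + 1 = 0
  · rw [← a6, add_comm, ← one_smul F (X _ * X (e t)), smul_smul, ← add_smul, mul_one, add_comm, a8,
      zero_smul] at a7
    simpa [h2, b4] using congrFun (congrFun a7 0) 0
  refine H' t ((c + 1)⁻¹ * (2 * polar Q (e t) ((refl Q f).1 (e s)))) (s2 _ _ b1 (s3 _ _ (s0 t ht)) ?_)
  have a9 := congrArg (· * X (e t)) a7
  rw [← a6] at a9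
  simp only [add_mul, smul_mul_assoc, mul_assoc, X2 _ (s0 t ht), h.Q_e, neg_mul, mul_inv_cancel₀ h2,
    one_mul, mul_smul_comm, mul_one, neg_smul, mul_neg, one_smul] at a9
  rw [map_smul, mul_smul, eq_inv_smul_iff₀ a8]
  linear_combination (norm := module) -a9

end Cfsg.Agent.H12
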