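import Mathlib
import Cfsg.Agent.H12.K4B

/-!
Maximality of the stabiliser of an orthonormal frame in dimension five.
-/

set_option autoImplicit false

namespace Cfsg.Agent.H12

open Module QuadraticMap H13 H18

variable {F V : Type*} [Field F] [AddCommGroup V] [Module F V] {Q : QuadraticForm F V}
  {M : Subgroup (OG Q)} {s u v w x y f : V} {g t : OG Q}
  {ι : Type*} [Fintype ι] [DecidableEq ι] {e : ι → V} {a b i j k l m : ι} {c d : F}

variable (h : ON Q e) [Finite V] (hM : ∀ g ∈ Om Q, g ∈ Mon Q e → g ∈ M)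
  [Fintype F] (hp : (Fintype.card F).Prime) (hn : 5 ≤ Fintype.card ι)
include h hM hp hn

omit hp in
theorem fin_le5 {T : Finset ι} (hu : spt Q e u ⊆ T) (hi : i ∈ spt Q e u)
    (H : ∀ x, spt Q e x ⊆ T → polar Q u x = 0 → AS M u x) (hk : k ∉ T) (h2 : ∀ l ∉ T, ∀ c : F, AS M u (c • e l)) :
    Om Q ≤ M := by
  have := h.fin
  have z : ∀ a ∉ T, polar Q (e a) u = 0 := fun a ha => not_not.mp (mt mem_spt.mpr fun h => ha (hu h))
  have h1 := (h2 k hk 1).Qu
  have h3 : EO M u := ⟨h1, fun x hx => by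
    have a1 : AS M u (∑ a ∈ Tᶜ, polar Q (e a) x • e a) := AS.sum _ h1 fun a ha => h2 a (Finset.mem_compl.mp ha) _
    simpa using (H (x - ∑ a ∈ Tᶜ, polar Q (e a) x • e a) (fun a ha => by_contra fun H => by
      simp [mem_spt, polar_sum_right, h.pol, H] at ha) (by simp [hx, a1.ua])).add a1⟩
  refine Om_le_of_EO h.nd (by rw [h.finrank_eq]; omega) h3 (h3.map (h.d_mem hM i k)) ?_
  have hik : i ≠ k := fun h => hk (by rw [← h]; exact hu hi)
  rw [h.d_apply hik, z k hk]
  simp [h1, polar_comm Q u, mem_spt.mp hi, h.two]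

omit hM hn in
theorem as_of_sq5 {T : Finset ι} (H : ∀ v w, spt Q e v ⊆ T → spt Q e w ⊆ T → Q v ≠ 0 → Q w = Q v →
    refl Q v * refl Q w * (refl Q v * refl Q w) * (refl Q v * refl Q w * (refl Q v * refl Q w)) ∈ M)
    (hu : spt Q e u ⊆ T) (hx : spt Q e x ⊆ T) (h1 : Q u = 0) (h2 : polar Q u x = 0) (h3 : Q x ≠ 0) : AS M u x := by
  have := H x (x - Q x • u) hx (fun a ha => by_contra fun H => by
    simp [mem_spt, not_not.mp (mt mem_spt.mpr fun h => H (hx h)),
      not_not.mp (mt mem_spt.mpr fun h => H (hu h))] at ha) h3 (by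
        simp [Q_sub, Q_smul, h1, polar_comm Q x, h2])
  rw [← sieg_eq_refl_mul_refl h1 h2 h3, ← sieg_add h1 h2 h2, ← sieg_add h1 (by simp [h2]) (by simp [h2])] at this
  convert AS.smul_prime hp ⟨h1, by simp [h2], this⟩ (2⁻¹ * 2⁻¹) using 1
  have := h.two
  match_scalars; field_simp; ring

theorem le_of_three5 (hij : i ≠ j) (hik : i ≠ k) (hjk : j ≠ k) (hf : Cl M (e b) f)
    (h1 : spt Q e f ⊆ {i, j, k}) (h2 : refl Q f ∉ Mon Q e) (h3 : (3 : F) ≠ 0) : Om Q ≤ M := by
  have t2 := h.two
  have K := fun v w => sq_mem5 h hp hM hn hij hik hjk hf h1 h2 (v := v) (w := w)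
  have s : ∀ {i j k} (x y z : F), spt Q e (x • e i + y • e j + z • e k) ⊆ {i, j, k} :=
    fun x y z a ha => by_contra fun H => by
      simp only [Finset.mem_insert, Finset.mem_singleton, not_or] at H
      simp [mem_spt, h.pol, H] at ha
  have p : ∀ {i j k : ι}, i ≠ j → i ≠ k → j ≠ k → ∀ x y z : F,
      Q (x • e i + y • e j + z • e k) = (x ^ 2 + y ^ 2 + z ^ 2) / 2 := fun h1 h2 h3 x y z => by
    simp [Q_add, Q_smul, h.Q_e, h.pol, h1, h2, h3]; ring
  by_cases hs : ∃ t : F, t ^ 2 = -1
  · obtain ⟨t, ht⟩ := hs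
    have a1 : Q ((1 : F) • e i + t • e j + (0 : F) • e k) = 0 := by rw [p hij hik hjk]; simp [ht]
    have a2 := as_of_sq5 h hp K (s ..) (by simpa using s (i := i) (j := j) (k := k) 0 0 1) a1
      (by simp [h.pol, hik, hjk]) (h.Q_ne k)
    refine fin_le5 h hM hn (T := {i, j})
      (u := (1 : F) • e i + t • e j + (0 : F) • e k) (by simpa using h.spt_pair i j 1 t) (i := i)
      (by simp [mem_spt, h.pol, hij]) (fun x b1 b2 => ?_) (k := k) (by simp [hik.symm, hjk.symm])
      fun l hl => AS.smul_prime hp ?_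
    swap
    · by_cases hkl : k = l
      · rwa [← hkl]
      obtain ⟨m, hm⟩ := exists_not_mem ({k, l, i, j} : Finset ι) (Finset.card_le_four.trans_lt (by omega))
      simp only [Finset.mem_insert, Finset.mem_singleton, not_or] at hm hl
      have := a2.map ((h.cl_root hM hkl (one_mul 1) hkl (one_mul 1)).mul
        (h.cl_root hM hkl (one_mul 1) (Ne.symm hm.2.1) (one_mul 1)))
      rwa [OG_mul_apply, OG_mul_apply, h.refl_root_ne (Ne.symm hkl) hm.1, h.refl_root hkl (one_mul 1),
        one_smul F (e l), refl_apply_of_perp (x := _ + _), refl_apply_of_perp] at this <;>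
        simp [h.pol, hl, hm, hik.symm, hjk.symm]
    convert AS.self a1 (polar Q (e i) x) using 1
    refine h.ext fun a => ?_
    by_cases c1 : a = i
    · simp [c1, h.pol, hij]
    by_cases c2 : a = j
    · simp [h.pol] at b2
      simp [c2, h.pol, hij.symm]
      linear_combination -t * b2 + polar Q (e j) x * ht
    · have : a ∉ ({i, j} : Finset ι) := by simp [c1, c2]
      simp [h.pol, c1, c2, not_not.mp (mt mem_spt.mpr fun h => this (b1 h))]
  have := Fact.mk hp
  have : CharP F (Fintype.card F) := charP_of_card_eq_prime rfl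
  obtain ⟨x, y, hxy⟩ := CharP.sq_add_sq F (Fintype.card F) (-1)
  generalize (x : F) = x, (y : F) = y at hxy
  push_cast at hxy
  have x0 : x ≠ 0 := fun h => hs ⟨y, by simpa [h] using hxy⟩
  obtain ⟨l, hl⟩ := exists_not_mem ({i, j, k} : Finset ι) (Finset.card_le_three.trans_lt (by omega))
  have a1 : Q (x • e i + y • e j + (1 : F) • e k) = 0 := by simp [p hij hik hjk, hxy, -one_smul]
  have a2 : AS M (x • e i + y • e j + (1 : F) • e k) (y • e i + -x • e j + (0 : F) • e k) :=
    as_of_sq5 h hp K (s ..) (s ..) a1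
      (by simp [h.pol, hij, hik, hjk, hij.symm, hik.symm, hjk.symm]; ring)
      (by rw [p hij hik hjk]; simp [add_comm, hxy, t2])
  refine fin_le5 h hM hn (s x y 1) (i := i) (by simp [mem_spt, h.pol, hij, hik, x0])
    (fun z b1 b2 => ?_) hl fun l hl => AS.smul_prime hp ?_
  · convert (AS.self a1 (polar Q (e k) z)).add (a2.smul_prime hp
      ((polar Q (e k) z * y - polar Q (e j) z) / x)) using 1
    refine h.ext fun a => ?_
    simp [h.pol] at b2
    by_cases c1 : a = i
    · simp [c1, h.pol, hij, hik]; field_simp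
      linear_combination b2 - polar Q (e k) z * hxy
    by_cases c2 : a = j
    · simp [c2, h.pol, hij.symm, hjk]; field_simp; ring
    by_cases c3 : a = k
    · simp [c3, h.pol, hik.symm, hjk.symm]
    · simp [h.pol, c1, c2, c3, h.zero_of b1 c1 c2 c3]
  simp only [Finset.mem_insert, Finset.mem_singleton, not_or] at hl
  have g1 := (h.cl_root hM (Ne.symm hl.2.2) (one_mul 1) (Ne.symm hl.2.2) (one_mul 1)).mul
    (h.cl_root hM (Ne.symm hl.2.2) (one_mul 1) hij (one_mul 1))
  have g2 := mul_mem (h.refl_root_mem (Ne.symm hl.2.2) (one_mul 1)) (h.refl_root_mem hij (one_mul 1))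
  have z := fun a => h.zero_of (a := a) h1
  have t4 : (4 : F) ≠ 0 := by rw [show (4 : F) = 2 * 2 by norm_num]; exact mul_ne_zero t2 t2
  have a3 : Q ((3 / 4 * y) • e i + (-(3 / 4) * x) • e j + (5 / 4 : F) • e l) = Q (e l) := by
    rw [p hij (Ne.symm hl.1) (Ne.symm hl.2.1), h.Q_e]; field_simp; linear_combination 9 * hxy
  have K' := sq_mem5 h hp hM hn hij (Ne.symm hl.1) (Ne.symm hl.2.1) (h.cl_map hM g1 g2 hf)
    (fun a ha => by_contra fun H => by
      simp only [Finset.mem_insert, Finset.mem_singleton, not_or] at H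
      rw [mem_spt, OG_mul_apply, OG_polar_right, OG_polar_right, refl_inv, refl_inv] at ha
      by_cases c : a = k
      · rw [c, h.refl_root (Ne.symm hl.2.2) (one_mul 1), one_smul F (e l), h.refl_root_ne (Ne.symm hl.1) (Ne.symm hl.2.1)] at ha
        exact ha (z l hl.1 hl.2.1 hl.2.2)
      · rw [h.refl_root_ne (Ne.symm c) (Ne.symm H.2.2), h.refl_root_ne (Ne.symm H.1) (Ne.symm H.2.1)] at ha
        exact ha (z a H.1 H.2.1 c))
    (fun H => h2 (by simpa [← conj_refl, mul_assoc] using mul_mem (mul_mem (inv_mem g2) H) g2))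
    (by simpa using s (i := i) (j := j) (k := l) 0 0 1) (s (3 / 4 * y) (-(3 / 4) * x) (5 / 4))
    (h.Q_ne l) a3
  have a4 := a2.fix K' (by
    have b1 : (refl Q (e l)).1 (x • e i + y • e j + (1 : F) • e k) = x • e i + y • e j + (1 : F) • e k :=
      refl_apply_of_perp (by simp [h.pol, hl])
    have b2 : (refl Q ((3 / 4 * y) • e i + (-(3 / 4) * x) • e j + (5 / 4 : F) • e l)).1
        (x • e i + y • e j + (1 : F) • e k) = x • e i + y • e j + (1 : F) • e k :=
      refl_apply_of_perp (by simp [h.pol, hl, hij, hik, hjk, hij.symm, mul_comm, mul_left_comm])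
    simp only [OG_mul_apply, b1, b2])
  have a5 : ∀ n : F, n = 5 ∨ n = 17 ∨ n = 257 → n ≠ 0 := by
    rintro _ (rfl | rfl | rfl) H
    exacts [hs ⟨2, by linear_combination H⟩, hs ⟨4, by linear_combination H⟩, hs ⟨16, by linear_combination H⟩]
  have t5 := a5 _ (Or.inl rfl)
  have t17 := a5 _ (Or.inr (Or.inl rfl))
  have t257 := a5 _ (Or.inr (Or.inr rfl))
  have a6 : polar Q (e l) (y • e i + -x • e j + (0 : F) • e k) = 0 := by simp [h.pol, hl]
  have a7 : polar Q (y • e i + -x • e j + (0 : F) • e k) (y • e i + -x • e j + (0 : F) • e k) = -1 := by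
    simp [h.pol, hij, hij.symm, -polar_self]; linear_combination hxy
  rw [show (3 / 4 * y) • e i + (-(3 / 4) * x) • e j + (5 / 4 : F) • e l =
    (3 / 4 : F) • (y • e i + -x • e j + (0 : F) • e k) + (5 / 4 : F) • e l by module] at a3 a4
  generalize y • e i + -x • e j + (0 : F) • e k = a at a2 a3 a4 a6 a7
  have a8 : ∀ α β : F, (refl Q (e l) * refl Q ((3 / 4 : F) • a + (5 / 4 : F) • e l)).1 (α • (a + e l) + β • (a - e l)) =
      (α / 4) • (a + e l) + (β * 4) • (a - e l) := fun α β => by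
    simp only [OG_mul_apply, refl_apply, a3, h.Q_e, inv_inv, polar_add_left, polar_add_right,
      polar_sub_right, polar_smul_left, polar_smul_right, h.pol_self, a6, a7,
      (polar_comm Q a _).trans a6, smul_eq_mul]
    match_scalars <;> field_simp <;> ring
  generalize refl Q (e l) * refl Q ((3 / 4 : F) • a + (5 / 4 : F) • e l) = r at a4 a8
  rw [show (r * r * (r * r)).1 a = r.1 (r.1 (r.1 (r.1 ((2⁻¹ : F) • (a + e l) + (2⁻¹ : F) • (a - e l))))) by
    rw [show (2⁻¹ : F) • (a + e l) + (2⁻¹ : F) • (a - e l) = a by match_scalars <;> field_simp <;> ring]; rfl,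
    a8, a8, a8, a8] at a4
  convert ((a2.smul_prime hp ((1 / 4 ^ 4 + 4 ^ 4) / 2 - 1)).sub a4).smul_prime hp
    (2 * 4 ^ 4 / (3 * 5 * 17 * 257)) using 1
  match_scalars <;> field_simp <;> ring

omit hn in
theorem le_of_four5 (h5 : Fintype.card ι = 5) (hij : i ≠ j) (hik : i ≠ k) (hil : i ≠ l) (hjk : j ≠ k) (hjl : j ≠ l) (hkl : k ≠ l)
    (hf : Cl M (e b) ((2⁻¹ : F) • (e i + e j + e k + e l)))
    (H : ∀ y, Cl M (e b) y → (spt Q e y).card < 4 → refl Q y ∈ Mon Q e) : Om Q ≤ M := by
  have t2 := h.two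
  obtain ⟨m, hm⟩ := exists_not_mem ({i, j, k, l} : Finset ι) (Finset.card_le_four.trans_lt (by omega))
  simp only [Finset.mem_insert, Finset.mem_singleton, not_or] at hm
  have g0 : ∀ a, a ≠ m → ∀ v, Cl M (e b) v → polar Q (e i - (1 : F) • e j) v = 0 →
      Cl M (e b) ((refl Q (e a - (1 : F) • e m)).1 v) := fun a ha v h1 h2 => by
    have := h.cl_map hM ((h.cl_root hM ha (one_mul 1) ha (one_mul 1)).mul
      (h.cl_root hM ha (one_mul 1) hij (one_mul 1)))
      (mul_mem (h.refl_root_mem ha (one_mul 1)) (h.refl_root_mem hij (one_mul 1))) h1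
    rwa [OG_mul_apply, refl_apply_of_perp h2] at this
  have g1 : polar Q (e i - (1 : F) • e j) ((2⁻¹ : F) • (e i + e j + e k + e l)) = 0 := by
    simp [h.pol, hij, hij.symm, hik, hil, hjk, hjl]
  by_cases h3 : (3 : F) = 0
  · have a1 : Q (e i + e j + e k) = 0 := by
      simp [Q_add, h.Q_e, h.pol, hij, hik, hjk]; field_simp; linear_combination h3
    have a2 : AS M (e i + e j + e k) (e i - (1 : F) • e j) := by
      have b1 : polar Q (e i + e j + e k) (e i - (1 : F) • e j) = 0 := by
        simp [h.pol, hij, hij.symm, hik.symm, hjk.symm]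
      refine ⟨a1, b1, ?_⟩
      rw [sieg_eq_refl_mul_refl a1 b1 (by simp [h.Q_root hij, -one_smul]), h.Q_root hij (one_mul 1),
        show e i - (1 : F) • e j - (1 : F) • (e i + e j + e k) = e j - (1 : F) • e k by
          linear_combination (norm := module) h3 • -e j]
      exact (h.cl_root hM hij (one_mul 1) hij (one_mul 1)).mul (h.cl_root hM hij (one_mul 1) hjk (one_mul 1))
    refine fin_le5 h hM (by omega) (T := {i, j, k}) (u := e i + e j + e k) (fun a ha => by_contra fun H => by
        simp only [Finset.mem_insert, Finset.mem_singleton, not_or] at H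
        simp [mem_spt, h.pol, H] at ha) (i := i) (by simp [mem_spt, h.pol, hij, hik])
      (fun x b1 b2 => ?_) (k := l) (by simp [hil.symm, hjl.symm, hkl.symm]) fun n hn' => AS.smul_prime hp ?_
    · convert (AS.self a1 (polar Q (e k) x)).add (a2.smul_prime hp
        (polar Q (e i) x - polar Q (e k) x)) using 1
      refine h.ext fun a => ?_
      simp only [polar_add_left] at b2
      by_cases c1 : a = i
      · simp [c1, h.pol, hij, hik]
      by_cases c2 : a = j
      · simp [c2, h.pol, hij.symm, hjk]; linear_combination b2 - polar Q (e k) x * h3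
      by_cases c3 : a = k
      · simp [c3, h.pol, hik.symm, hjk.symm]
      · simp [h.pol, c1, c2, c3, h.zero_of b1 c1 c2 c3]
    have a3 := (h.cl_e hM b j).refl' (g0 k (Ne.symm hm.2.2.1) _ hf g1)
    have a4 : (refl Q (e j)).1 ((refl Q (e k - (1 : F) • e m)).1 ((2⁻¹ : F) • (e i + e j + e k + e l))) =
        (2⁻¹ : F) • (e i - (1 : F) • e j + (e l + e m)) := by
      simp only [map_smul, map_add, h.refl_root (Ne.symm hm.2.2.1) (one_mul 1), h.refl_root_ne hik.symm hm.1,
        h.refl_root_ne hjk.symm hm.2.1, h.refl_root_ne hkl hm.2.2.2]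
      simp only [h.refl_e, h.pol, hij.symm, hjl, Ne.symm hm.2.1, if_true, if_false]
      match_scalars <;> ring
    rw [a4] at a3
    have a5 := a2.fix (a3.mul (h.cl_e hM b m)) (by
      rw [OG_mul_apply, refl_apply_of_perp (x := _ + _), refl_apply_of_perp] <;>
        simp [h.pol, hm, hij, hik, hjk, hij.symm, hil.symm, hjl.symm, hkl.symm])
    have a6 : AS M (e i + e j + e k) (e l + e m) := by
      convert a5.neg.sub a2 using 1
      rw [OG_mul_apply, refl_apply_of_perp (x := _ - _) (by simp [h.pol, hm]), refl_apply, a3.1, h.Q_e]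
      simp only [polar_add_left, polar_sub_left, polar_sub_right, polar_smul_left, polar_smul_right,
        h.pol, hij, hij.symm, hil.symm, hjl.symm, hm, if_true, if_false, smul_eq_mul]
      match_scalars <;> field_simp <;> ring
    have a7 := a6.map (mul_mem (h.d_mem hM i j) (h.d_mem hM k l))
    rw [OG_mul_apply, OG_mul_apply (_ * _), h.d_apply hkl, h.d_apply hkl, h.d_apply hij, h.d_apply hij] at a7
    simp only [polar_add_right, polar_sub_right, polar_smul_right, h.pol, hij, hik, hil, hjk, hjl, hkl, hij.symm,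
      hik.symm, hil.symm, hjk.symm, hjl.symm, hkl.symm, Ne.symm hm.1, Ne.symm hm.2.1, Ne.symm hm.2.2.1,
      Ne.symm hm.2.2.2, if_true, if_false, smul_eq_mul] at a7
    have a8 : AS M (e i + e j + e k) (e l - e m) := by
      have : AS M ((-1 : F) • (e i + e j + e k)) (e m - e l) := by convert a7 using 1 <;> module
      simpa using this.of_smul_left (by simp)
    obtain rfl | rfl : n = l ∨ n = m := by
      by_contra! H'
      simp only [Finset.mem_insert, Finset.mem_singleton, not_or] at hn'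
      have := Finset.card_le_univ ({n, m, i, j, k, l} : Finset ι)
      simp [*] at this
    · convert (a6.add a8).smul_prime hp 2⁻¹ using 1
      match_scalars <;> field_simp <;> ring
    · convert (a6.sub a8).smul_prime hp 2⁻¹ using 1
      match_scalars <;> field_simp <;> ring
  have a3 := g0 l (Ne.symm hm.2.2.2) _ hf g1
  simp only [map_smul, map_add, h.refl_root (Ne.symm hm.2.2.2) (one_mul 1),
    h.refl_root_ne hil.symm hm.1, h.refl_root_ne hjl.symm hm.2.1, h.refl_root_ne hkl.symm hm.2.2.1] at a3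
  have a4 := hf.refl' a3
  have t4 : (4 : F) ≠ 0 := by rw [show (4 : F) = 2 * 2 by norm_num]; exact mul_ne_zero t2 t2
  rw [show (refl Q ((2⁻¹ : F) • (e i + e j + e k + e l))).1 ((2⁻¹ : F) • (e i + e j + e k + (1 : F) • e m)) =
      (4⁻¹ : F) • ((2 : F) • e m - e i - e j - e k - (3 : F) • e l) by
    rw [refl_apply, hf.1, h.Q_e]
    simp only [polar_add_left, polar_add_right, polar_smul_left, polar_smul_right, h.pol, hij, hik, hjk,
      hij.symm, hik.symm, hjk.symm, hil.symm, hjl.symm, hkl.symm, Ne.symm hm.1, Ne.symm hm.2.1,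
      Ne.symm hm.2.2.1, Ne.symm hm.2.2.2, if_true, if_false, smul_eq_mul]
    match_scalars <;> field_simp <;> ring] at a4
  have := h.eq_sq5 hM (fun y b1 b2 l hl m hm => by
    by_cases b3 : refl Q y ∈ Mon Q e
    · exact h.sq_of_mon (b1.1 ▸ h.Q_ne b) b3 hl hm
    have b4 := (h.four hM b1 (by_contra fun h => b3 (H y b1 (by omega)))
      fun z c1 c2 => H z c1 (by omega)).2
    exact mul_left_cancel₀ t4 ((b4 l hl).trans (b4 m hm).symm)) a4 (i := i) (j := j) (k := l) (l := k)
    (m := m) (fun a ha => by_contra fun H => by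
      simp only [Finset.mem_insert, Finset.mem_singleton, not_or] at H
      simp [mem_spt, h.pol, H] at ha)
    (by simp [mem_spt, h.pol, hij, hik, hil, Ne.symm hm.1, t4])
    (by simp [mem_spt, h.pol, hik.symm, hjk.symm, hkl, Ne.symm hm.2.2.1, t4])
    (by simp [mem_spt, h.pol, hm, t2, t4]) hij hil hjl hik.symm hjk.symm hkl hm.1 hm.2.1 hm.2.2.2
  simp [h.pol, hik.symm, hjk.symm, hkl, Ne.symm hm.2.2.1, hm] at this
  field_simp at this
  exact (h3 (by linear_combination -this)).elim

omit hn in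
theorem Om_le5 (hn : Fintype.card ι = 5) (hg : g ∈ M) (hg' : g ∉ Mon Q e) : Om Q ≤ M := by
  obtain ⟨b⟩ := Fintype.card_pos_iff.mp (show 0 < Fintype.card ι by omega)
  have n1 : ∀ a, ∃ t ∈ M, ∀ x, t.1 x = -(refl Q (e a)).1 x := fun a => by
    obtain ⟨f, hf⟩ : ∃ f : Fin 5 ≃ ι, f 0 = a :=
      ⟨(Fintype.equivFinOfCardEq hn).symm.trans (Equiv.swap ((Fintype.equivFinOfCardEq hn).symm 0) a), by simp⟩
    refine ⟨_, mul_mem (h.d_mem hM (f 1) (f 2)) (h.d_mem hM (f 3) (f 4)), fun x => ?_⟩
    rw [← h.sum x, map_sum, map_sum, ← Finset.sum_neg_distrib]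
    refine Finset.sum_congr rfl fun i _ => ?_
    rw [map_smul, map_smul, ← smul_neg, ← hf]
    obtain ⟨i, rfl⟩ := f.surjective i
    congr 1
    fin_cases i <;> simp [OG_mul_apply, h.refl_e, h.pol, -polar_self] <;> module
  have n2 : ∀ a, Cl M (e b) (g.1 (e a)) := fun a => ⟨by simp [h.Q_e], by
    obtain ⟨t, a1, a2⟩ := n1 a
    obtain ⟨t', a3, a4⟩ := n1 b
    convert mul_mem (mul_mem (mul_mem hg a1) (inv_mem hg)) a3 using 1
    exact OG_ext fun x => by simp [← conj_refl, OG_mul_apply, a2, a4]⟩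
  have n3 : ∃ f, Cl M (e b) f ∧ refl Q f ∉ Mon Q e := by
    by_contra! H
    have : Nonempty ι := ⟨b⟩
    have b1 := fun k => h.card_spt_of_mon (by simp [h.Q_ne]) (H _ (n2 k))
    have b2 : ∀ k, (spt Q e (g.1 (e k))).card = 2 := fun k => (b1 k).antisymm (by
      by_contra! b2
      obtain ⟨m, hm⟩ := Finset.card_le_one_iff_subset_singleton.mp (Nat.le_of_lt_succ b2)
      have := h.mem_span hm
      rw [Finset.coe_singleton, Set.image_singleton, Submodule.mem_span_singleton] at this
      obtain ⟨c, hc⟩ := this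
      obtain ⟨f, c1, c2⟩ := h.exists_cl hM hg hc.symm hg' b
      exact c2 (H f c1))
    have h6 : ∀ S : Finset ι, S.card ≤ 4 → ∃ k, ¬ spt Q e (g.1 (e k)) ⊆ S := fun S hS => by
      by_contra! H
      have := h.card_le (T := Finset.univ) fun k _ => H k
      rw [Finset.card_univ] at this
      omega
    obtain ⟨p, c2⟩ := h6 _ ((b1 b).trans (by omega))
    obtain ⟨q, c4⟩ := h6 (spt Q e (g.1 (e b)) ∪ spt Q e (g.1 (e p)))
      ((Finset.card_union_le _ _).trans (by have := b1 b; have := b1 p; omega))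
    have c5 := fun h => c4 (Finset.Subset.trans h Finset.subset_union_left)
    have c6 := fun h => c4 (Finset.Subset.trans h Finset.subset_union_right)
    have n1 : b ≠ p := fun h => c2 (h ▸ le_rfl)
    have n2 : b ≠ q := fun h => c5 (h ▸ le_rfl)
    have n3 : p ≠ q := fun h => c6 (h ▸ le_rfl)
    have d1 := fun i => h.disj (i := i) (b2 b) (b1 p) (by simp [h.pol_ne n1]) c2
    have d2 := fun i => h.disj (i := i) (b2 b) (b1 q) (by simp [h.pol_ne n2]) c5
    have d3 := fun i => h.disj (i := i) (b2 p) (b1 q) (by simp [h.pol_ne n3]) c6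
    have e4 := Finset.card_le_univ (spt Q e (g.1 (e b)) ∪ spt Q e (g.1 (e p)) ∪ spt Q e (g.1 (e q)))
    rw [Finset.card_union_of_disjoint (Finset.disjoint_union_left.mpr ⟨Finset.disjoint_left.mpr d2,
      Finset.disjoint_left.mpr d3⟩), Finset.card_union_of_disjoint (Finset.disjoint_left.mpr d1),
      b2 b, b2 p, b2 q] at e4
    omega
  obtain ⟨f, ⟨h3, h4⟩, h5⟩ := (measure fun f => (spt Q e f).card).wf.has_min _ n3
  replace h5 : ∀ y, Cl M (e b) y → (spt Q e y).card < (spt Q e f).card → refl Q y ∈ Mon Q e :=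
    fun y b1 b2 => by_contra fun b3 => h5 y ⟨b1, b3⟩ b2
  rcases lt_or_ge (spt Q e f).card 4 with h6 | h6
  · by_cases h7 : (3 : F) = 0
    · have b1 : ∀ x : F, x ≠ 0 → x * x = 1 := fun x hx => by
        have := Fact.mk hp
        have : CharP F (Fintype.card F) := charP_of_card_eq_prime rfl
        have b2 := (Nat.prime_dvd_prime_iff_eq hp Nat.prime_three).mp
          ((CharP.cast_eq_zero_iff F _ 3).mp (by exact_mod_cast h7))
        simpa [b2, pow_two] using FiniteField.pow_card_sub_one_eq_one x hx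
      have b2 : ((spt Q e f).card : F) = 1 := by
        rw [← mul_inv_cancel₀ h.two, ← h.Q_e b, ← h3.1, ← polar_self', h.pol_eq, Finset.card_eq_sum_ones,
          Nat.cast_sum, ← Finset.sum_subset (Finset.subset_univ (spt Q e f)) fun a _ ha => by
            rw [not_not.mp (mt mem_spt.mpr ha), zero_mul]]
        exact Finset.sum_congr rfl fun a ha => by rw [b1 _ (mem_spt.mp ha), Nat.cast_one]
      obtain ⟨i, hi⟩ := Finset.card_eq_one.mp (show (spt Q e f).card = 1 by
        generalize (spt Q e f).card = n at b2 h6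
        interval_cases n
        · simp at b2
        · rfl
        · exact (one_ne_zero (by linear_combination b2 : (1 : F) = 0)).elim
        · exact (one_ne_zero (by linear_combination h7 - b2 : (1 : F) = 0)).elim)
      have := h.mem_span hi.le
      rw [Finset.coe_singleton, Set.image_singleton, Submodule.mem_span_singleton] at this
      obtain ⟨c, rfl⟩ := this
      exact (h4 (by
        rw [refl_smul fun H => h.Q_ne b (by simpa [H] using h3.1.symm)]; exact h.refl_e_mem i)).elim
    obtain ⟨T, b1, b2⟩ := Finset.exists_superset_card_eq (n := 3) (s := spt Q e f) (by omega) (by omega)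
    obtain ⟨i, j, k, c1, c2, c3, rfl⟩ := Finset.card_eq_three.mp b2
    exact le_of_three5 h hM hp hn.ge c1 c2 c3 h3 b1 h4 h7
  obtain ⟨h7, h8⟩ := h.four hM h3 h6 h5
  obtain ⟨s, s1, s2⟩ : ∃ s : ι → F, (∀ i, s i * s i = 1) ∧ ∀ i ∈ spt Q e f, s i = 2 * polar Q (e i) f :=
    ⟨fun i => if i ∈ spt Q e f then 2 * polar Q (e i) f else 1, fun i => by
      dsimp only
      split_ifs with hi
      exacts [by linear_combination h8 i hi, one_mul 1], fun i hi => if_pos hi⟩
  have o : ON Q fun i => s i • e i := ⟨h.two, fun i j => by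
    by_cases hij : i = j <;> simp [h.pol, hij, s1, -polar_self], fun x => by
      simpa [smul_smul, mul_right_comm _ _ (s _), s1] using h.sum x⟩
  have s0 := fun i => left_ne_zero_of_mul_eq_one (s1 i)
  have b1 : Mon Q (fun i => s i • e i) = Mon Q e := congrArg (mapS Q) (Set.ext fun x =>
    ⟨fun ⟨j, c, h⟩ => ⟨j, c * s j, by rw [h, smul_smul]⟩,
      fun ⟨j, c, h⟩ => ⟨j, c * s j, by rw [h, smul_smul, mul_assoc, s1, mul_one]⟩⟩)
  have b2 : ∀ y, Cl M (s b • e b) y ↔ Cl M (e b) y := fun y => by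
    simp [Cl, Q_smul, pow_two, s1, refl_smul (s0 b)]
  obtain ⟨i, j, k, l, c1, c2, c3, c4, c5, c6, c7⟩ := Finset.card_eq_four.mp h7
  refine le_of_four5 o (b1 ▸ hM) hp hn c1 c2 c3 c4 c5 c6 (b := b) ((b2 _).mpr ?_) fun y d1 d2 =>
    b1 ▸ h5 y ((b2 y).mp d1) (by convert d2 using 2; ext; simp [mem_spt, s0])
  convert h3
  rw [← h.sum f, ← Finset.sum_subset (Finset.subset_univ (spt Q e f)) fun a _ ha => by
    rw [not_not.mp (mt mem_spt.mpr ha), zero_smul]]
  simp [c7] at s2
  simp [c7, c1, c2, c3, c4, c5, c6, s2, smul_smul, h.two, add_assoc]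

end Cfsg.Agent.H12
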