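import Mathlib
import Cfsg.Agent.H6.ZStar
import Cfsg.Agent.H1.Cores
import Cfsg.Agent.H18.FrA

/-!
Elementary abelian 2-subgroups containing the centralisers of their involutions in their normaliser.
-/

set_option autoImplicit false

namespace Cfsg.Agent.H12

section

variable {G : Type*} [Group G] {E S : Subgroup G} {a b d g h k t x : G}

/-- conjugate subgroup -/
def cjP (g : G) (S : Subgroup G) : Subgroup G := S.map (MulAut.conj g).toMonoidHom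

theorem mem_cjP : x ∈ cjP g S ↔ g⁻¹ * x * g ∈ S :=
  ⟨by rintro ⟨y, hy, rfl⟩; simpa [mul_assoc] using hy, fun H => ⟨_, H, by simp [mul_assoc]⟩⟩

theorem cjP_mul (g h : G) (S : Subgroup G) : cjP (g * h) S = cjP g (cjP h S) :=
  Subgroup.ext fun x => by simp [mem_cjP, mul_assoc]

theorem cjP_one (S : Subgroup G) : cjP 1 S = S := Subgroup.ext fun x => by simp [mem_cjP]

theorem cjP_inv {T : Subgroup G} (H : cjP g S = T) : cjP g⁻¹ T = S := by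
  rw [← H, ← cjP_mul, inv_mul_cancel, cjP_one]

theorem conj_mem_cjP (H : x ∈ S) (g : G) : g * x * g⁻¹ ∈ cjP g S := by simpa [mem_cjP, mul_assoc]

theorem cjP_of_mem (H : g ∈ S) : cjP g S = S := Subgroup.ext fun x => by
  rw [mem_cjP, mul_mem_cancel_right H, mul_mem_cancel_left (inv_mem H)]

/-- fusion hypotheses -/
structure FU (E : Subgroup G) : Prop where
  sq : ∀ e ∈ E, e * e = 1
  cent : ∀ e ∈ E, e ≠ 1 → ∀ g, g * e = e * g → cjP g E = E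
  cl : ∀ e ∈ E, ∀ g, cjP (g * e * g⁻¹) E = E → g * e * g⁻¹ ∈ E

namespace FU

variable (H : FU E)
include H

theorem comm (ha : a ∈ E) (hb : b ∈ E) : a * b = b * a := by
  rw [← inv_eq_of_mul_eq_one_right (H.sq _ (mul_mem ha hb)), mul_inv_rev,
    inv_eq_of_mul_eq_one_right (H.sq a ha), inv_eq_of_mul_eq_one_right (H.sq b hb)]

theorem sq' (ha : a ∈ cjP h E) : a * a = 1 := by
  have := H.sq _ (mem_cjP.mp ha)
  rwa [← mul_assoc, ← mul_assoc, mul_inv_cancel_right, mul_assoc h⁻¹, mul_assoc, inv_mul_eq_one,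
    eq_comm, mul_eq_right] at this

theorem comm' (ha : a ∈ cjP h E) (hb : b ∈ cjP h E) : a * b = b * a := by
  have := H.comm (mem_cjP.mp ha) (mem_cjP.mp hb)
  simpa [mul_assoc] using congrArg (fun x => h * x * h⁻¹) this

theorem cent' (ha : a ∈ cjP h E) (h1 : a ≠ 1) (hg : g * a = a * g) : cjP g (cjP h E) = cjP h E := by
  have := H.cent _ (mem_cjP.mp ha) (by simpa using (MulAut.conj h⁻¹).injective.ne h1) (h⁻¹ * g * h)
    (by simp [mul_assoc, ← mul_assoc g, hg])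
  rw [← cjP_mul, show g * h = h * (h⁻¹ * g * h) by group, cjP_mul, this]

theorem cl' (ha : a ∈ cjP k E) (hg : cjP a (cjP h E) = cjP h E) : a ∈ cjP h E := by
  have := H.cl _ (mem_cjP.mp ha) (h⁻¹ * k) (by
    rw [show h⁻¹ * k * (k⁻¹ * a * k) * (h⁻¹ * k)⁻¹ = h⁻¹ * (a * h) by group, cjP_mul, cjP_mul, hg,
      ← cjP_mul, inv_mul_cancel, cjP_one])
  rw [mem_cjP]; convert this using 1; group

theorem eq_of_comm (ha : a ∈ cjP h E) (hb : b ∈ cjP k E) (h1 : a ≠ 1) (h2 : b ≠ 1)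
    (hab : a * b = b * a) : cjP h E = cjP k E := by
  have key : ∀ {a b h k : G}, a ∈ cjP h E → b ∈ cjP k E → a ≠ 1 → b ≠ 1 → a * b = b * a →
      cjP k E ≤ cjP h E := fun ha hb h1 h2 hab x hx =>
    H.cl' hx (H.cent' ha h1 (H.comm' hx (H.cl' ha (H.cent' hb h2 hab))))
  exact (key hb ha h2 h1 hab.symm).antisymm (key ha hb h1 h2 hab)

variable [Finite G]

theorem exists_swap (ha : a ∈ cjP h E) (hb : b ∈ cjP k E) (h1 : a ≠ 1) (h2 : b ≠ 1)
    (hne : cjP h E ≠ cjP k E) {T : Subgroup G} (h3 : a ∈ T) (h4 : b ∈ T) :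
    ∃ d ∈ T, d ≠ 1 ∧ (∃ l, d ∈ cjP l E) ∧ d * a * d = b := by
  have c : ∀ {a h}, a ∈ cjP h E → a ∈ T → ∀ y, (y ∈ T ∧ y ≠ 1 ∧ ∃ l, y ∈ cjP l E) →
      (a * y * a ∈ T ∧ a * y * a ≠ 1 ∧ ∃ l, a * y * a ∈ cjP l E) := fun {a h} ha h3 y ⟨b1, b2, l, b3⟩ => by
    have e := inv_eq_of_mul_eq_one_right (H.sq' ha)
    refine ⟨mul_mem (mul_mem h3 b1) h3, ?_, a * l, ?_⟩
    · nth_rw 2 [← e]; simpa using b2
    · rw [cjP_mul]; nth_rw 3 [← e]; exact conj_mem_cjP b3 a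
  rcases H18.dih (H.sq' ha) (H.sq' hb) (P := fun y => y ∈ T ∧ y ≠ 1 ∧ ∃ l, y ∈ cjP l E)
    ⟨h3, h1, h, ha⟩ ⟨h4, h2, k, hb⟩ (c ha h3) (c hb h4) with
    ⟨y, ⟨b1, b2, b3⟩, b4⟩ | ⟨z, b1, -, b3, b4, ⟨-, b5, l, b6⟩, -⟩
  · exact ⟨y, b1, b2, b3, b4⟩
  have b7 := H.eq_of_comm b6 ha b5 h1 (by rw [mul_assoc, ← mul_assoc a, ← b3, mul_assoc])
  exact (hne (H.eq_of_comm ((mul_mem_cancel_right ha).mp (b7 ▸ b6)) hb b1 h2 b4)).elim

theorem isConj (hg : cjP g E ≠ E) (ha : a ∈ E) (hb : b ∈ E) (h1 : a ≠ 1) (h2 : b ≠ 1) : IsConj a b := by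
  obtain ⟨d, -, -, ⟨l, b1⟩, b2⟩ := H.exists_swap (conj_mem_cjP ha g) (k := 1) (by rwa [cjP_one])
    (by simpa using h1) h2 (by rwa [cjP_one]) (Subgroup.mem_top _) (Subgroup.mem_top _)
  exact isConj_iff.mpr ⟨d * g, by
    rw [← b2, mul_inv_rev, inv_eq_of_mul_eq_one_right (H.sq' b1)]; group⟩

theorem exists_odd (hg : cjP g E ≠ E) : ∃ O : Subgroup G, Odd (Nat.card O) ∧ (∀ o ∈ O, cjP o E = E) ∧
    ∀ a ∈ E, a ≠ 1 → ∀ b ∈ E, b ≠ 1 → ∃ o ∈ O, o * a * o⁻¹ = b := by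
  obtain ⟨E₂, h2⟩ : ∃ E₂, E₂ = cjP g E := ⟨_, rfl⟩
  let T : Subgroup G :=
    { carrier := {t | (cjP t E = E ∧ cjP t E₂ = E₂) ∨ (cjP t E = E₂ ∧ cjP t E₂ = E)}
      one_mem' := Or.inl ⟨cjP_one _, cjP_one _⟩
      mul_mem' := by
        rintro a b (⟨a1, a2⟩ | ⟨a1, a2⟩) (⟨b1, b2⟩ | ⟨b1, b2⟩) <;>
          simp only [Set.mem_ofPred_eq, cjP_mul, a1, a2, b1, b2, and_self, true_or, or_true]
      inv_mem' := by
        rintro a (⟨a1, a2⟩ | ⟨a1, a2⟩)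
        exacts [Or.inl ⟨cjP_inv a1, cjP_inv a2⟩, Or.inr ⟨cjP_inv a2, cjP_inv a1⟩] }
  rw [← h2] at hg
  have e1 : E = cjP 1 E := (cjP_one E).symm
  have y0 : ∀ {y l}, y ∈ cjP l E → cjP y E = E₂ → y ∈ T := fun hy h =>
    Or.inr ⟨h, by rw [← h, ← cjP_mul, H.sq' hy, cjP_one]⟩
  have y1 : ∀ {y l}, y ∈ cjP l E → cjP y E = E₂ → y ≠ 1 := fun hy h e => hg (by rw [← h, e, cjP_one])
  have y2 : ∀ {y y' l}, y ∈ cjP l E → cjP y E = E₂ → y' ∈ cjP l E → cjP y' E = E₂ → y = y' :=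
    fun {y y' l} b1 b2 b3 b4 => by
      by_contra b5
      have b6 : y * y' ≠ 1 := fun e => b5 (by
        rw [← inv_eq_of_mul_eq_one_right e, inv_eq_of_mul_eq_one_right (H.sq' b1)])
      have b7 := H.cl' (h := 1) (mul_mem b1 b3) (by
        rw [cjP_one, cjP_mul, b4, ← b2, ← cjP_mul, H.sq' b1, cjP_one])
      have b8 := H.eq_of_comm (mul_mem b1 b3) b7 b6 b6 rfl
      rw [b8, cjP_one] at b1
      exact hg (by rw [← b2, cjP_of_mem b1])
  have y3 : ∀ {y y' l l'}, y ∈ cjP l E → cjP y E = E₂ → y' ∈ cjP l' E → cjP y' E = E₂ →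
      y * y' ∈ (pPrimeCore 2 T).map T.subtype := fun {y y' l l'} b1 b2 b3 b4 => by
    by_cases b5 : cjP l E = cjP l' E
    · rw [y2 b1 b2 (b5 ▸ b3) b4, H.sq' b3]; exact one_mem _
    obtain ⟨d, c1, -, ⟨m, c2⟩, c3⟩ := H.exists_swap b1 b3 (y1 b1 b2) (y1 b3 b4) b5 (y0 b1 b2) (y0 b3 b4)
    refine ⟨_, H6.zstar (u := (⟨y, y0 b1 b2⟩ : T)) (orderOf_eq_prime (Subtype.ext (by
      simpa [pow_two] using H.sq' b1)) fun e => y1 b1 b2 (congrArg Subtype.val e))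
        (fun t ht => Subtype.ext ?_) ⟨d, c1⟩, ?_⟩
    · have c4 : t.1 * y * t.1⁻¹ ∈ cjP (t.1 * l) E := by rw [cjP_mul]; exact conj_mem_cjP b1 _
      have c5 := H.eq_of_comm b1 c4 (y1 b1 b2) (by simpa using y1 b1 b2) (congrArg Subtype.val ht.eq)
      refine y2 (c5 ▸ c4) ?_ b1 b2
      have c6 : cjP y E₂ = E := by rw [← b2, ← cjP_mul, H.sq' b1, cjP_one]
      change cjP (t.1 * y * t.1⁻¹) E = E₂
      rcases t.2 with ⟨a1, a2⟩ | ⟨a1, a2⟩
      · rw [cjP_mul, cjP_mul, cjP_inv a1, b2, a2]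
      · rw [cjP_mul, cjP_mul, cjP_inv a2, c6, a1]
    · change y * d * y⁻¹ * d⁻¹ = _
      rw [inv_eq_of_mul_eq_one_right (H.sq' b1), inv_eq_of_mul_eq_one_right (H.sq' c2), ← c3]
      group
  have hO : Odd (Nat.card ((pPrimeCore 2 T).map T.subtype)) := by
    rw [Subgroup.card_map_of_injective T.subtype_injective]
    exact Nat.coprime_two_right.mp (H1.coprime_card_pPrimeCore 2 T)
  refine ⟨_, hO, fun o ho => ?_, fun a ha h1 b hb h3 => ?_⟩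
  · obtain ⟨k, hk⟩ := hO.of_dvd_nat (Subgroup.orderOf_dvd_natCard _ ho)
    obtain ⟨t, -, rfl⟩ := ho
    rcases t.2 with ⟨a1, -⟩ | ⟨a1, a2⟩
    · exact a1
    have : ∀ n : ℕ, cjP ((t : G) ^ (2 * n)) E = E := fun n => by
      induction n with
      | zero => simp [cjP_one]
      | succ n ih => rw [mul_add, pow_add, cjP_mul, pow_two, cjP_mul, a1, a2, ih]
    have c := pow_orderOf_eq_one (T.subtype t)
    rw [hk, pow_succ'] at c
    refine (hg ?_).elim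
    rw [← a1]; nth_rw 1 [← this k]
    rw [← cjP_mul]; exact (congrArg (cjP · E) c).trans (cjP_one E)
  have c0 : ∀ a ∈ E, a ≠ 1 → ∀ c ∈ cjP g E, c ≠ 1 → ∃ y l, y ∈ cjP l E ∧ cjP y E = E₂ ∧ y * a * y = c :=
    fun a ha h1 c hc h3 => by
      obtain ⟨d, -, -, ⟨l, b1⟩, b2⟩ := H.exists_swap (h := 1) (e1 ▸ ha) hc h1 h3
        (by rw [cjP_one, ← h2]; exact hg.symm) (Subgroup.mem_top _) (Subgroup.mem_top _)
      refine ⟨d, l, b1, h2 ▸ H.eq_of_comm (a := c) ?_ hc h3 h3 rfl, b2⟩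
      rw [← b2]; nth_rw 3 [← inv_eq_of_mul_eq_one_right (H.sq' b1)]; exact conj_mem_cjP ha d
  obtain ⟨y, l, b1, b2, b3⟩ := c0 a ha h1 _ (conj_mem_cjP ha g) (by simpa using h1)
  obtain ⟨y', l', b4, b5, b6⟩ := c0 b hb h3 _ (conj_mem_cjP ha g) (by simpa using h1)
  refine ⟨_, y3 b4 b5 b1 b2, ?_⟩
  rw [mul_inv_rev, inv_eq_of_mul_eq_one_right (H.sq' b1), inv_eq_of_mul_eq_one_right (H.sq' b4),
    show y' * y * a * (y * y') = y' * (y * a * y) * y' by group, b3, ← b6,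
    show y' * (y' * b * y') * y' = y' * y' * b * (y' * y') by group, H.sq' b4, one_mul, mul_one]

end FU

end

section

variable {E : Type*} [AddCommGroup E] [Module (ZMod 2) E] [Finite E] {B : LinearMap.BilinForm (ZMod 2) E}

theorem exists_quad_of_alt (h : B.IsAlt) : ∃ Q : E → ZMod 2, ∀ a b, Q (a + b) = Q a + Q b + B a b := by
  let v := Module.finBasis (ZMod 2) E
  obtain ⟨A, hA⟩ : ∃ A : LinearMap.BilinForm (ZMod 2) E, ∀ i j, A (v i) (v j) =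
      if i < j then B (v i) (v j) else 0 :=
    ⟨v.constr (ZMod 2) fun i => v.constr (ZMod 2) fun j => if i < j then B (v i) (v j) else 0,
      fun i j => by rw [v.constr_basis, v.constr_basis]⟩
  have e : B = A + A.flip := LinearMap.BilinForm.ext_basis v fun i j => by
    simp only [LinearMap.add_apply, LinearMap.BilinForm.flip_apply, hA]
    rcases lt_trichotomy i j with c | rfl | c
    · simp [c, c.not_gt]
    · simp [h.self_eq_zero]
    · simp [c, c.not_gt, ← h.neg_eq (v j)]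
  refine ⟨fun a => A a a, fun a b => ?_⟩
  rw [e]; simp; ring

theorem FU.normal {G : Type*} [Group G] [Finite G] {S : Subgroup G} (H : FU S) (h : B.IsAlt) {ε : E → G}
    (h1 : ∀ a b, ε (a + b) = ε a * ε b) (h2 : Function.Injective ε) (h3 : ∀ x, x ∈ S ↔ ∃ a, ε a = x)
    (h4 : ∀ g, cjP g S = S → ∀ a b a' b', g * ε a * g⁻¹ = ε a' → g * ε b * g⁻¹ = ε b' → B a' b' = B a b)
    {a b c d : E} (a1 : B a b ≠ 0) (a2 : c ≠ 0) (a3 : d ≠ 0) (a4 : c + d ≠ 0) (a5 : B c d = 0) (g : G) :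
    cjP g S = S := by
  by_contra hg
  obtain ⟨O, b1, b2, b3⟩ := H.exists_odd hg
  obtain ⟨Q, hQ⟩ := exists_quad_of_alt h
  have := Fintype.ofFinite O
  choose φ hφ using fun (o : O) a => (h3 _).mp (b2 o o.2 ▸ conj_mem_cjP ((h3 _).mpr ⟨a, rfl⟩) o.1)
  have e0 : ε 0 = 1 := by simpa using h1 0 0
  have c1 : ∀ a b, a ≠ 0 → b ≠ 0 → ∑ o, Q (φ o a) = ∑ o, Q (φ o b) := fun a b ha hb => by
    obtain ⟨o, c1, c2⟩ := b3 _ ((h3 _).mpr ⟨a, rfl⟩) (fun e => ha (h2 (e.trans e0.symm))) _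
      ((h3 _).mpr ⟨b, rfl⟩) (fun e => hb (h2 (e.trans e0.symm)))
    refine (Fintype.sum_equiv (Equiv.mulRight (⟨o, c1⟩ : O)) _ _ fun p => congrArg Q (h2 ?_)).symm
    simp [hφ, ← c2, mul_assoc]
  have c2 : ∀ a b, ∑ o, Q (φ o (a + b)) = ∑ o, Q (φ o a) + ∑ o, Q (φ o b) + B a b := fun a b => by
    have : ∀ o, Q (φ o (a + b)) = Q (φ o a) + Q (φ o b) + B a b := fun o => by
      rw [← h4 o (b2 o o.2) a b _ _ (hφ o a).symm (hφ o b).symm, ← hQ]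
      exact congrArg Q (h2 (by simp [h1, hφ]))
    obtain ⟨k, hk⟩ := b1
    simp only [this, Finset.sum_add_distrib, Finset.sum_const, Finset.card_univ,
      ← Nat.card_eq_fintype_card, hk, nsmul_eq_mul]
    push_cast
    rw [show (2 : ZMod 2) = 0 from rfl]; ring
  have d1 : a ≠ 0 := fun e => a1 (by simp [e])
  have d2 : b ≠ 0 := fun e => a1 (by simp [e])
  have d3 : a + b ≠ 0 := fun e => a1 (by rw [eq_neg_of_add_eq_zero_left e]; simp [h.self_eq_zero])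
  have e1 := c2 a b
  have e2 := c2 c d
  rw [c1 _ a d3 d1, c1 b a d2 d1] at e1
  rw [c1 _ a a4 d1, c1 c a a2 d1, c1 d a a3 d1, a5] at e2
  exact a1 (by linear_combination e2 - e1)

end

end Cfsg.Agent.H12
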