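import Mathlib
import Cfsg.Agent.H12.PxA
import Cfsg.Agent.H12.MaxT

/-!
Pauli systems: projectively abelian absolutely irreducible 2-groups.
-/

set_option autoImplicit false

namespace Cfsg.Agent.H12

open Module

variable {F V : Type*} [Field F] [AddCommGroup V] [Module F V]

/-- scalar maps -/
def zs (V : Type*) {F : Type*} [Field F] [AddCommGroup V] [Module F V] : Fˣ →* (V ≃ₗ[F] V) :=
  DistribMulAction.toModuleAut F V

@[simp] theorem zs_apply (c : Fˣ) (v : V) : zs V c v = (c : F) • v := rfl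

theorem zs_comm (c : Fˣ) (g : V ≃ₗ[F] V) : g * zs V c = zs V c * g :=
  LinearEquiv.ext fun v => by simp

theorem zs_left (c : Fˣ) (g h : V ≃ₗ[F] V) : g * (zs V c * h) = zs V c * (g * h) := by
  rw [← mul_assoc, zs_comm, mul_assoc]

theorem zs_conj (c : Fˣ) (g h : V ≃ₗ[F] V) : g * (zs V c * h) * g⁻¹ = zs V c * (g * h * g⁻¹) := by
  rw [zs_left, mul_assoc]

theorem conj_zs (c : Fˣ) (g h : V ≃ₗ[F] V) : zs V c * g * h * (zs V c * g)⁻¹ = g * h * g⁻¹ := by
  rw [mul_inv_rev, ← map_inv, mul_assoc, mul_assoc, ← mul_assoc h, ← mul_assoc g, zs_comm c⁻¹,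
    ← mul_assoc, ← map_mul, mul_inv_cancel, map_one, one_mul, mul_assoc]

theorem zs_zs (c d : Fˣ) (g : V ≃ₗ[F] V) : zs V c * (zs V d * g) = zs V (c * d) * g := by
  rw [map_mul, mul_assoc]

theorem zs_inj [Nontrivial V] : Function.Injective (zs V (F := F)) := fun c d h => by
  obtain ⟨v, hv⟩ := exists_ne (0 : V)
  exact Units.ext (smul_left_injective F hv (LinearEquiv.congr_fun h v))

/-- signs -/
def sgU (F : Type*) [Field F] (t : ZMod 2) : Fˣ := if t = 0 then 1 else -1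

@[simp] theorem sgU_zero : sgU F 0 = 1 := if_pos rfl

@[simp] theorem sgU_one : sgU F 1 = -1 := if_neg one_ne_zero

theorem z2_cases (t : ZMod 2) : t = 0 ∨ t = 1 := by revert t; decide

theorem z2_add_self (t : ZMod 2) : t + t = 0 := by revert t; decide

theorem sgU_add (s t : ZMod 2) : sgU F (s + t) = sgU F s * sgU F t := by
  rcases z2_cases s with rfl | rfl <;> rcases z2_cases t with rfl | rfl <;> simp [z2_add_self]

theorem sgU_mul_self (t : ZMod 2) : sgU F t * sgU F t = 1 := by rw [← sgU_add, z2_add_self, sgU_zero]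

theorem sgU_inj (h2 : (2 : F) ≠ 0) : Function.Injective (sgU F) := fun s t h => by
  have : (1 : Fˣ) ≠ -1 := fun e => h2 (by
    have : (1 : F) = -1 := congrArg Units.val e
    linear_combination this)
  rcases z2_cases s with rfl | rfl <;> rcases z2_cases t with rfl | rfl <;> simp_all [eq_comm]

/-- trace -/
noncomputable def trE (g : V ≃ₗ[F] V) : F := LinearMap.trace F V g

theorem trE_conj (g h : V ≃ₗ[F] V) : trE (g * h * g⁻¹) = trE h := by
  unfold trE
  rw [LinearEquiv.coe_toLinearMap_mul, LinearMap.trace_mul_comm, ← LinearEquiv.coe_toLinearMap_mul,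
    ← mul_assoc, inv_mul_cancel, one_mul]

theorem trE_zs (c : Fˣ) (g : V ≃ₗ[F] V) : trE (zs V c * g) = c * trE g := by
  unfold trE
  rw [show ((zs V c * g : V ≃ₗ[F] V) : V →ₗ[F] V) = (c : F) • (g : V →ₗ[F] V) from rfl, map_smul,
    smul_eq_mul]

theorem trE_eq_zero (h2 : (2 : F) ≠ 0) {g h : V ≃ₗ[F] V} (H : g * h * g⁻¹ = zs V (-1) * h) : trE h = 0 := by
  have := trE_conj g h
  rw [H, trE_zs, Units.val_neg, Units.val_one] at this
  exact (mul_eq_zero.mp (by linear_combination -this : 2 * trE h = 0)).resolve_left h2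

variable {E : Type*} [AddCommGroup E] [Module (ZMod 2) E]

theorem e2_add_self (a : E) : a + a = 0 := by
  rw [← two_smul (ZMod 2), show (2 : ZMod 2) = 0 from rfl, zero_smul]

theorem e2_eq_of_add {a b : E} (h : a + b = 0) : a = b := by
  rw [← add_zero a, ← e2_add_self b, ← add_assoc, h, zero_add]

theorem e2_mem_span {a b : E} : b ∈ (ZMod 2) ∙ a ↔ b = 0 ∨ b = a := by
  rw [Submodule.mem_span_singleton]
  exact ⟨fun ⟨c, h⟩ => by rcases z2_cases c with rfl | rfl <;> simp [← h],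
    fun h => h.elim (fun h => ⟨0, by simp [h]⟩) fun h => ⟨1, by simp [h]⟩⟩

/-- Pauli system -/
structure Pau (B : LinearMap.BilinForm (ZMod 2) E) (P : E → V ≃ₗ[F] V) : Prop where
  two : (2 : F) ≠ 0
  alt : B.IsAlt
  nd : ∀ a, (∀ b, B a b = 0) → a = 0
  nt : Nontrivial V
  zero : P 0 = 1
  mul : ∀ a b, ∃ c, P a * P b = zs V c * P (a + b)
  comm : ∀ a b, P a * P b = zs V (sgU F (B a b)) * (P b * P a)
  span : Submodule.span F (Set.range fun a => (P a : V →ₗ[F] V)) = ⊤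

/-- normalising the system -/
def Nm (P : E → V ≃ₗ[F] V) (g : V ≃ₗ[F] V) : Prop := ∀ a, ∃ b c, g * P a * g⁻¹ = zs V c * P b

/-- scalar multiples of members -/
def Rz (P : E → V ≃ₗ[F] V) (g : V ≃ₗ[F] V) : Prop := ∃ a c, g = zs V c * P a

variable {B : LinearMap.BilinForm (ZMod 2) E} {P : E → V ≃ₗ[F] V} {a b : E} {c d : Fˣ} {g k : V ≃ₗ[F] V}

theorem Nm.mul (h : Nm P g) (h' : Nm P k) : Nm P (g * k) := fun a => by
  obtain ⟨b, c, h1⟩ := h' a
  obtain ⟨b', c', h2⟩ := h b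
  exact ⟨b', c * c', by
    rw [show g * k * P a * (g * k)⁻¹ = g * (k * P a * k⁻¹) * g⁻¹ by group, h1, zs_conj, h2, zs_zs]⟩

theorem Nm.zs (c : Fˣ) : Nm P (zs V c) := fun a => ⟨a, 1, by simp [← zs_comm]⟩

theorem Nm.conj (h : Nm P g) (h' : Rz P k) : Rz P (g * k * g⁻¹) := by
  obtain ⟨a, c, rfl⟩ := h'
  obtain ⟨b, d, h1⟩ := h a
  exact ⟨b, c * d, by rw [zs_conj, h1, zs_zs]⟩

theorem Rz.self (a : E) : Rz P (P a) := ⟨a, 1, by simp⟩

theorem Rz.zs_mul (h : Rz P g) (c : Fˣ) : Rz P (zs V c * g) := by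
  obtain ⟨a, d, rfl⟩ := h
  exact ⟨a, c * d, zs_zs ..⟩

namespace Pau

variable (h : Pau B P)
include h

theorem symm (a b : E) : B a b = B b a := by
  rw [← h.alt.neg_eq, neg_eq_of_add_eq_zero_left (z2_add_self _)]

theorem self (a : E) : B a a = 0 := h.alt a

theorem conj (a b : E) : P a * P b * (P a)⁻¹ = zs V (sgU F (B a b)) * P b := by
  rw [h.comm]; group

theorem sq (a : E) : ∃ c, P a * P a = zs V c := by
  simpa [e2_add_self, h.zero] using h.mul a a

theorem inv (a : E) : ∃ c, (P a)⁻¹ = zs V c * P a := by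
  obtain ⟨c, hc⟩ := h.sq a
  exact ⟨c⁻¹, by rw [map_inv, ← hc]; group⟩

theorem exists_one (ha : a ≠ 0) : ∃ b, B a b = 1 := by
  by_contra! H
  exact ha (h.nd a fun b => (z2_cases _).resolve_right (H b))

theorem zs_injective : Function.Injective (zs V (F := F)) := have := h.nt; zs_inj

theorem uniq (H : zs V c * P a = zs V d * P b) : a = b := e2_eq_of_add (h.nd _ fun e => by
  have := congrArg (fun x => P e * x * (P e)⁻¹) H
  simp only [zs_conj, h.conj] at this
  rw [zs_left, zs_left (sgU F (B e b)), H, mul_left_inj] at this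
  rw [map_add, LinearMap.add_apply, h.symm a, h.symm b, sgU_inj h.two (h.zs_injective this), z2_add_self])

theorem uniq' (H : zs V c * P a = zs V d * P b) : c = d := by
  obtain rfl := h.uniq H
  exact h.zs_injective (mul_right_cancel H)

theorem rz_mul (h1 : Rz P g) (h2 : Rz P k) : Rz P (g * k) := by
  obtain ⟨a, c, rfl⟩ := h1
  obtain ⟨b, d, rfl⟩ := h2
  obtain ⟨e, he⟩ := h.mul a b
  exact ⟨a + b, c * (d * e), by rw [mul_assoc, zs_left d, he, zs_zs, zs_zs, mul_assoc]⟩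

theorem rz_inv (h1 : Rz P g) : Rz P g⁻¹ := by
  obtain ⟨a, c, rfl⟩ := h1
  obtain ⟨e, he⟩ := h.inv a
  exact ⟨a, c⁻¹ * e, by rw [mul_inv_rev, ← map_inv, zs_comm, he, zs_zs]⟩

theorem rz_zs (c : Fˣ) : Rz P (zs V c) := ⟨0, c, by simp [h.zero]⟩

/-- the group generated by the system and the scalars -/
def RZ : Subgroup (V ≃ₗ[F] V) where
  carrier := {g | Rz P g}
  one_mem' := by simpa using h.rz_zs 1
  mul_mem' := h.rz_mul
  inv_mem' := h.rz_inv

theorem nm_P (a : E) : Nm P (P a) := fun b => ⟨b, _, h.conj a b⟩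

theorem nm_of_rz (h1 : Rz P g) : Nm P g := by
  obtain ⟨a, c, rfl⟩ := h1
  exact (Nm.zs c).mul (h.nm_P a)

theorem exists_act (hg : Nm P g) : ∃ φ : E →ₗ[ZMod 2] E, (∀ a b, B (φ a) (φ b) = B a b) ∧
    ∀ a, ∃ c, g * P a * g⁻¹ = zs V c * P (φ a) := by
  choose φ c hc using hg
  have h1 : ∀ a b, φ (a + b) = φ a + φ b := fun a b => by
    obtain ⟨d, hd⟩ := h.mul a b
    obtain ⟨e, he⟩ := h.mul (φ a) (φ b)
    have := congrArg (fun x => g * x * g⁻¹) hd
    simp only [zs_conj] at this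
    rw [← conj_mul, hc, hc, hc, mul_assoc, zs_left (c b), he, zs_zs, zs_zs, zs_zs] at this
    exact (h.uniq this).symm
  refine ⟨(AddMonoidHom.mk' φ h1).toZModLinearMap 2, fun a b => sgU_inj h.two (h.zs_injective ?_),
    fun a => ⟨_, hc a⟩⟩
  have := congrArg (fun x => g * x * g⁻¹) (h.conj a b)
  simp only [zs_conj] at this
  rw [← conj_mul, ← conj_mul, ← conj_inv, hc, hc, conj_zs, zs_conj, h.conj, zs_left, mul_left_inj] at this
  exact this

theorem inj_of_iso {φ : E →ₗ[ZMod 2] E} (H : ∀ a b, B (φ a) (φ b) = B a b) : Function.Injective φ :=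
  (injective_iff_map_eq_zero φ).mpr fun a ha => h.nd a fun b => by simp [← H, ha]

theorem sign_of_fix (H : g * P a * g⁻¹ = zs V c * P a) : ∃ t, c = sgU F t := by
  obtain ⟨d, hd⟩ := h.sq a
  have := congrArg (fun x => g * x * g⁻¹) hd
  rw [← conj_mul, H, mul_assoc, zs_left c (P a), hd, zs_comm d g, mul_inv_cancel_right, zs_zs, mul_eq_right,
    ← map_one (zs V)] at this
  have e := congrArg Units.val (h.zs_injective this)
  rcases mul_self_eq_one_iff.mp e with e | e
  exacts [⟨0, Units.ext (by simpa using e)⟩, ⟨1, Units.ext (by simpa using e)⟩]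

theorem trE_P (ha : a ≠ 0) : trE (P a) = 0 := by
  obtain ⟨b, hb⟩ := h.exists_one ha
  exact trE_eq_zero h.two (g := P b) (by rw [h.conj, h.symm, hb, sgU_one])

theorem scalar_of_comm (H : ∀ a, g * P a = P a * g) : ∃ c, g = zs V c := by
  have h1 : (g : End F V) ∈ Set.center (End F V) := Semigroup.mem_center_iff.mpr fun X => by
    induction (h.span ▸ Submodule.mem_top : X ∈ _) using Submodule.span_induction with
    | mem x hx => obtain ⟨a, rfl⟩ := hx; exact (congrArg LinearEquiv.toLinearMap (H a)).symm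
    | zero => simp
    | add x y _ _ h1 h2 => rw [add_mul, mul_add, h1, h2]
    | smul c x _ h1 => rw [smul_mul_assoc, mul_smul_comm, h1]
  obtain ⟨c, hc, h2⟩ := End.mem_center_iff.mp h1
  have h3 : ∀ v, g v = c • v := fun v => LinearMap.congr_fun h2 v
  have := h.nt
  obtain ⟨v, hv⟩ := exists_ne (0 : V)
  exact ⟨Units.mk0 c fun e => hv (g.injective (by simp [h3, e])), LinearEquiv.ext h3⟩

variable [Finite E]

theorem nm_inv (hg : Nm P g) : Nm P g⁻¹ := fun b => by
  obtain ⟨φ, h1, h2⟩ := h.exists_act hg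
  obtain ⟨a, rfl⟩ := Finite.surjective_of_injective (h.inj_of_iso h1) b
  obtain ⟨c, hc⟩ := h2 a
  exact ⟨a, c⁻¹, by rw [map_inv, eq_inv_mul_iff_mul_eq, ← zs_conj, ← hc]; group⟩

/-- the normaliser -/
def N : Subgroup (V ≃ₗ[F] V) where
  carrier := {g | Nm P g}
  one_mem' := by simpa using Nm.zs (P := P) 1
  mul_mem' := Nm.mul
  inv_mem' := h.nm_inv

theorem exists_dual (φ : Dual (ZMod 2) E) : ∃ b, B b = φ :=
  have := Module.Finite.of_finite (R := ZMod 2) (M := E)
  (LinearMap.injective_iff_surjective_of_finrank_eq_finrank (f := B) Subspace.dual_finrank_eq.symm).mp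
    ((injective_iff_map_eq_zero B).mpr fun a ha => h.nd a fun b => by simp [ha]) φ

theorem exists_sep {W : Submodule (ZMod 2) E} (ha : a ∉ W) : ∃ b, B b a = 1 ∧ ∀ w ∈ W, B b w = 0 := by
  obtain ⟨φ, h1, h2⟩ := exists_dual_one ha
  obtain ⟨b, rfl⟩ := h.exists_dual φ
  exact ⟨b, h1, h2⟩

theorem exists_one_zero (h1 : a ≠ 0) (h2 : a ≠ b) : ∃ e, B e a = 1 ∧ B e b = 0 := by
  obtain ⟨e, h3, h4⟩ := h.exists_sep (W := (ZMod 2) ∙ b) (a := a) (by simp [e2_mem_span, h1, h2])
  exact ⟨e, h3, h4 b (Submodule.mem_span_singleton_self b)⟩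

theorem exists_one_one (h1 : a ≠ 0) (h2 : b ≠ 0) : ∃ e, B e a = 1 ∧ B e b = 1 := by
  by_cases h3 : a = b
  · obtain ⟨e, he⟩ := h.exists_one h1
    exact ⟨e, by rwa [h.symm], by rwa [h.symm, ← h3]⟩
  obtain ⟨e, a1, a2⟩ := h.exists_one_zero h1 h3
  obtain ⟨f, a3, a4⟩ := h.exists_one_zero h2 (Ne.symm h3)
  exact ⟨e + f, by simp [*], by simp [*]⟩

variable [FiniteDimensional F V]

omit [Finite E] in
theorem exists_trE (g : V ≃ₗ[F] V) : ∃ a, trE (P a * g) ≠ 0 := by
  by_contra! H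
  have h1 : ∀ X : End F V, LinearMap.trace F V (X * g) = 0 := fun X => by
    induction (h.span ▸ Submodule.mem_top : X ∈ _) using Submodule.span_induction with
    | mem x hx => obtain ⟨a, rfl⟩ := hx; exact H a
    | zero => simp
    | add x y _ _ h1 h2 => rw [add_mul, map_add, h1, h2, add_zero]
    | smul c x _ h1 => rw [smul_mul_assoc, map_smul, h1, smul_zero]
  have := h.nt
  obtain ⟨v, hv⟩ := exists_ne (0 : V)
  obtain ⟨φ, h2, -⟩ := exists_dual_one (W := (⊥ : Submodule F V)) (v := v) hv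
  have h3 := h1 (φ.smulRight v * (g⁻¹ : V ≃ₗ[F] V))
  rw [mul_assoc, ← LinearEquiv.coe_toLinearMap_mul, inv_mul_cancel, LinearEquiv.coe_toLinearMap_one,
    ← Module.End.one_eq_id, mul_one, LinearMap.trace_smulRight, h2] at h3
  exact one_ne_zero h3

omit [Finite E] in
theorem rz_of_fix (H : ∀ a, ∃ c, g * P a * g⁻¹ = zs V c * P a) : Rz P g := by
  obtain ⟨b, hb⟩ := h.exists_trE g
  obtain ⟨c, hc⟩ := h.scalar_of_comm (g := P b * g) fun a => by
    obtain ⟨c, hc⟩ := H a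
    have h1 : P b * g * P a = zs V (c * sgU F (B b a)) * (P a * (P b * g)) := by
      rw [mul_assoc, mul_inv_eq_iff_eq_mul.mp hc, mul_assoc, zs_left, ← mul_assoc (P b), h.comm, mul_assoc,
        zs_zs, mul_assoc]
    have h2 := trE_conj (P a)⁻¹ (P b * g)
    rw [inv_inv, mul_assoc, h1, zs_left, inv_mul_cancel_left, trE_zs, mul_eq_right₀ hb, Units.val_eq_one] at h2
    rw [h1, h2, map_one, one_mul]
  rw [← mul_inv_cancel_left (P b)⁻¹ g, inv_inv, hc]
  exact h.rz_mul (h.rz_inv (Rz.self b)) (h.rz_zs c)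

theorem exists_anti (hg : Nm P g) (ht : trE g = 0) : ∃ b, g * P b * g⁻¹ = zs V (-1) * P b := by
  by_contra! H
  obtain ⟨φ, h1, h2⟩ := h.exists_act hg
  obtain ⟨e, he⟩ := h.exists_trE g
  by_cases h3 : e ∈ LinearMap.range (φ + LinearMap.id)
  · obtain ⟨y, rfl⟩ := h3
    obtain ⟨c, hc⟩ := h2 y
    obtain ⟨d, hd⟩ := h.inv y
    obtain ⟨f, hf⟩ := h.mul y (φ y)
    have := trE_conj (P y)⁻¹ g
    rw [inv_inv, mul_assoc, mul_inv_eq_iff_eq_mul.mp hc, hd, mul_assoc, mul_assoc, zs_left c,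
      ← mul_assoc (P y), hf, mul_assoc, trE_zs, trE_zs, trE_zs, ht, add_comm] at this
    exact he (by simpa using this)
  obtain ⟨b, h4, h5⟩ := h.exists_sep h3
  have h6 : φ b = b := e2_eq_of_add (h.nd _ fun y => by
    obtain ⟨y, rfl⟩ := Finite.surjective_of_injective (h.inj_of_iso h1) y
    simpa [h1, add_comm] using h5 _ ⟨y, rfl⟩)
  obtain ⟨c, hc⟩ := h2 b
  rw [h6] at hc
  obtain ⟨t, rfl⟩ := h.sign_of_fix hc
  rcases z2_cases t with rfl | rfl
  · refine he (trE_eq_zero h.two (g := P b) ?_)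
    rw [sgU_zero, map_one, one_mul, mul_inv_eq_iff_eq_mul] at hc
    rw [← mul_assoc, h.comm, h4, sgU_one, mul_assoc, mul_assoc, mul_assoc, ← mul_assoc (P b), ← hc]
    group
  · exact H b (by simpa using hc)

end Pau

end Cfsg.Agent.H12
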