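import Mathlib
import Cfsg.Agent.H12.PxB

/-!
Pauli systems: passage to the projective group, square roots of the members.
-/

set_option autoImplicit false

namespace Cfsg.Agent.H12

open Module

variable {F V : Type*} [Field F] [AddCommGroup V] [Module F V] {E : Type*} [AddCommGroup E]
  [Module (ZMod 2) E] {B : LinearMap.BilinForm (ZMod 2) E} {P : E → V ≃ₗ[F] V} {a b x u : E} {c d j : Fˣ}
  {g k y : V ≃ₗ[F] V} {M : Subgroup (V ≃ₗ[F] V)}

instance instNormalZsRange : (zs V (F := F)).range.Normal :=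
  ⟨by rintro _ ⟨c, rfl⟩ g; exact ⟨c, by rw [zs_comm, mul_inv_cancel_right]⟩⟩

/-- projectivisation of a subgroup -/
abbrev PQ (M : Subgroup (V ≃ₗ[F] V)) := M ⧸ (zs V).range.subgroupOf M

theorem pq_eq {g k : M} : (g : PQ M) = k ↔ ∃ c, g.1 = zs V c * k.1 := by
  rw [eq_comm, QuotientGroup.eq, Subgroup.mem_subgroupOf]
  exact exists_congr fun c => by
    rw [← zs_comm, eq_comm]; exact inv_mul_eq_iff_eq_mul

namespace Pau

variable (h : Pau B P) (hP : ∀ a, P a ∈ M)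
include h

/-- image in the projective group -/
def S (M : Subgroup (V ≃ₗ[F] V)) : Subgroup (PQ M) := (h.RZ.subgroupOf M).map (QuotientGroup.mk' _)

theorem mk_mem_S {g : M} : (g : PQ M) ∈ h.S M ↔ Rz P g.1 :=
  ⟨fun ⟨_, h1, h2⟩ => (pq_eq.mp h2.symm).elim fun c hc => hc ▸ Rz.zs_mul h1 c, fun H => ⟨g, H, rfl⟩⟩

include hP in
theorem mem_S {s : PQ M} : s ∈ h.S M ↔ ∃ a, ((⟨P a, hP a⟩ : M) : PQ M) = s := by
  obtain ⟨g, rfl⟩ := QuotientGroup.mk_surjective s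
  rw [h.mk_mem_S]
  exact exists_congr fun a => by rw [eq_comm, pq_eq]

theorem eps_add (a b : E) : ((⟨P (a + b), hP _⟩ : M) : PQ M) =
    ((⟨P a, hP a⟩ : M) : PQ M) * ((⟨P b, hP b⟩ : M) : PQ M) :=
  (pq_eq.mpr (h.mul a b)).symm

theorem eps_inj : Function.Injective fun a => ((⟨P a, hP a⟩ : M) : PQ M) := fun a b H => by
  obtain ⟨c, hc⟩ := pq_eq.mp H
  exact h.uniq (c := 1) (by simpa using hc)

variable [Finite E]

include hP in
theorem cjP_S {g : M} : cjP (g : PQ M) (h.S M) = h.S M ↔ Nm P g.1 := by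
  refine ⟨fun H a => ?_, fun H => Subgroup.ext fun s => ?_⟩
  · have := H ▸ conj_mem_cjP ((h.mem_S hP).mpr ⟨a, rfl⟩) (g : PQ M)
    exact (h.mk_mem_S (g := g * ⟨P a, hP a⟩ * g⁻¹)).mp this
  obtain ⟨k, rfl⟩ := QuotientGroup.mk_surjective s
  rw [mem_cjP]
  refine (h.mk_mem_S (g := g⁻¹ * k * g)).trans (Iff.trans ⟨fun H' => ?_, fun H' => ?_⟩ h.mk_mem_S.symm)
  · simpa [mul_assoc] using H.conj H'
  · simpa using (h.nm_inv H).conj H'

theorem nm_of_cent (hP : ∀ a, P a ∈ M) (hC : ∀ k ∈ M, k * P a = P a * k → Nm P k) (ha : a ≠ 0)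
    (hg : g ∈ M) (H : g * P a * g⁻¹ = zs V c * P a) : Nm P g := by
  obtain ⟨t, rfl⟩ := h.sign_of_fix H
  obtain ⟨b, hb⟩ : ∃ b, B b a = t := by
    rcases z2_cases t with rfl | rfl
    exacts [⟨0, by simp⟩, (h.exists_one ha).imp fun b hb => by rwa [h.symm]]
  have := hC _ (mul_mem (hP b) hg) (by
    rw [mul_assoc, mul_inv_eq_iff_eq_mul.mp H, mul_assoc, zs_left, ← mul_assoc (P b), h.comm, hb, mul_assoc,
      zs_zs, sgU_mul_self, map_one, one_mul, mul_assoc])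
  simpa using (h.nm_inv (h.nm_P b)).mul this

include hP in
theorem fu (hC : ∀ a ≠ 0, ∀ k ∈ M, k * P a = P a * k → Nm P k)
    (hD : ∀ k ∈ M, ∀ a, Nm P (k * P a * k⁻¹) → Rz P (k * P a * k⁻¹)) : FU (h.S M) := by
  refine ⟨fun e he => ?_, fun e he h1 g hg => ?_, fun e he g hg => ?_⟩
  · obtain ⟨a, rfl⟩ := (h.mem_S hP).mp he
    rw [← h.eps_add, e2_add_self]
    exact pq_eq.mpr ⟨1, by simp [h.zero]⟩
  · obtain ⟨a, rfl⟩ := (h.mem_S hP).mp he
    obtain ⟨g, rfl⟩ := QuotientGroup.mk_surjective g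
    obtain ⟨c, hc⟩ := pq_eq.mp hg
    exact (h.cjP_S hP).mpr (h.nm_of_cent hP (hC a fun e => h1 (pq_eq.mpr ⟨1, by simp [e, h.zero]⟩))
      (fun e => h1 (pq_eq.mpr ⟨1, by simp [e, h.zero]⟩)) g.2 (c := c)
      (mul_inv_eq_iff_eq_mul.mpr (hc.trans (mul_assoc ..).symm)))
  · obtain ⟨a, rfl⟩ := (h.mem_S hP).mp he
    obtain ⟨g, rfl⟩ := QuotientGroup.mk_surjective g
    rw [← QuotientGroup.mk_inv, ← QuotientGroup.mk_mul, ← QuotientGroup.mk_mul] at hg ⊢
    rw [h.cjP_S hP] at hg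
    exact h.mk_mem_S.mpr (hD g g.2 a hg)

theorem exists_perp (W U : Submodule (ZMod 2) E) (H : finrank (ZMod 2) W + finrank (ZMod 2) U <
    finrank (ZMod 2) E) : ∃ b, b ∉ U ∧ ∀ w ∈ W, B w b = 0 := by
  have := Module.Finite.of_finite (R := ZMod 2) (M := E)
  have h1 := LinearMap.finrank_range_add_finrank_ker (W.subtype.dualMap ∘ₗ B)
  have h2 := (LinearMap.range (W.subtype.dualMap ∘ₗ B)).finrank_le
  rw [Subspace.dual_finrank_eq] at h2
  obtain ⟨b, h3, h4⟩ := SetLike.not_le_iff_exists.mp fun H : LinearMap.ker (W.subtype.dualMap ∘ₗ B) ≤ U =>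
    absurd (Submodule.finrank_mono H) (by omega)
  exact ⟨b, h4, fun w hw => by rw [h.symm]; exact LinearMap.congr_fun h3 ⟨w, hw⟩⟩

theorem exists_perp_one (h3 : 3 ≤ finrank (ZMod 2) E) (x : E) : ∃ u, u ≠ 0 ∧ u ≠ x ∧ B x u = 0 := by
  have : finrank (ZMod 2) ((ZMod 2) ∙ x) ≤ 1 := (finrank_span_le_card ({x} : Set E)).trans (by simp)
  obtain ⟨b, h1, h2⟩ := h.exists_perp ((ZMod 2) ∙ x) ((ZMod 2) ∙ x) (by omega)
  rw [e2_mem_span, not_or] at h1
  exact ⟨b, h1.1, h1.2, h2 x (Submodule.mem_span_singleton_self x)⟩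

include hP in
theorem nm_of_fu [Finite V] (H : FU (h.S M)) (h3 : 3 ≤ finrank (ZMod 2) E) (hg : g ∈ M) : Nm P g := by
  have : Finite (V ≃ₗ[F] V) := Finite.of_injective _ DFunLike.coe_injective
  obtain ⟨a, a1, -, -⟩ := h.exists_perp_one h3 0
  obtain ⟨b, a2⟩ := h.exists_one a1
  obtain ⟨d, a3, a4, a5⟩ := h.exists_perp_one h3 a
  refine (h.cjP_S hP (g := ⟨g, hg⟩)).mp (H.normal h.alt (h.eps_add hP) (h.eps_inj hP) (fun _ => h.mem_S hP)
    (fun g hg a b a' b' h1 h2 => ?_) (a := a) (b := b) (by simp [a2]) a1 a3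
      (fun e => a4 (e2_eq_of_add e).symm) a5 _)
  obtain ⟨g, rfl⟩ := QuotientGroup.mk_surjective g
  obtain ⟨φ, b1, b2⟩ := h.exists_act ((h.cjP_S hP).mp hg)
  obtain ⟨c, hc⟩ := pq_eq.mp h1
  obtain ⟨c', hc'⟩ := pq_eq.mp h2
  obtain ⟨d, hd⟩ := b2 a
  obtain ⟨d', hd'⟩ := b2 b
  rw [← b1 a, h.uniq (hc.symm.trans hd), h.uniq (hc'.symm.trans hd')]

theorem exists_comm (h3 : 3 ≤ finrank (ZMod 2) E) (hg : Nm P g) (H : g * g = zs V c) :
    ∃ b, b ≠ 0 ∧ g * P b = P b * g := by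
  have := Module.Finite.of_finite (R := ZMod 2) (M := E)
  obtain ⟨φ, -, h2⟩ := h.exists_act hg
  have h4 : LinearMap.range (φ + LinearMap.id) ≤ LinearMap.ker (φ + LinearMap.id) := by
    rintro _ ⟨a, rfl⟩
    obtain ⟨d, hd⟩ := h2 a
    obtain ⟨e, he⟩ := h2 (φ a)
    have : zs V 1 * P a = zs V (d * e) * P (φ (φ a)) := by
      rw [← zs_zs, ← he, ← zs_conj, ← hd, show g * (g * P a * g⁻¹) * g⁻¹ = g * g * P a * (g * g)⁻¹ by group,
        H, map_one, one_mul, ← zs_comm, mul_inv_cancel_right]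
    simp [← h.uniq this, add_comm a, e2_add_self]
  have h5 := LinearMap.finrank_range_add_finrank_ker (φ + LinearMap.id)
  have h6 := Submodule.finrank_mono h4
  have h7 : ∀ x, ∃ b, φ b = b ∧ b ≠ 0 ∧ b ≠ x := fun x => by
    have : finrank (ZMod 2) ((ZMod 2) ∙ x) ≤ 1 := (finrank_span_le_card ({x} : Set E)).trans (by simp)
    obtain ⟨b, b1, b2⟩ := SetLike.not_le_iff_exists.mp
      fun H : LinearMap.ker (φ + LinearMap.id) ≤ (ZMod 2) ∙ x => absurd (Submodule.finrank_mono H) (by omega)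
    exact ⟨b, e2_eq_of_add b1, by simpa [e2_mem_span] using b2⟩
  have h8 : ∀ b, φ b = b → g * P b = P b * g ∨ g * P b * g⁻¹ = zs V (-1) * P b := fun b hb => by
    obtain ⟨d, hd⟩ := h2 b
    rw [hb] at hd
    obtain ⟨t, rfl⟩ := h.sign_of_fix hd
    rcases z2_cases t with rfl | rfl
    exacts [Or.inl (by simpa [mul_inv_eq_iff_eq_mul] using hd), Or.inr (by simpa using hd)]
  obtain ⟨a, a1, a2, -⟩ := h7 0
  obtain ⟨b, b1, b2, b3⟩ := h7 a
  rcases h8 a a1 with a3 | a3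
  · exact ⟨a, a2, a3⟩
  rcases h8 b b1 with b4 | b4
  · exact ⟨b, b2, b4⟩
  obtain ⟨e, he⟩ := h.mul a b
  refine ⟨a + b, fun e => b3 (e2_eq_of_add e).symm, mul_inv_eq_iff_eq_mul.mp (mul_left_cancel (a := zs V e) ?_)⟩
  rw [← zs_conj, ← he, ← conj_mul, a3, b4, mul_assoc, zs_left _ (P a), zs_zs]; simp

end Pau

/-- the map `1 + y` -/
noncomputable def hS (y : V ≃ₗ[F] V) : V ≃ₗ[F] V :=
  open Classical in if h : Function.Bijective (LinearMap.id + y.toLinearMap : V →ₗ[F] V) then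
    .ofBijective _ h else 1

theorem apply_apply_of_sq (hy : y * y = zs V c) (v : V) : y (y v) = (c : F) • v := LinearEquiv.congr_fun hy v

theorem hS_apply (h2 : (2 : F) ≠ 0) (hy : y * y = zs V (-1)) (v : V) : hS y v = v + y v := by
  have e := apply_apply_of_sq hy
  rw [hS, dif_pos]
  · rfl
  refine Function.bijective_iff_has_inverse.mpr ⟨fun v => (2 : F)⁻¹ • (v - y v), fun v => ?_, fun v => ?_⟩ <;>
    simp [e] <;> match_scalars <;> field_simp <;> ring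

theorem sq_conj (hy : y * y = zs V c) (g : V ≃ₗ[F] V) : g * y * g⁻¹ * (g * y * g⁻¹) = zs V c := by
  rw [conj_mul, hy, zs_comm, mul_inv_cancel_right]

theorem conj_hS (h2 : (2 : F) ≠ 0) (hy : y * y = zs V (-1)) (g : V ≃ₗ[F] V) :
    g * hS y * g⁻¹ = hS (g * y * g⁻¹) := LinearEquiv.ext fun v => by
  rw [hS_apply h2 (sq_conj hy g)]; simp [hS_apply h2 hy]

theorem comm_hS (h2 : (2 : F) ≠ 0) (hy : y * y = zs V (-1)) (H : g * y = y * g) : g * hS y = hS y * g := by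
  rw [← mul_inv_eq_iff_eq_mul, conj_hS h2 hy, H, mul_inv_cancel_right]

theorem hS_conj (h2 : (2 : F) ≠ 0) (hy : y * y = zs V (-1)) (H : y * g = zs V (-1) * (g * y)) :
    hS y * g * (hS y)⁻¹ = y * g := mul_inv_eq_iff_eq_mul.mpr (LinearEquiv.ext fun v => by
  have e : ∀ v, y (g v) = -g (y v) := fun v => by simpa using LinearEquiv.congr_fun H v
  simp [hS_apply h2 hy, e, apply_apply_of_sq hy, add_comm])

theorem sq_zs_mul (hj : j * j = -1) (hy : y * y = 1) : zs V j * y * (zs V j * y) = zs V (-1) := by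
  rw [mul_assoc, zs_left _ y, zs_zs, hy, hj, mul_one]

theorem Pau.rz_of_hS (h : Pau B P) (hy : y * y = zs V (-1)) (H : y * P b * y⁻¹ = zs V (-1) * P b)
    (hN : Nm P (hS y)) : Rz P y := by
  have := hN.conj (Rz.self b)
  rw [hS_conj h.two hy (by rw [← mul_assoc, ← H]; group)] at this
  simpa using h.rz_mul this (h.rz_inv (Rz.self b))

/-- Pauli system of involutions with square roots in `M` -/
structure PL (B : LinearMap.BilinForm (ZMod 2) E) (P : E → V ≃ₗ[F] V) (j : Fˣ)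
    (M : Subgroup (V ≃ₗ[F] V)) : Prop extends Pau B P where
  jj : j * j = -1
  sq1 : ∀ a, P a * P a = 1
  zm : ∀ c, zs V c ∈ M
  pm : ∀ a, P a ∈ M
  hm : ∀ a, hS (zs V j * P a) ∈ M

namespace PL

variable (h : PL B P j M)
include h

theorem sqY (a : E) : zs V j * P a * (zs V j * P a) = zs V (-1) := sq_zs_mul h.jj (h.sq1 a)

theorem G_comm (H : B a b = 0) : P b * hS (zs V j * P a) = hS (zs V j * P a) * P b :=
  comm_hS h.two (h.sqY a) (by rw [zs_left, h.comm, h.symm, H]; simp [mul_assoc])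

theorem G_anti (H : B a b = 1) : ∃ c, hS (zs V j * P a) * P b * (hS (zs V j * P a))⁻¹ = zs V c * P (a + b) := by
  obtain ⟨c, hc⟩ := h.mul a b
  exact ⟨j * c, by rw [hS_conj h.two (h.sqY a) (by rw [mul_assoc, h.comm, H, sgU_one, zs_left, zs_left j (P b)]),
    mul_assoc, hc, zs_zs]⟩

theorem G_nm (a : E) : Nm P (hS (zs V j * P a)) := fun b => by
  rcases z2_cases (B a b) with H | H
  exacts [⟨b, 1, by rw [← h.G_comm H]; simp⟩, ⟨_, h.G_anti H⟩]

theorem hS_mem (hk : k ∈ M) (a : E) : hS (zs V j * (k * P a * k⁻¹)) ∈ M := by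
  rw [← zs_conj, ← conj_hS h.two (h.sqY a)]
  exact mul_mem (mul_mem hk (h.hm a)) (inv_mem hk)

variable [Finite E] [FiniteDimensional F V]

theorem rz_of_nm (H : Nm P (k * P a * k⁻¹)) (H' : Nm P (hS (zs V j * (k * P a * k⁻¹)))) :
    Rz P (k * P a * k⁻¹) := by
  by_cases ha : a = 0
  · simpa [ha, h.zero] using h.rz_zs 1
  obtain ⟨b, hb⟩ := h.exists_anti H (by rw [trE_conj, h.trE_P ha])
  have := (h.rz_of_hS (sq_zs_mul h.jj (by rw [conj_mul, h.sq1]; simp)) (by rw [conj_zs, hb]) H').zs_mul j⁻¹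
  rwa [zs_zs, inv_mul_cancel, map_one, one_mul] at this

theorem nm_of_cent_le [Finite V] (h3 : 3 ≤ finrank (ZMod 2) E)
    (hC : ∀ a ≠ 0, ∀ k ∈ M, k * P a = P a * k → Nm P k) (hg : g ∈ M) : Nm P g := by
  refine h.nm_of_fu h.pm (h.fu h.pm hC fun k hk a H => h.rz_of_nm H ?_) h3 hg
  have e : k * P a * k⁻¹ * (k * P a * k⁻¹) = 1 := by rw [conj_mul, h.sq1]; simp
  obtain ⟨b, b1, b2⟩ := h.exists_comm h3 H (c := 1) (by rw [e, map_one])
  exact hC b b1 _ (h.hS_mem hk a) (comm_hS h.two (sq_zs_mul h.jj e) (by rw [zs_left, ← b2, ← mul_assoc])).symm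

end PL

end Cfsg.Agent.H12
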