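import Mathlib
import Cfsg.Agent.H12.PxC

/-!
Pauli systems: centralisers of members.
-/

set_option autoImplicit false

namespace Cfsg.Agent.H12

open Module

variable {F V : Type*} [Field F] [AddCommGroup V] [Module F V] {E : Type*} [AddCommGroup E]
  [Module (ZMod 2) E] {B : LinearMap.BilinForm (ZMod 2) E} {P : E → V ≃ₗ[F] V} {a b x y u : E} {c d j : Fˣ}
  {g k : V ≃ₗ[F] V} {M : Subgroup (V ≃ₗ[F] V)} {v : V}

theorem e2_mem_span_pair {a b c : E} : c ∈ Submodule.span (ZMod 2) {a, b} ↔ c = 0 ∨ c = a ∨ c = b ∨ c = a + b := by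
  rw [Submodule.mem_span_pair]
  refine ⟨fun ⟨s, t, h⟩ => ?_, ?_⟩
  · rcases z2_cases s with rfl | rfl <;> rcases z2_cases t with rfl | rfl <;> simp [← h]
  · rintro (rfl | rfl | rfl | rfl)
    exacts [⟨0, 0, by simp⟩, ⟨1, 0, by simp⟩, ⟨0, 1, by simp⟩, ⟨1, 1, by simp⟩]

theorem e2_cancel (a b : E) : a + (a + b) = b := by rw [← add_assoc, e2_add_self, zero_add]

theorem frk_pair {K W : Type*} [Field K] [AddCommGroup W] [Module K W] (x y : W) :
    finrank K (Submodule.span K {x, y}) ≤ 2 := by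
  classical exact (finrank_span_le_card ({x, y} : Set W)).trans (by simpa using Finset.card_le_two)

theorem frk_triple {K W : Type*} [Field K] [AddCommGroup W] [Module K W] (x y z : W) :
    finrank K (Submodule.span K {x, y, z}) ≤ 3 := by
  classical exact (finrank_span_le_card ({x, y, z} : Set W)).trans (by simpa using Finset.card_le_three)

theorem ext_eig (h2 : (2 : F) ≠ 0) {s : V ≃ₗ[F] V} (hs : s * s = 1) {W : Type*} [AddCommGroup W] [Module F W]
    {f f' : V →ₗ[F] W} (h1 : ∀ v, s v = v → f v = f' v) (h3 : ∀ v, s v = -v → f v = f' v) : f = f' :=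
  LinearMap.ext fun v => by
    have e : ∀ v, s (s v) = v := fun v => LinearEquiv.congr_fun hs v
    have a1 := h1 (v + s v) (by simp [e, add_comm])
    have a2 := h3 (v - s v) (by simp [e])
    simp only [map_add, map_sub] at a1 a2
    exact smul_right_injective W h2 (by linear_combination (norm := module) a1 + a2)

theorem ext_eig' (h2 : (2 : F) ≠ 0) {s : V ≃ₗ[F] V} (hs : s * s = 1) (h1 : ∀ v, s v = v → g v = k v)
    (h3 : ∀ v, s v = -v → g v = k v) : g = k :=
  LinearEquiv.toLinearMap_injective (ext_eig h2 hs h1 h3)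

theorem comm_apply {s : V ≃ₗ[F] V} (H : g * s = s * g) (v : V) : g (s v) = s (g v) := LinearEquiv.congr_fun H v

theorem comm_inv {G : Type*} [Group G] {g s : G} (H : g * s = s * g) : g⁻¹ * s = s * g⁻¹ :=
  (show Commute g s from H).inv_left

theorem eq_zero_of_hS (h2 : (2 : F) ≠ 0) {t : ZMod 2} (H : v + g v = (sgU F t : F) • (v - g v)) : v = 0 := by
  rcases z2_cases t with rfl | rfl
  · exact g.injective (smul_right_injective V h2 (by
      simp at H; simp only [map_zero]; linear_combination (norm := module) H))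
  · exact smul_right_injective V h2 (by simp at H; linear_combination (norm := module) H)

theorem hS_neg (h2 : (2 : F) ≠ 0) (hy : g * g = zs V (-1)) :
    hS (zs V (-1) * g) * hS g = zs V (Units.mk0 2 h2) := LinearEquiv.ext fun v => by
  have : zs V (-1) * g * (zs V (-1) * g) = zs V (-1) := by rw [mul_assoc, zs_left _ g, zs_zs, hy]; simp
  simp [hS_apply h2 this, hS_apply h2 hy, apply_apply_of_sq hy, two_smul]

namespace Pau

variable (h : Pau B P)
include h

theorem comm_app (a b : E) (v : V) : P a (P b v) = (sgU F (B a b) : F) • P b (P a v) :=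
  LinearEquiv.congr_fun (h.comm a b) v

theorem comm0 (H : B a b = 0) : P a * P b = P b * P a := by simp [h.comm a b, H]

theorem perp_of_comm (H : zs V c * P a * P b = P b * (zs V c * P a)) : B a b = 0 := by
  rw [zs_left, mul_assoc, mul_right_inj, h.comm, mul_eq_right, ← map_one (zs V), ← sgU_zero] at H
  exact sgU_inj h.two (h.zs_injective H)

theorem conj_comm (H : k * P x = P x * k) (y : E) : P y * k * (P y)⁻¹ * P x = P x * (P y * k * (P y)⁻¹) := by
  have : P x = zs V (sgU F (B y x)) * (P y * P x * (P y)⁻¹) := by rw [h.conj, zs_zs, sgU_mul_self]; simp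
  rw [this, zs_left, mul_assoc (zs V _), conj_mul, conj_mul, H]

variable [Finite E]

theorem exists_three (a1 : a ≠ 0) (a2 : a ≠ x) (b1 : b ≠ 0) (b2 : b ≠ x) :
    ∃ e, B e x = 0 ∧ B e a = 1 ∧ B e b = 1 := by
  by_cases H : a = b ∨ a = x + b
  · obtain ⟨e, h1, h2⟩ := h.exists_one_zero a1 a2
    exact ⟨e, h2, h1, by rcases H with rfl | rfl <;> simp_all⟩
  rw [not_or] at H
  obtain ⟨e, h1, h2⟩ := h.exists_sep (W := Submodule.span _ {x, b}) (a := a) (by simp [e2_mem_span_pair, *])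
  obtain ⟨f, h3, h4⟩ := h.exists_sep (W := Submodule.span _ {x, a}) (a := b) (by
    simp only [e2_mem_span_pair, not_or]
    exact ⟨b1, b2, Ne.symm H.1, fun e => H.2 (by rw [e, e2_cancel])⟩)
  simp only [e2_mem_span_pair, forall_eq_or_imp, forall_eq] at h2 h4
  exact ⟨e + f, by simp [*], by simp [*], by simp [*]⟩

theorem exists_vals (h1 : x ≠ 0) (h2 : y ≠ 0) (h3 : x ≠ y) (s t : ZMod 2) : ∃ e, B e x = s ∧ B e y = t := by
  obtain ⟨e, a1, a2⟩ := h.exists_one_zero h1 h3
  obtain ⟨f, a3, a4⟩ := h.exists_one_zero h2 h3.symm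
  exact ⟨s • e + t • f, by simp [*], by simp [*]⟩

theorem exists_eig (hx : P x * P x = 1) (hy : P y * P y = 1) (h1 : x ≠ 0) (h2 : y ≠ 0) (h3 : x ≠ y)
    (H : B x y = 0) (s t : ZMod 2) : ∃ v, v ≠ 0 ∧ P x v = (sgU F s : F) • v ∧ P y v = (sgU F t : F) • v := by
  have := h.nt
  obtain ⟨v, hv⟩ := exists_ne (0 : V)
  have e : ∀ {g : V ≃ₗ[F] V}, g * g = 1 → ∀ v ≠ 0, ∃ t, v + (sgU F t : F) • g v ≠ 0 ∧
      g (v + (sgU F t : F) • g v) = (sgU F t : F) • (v + (sgU F t : F) • g v) := fun {g} hg v hv => by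
    have e : ∀ v, g (g v) = v := fun v => LinearEquiv.congr_fun hg v
    by_cases H : v + g v = 0
    · exact ⟨1, fun H' => hv (smul_right_injective V h.two (by
        simp at H'; linear_combination (norm := module) H + H')), by simp [e]; abel⟩
    · exact ⟨0, by simpa using H, by simp [e, add_comm]⟩
  obtain ⟨s', a1, a2⟩ := e hx v hv
  generalize v + (sgU F s' : F) • P x v = w at a1 a2
  obtain ⟨t', a3, a4⟩ := e hy w a1
  have a5 : P x (w + (sgU F t' : F) • P y w) = (sgU F s' : F) • (w + (sgU F t' : F) • P y w) := by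
    rw [map_add, map_smul, comm_apply (h.comm0 H), a2, map_smul, smul_comm, smul_add]
  obtain ⟨f, b1, b2⟩ := h.exists_vals h1 h2 h3 (s + s') (t + t')
  refine ⟨P f _, (P f).map_ne_zero_iff.mpr a3, ?_, ?_⟩
  · rw [h.comm_app, a5, h.symm, b1, map_smul, smul_smul, ← Units.val_mul, ← sgU_add, add_assoc, z2_add_self,
      add_zero]
  · rw [h.comm_app, a4, h.symm, b2, map_smul, smul_smul, ← Units.val_mul, ← sgU_add, add_assoc, z2_add_self,
      add_zero]

end Pau

namespace PL

variable (h : PL B P j M)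
include h

theorem PP (a : E) (v : V) : P a (P a v) = v := LinearEquiv.congr_fun (h.sq1 a) v

theorem inv_P (a : E) : (P a)⁻¹ = P a := inv_eq_of_mul_eq_one_right (h.sq1 a)

theorem hS_sg_mem (t : ZMod 2) (a : E) : hS (zs V j * (zs V (sgU F t) * P a)) ∈ M := by
  rcases z2_cases t with rfl | rfl
  · simpa using h.hm a
  rw [zs_left, sgU_one, eq_mul_inv_of_mul_eq (hS_neg h.two (h.sqY a))]
  exact mul_mem (h.zm _) (inv_mem (h.hm a))

variable [Finite E]

theorem trans (a1 : a ≠ 0) (a2 : a ≠ x) (b1 : b ≠ 0) (b2 : b ≠ x) (a3 : B x a = 0) (b3 : B x b = 0) :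
    ∃ n ∈ M, Nm P n ∧ n * P x = P x * n ∧ ∃ c, n * P a * n⁻¹ = zs V c * P b := by
  have t : ∀ {a b}, B x a = 0 → B x b = 0 → B b a = 1 →
      ∃ n ∈ M, Nm P n ∧ n * P x = P x * n ∧ ∃ c, n * P a * n⁻¹ = zs V c * P b := fun {a b} h1 h2 h3 =>
    ⟨_, h.hm (a + b), h.G_nm _, (h.G_comm (by simp [h.symm _ x, h1, h2])).symm, by
      simpa [add_right_comm a b a, e2_add_self] using h.G_anti (a := a + b) (b := a) (by simp [h.self, h3])⟩
  obtain ⟨e, c1, c2, c3⟩ := h.exists_three a1 a2 b1 b2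
  obtain ⟨n, n1, n2, n3, c, n4⟩ := t a3 (h.symm e x ▸ c1) c2
  obtain ⟨m, m1, m2, m3, d, m4⟩ := t (h.symm e x ▸ c1) b3 (h.symm e b ▸ c3)
  exact ⟨m * n, mul_mem m1 n1, m2.mul n2, by rw [mul_assoc, n3, ← mul_assoc, m3, mul_assoc], c * d, by
    rw [show m * n * P a * (m * n)⁻¹ = m * (n * P a * n⁻¹) * m⁻¹ by group, n4, zs_conj, m4, zs_zs]⟩

theorem cent_nm (h3 : 3 ≤ finrank (ZMod 2) E)
    (hL : ∀ x ≠ 0, ∀ k ∈ M, k * P x = P x * k → ∀ u, B x u = 0 → Rz P (k * P u * k⁻¹)) (hx : x ≠ 0)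
    (hk : k ∈ M) (H : k * P x = P x * k) : Nm P k := by
  obtain ⟨u, u1, u2, u3⟩ := h.exists_perp_one h3 x
  obtain ⟨a, c, ha⟩ := hL x hx k hk H u u3
  have a1 : B x a = 0 := h.symm a x ▸ h.perp_of_comm (c := c) (by
    rw [← ha, mul_assoc, comm_inv H, ← mul_assoc, mul_assoc k, ← h.comm0 u3, ← mul_assoc, H]; group)
  obtain ⟨n, n1, n2, n3, d, n4⟩ := h.trans (a := a) (b := u) (fun e => u1 (h.uniq (c := 1) (d := c) (by
      rw [e, h.zero, mul_one, mul_inv_eq_iff_eq_mul, ← zs_comm, mul_right_inj] at ha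
      simp [ha, h.zero]))) (fun e => u2 (h.uniq (c := 1) (d := c) (by
      rw [e, mul_inv_eq_iff_eq_mul, mul_assoc, ← H, ← zs_left, mul_right_inj] at ha
      simp [ha]))) u1 u2 a1 u3
  have b1 : n * k * P u * (n * k)⁻¹ = zs V (c * d) * P u := by
    rw [show n * k * P u * (n * k)⁻¹ = n * (k * P u * k⁻¹) * n⁻¹ by group, ha, zs_conj, n4, zs_zs]
  obtain ⟨t, ht⟩ := h.sign_of_fix b1
  obtain ⟨w, w1, w2⟩ := h.exists_vals hx u1 u2.symm 0 t
  have b2 : P w * (n * k) * P u = P u * (P w * (n * k)) := by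
    rw [mul_assoc, mul_inv_eq_iff_eq_mul.mp b1, mul_assoc, zs_left, ← mul_assoc (P w), h.comm, w2, ht,
      mul_assoc, zs_zs, sgU_mul_self, map_one, one_mul, mul_assoc]
  have b3 : P w * (n * k) * P x = P x * (P w * (n * k)) := by
    rw [mul_assoc, mul_assoc, H, ← mul_assoc n, n3, mul_assoc, ← mul_assoc, h.comm0 w1, mul_assoc]
  have b4 := mul_mem (h.pm w) (mul_mem n1 hk)
  have b5 : Nm P (P w * (n * k)) := fun v => by
    rcases z2_cases (B x v) with c1 | c1
    · exact hL x hx _ b4 b3 v c1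
    rcases z2_cases (B u v) with c2 | c2
    · exact hL u u1 _ b4 b2 v c2
    obtain ⟨e, he⟩ := h.mul x u
    refine hL (x + u) (fun e => u2 (e2_eq_of_add e).symm) _ b4 (mul_left_cancel (a := zs V e) ?_) v
      (by simp [c1, c2, z2_add_self])
    rw [← zs_left, ← mul_assoc (zs V e), ← he, ← mul_assoc, b3, mul_assoc, b2, mul_assoc]
  simpa using (h.nm_inv n2).mul ((h.nm_inv (h.nm_P w)).mul b5)

theorem rz_of_loc (h6 : 6 ≤ finrank (ZMod 2) E) (hR : ∀ x ≠ 0, ∀ k ∈ M, k * P x = P x * k → ∀ u, B x u = 0 →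
      ∃ a, ∃ c : Fˣ, B x a = 0 ∧ ∀ v, P x v = v → (k * P u * k⁻¹) v = (zs V c * P a) v) (hx : x ≠ 0)
    (hk : k ∈ M) (H : k * P x = P x * k) (hu : B x u = 0) : Rz P (k * P u * k⁻¹) := by
  obtain ⟨a, c, a1, a2⟩ := hR x hx k hk H u hu
  obtain ⟨b, d, b1, b2⟩ : ∃ b, ∃ d : Fˣ, B x b = 0 ∧ ∀ v, P x v = -v → (k * P u * k⁻¹) v = (zs V d * P b) v := by
    obtain ⟨y, hy⟩ := h.exists_one hx
    obtain ⟨b, d, b1, b2⟩ := hR x hx _ (mul_mem (mul_mem (h.pm y) hk) (inv_mem (h.pm y))) (h.conj_comm H y) u hu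
    refine ⟨b, sgU F (B u y) * d * sgU F (B b y), b1, fun v hv => (P y).injective ?_⟩
    have := b2 (P y v) (by simp [h.comm_app x, hy, hv])
    simp only [mul_inv_rev, h.inv_P, LinearEquiv.mul_apply, h.PP, h.comm_app u y, map_smul, zs_apply,
      h.comm_app b y] at this
    simp only [LinearEquiv.mul_apply, zs_apply, map_smul, Units.val_mul, mul_smul]
    rw [smul_comm (d : F), ← this, smul_smul, ← Units.val_mul, sgU_mul_self, Units.val_one, one_smul]
  have hA : k * P u * k⁻¹ * (k * P u * k⁻¹) = 1 := by rw [conj_mul, h.sq1]; simp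
  have hm := h.hS_mem hk u
  generalize k * P u * k⁻¹ = A at a2 b2 hA hm
  have AA : ∀ v, A (A v) = v := fun v => LinearEquiv.congr_fun hA v
  obtain ⟨x₁, e1, e2, e3⟩ := h.exists_perp_one (by omega) x
  have s1 : ∀ {a} {c : Fˣ} (s : ZMod 2), B x a = 0 → (∀ v, P x v = (sgU F s : F) • v → A v = (zs V c * P a) v) →
      ∃ t, c = sgU F t := fun {a c} s h1 h2 => by
    obtain ⟨v, v1, v2, -⟩ := h.exists_eig (h.sq1 x) (h.sq1 x₁) hx e1 e2.symm e3 s 0
    have := AA v
    rw [h2 v v2, h2 _ (by simp [comm_apply (h.comm0 h1), v2, smul_comm (c : F)])] at this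
    simp only [LinearEquiv.mul_apply, zs_apply, map_smul, h.PP, smul_smul] at this
    rcases mul_self_eq_one_iff.mp (smul_left_injective F v1 (this.trans (one_smul F v).symm)) with e | e
    exacts [⟨0, Units.ext (by simpa using e)⟩, ⟨1, Units.ext (by simpa using e)⟩]
  obtain ⟨s, rfl⟩ := s1 0 a1 (by simpa using a2)
  by_cases hb : a + b ∈ (ZMod 2) ∙ x
  · obtain ⟨d', b3⟩ : ∃ d' : Fˣ, ∀ v, P x v = -v → A v = (zs V d' * P a) v := by
      rcases e2_mem_span.mp hb with e | e
      · exact ⟨d, e2_eq_of_add e ▸ b2⟩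
      obtain ⟨f, hf⟩ := h.mul b x
      rw [← e, add_comm a, e2_cancel, add_comm b, e] at hf
      refine ⟨-(d * f), fun v hv => ?_⟩
      have := LinearEquiv.congr_fun hf v
      simp only [LinearEquiv.mul_apply, hv, map_neg, zs_apply, neg_eq_iff_eq_neg] at this
      simp [b2 v hv, this, mul_smul]
    obtain ⟨t, rfl⟩ := s1 1 a1 (by simpa using b3)
    rcases z2_cases (s + t) with e | e
    · exact ⟨a, _, ext_eig' h.two (h.sq1 x) a2 (e2_eq_of_add e ▸ b3)⟩
    rw [ext_eig' (g := A) (k := zs V (sgU F s) * P a * P x) h.two (h.sq1 x) (fun v hv => by simp [a2 v hv, hv])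
      fun v hv => by
        rw [b3 v hv, ← e2_cancel s t, e, sgU_add]; simp [hv]]
    exact h.rz_mul ((Rz.self a).zs_mul _) (Rz.self x)
  exfalso
  have sa : zs V j * (zs V (sgU F s) * P a) * (zs V j * (zs V (sgU F s) * P a)) = zs V (-1) :=
    sq_zs_mul h.jj (by rw [mul_assoc, zs_left _ (P a), zs_zs, sgU_mul_self, h.sq1]; simp)
  have ca : ∀ w, B w a = 0 → P w * hS (zs V j * (zs V (sgU F s) * P a)) = hS (zs V j * (zs V (sgU F s) * P a)) * P w :=
    fun w hw => comm_hS h.two sa (by rw [zs_left, zs_left, h.comm0 hw, mul_assoc, mul_assoc])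
  obtain ⟨x', c1, c2⟩ := h.exists_perp (Submodule.span _ {x, a, b}) (Submodule.span _ {x, a + b})
    (by
      have := frk_triple (K := ZMod 2) x a b
      have := frk_pair (K := ZMod 2) x (a + b); omega)
  have c3 := c2 x (Submodule.subset_span (by simp))
  have c4 := h.symm a x' ▸ c2 a (Submodule.subset_span (by simp))
  have c5 := h.symm b x' ▸ c2 b (Submodule.subset_span (by simp))
  simp only [e2_mem_span_pair, not_or] at c1
  have c6 : P x' * A = A * P x' := ext_eig' h.two (h.sq1 x)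
    (fun v hv => by
      rw [LinearEquiv.mul_apply, LinearEquiv.mul_apply, a2 v hv, a2 _ (by rw [comm_apply (h.comm0 c3), hv])]
      simp [comm_apply (h.comm0 c4)])
    (fun v hv => by
      rw [LinearEquiv.mul_apply, LinearEquiv.mul_apply, b2 v hv,
        b2 _ (by rw [comm_apply (h.comm0 c3), hv, map_neg])]
      simp [comm_apply (h.comm0 c5)])
  obtain ⟨y, y1, y2⟩ := h.exists_one_zero hx (Ne.symm c1.2.1)
  obtain ⟨z, e, -, z1⟩ := hR x' c1.1 _ (mul_mem hm (inv_mem (h.hS_sg_mem s a))) (by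
    rw [mul_assoc, comm_inv (ca x' c4).symm, ← mul_assoc,
      ← comm_hS h.two (sq_zs_mul h.jj hA) (by rw [zs_left, c6, mul_assoc]), mul_assoc]) y (h.symm y x' ▸ y2)
  have d1 : ∀ v, P x v = -v → P x' v = v → v + (j * d : Fˣ) • P b v =
      (e : F) • P z (P y (v + (j * sgU F s : Fˣ) • P a v)) := fun v v1 v2 => by
    obtain ⟨G, hG⟩ : ∃ G, G = hS (zs V j * (zs V (sgU F s) * P a)) := ⟨_, rfl⟩
    have g1 : ∀ v, G v = v + (j * sgU F s : Fˣ) • P a v := fun v => by
      simp [hG, hS_apply h.two sa, Units.smul_def, smul_smul, mul_comm]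
    have g2 : ∀ v, P x v = v → hS (zs V j * A) v = G v := fun v hv => by
      simp [hS_apply h.two (sq_zs_mul h.jj hA), a2 v hv, g1, Units.smul_def, smul_smul, mul_comm]
    have g3 := z1 (P y (G v)) (by
      rw [comm_apply (h.comm0 (h.symm y x' ▸ y2)), hG, comm_apply (ca x' c4), v2])
    rw [← hG, mul_inv_rev, inv_inv] at g3
    simp only [LinearEquiv.mul_apply, zs_apply] at g3
    have g4 : P x (G⁻¹ (P y (G v))) = G⁻¹ (P y (G v)) := by
      have g5 := ca x a1
      rw [← hG] at g5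
      rw [← comm_apply (comm_inv g5.symm), h.comm_app x, h.symm, y1, comm_apply g5, v1]
      simp
    rw [show (hS (zs V j * A))⁻¹ (P y (G v)) = G⁻¹ (P y (G v)) from (hS (zs V j * A)).injective (by
      rw [g2 _ g4]; simp)] at g3
    rw [← g1, ← g3]
    simp [h.PP, hS_apply h.two (sq_zs_mul h.jj hA), b2 v v1, Units.smul_def, smul_smul, mul_comm]
  obtain ⟨w, w1, w2⟩ := h.exists_sep (W := Submodule.span _ {x, x'}) (a := a + b) (by
    simp only [e2_mem_span, not_or] at hb
    simp only [e2_mem_span_pair, not_or]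
    exact ⟨hb.1, hb.2, Ne.symm c1.2.2.1, fun e => c1.2.2.2 (by rw [e, e2_cancel])⟩)
  simp only [e2_mem_span_pair, forall_eq_or_imp, forall_eq] at w2
  obtain ⟨v, v1, v2, v3⟩ := h.exists_eig (h.sq1 x) (h.sq1 x') hx c1.1 (Ne.symm c1.2.1) c3 1 0
  simp only [sgU_one, sgU_zero, Units.val_neg, Units.val_one, neg_smul, one_smul] at v2 v3
  have d2 := d1 v v2 v3
  have d3 := d1 (P w v) (by rw [← comm_apply (h.comm0 w2.2.1), v2, map_neg])
    (by rw [← comm_apply (h.comm0 w2.2.2.1), v3])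
  have d4 : v + (sgU F (B w b) : F) • (j * d : Fˣ) • P b v = (sgU F (B y w + B z w) : F) • (e : F) •
      P z (P y (v + (sgU F (B w a) : F) • (j * sgU F s : Fˣ) • P a v)) := (P w).injective (by
    simp only [Units.smul_def, map_add, map_smul, h.comm_app _ w, h.symm a w, h.symm b w, sgU_add,
      Units.val_mul] at d3 ⊢
    linear_combination (norm := module) d3)
  rw [map_add] at w1
  refine v1 ?_
  rcases z2_cases (B w a) with f1 | f1 <;> rw [f1] at w1 d4
  · rw [zero_add] at w1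
    rw [w1, sgU_zero, Units.val_one, one_smul, ← d2] at d4
    refine eq_zero_of_hS (g := zs V (-(j * d)) * P b) (t := B y w + B z w) h.two ?_
    simpa [Units.smul_def] using d4
  · rw [add_eq_left] at w1
    rw [w1, sgU_zero, Units.val_one, one_smul, d2, smul_comm (sgU F (B y w + B z w) : F),
      ← map_smul (P z) (sgU F (B y w + B z w) : F), ← map_smul (P y) (sgU F (B y w + B z w) : F)] at d4
    refine eq_zero_of_hS (g := zs V (j * sgU F s) * P a) (t := B y w + B z w) h.two ?_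
    simpa [Units.smul_def, sub_eq_add_neg, smul_smul, mul_comm] using
      (P y).injective ((P z).injective (smul_right_injective V e.ne_zero d4))

end PL

end Cfsg.Agent.H12
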