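import Mathlib
import Cfsg.Agent.H12.PxD

/-!
Pauli systems: restriction to an eigenspace.
-/

set_option autoImplicit false

namespace Cfsg.Agent.H12

open Module

variable {F V : Type*} [Field F] [AddCommGroup V] [Module F V] {E : Type*} [AddCommGroup E]
  [Module (ZMod 2) E] {B : LinearMap.BilinForm (ZMod 2) E} {P : E → V ≃ₗ[F] V} {a b x y u : E} {c d j : Fˣ}
  {g k s : V ≃ₗ[F] V} {M : Subgroup (V ≃ₗ[F] V)} {v : V}

/-- fixed space -/
def fx (s : V ≃ₗ[F] V) : Submodule F V where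
  carrier := {v | s v = v}
  add_mem' {a b} (ha : s a = a) (hb : s b = b) := show s _ = _ by rw [map_add, ha, hb]
  zero_mem' := map_zero s
  smul_mem' c v (hv : s v = v) := show s _ = _ by rw [map_smul, hv]

theorem mem_fx : v ∈ fx s ↔ s v = v := Iff.rfl

/-- restriction to the fixed space -/
def rsx (H : k * s = s * k) : fx s ≃ₗ[F] fx s :=
  k.ofSubmodules _ _ (le_antisymm (by
    rintro _ ⟨v, hv, rfl⟩
    exact (comm_apply H v).symm.trans (congrArg k hv)) fun v hv =>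
      ⟨k⁻¹ v, (comm_apply (comm_inv H) v).symm.trans (congrArg _ hv), by simp⟩)

@[simp] theorem rsx_apply (H : k * s = s * k) (w : fx s) : (rsx H w : V) = k w := rfl

/-- the group induced by the centraliser -/
def resM (M : Subgroup (V ≃ₗ[F] V)) (s : V ≃ₗ[F] V) : Subgroup (fx s ≃ₗ[F] fx s) where
  carrier := {g | ∃ k ∈ M, k * s = s * k ∧ ∀ w, (g w : V) = k w}
  one_mem' := ⟨1, one_mem _, by simp, fun _ => rfl⟩
  mul_mem' := by
    rintro a b ⟨k, k1, k2, k3⟩ ⟨l, l1, l2, l3⟩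
    exact ⟨k * l, mul_mem k1 l1, by rw [mul_assoc, l2, ← mul_assoc, k2, mul_assoc], fun w => by simp [k3, l3]⟩
  inv_mem' := by
    rintro a ⟨k, k1, k2, k3⟩
    exact ⟨k⁻¹, inv_mem k1, comm_inv k2, fun w => k.injective (by simp [← k3])⟩

theorem rsx_mem (hk : k ∈ M) (H : k * s = s * k) : rsx H ∈ resM M s := ⟨k, hk, H, fun _ => rfl⟩

theorem Pau.rescale (h : Pau B P) {P' : E → V ≃ₗ[F] V} (h0 : P' 0 = 1) (H : ∀ a, ∃ d, P' a = zs V d * P a) :
    Pau B P' := by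
  choose d hd using H
  refine ⟨h.two, h.alt, h.nd, h.nt, h0, fun a b => ?_, fun a b => ?_, ?_⟩
  · obtain ⟨f, hf⟩ := h.mul a b
    exact ⟨d a * d b * f * (d (a + b))⁻¹, by
      rw [hd, hd, hd, mul_assoc, zs_left, hf, zs_zs, zs_zs, zs_zs, inv_mul_cancel_right]⟩
  · rw [hd, hd, mul_assoc, mul_assoc, zs_left _ (P a), zs_left _ (P b), h.comm]
    simp only [zs_zs, mul_comm, mul_left_comm, mul_assoc]
  · refine eq_top_iff.mpr (h.span.ge.trans (Submodule.span_le.mpr ?_))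
    rintro _ ⟨a, rfl⟩
    have : (P a).toLinearMap = ((d a)⁻¹ : Fˣ).1 • (P' a).toLinearMap := by ext v; simp [hd]
    change (P a).toLinearMap ∈ _
    exact this ▸ Submodule.smul_mem _ _ (Submodule.subset_span ⟨a, rfl⟩)

theorem Pau.exists_fix (h : Pau B P) (hx : x ≠ 0) (hs : P x * P x = 1) : ∃ v, v ≠ 0 ∧ P x v = v := by
  have := h.nt
  obtain ⟨v, hv⟩ := exists_ne (0 : V)
  obtain ⟨y, hy⟩ := h.exists_one hx
  by_cases H : v + P x v = 0
  · exact ⟨P y v, (P y).map_ne_zero_iff.mpr hv, by simp [h.comm_app x, hy, eq_neg_of_add_eq_zero_right H]⟩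
  · exact ⟨_, H, by rw [map_add, show P x (P x v) = v from LinearEquiv.congr_fun hs v, add_comm]⟩

theorem Pau.exists_res [Finite E] (h : Pau B P) (hx : x ≠ 0) (hs : P x * P x = 1) :
    ∃ (E₁ : Submodule (ZMod 2) E) (P₁ : E₁ → fx (P x) ≃ₗ[F] fx (P x)), Pau (B.restrict E₁) P₁ ∧
      finrank (ZMod 2) E₁ + 2 = finrank (ZMod 2) E ∧ (∀ a : E₁, B x a = 0) ∧
      (∀ a w, (P₁ a w : V) = P a w) ∧ ∀ u, B x u = 0 → ∃ a : E₁, ∃ c : Fˣ, ∀ v, P x v = v → P u v = (c : F) • P a v := by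
  have := Module.Finite.of_finite (R := ZMod 2) (M := E)
  obtain ⟨y, hy⟩ := h.exists_one hx
  have hy' := h.symm x y ▸ hy
  have m : ∀ {a}, a ∈ LinearMap.ker ((B x).prod (B y)) ↔ B x a = 0 ∧ B y a = 0 := by simp
  have m1 : ∀ a, a + B y a • x + B x a • y ∈ LinearMap.ker ((B x).prod (B y)) := fun a =>
    m.mpr (by simp [h.self, hy, hy', z2_add_self])
  have c1 : ∀ a : LinearMap.ker ((B x).prod (B y)), P a * P x = P x * P a := fun a => (h.comm0 (m.mp a.2).1).symm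
  have c2 : ∀ u, B x u = 0 → ∃ a : LinearMap.ker ((B x).prod (B y)), ∃ c : Fˣ, ∀ v, P x v = v →
      P u v = (c : F) • P a v := fun u hu => by
    rcases z2_cases (B y u) with e | e
    · exact ⟨⟨u, m.mpr ⟨hu, e⟩⟩, 1, fun v _ => by simp⟩
    obtain ⟨c, hc⟩ := h.mul u x
    exact ⟨⟨u + x, by simpa [e, hu] using m1 u⟩, c, fun v hv => by
      simpa [hv] using LinearEquiv.congr_fun hc v⟩
  have e2 : ∀ v, P x (P x v) = v := fun v => LinearEquiv.congr_fun hs v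
  refine ⟨_, fun a => rsx (c1 a), ⟨h.two, fun a => h.self a.1, fun a ha => Subtype.ext (h.nd _ fun b => ?_), ?_,
    LinearEquiv.ext fun w => Subtype.ext (by simp [h.zero]), fun a b => (h.mul a b).elim fun c hc =>
      ⟨c, LinearEquiv.ext fun w => Subtype.ext (LinearEquiv.congr_fun hc w)⟩, fun a b => LinearEquiv.ext fun w =>
        Subtype.ext (LinearEquiv.congr_fun (h.comm a b) w), eq_top_iff.mpr fun φ _ => ?_⟩, ?_,
    fun a => (m.mp a.2).1, fun _ _ => rfl, c2⟩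
  · simpa [h.symm a.1 x, h.symm a.1 y, m.mp a.2] using ha ⟨_, m1 b⟩
  · obtain ⟨v, v1, v2⟩ := h.exists_fix hx hs
    exact ⟨⟨v, v2⟩, 0, fun e => v1 (congrArg Subtype.val e)⟩
  · let π : V →ₗ[F] fx (P x) := ((2 : F)⁻¹ • (LinearMap.id + (P x).toLinearMap)).codRestrict _ fun v => by
      simp [mem_fx, e2, add_comm]
    have p1 : ∀ v, (π v : V) = (2 : F)⁻¹ • (v + P x v) := fun _ => rfl
    have p2 : ∀ w : fx (P x), π w = w := fun w => Subtype.ext (by
      rw [p1, w.2, ← two_smul F, smul_smul, inv_mul_cancel₀ h.two, one_smul])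
    have p3 : ∀ X : End F V, π ∘ₗ X ∘ₗ (fx (P x)).subtype ∈
        Submodule.span F (Set.range fun a => (rsx (c1 a)).toLinearMap) := fun X => by
      induction (h.span ▸ Submodule.mem_top : X ∈ _) using Submodule.span_induction with
      | zero => simp
      | add x y _ _ h1 h2 => rw [LinearMap.add_comp, LinearMap.comp_add]; exact add_mem h1 h2
      | smul c x _ h1 => rw [LinearMap.smul_comp, LinearMap.comp_smul]; exact Submodule.smul_mem _ _ h1
      | mem X hX =>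
        obtain ⟨u, rfl⟩ := hX
        rcases z2_cases (B x u) with e | e
        · obtain ⟨a, c, hc⟩ := c2 u e
          have : π ∘ₗ (P u).toLinearMap ∘ₗ (fx (P x)).subtype = (c : F) • (rsx (c1 a)).toLinearMap := by
            ext w
            simpa [hc w w.2] using congrArg (fun z : fx (P x) => (c : F) • z.1) (p2 (rsx (c1 a) w))
          exact this ▸ Submodule.smul_mem _ _ (Submodule.subset_span ⟨a, rfl⟩)
        · have : π ∘ₗ (P u).toLinearMap ∘ₗ (fx (P x)).subtype = 0 := by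
            ext w
            simp [p1, h.comm_app x u, e, mem_fx.mp w.2]
          exact this ▸ zero_mem _
    convert p3 ((fx (P x)).subtype ∘ₗ φ ∘ₗ π) using 1
    ext w
    simp [p2]
  · have h1 := LinearMap.finrank_range_add_finrank_ker ((B x).prod (B y))
    rw [LinearMap.range_eq_top.mpr fun p => ⟨p.2 • x + p.1 • y, by simp [h.self, hy, hy']⟩] at h1
    simpa [add_comm] using h1

theorem loc_of_res {E₁ : Submodule (ZMod 2) E} {P₁ : E₁ → fx (P x) ≃ₗ[F] fx (P x)} (h1 : ∀ a : E₁, B x a = 0)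
    (h2 : ∀ a w, (P₁ a w : V) = P a w)
    (h3 : ∀ u, B x u = 0 → ∃ a : E₁, ∃ c : Fˣ, ∀ v, P x v = v → P u v = (c : F) • P a v)
    (H : k * P x = P x * k) (hN : Nm P₁ (rsx H)) (hu : B x u = 0) :
    ∃ a, ∃ c : Fˣ, B x a = 0 ∧ ∀ v, P x v = v → (k * P u * k⁻¹) v = (zs V c * P a) v := by
  obtain ⟨a, c, hc⟩ := h3 u hu
  obtain ⟨b, d, hd⟩ := hN a
  refine ⟨b, c * d, h1 b, fun v hv => ?_⟩
  obtain ⟨w, hw⟩ := (rsx H).surjective ⟨v, hv⟩
  obtain rfl : k w = v := congrArg Subtype.val hw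
  have := congrArg Subtype.val (LinearEquiv.congr_fun (mul_inv_eq_iff_eq_mul.mp hd) w)
  simp [h2] at this
  simp [hc w w.2, this, smul_smul, mul_comm]

theorem PL.exists_res [Finite E] (h : PL B P j M) (hx : x ≠ 0) :
    ∃ (E₁ : Submodule (ZMod 2) E) (P₁ : E₁ → fx (P x) ≃ₗ[F] fx (P x)), PL (B.restrict E₁) P₁ j (resM M (P x)) ∧
      finrank (ZMod 2) E₁ + 2 = finrank (ZMod 2) E ∧ (∀ a w, (P₁ a w : V) = P a w) ∧
      ((∀ g ∈ resM M (P x), Nm P₁ g) → ∀ k ∈ M, k * P x = P x * k → ∀ u, B x u = 0 →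
        ∃ a, ∃ c : Fˣ, B x a = 0 ∧ ∀ v, P x v = v → (k * P u * k⁻¹) v = (zs V c * P a) v) := by
  obtain ⟨E₁, P₁, a1, a2, a3, a4, a5⟩ := h.toPau.exists_res hx (h.sq1 x)
  have a6 : ∀ a, P₁ a * P₁ a = 1 := fun a => LinearEquiv.ext fun w => Subtype.ext (by simp [a4, h.PP])
  exact ⟨E₁, P₁, ⟨a1, h.jj, a6, fun c => ⟨_, h.zm c, (zs_comm ..).symm, fun _ => rfl⟩,
    fun a => ⟨_, h.pm a, (h.comm0 (a3 a)).symm, a4 a⟩, fun a => ⟨_, h.hm a,
      (h.G_comm (h.symm x a ▸ a3 a)).symm, fun w => by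
        simp [hS_apply h.two (sq_zs_mul h.jj (a6 a)), hS_apply h.two (h.sqY a), a4]⟩⟩, a2, a4,
    fun H k hk H' u hu => loc_of_res a3 a4 a5 H' (H _ (rsx_mem hk H')) hu⟩

theorem PL.nm_of_res [Finite E] [Finite V] [FiniteDimensional F V] (h : PL B P j M) (h6 : 6 ≤ finrank (ZMod 2) E)
    (hR : ∀ x ≠ 0, ∀ k ∈ M, k * P x = P x * k → ∀ u, B x u = 0 →
      ∃ a, ∃ c : Fˣ, B x a = 0 ∧ ∀ v, P x v = v → (k * P u * k⁻¹) v = (zs V c * P a) v) (hg : g ∈ M) : Nm P g :=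
  h.nm_of_cent_le (by omega) (fun _ hx _ hk H => h.cent_nm (by omega)
    (fun _ hx _ hk H _ hu => h.rz_of_loc h6 hR hx hk H hu) hx hk H) hg

theorem PL.nm_of_comm [Finite E] [Finite V] [FiniteDimensional F V] (h : PL B P j M) (h3 : 3 ≤ finrank (ZMod 2) E)
    (hR : ∀ x ≠ 0, ∀ k ∈ M, ∀ l ∈ M, k * P x = P x * k → l * P x = P x * l → Nm P (k * l * k⁻¹ * l⁻¹))
    (hg : g ∈ M) : Nm P g :=
  h.nm_of_cent_le h3 (fun _ hx _ hk H => h.cent_nm h3 (fun x hx k hk H u hu => h.rz_of_nm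
    (by simpa using (hR x hx k hk _ (h.pm u) H (h.comm0 hu).symm).mul (h.nm_P u)) (by
      have := (hR x hx k hk _ (h.hm u) H (h.G_comm (h.symm x u ▸ hu)).symm).mul (h.G_nm u)
      rwa [inv_mul_cancel_right, conj_hS h.two (h.sqY u), zs_conj] at this)) hx hk H) hg

end Cfsg.Agent.H12
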