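import Mathlib
import Cfsg.Agent.H12.PxE
import Cfsg.Agent.H12.PxF
import Cfsg.Agent.H12.SGen
import Cfsg.Agent.H13.Low6

/-!
Pauli systems in dimension four and orthonormal frames in dimension six.
-/

set_option autoImplicit false

namespace Cfsg.Agent.H12

open Module QuadraticMap H13 H18
open scoped MatrixGroups

section

variable {F V : Type*} [Field F] [AddCommGroup V] [Module F V] {E : Type*} [AddCommGroup E]
  [Module (ZMod 2) E] {B : LinearMap.BilinForm (ZMod 2) E} {P : E → V ≃ₗ[F] V} {j : Fˣ}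
  {g : V ≃ₗ[F] V} {M : Subgroup (V ≃ₗ[F] V)}

theorem Pau.sd (h : Pau B P) : SD (σ := RingHom.id (ZMod 2)) B :=
  ⟨fun _ => rfl, fun _ _ => (h.alt.neg_eq _ _).symm, h.nd, fun x => ⟨0, by simp [h.self]⟩⟩

theorem PL.mem_of_nm [Finite E] [FiniteDimensional F V] (h : PL B P j M) (hg : Nm P g) : g ∈ M := by
  have := Module.Finite.of_finite (R := ZMod 2) (M := E)
  have key : ∀ φ : UG (σ := RingHom.id (ZMod 2)) B, ∃ n ∈ M, ∀ a, ∃ c, n * P a * n⁻¹ = zs V c * P (φ.1 a) :=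
    fun φ => by
      induction (h.sd.TG_eq_top rfl ▸ Subgroup.mem_top φ : φ ∈ TG B) using Subgroup.closure_induction with
      | one => exact ⟨1, one_mem _, fun a => ⟨1, by simp⟩⟩
      | mem x hx =>
        obtain ⟨v, c, rfl⟩ := hx
        rcases z2_cases c with rfl | rfl
        · exact ⟨1, one_mem _, fun a => ⟨1, by simp [tv_zero h.sd]⟩⟩
        refine ⟨_, h.hm v, fun a => ?_⟩
        rw [tv_apply h.sd (h.self v) rfl]
        rcases z2_cases (B v a) with e | e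
        · exact ⟨1, by rw [← h.G_comm e]; simp [e]⟩
        · simpa [e, add_comm] using h.G_anti e
      | mul x y _ _ h1 h2 =>
        obtain ⟨n, n1, n2⟩ := h1
        obtain ⟨m, m1, m2⟩ := h2
        refine ⟨n * m, mul_mem n1 m1, fun a => ?_⟩
        obtain ⟨c, hc⟩ := m2 a
        obtain ⟨d, hd⟩ := n2 (y.1 a)
        exact ⟨c * d, by
          rw [show n * m * P a * (n * m)⁻¹ = n * (m * P a * m⁻¹) * n⁻¹ by group, hc, zs_conj, hd, zs_zs]; rfl⟩
      | inv x _ h1 =>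
        obtain ⟨n, n1, n2⟩ := h1
        refine ⟨n⁻¹, inv_mem n1, fun a => ?_⟩
        obtain ⟨c, hc⟩ := n2 ((x⁻¹).1 a)
        exact ⟨c⁻¹, by rw [UG_apply_inv] at hc; rw [map_inv, eq_inv_mul_iff_mul_eq, ← zs_conj, ← hc]; group⟩
  obtain ⟨φ, h1, h2⟩ := h.exists_act hg
  obtain ⟨n, n1, n2⟩ := key ⟨.ofBijective φ (Finite.injective_iff_bijective.mp (h.inj_of_iso h1)), h1⟩
  obtain ⟨a, c, hc⟩ := h.rz_of_fix (g := n⁻¹ * g) fun a => by
    obtain ⟨c, hc⟩ := n2 a
    obtain ⟨d, hd⟩ := h2 a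
    refine ⟨d * c⁻¹, ?_⟩
    rw [show n⁻¹ * g * P a * (n⁻¹ * g)⁻¹ = n⁻¹ * (g * P a * g⁻¹) * n⁻¹⁻¹ by group, hd, zs_conj, map_mul,
      mul_assoc (zs V d), mul_right_inj, map_inv, eq_inv_mul_iff_mul_eq, ← zs_conj]
    exact (congrArg (fun x => n⁻¹ * x * n⁻¹⁻¹) hc).symm.trans (by group)
  exact (mul_mem_cancel_left (inv_mem n1)).mp (hc ▸ mul_mem (h.zm c) (h.pm a))

theorem Pau.ind (h : Pau B P) {ι : Type*} {x : ι → E} (hx : Submodule.span (ZMod 2) (Set.range x) = ⊤)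
    {p : (V ≃ₗ[F] V) → Prop} (h0 : p 1) (h1 : ∀ t, p (P (x t))) (h2 : ∀ g k, p g → p k → p (g * k))
    (h3 : ∀ c g, p g → p (zs V c * g)) (a : E) : p (P a) := by
  induction (hx ▸ Submodule.mem_top : a ∈ _) using Submodule.span_induction with
  | mem x hx => obtain ⟨t, rfl⟩ := hx; exact h1 t
  | zero => rwa [h.zero]
  | add a b _ _ ha hb =>
    obtain ⟨c, hc⟩ := h.mul a b
    simpa [hc, zs_zs] using h3 c⁻¹ _ (h2 _ _ ha hb)
  | smul c a _ ha => rcases z2_cases c with rfl | rfl <;> simp [h.zero, h0, ha]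

theorem rep_comm_fix {G W : Type*} [Group G] [AddCommGroup W] [Module F W] (ρ : G →* End F W) {k l : G} {w : W}
    {a b : F} (h1 : ρ k w = a • w) (h2 : ρ l w = b • w) : ρ (k * l * k⁻¹ * l⁻¹) w = w := by
  have e : ρ (l * k) w = (a * b) • w := by simp [h1, h2, smul_smul]
  by_cases H : a * b = 0
  · have := congrArg (ρ (l * k)⁻¹) e
    rw [← End.mul_apply, ← map_mul, inv_mul_cancel, map_one, H, zero_smul, map_zero] at this
    rw [show w = 0 from this, map_zero]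
  refine smul_right_injective W H ?_
  simp only
  rw [← map_smul, ← e, ← End.mul_apply, ← map_mul, show k * l * k⁻¹ * l⁻¹ * (l * k) = k * l by group, e]
  simp [h1, h2, smul_smul, mul_comm]

theorem fr_Om_le' [Finite V] [Fintype F] {Q : QuadraticForm F V} {ι : Type*} [Fintype ι] [DecidableEq ι]
    {e : ι → V} {c : F} (hc : c ≠ 0) (h : ON (c • Q) e) (hp : (Fintype.card F).Prime) (hn : 6 ≤ Fintype.card ι)
    {M : Subgroup (OG Q)} (hM : ∀ g ∈ Om Q, (∀ i, ∃ k, ∃ c : F, g.1 (e i) = c • e k) → g ∈ M) {g : OG Q}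
    (hg : g ∈ M) {a : ι} (h1 : g.1 (e a) = e a) (h2 : ¬ ∀ i, ∃ k, ∃ c : F, g.1 (e i) = c • e k) : Om Q ≤ M := by
  let θ : OG Q ≃* OG (c • Q) := MulEquiv.subgroupCongr (Subgroup.ext fun g => by simp [mem_OG, hc])
  have e1 : (Om Q).map θ.toMonoidHom = Om (c • Q) := by
    rw [map_commutator_eq, MonoidHom.range_eq_top.mpr θ.surjective]; rfl
  have := fr_Om_le h (M := M.map θ.toMonoidHom) (fun g h1 h2 => by
    obtain ⟨g, h3, rfl⟩ := e1 ▸ h1
    exact ⟨g, hM g h3 (mem_Mon.mp h2), rfl⟩) hp hn (g := θ g) ⟨g, hg, rfl⟩ (a := a) (b := a) (c := 1)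
    (h1.trans (one_smul _ _).symm) (mt mem_Mon.mp h2)
  rwa [← e1, Subgroup.map_le_map_iff_of_injective θ.injective] at this

end

section

variable {K : Type*} [Field K]

/-- the frame -/
def frm (j : K) : Fin 3 ⊕ Fin 3 → Fin 3 ⊕ Fin 3 → K :=
  Sum.elim (fun k => Pi.single (.inl k) 1 + Pi.single (.inr k) 1)
    fun k => Pi.single (.inl k) j - Pi.single (.inr k) j

theorem polar_smul_form {V : Type*} [AddCommGroup V] [Module K V] (c : K) (Q : QuadraticForm K V) (x y : V) :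
    polar (c • Q : QuadraticForm K V) x y = c * polar Q x y := by
  simp [polar, mul_sub]

theorem on_frm {j : K} (h2 : (2 : K) ≠ 0) (hj : j * j = -1) : ON ((2 : K)⁻¹ • QPlus 3 K) (frm j) := by
  refine ⟨h2, fun a b => ?_, fun x => funext fun b => ?_⟩
  · rw [polar_smul_form, polar_QPlus, Fin.sum_univ_three]
    rcases a with a | a <;> rcases b with b | b <;> fin_cases a <;> fin_cases b <;>
      simp [frm, hj] <;> field_simp <;> ring
  · simp only [polar_smul_form, polar_QPlus, Fin.sum_univ_three, Fintype.sum_sum_type]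
    rcases b with b | b <;> fin_cases b <;> simp [frm] <;> field_simp <;>
      first | linear_combination (x (.inr 0) - x (.inl 0)) * hj | linear_combination (x (.inr 1) - x (.inl 1)) * hj |
        linear_combination (x (.inr 2) - x (.inl 2)) * hj | linear_combination (x (.inl 0) - x (.inr 0)) * hj |
        linear_combination (x (.inl 1) - x (.inr 1)) * hj | linear_combination (x (.inl 2) - x (.inr 2)) * hj

/-- Pauli matrices -/
def G4 (K : Type*) [Field K] : Fin 4 → Matrix (Fin 4) (Fin 4) K :=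
  ![!![0, 0, 1, 0; 0, 0, 0, 1; 1, 0, 0, 0; 0, 1, 0, 0], !![1, 0, 0, 0; 0, 1, 0, 0; 0, 0, -1, 0; 0, 0, 0, -1],
    !![0, 1, 0, 0; 1, 0, 0, 0; 0, 0, 0, 1; 0, 0, 1, 0], !![1, 0, 0, 0; 0, -1, 0, 0; 0, 0, 1, 0; 0, 0, 0, -1]]

theorem det_G4 (t : Fin 4) : (G4 K t).det = 1 := by fin_cases t <;> simp [G4, det_fin_four]

/-- sign table -/
def sT : Fin 4 → Fin 3 ⊕ Fin 3 → ZMod 2 :=
  ![Sum.elim ![0, 1, 1] ![1, 1, 0], Sum.elim ![0, 1, 1] ![0, 1, 1], Sum.elim ![1, 1, 0] ![1, 0, 1],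
    Sum.elim ![1, 0, 1] ![1, 0, 1]]

theorem sT_inj : ∀ k l, (∀ t, sT t k = sT t l) → k = l := by decide

theorem lam2_G4 (j : K) (t : Fin 4) (i : Fin 3 ⊕ Fin 3) :
    lam2 K (G4 K t) (frm j i) = (sgU K (sT t i) : K) • frm j i := by
  have e : ∀ v, lam2 K (G4 K t) v = ![Sum.elim ![v (.inr 0), -v (.inl 1), -v (.inr 2)]
      ![v (.inl 0), -v (.inr 1), -v (.inl 2)], Sum.elim ![v (.inl 0), -v (.inl 1), -v (.inl 2)]
      ![v (.inr 0), -v (.inr 1), -v (.inr 2)], Sum.elim ![-v (.inl 0), -v (.inr 1), v (.inr 2)]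
      ![-v (.inr 0), -v (.inl 1), v (.inl 2)], Sum.elim ![-v (.inl 0), v (.inl 1), -v (.inl 2)]
      ![-v (.inr 0), v (.inr 1), -v (.inr 2)]] t := fun v => by
    fin_cases t <;> ext (i | i) <;> fin_cases i <;>
      simp [G4, lam2_apply, plu4_apply, alt4_apply, Matrix.vecMul, dotProduct, Fin.sum_univ_four]
  rw [e]
  fin_cases t <;> rcases i with i | i <;> fin_cases i <;> ext (k | k) <;> fin_cases k <;> simp [sT, frm]

end

end Cfsg.Agent.H12
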