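import Mathlib
import Cfsg.Agent.H12.PxG

/-!
Pauli systems in dimension four: coordinates.
-/

set_option autoImplicit false

namespace Cfsg.Agent.H12

open Module QuadraticMap H13 H18
open scoped MatrixGroups

variable {F V : Type*} [Field F] [AddCommGroup V] [Module F V] {E : Type*} [AddCommGroup E]
  [Module (ZMod 2) E] {B : LinearMap.BilinForm (ZMod 2) E} {P : E → V ≃ₗ[F] V} {j : Fˣ} {x : E}
  {g k l : V ≃ₗ[F] V} {M : Subgroup (V ≃ₗ[F] V)} {b : Basis (Fin 4) F V} {xs : Fin 4 → E}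

/-- matrix of an automorphism -/
noncomputable def muB (b : Basis (Fin 4) F V) : (V ≃ₗ[F] V) →* Matrix (Fin 4) (Fin 4) F where
  toFun g := LinearMap.toMatrix b b g
  map_one' := LinearMap.toMatrix_id b
  map_mul' g h := LinearMap.toMatrix_mul b g.toLinearMap h.toLinearMap

theorem muB_def (g : V ≃ₗ[F] V) : muB b g = LinearMap.toMatrix b b g := rfl

theorem muB_inj : Function.Injective (muB b) := fun _ _ h =>
  LinearEquiv.toLinearMap_injective ((LinearMap.toMatrix b b).injective h)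

theorem muB_zs (c : Fˣ) : muB b (zs V c) = Matrix.scalar _ (c : F) := by
  rw [muB_def, show (zs V c).toLinearMap = (c : F) • LinearMap.id from rfl, map_smul, LinearMap.toMatrix_id,
    Matrix.smul_one_eq_diagonal, Matrix.scalar_apply]

theorem det_muB (g : V ≃ₗ[F] V) : (muB b g).det = LinearMap.det (g : V →ₗ[F] V) := LinearMap.det_toMatrix b _

theorem muB_apply (g : V ≃ₗ[F] V) (i : Fin 4) : g (b i) = ∑ k, muB b g k i • b k := by
  simp [muB_def, LinearMap.toMatrix_apply]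

/-- special linear matrix -/
noncomputable def slB (b : Basis (Fin 4) F V) : SLV F V →* SL(4, F) :=
  MonoidHom.mk' (fun g => ⟨muB b g, (det_muB _).trans (mem_SLV.mp g.2)⟩) fun _ _ => Subtype.ext (map_mul (muB b) _ _)

theorem slB_surj (b : Basis (Fin 4) F V) : Function.Surjective (slB b) := fun s => by
  obtain ⟨g, e⟩ : ∃ g, muB b g = s.1 := ⟨Matrix.toLinearEquiv b s.1 (by simp), LinearMap.toMatrix_toLin b b _⟩
  exact ⟨⟨g, mem_SLV.mpr (by rw [← det_muB (b := b), e, s.2])⟩, Subtype.ext e⟩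

/-- action on the exterior square -/
noncomputable def rhoB (b : Basis (Fin 4) F V) : (V ≃ₗ[F] V) →* End F (Fin 3 ⊕ Fin 3 → F) := (lam2 F).comp (muB b)

theorem sl4_slB (g : SLV F V) (v : Fin 3 ⊕ Fin 3 → F) : (sl4 F (slB b g)).1 v = rhoB b g v := rfl

theorem eq_zs_of_sl4 {g : SLV F V} (H : sl4 F (slB b g) = 1) : ∃ c, g.1 = zs V c := by
  rcases sl4_eq_one_iff.mp H with H | H
  · exact ⟨1, muB_inj (b := b) (by rw [map_one, map_one]; exact congrArg Subtype.val H)⟩
  · exact ⟨-1, muB_inj (b := b) (by rw [muB_zs]; exact H.trans (by simp [← Matrix.diagonal_neg]))⟩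

theorem comm_mem_SLV (k l : V ≃ₗ[F] V) : k * l * k⁻¹ * l⁻¹ ∈ SLV F V := by
  simp [SLV, mul_comm, mul_left_comm]

/-- standard coordinates -/
structure B4 (P : E → V ≃ₗ[F] V) (b : Basis (Fin 4) F V) (xs : Fin 4 → E) : Prop where
  span : Submodule.span (ZMod 2) (Set.range xs) = ⊤
  mat : ∀ t, muB b (P (xs t)) = G4 F t

theorem B4.rho (H : B4 P b xs) (j : F) (t : Fin 4) (i : Fin 3 ⊕ Fin 3) :
    rhoB b (P (xs t)) (frm j i) = (sgU F (sT t i) : F) • frm j i := by
  rw [← lam2_G4, ← H.mat]; rfl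

theorem B4.mon [Finite E] (H : B4 P b xs) (h : Pau B P) {j : F} (hj : j * j = -1) (hg : Nm P g)
    (i : Fin 3 ⊕ Fin 3) : ∃ k, ∃ c : F, rhoB b g (frm j i) = c • frm j k := by
  have o := on_frm h.two hj
  have z : ∀ (c : Fˣ) (g : V ≃ₗ[F] V), (∀ i, ∃ c : F, rhoB b g (frm j i) = c • frm j i) →
      ∀ i, ∃ d : F, rhoB b (zs V c * g) (frm j i) = d • frm j i := fun c g hg i => by
    obtain ⟨d, hd⟩ := hg i
    exact ⟨d * c ^ 2, by
      rw [map_mul, End.mul_apply, hd, map_smul, rhoB, MonoidHom.comp_apply, muB_zs, lam2_scalar, smul_smul]⟩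
  have d : ∀ t, ∃ c : F, rhoB b (P (xs t)) (rhoB b g (frm j i)) = c • rhoB b g (frm j i) := fun t => by
    obtain ⟨a, c, hc⟩ := h.nm_inv hg (xs t)
    obtain ⟨d, hd⟩ := z c _ (h.ind H.span (p := fun g => ∀ i, ∃ c : F, rhoB b g (frm j i) = c • frm j i)
      (fun i => ⟨1, by simp⟩) (fun t i => ⟨_, H.rho j t i⟩) (fun g k h1 h2 i => by
        obtain ⟨c, hc⟩ := h1 i
        obtain ⟨d, hd⟩ := h2 i
        exact ⟨d * c, by rw [map_mul, End.mul_apply, hd, map_smul, hc, smul_smul]⟩) z a) i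
    exact ⟨d, by rw [← map_smul, ← hd, ← hc, ← End.mul_apply, ← End.mul_apply, ← map_mul, ← map_mul]; congr 2; group⟩
  generalize rhoB b g (frm j i) = w at d
  choose c hc using d
  have e : ∀ t k, polar ((2 : F)⁻¹ • QPlus 3 F : QuadraticForm F _) (frm j k) w ≠ 0 → c t = sgU F (sT t k) :=
    fun t k hk => by
      have := congrArg (polar ((2 : F)⁻¹ • QPlus 3 F : QuadraticForm F _) (frm j k)) (hc t)
      nth_rw 1 [← o.sum w] at this
      simp only [map_sum, map_smul, H.rho, polar_sum_right, polar_smul_right, o.pol, smul_eq_mul, mul_ite, mul_one,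
        mul_zero, Finset.sum_ite_eq, Finset.mem_univ, if_true] at this
      exact (mul_right_cancel₀ hk (by rw [← this, mul_comm])).symm
  by_cases h0 : ∃ k, polar ((2 : F)⁻¹ • QPlus 3 F : QuadraticForm F _) (frm j k) w ≠ 0
  · obtain ⟨k, hk⟩ := h0
    refine ⟨k, _, (o.sum w).symm.trans (Finset.sum_eq_single k (fun l _ hl => ?_) (by simp))⟩
    rw [not_not.mp fun h1 => hl (sT_inj l k fun t => sgU_inj h.two (Units.ext ((e t l h1).symm.trans (e t k hk)))),
      zero_smul]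
  · push Not at h0
    exact ⟨i, 0, by rw [← o.sum w]; simp only [h0, zero_smul, Finset.sum_const_zero]⟩

theorem B4.nm [Finite E] [FiniteDimensional F V] (H : B4 P b xs) (h : Pau B P) {j : F} (hj : j * j = -1)
    (hg : ∀ i, ∃ k, ∃ c : F, rhoB b g (frm j i) = c • frm j k) : Nm P g := by
  have o := on_frm h.two hj
  rw [← inv_inv g]
  refine h.nm_inv (h.ind H.span (p := fun k => Rz P (g⁻¹ * k * g⁻¹⁻¹)) (by simpa using h.rz_zs 1)
    (fun t => h.rz_of_fix (h.ind H.span (p := fun k => ∃ c, _ * k * _ = zs V c * k) ⟨1, by group; simp⟩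
      (fun s => ?_) (fun k l ⟨c, h1⟩ ⟨d, h2⟩ => ⟨c * d, by rw [← conj_mul, h1, h2, mul_assoc, zs_left d, zs_zs]⟩)
      fun c k ⟨d, h1⟩ => ⟨d, by rw [zs_conj, h1, zs_left]⟩))
    (fun k l h1 h2 => by rw [← conj_mul]; exact h.rz_mul h1 h2) fun c k h1 => by rw [zs_conj]; exact h1.zs_mul c)
  obtain ⟨c, hc⟩ := eq_zs_of_sl4 (b := b) (g := ⟨_, comm_mem_SLV (g⁻¹ * P (xs t) * g⁻¹⁻¹) (P (xs s))⟩)
    (OG_ext fun v => by
      rw [← o.sum v, sl4_slB, map_sum, OG_one_apply]
      refine Finset.sum_congr rfl fun i _ => ?_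
      obtain ⟨k, c, hc⟩ := hg i
      rw [map_smul, rep_comm_fix (rhoB b) (a := sgU F (sT t k)) _ (H.rho j s i)]
      rw [inv_inv, map_mul, map_mul, End.mul_apply, End.mul_apply, hc, map_smul, H.rho, smul_comm, ← hc, map_smul,
        ← End.mul_apply, ← map_mul, inv_mul_cancel, map_one, End.one_apply])
  exact ⟨c, mul_inv_eq_iff_eq_mul.mp hc⟩

theorem B4.comm_fix (H : B4 P b xs) (h2 : (2 : F) ≠ 0) (j : F) (hk : k * P (xs 1) = P (xs 1) * k)
    (hl : l * P (xs 1) = P (xs 1) * l) : rhoB b (k * l * k⁻¹ * l⁻¹) (frm j (.inl 0)) = frm j (.inl 0) := by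
  have e : ∀ {k : V ≃ₗ[F] V}, k * P (xs 1) = P (xs 1) * k →
      (∃ a : F, rhoB b k (Pi.single (.inl 0) 1) = a • Pi.single (.inl 0) 1) ∧
      ∃ a : F, rhoB b k (Pi.single (.inr 0) 1) = a • Pi.single (.inr 0) 1 := fun {k} hk => by
    have h1 := congrArg (muB b) hk
    rw [map_mul, map_mul, H.mat] at h1
    change (∃ a : F, lam2 F (muB b k) _ = _) ∧ ∃ a : F, lam2 F (muB b k) _ = _
    generalize muB b k = A at h1
    have z : ∀ i j, G4 F 1 i i = -G4 F 1 j j → G4 F 1 j j ≠ 0 → (A * G4 F 1) i j = A i j * G4 F 1 j j →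
        (G4 F 1 * A) i j = G4 F 1 i i * A i j → A i j = 0 := fun i j a1 a2 a3 a4 => by
      have := congrFun₂ h1 i j
      rw [a3, a4, a1] at this
      exact (mul_eq_zero.mp (by linear_combination this : A i j * (2 * G4 F 1 j j) = 0)).resolve_right
        (mul_ne_zero h2 a2)
    have z1 : A 0 2 = 0 ∧ A 0 3 = 0 ∧ A 1 2 = 0 ∧ A 1 3 = 0 ∧ A 2 0 = 0 ∧ A 2 1 = 0 ∧ A 3 0 = 0 ∧ A 3 1 = 0 := by
      refine ⟨?_, ?_, ?_, ?_, ?_, ?_, ?_, ?_⟩ <;> apply z <;>
        simp [G4, Matrix.mul_apply, Fin.sum_univ_four, Matrix.vecMul, dotProduct]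
    refine ⟨⟨A 0 0 * A 1 1 - A 0 1 * A 1 0, ?_⟩, A 2 2 * A 3 3 - A 2 3 * A 3 2, ?_⟩ <;> ext (i | i) <;> fin_cases i <;>
      simp [lam2_apply, plu4_apply, alt4_apply, Matrix.mul_apply, Fin.sum_univ_four, z1] <;> ring
  obtain ⟨⟨_, a1⟩, _, a2⟩ := e hk
  obtain ⟨⟨_, a3⟩, _, a4⟩ := e hl
  simp only [frm, Sum.elim_inl, map_add, rep_comm_fix _ a1 a3, rep_comm_fix _ a2 a4]

theorem Pau.eq_top (h : Pau B P) {W : Submodule F V} (hW : ∀ a, ∀ w ∈ W, P a w ∈ W) {v : V} (h1 : v ∈ W)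
    (h2 : v ≠ 0) : W = ⊤ := eq_top_iff.mpr fun u _ => by
  have e : ∀ X : End F V, X v ∈ W := fun X => by
    induction (h.span ▸ Submodule.mem_top : X ∈ _) using Submodule.span_induction with
    | mem x hx => obtain ⟨a, rfl⟩ := hx; exact hW a v h1
    | zero => simp
    | add x y _ _ h1 h2 => exact add_mem h1 h2
    | smul c x _ h1 => exact W.smul_mem c h1
  obtain ⟨φ, h3, -⟩ := exists_dual_one (W := (⊥ : Submodule F V)) (v := v) h2
  simpa [h3] using e (φ.smulRight u)

theorem Pau.exists_B4 [Finite E] (h : Pau B P) (hs : ∀ a, P a * P a = 1) (h4 : finrank (ZMod 2) E = 4) (hx : x ≠ 0) :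
    ∃ b xs, B4 P b xs ∧ xs 1 = x := by
  have := Module.Finite.of_finite (R := ZMod 2) (M := E)
  obtain ⟨y, a1⟩ := h.exists_one hx
  obtain ⟨z, z1, z2⟩ := h.exists_perp (Submodule.span _ {x, y}) ⊥ (by
    have := frk_pair (K := ZMod 2) x y; simp; omega)
  simp only [e2_mem_span_pair, forall_eq_or_imp, forall_eq] at z2
  obtain ⟨-, a2, a3, -⟩ := z2
  have a4 := h.symm x y ▸ a1
  obtain ⟨w, a5, w2⟩ := h.exists_sep (W := Submodule.span _ {x, y}) (a := z) (by
    rw [e2_mem_span_pair]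
    rintro (rfl | rfl | rfl | rfl) <;> simp_all [h.self])
  simp only [e2_mem_span_pair, forall_eq_or_imp, forall_eq] at w2
  obtain ⟨-, a6, a7, -⟩ := w2
  have a8 := h.symm x z ▸ a2
  have a9 := h.symm y z ▸ a3
  have b1 := h.symm w z ▸ a5
  have b2 := h.symm w x ▸ a6
  have b3 := h.symm w y ▸ a7
  have sp : Submodule.span (ZMod 2) (Set.range ![y, x, w, z]) = ⊤ :=
    (Fintype.linearIndependent_iff.mpr fun g hg i => by
      have := congrArg (B (![x, y, z, w] i)) hg
      clear hg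
      fin_cases i <;> simpa [Fin.sum_univ_four, h.self, a1, a2, a3, a4, a5, a6, a7, a8, a9, b1, b2, b3] using this).span_eq_top_of_card_eq_finrank' (by simp [h4])
  obtain ⟨v, v1, v2, v3⟩ := h.exists_eig (hs x) (hs z) hx z1 (by rintro rfl; simp_all) a2 0 0
  simp only [sgU_zero, Units.val_one, one_smul] at v2 v3
  have PP : ∀ a v, P a (P a v) = v := fun a v => LinearEquiv.congr_fun (hs a) v
  have c : ∀ t i, P (![y, x, w, z] t) (![v, P w v, P y v, P y (P w v)] i) =
      ∑ k, G4 F t k i • ![v, P w v, P y v, P y (P w v)] k := fun t i => by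
    fin_cases t <;> fin_cases i <;>
      simp [G4, Fin.sum_univ_four, PP, h.comm_app x, h.comm_app z, h.comm_app w y, *]
  have li : LinearIndependent F ![v, P w v, P y v, P y (P w v)] := Fintype.linearIndependent_iff.mpr fun g hg i => by
    have d1 := congrArg (P x) hg
    have d2 := congrArg (P z) hg
    have d3 := congrArg (P x) d2
    simp [Fin.sum_univ_four, h.comm_app x, h.comm_app z, a1, a8, b1, b2, v2, v3, h.symm z y, a3] at hg d1 d2 d3
    have t4 : (4 : F) ≠ 0 := by rw [show (4 : F) = 2 * 2 by norm_num]; exact mul_ne_zero h.two h.two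
    have e : ∀ {c : F} {u : V}, u ≠ 0 → (4 : F) • c • u = 0 → c = 0 := fun hu H => by simpa [t4, hu] using H
    fin_cases i
    · exact e (c := g 0) v1 (by linear_combination (norm := module) hg + d1 + d2 + d3)
    · exact e (c := g 1) (u := P w v) (by simpa) (by linear_combination (norm := module) hg + d1 - d2 - d3)
    · exact e (c := g 2) (u := P y v) (by simpa) (by linear_combination (norm := module) hg - d1 + d2 - d3)
    · exact e (c := g 3) (u := P y (P w v)) (by simpa) (by linear_combination (norm := module) hg - d1 - d2 + d3)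
  have top : Submodule.span F (Set.range ![v, P w v, P y v, P y (P w v)]) = ⊤ :=
    h.eq_top (h.ind sp (p := fun g => ∀ u ∈ Submodule.span F (Set.range ![v, P w v, P y v, P y (P w v)]),
      g u ∈ Submodule.span F (Set.range ![v, P w v, P y v, P y (P w v)])) (fun _ h => h)
      (fun t => (Submodule.span_le (p := Submodule.comap (P (![y, x, w, z] t)).toLinearMap
        (Submodule.span F (Set.range ![v, P w v, P y v, P y (P w v)])))).mpr (by
        rintro _ ⟨i, rfl⟩
        exact Submodule.mem_comap.mpr ((c t i).symm ▸ sum_mem fun k _ => Submodule.smul_mem _ _ (Submodule.subset_span ⟨k, rfl⟩))))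
      (fun g k h1 h2 u hu => h1 _ (h2 u hu)) fun c g h1 u hu => Submodule.smul_mem _ _ (h1 u hu))
      (Submodule.subset_span ⟨0, rfl⟩) v1
  refine ⟨Basis.mk li top.ge, _, ⟨sp, fun t => Matrix.ext fun k i => ?_⟩, rfl⟩
  have := c t i
  simp only [← Basis.mk_apply li top.ge] at this
  simp [muB_def, LinearMap.toMatrix_apply, this, -Basis.coe_mk, Finsupp.single_apply]

end Cfsg.Agent.H12
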