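import Mathlib
import Cfsg.Agent.H12.PxH
import Cfsg.Agent.H12.MaxU
import Cfsg.Agent.H12.SBridge

/-!
Pauli systems in dimension four: overgroups of the normaliser.
-/

set_option autoImplicit false

namespace Cfsg.Agent.H12

open Module QuadraticMap H13 H18
open scoped MatrixGroups commutatorElement

variable {F V : Type*} [Field F] [AddCommGroup V] [Module F V] {E : Type*} [AddCommGroup E]
  [Module (ZMod 2) E] {B : LinearMap.BilinForm (ZMod 2) E} {P : E → V ≃ₗ[F] V} {j : Fˣ} {x : E}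
  {g k l : V ≃ₗ[F] V} {M : Subgroup (V ≃ₗ[F] V)} {b : Basis (Fin 4) F V} {xs : Fin 4 → E}

theorem B4.nm_of_fix [Fintype F] [Finite E] [FiniteDimensional F V] (H : B4 P b xs) (h : Pau B P) {j : F}
    (hj : j * j = -1) (hp : (Fintype.card F).Prime) (hN : ∀ g ∈ SLV F V, Nm P g → g ∈ M) (hc : ¬ SLV F V ≤ M)
    (h1 : g ∈ M) (h2 : g ∈ SLV F V) {a : Fin 3 ⊕ Fin 3} (h3 : rhoB b g (frm j a) = frm j a) : Nm P g := by
  by_contra h4
  have := fr_Om_le' (inv_ne_zero h.two) (on_frm h.two hj) hp (by simp)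
    (M := (M.subgroupOf (SLV F V)).map ((sl4 F).comp (slB b))) (fun g h1 h2 => by
      obtain ⟨s, rfl⟩ := range_sl4.ge h1
      obtain ⟨s, rfl⟩ := slB_surj b s
      exact ⟨s, hN _ s.2 (H.nm h hj h2), rfl⟩) (g := sl4 F (slB b ⟨g, h2⟩)) ⟨_, h1, rfl⟩ h3
    fun h5 => h4 (H.nm h hj h5)
  refine hc fun s hs => ?_
  obtain ⟨m, m1, m2⟩ := this (sl4_mem_Om (slB b ⟨s, hs⟩))
  obtain ⟨c, hc⟩ := eq_zs_of_sl4 (b := b) (g := m⁻¹ * ⟨s, hs⟩) (by
    rw [map_mul, map_mul, map_inv, map_inv, inv_mul_eq_one]; exact m2)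
  exact (mul_mem_cancel_left (inv_mem m1)).mp (hN (m⁻¹ * ⟨s, hs⟩).1 (m⁻¹ * ⟨s, hs⟩).2 (by
    rw [hc]; exact Nm.zs c))

theorem PL.base_SL [Fintype F] [Finite E] [Finite V] [FiniteDimensional F V] (h : PL B P j M)
    (hp : (Fintype.card F).Prime) (h4 : finrank (ZMod 2) E = 4) (hc : ¬ SLV F V ≤ M) (hg : g ∈ M) : Nm P g :=
  h.nm_of_comm (by omega) (fun x hx k hk l hl h1 h2 => by
    obtain ⟨b, xs, H, rfl⟩ := h.exists_B4 h.sq1 h4 hx
    exact H.nm_of_fix h.toPau (congrArg Units.val h.jj) hp (fun _ _ => h.mem_of_nm) hc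
      (mul_mem (mul_mem (mul_mem hk hl) (inv_mem hk)) (inv_mem hl)) (comm_mem_SLV k l)
      (H.comm_fix h.two _ h1 h2)) hg

theorem exists_su4 {K : Type*} [Field K] [Fintype K] [Fintype F] [Algebra F K] {σ : K ≃+* K}
    (h : Twist F (hodge σ)) (h1 : finrank F K = 2) (h2 : ∀ a, σ a = a ^ Fintype.card F) :
    ∃ r : SU 4 K (Fintype.card F) →* OG h.form, (∀ g v, ((r g).1 v).1 = (sl4 K g).1 v) ∧ Om h.form ≤ r.range := by
  have h3 : ∀ a, σ (σ a) = a := h.σσ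
  have h4 : ∀ a, σ a = a ↔ _ := h.fix
  have h5 : ∃ θ, σ θ ≠ θ := h.ne
  have : Module.Finite F K := Module.finite_of_finrank_pos (by omega)
  have hR := h.nd nd_QPlus
  have hd : finrank F h.fixed = 6 := by rw [h.finrank_fixed h1, finrank_six]
  have hG := good_of_not_isPlus (not_isPlus_hodge h h1)
  let H := ((sl4 K).comp (twSL σ)).eqLocus (sl4 K)
  have hH : ∀ g, g ∈ H ↔ ∀ v, (hodge σ).e ((sl4 K g).1 v) = (sl4 K g).1 ((hodge σ).e v) :=
    fun g => by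
      simp only [← H13.SemiSim.conj_apply_e, hodge_sl4]
      exact ⟨fun H v => congrArg (fun y : OG _ => y.1 ((hodge σ).e v)) H, fun H => OG_ext fun v => by
        obtain ⟨v, rfl⟩ := (hodge σ).e.surjective v
        exact H v⟩
  have hle : SU 4 K (Fintype.card F) ≤ H := fun g hg =>
    congrArg (sl4 K) ((mem_SU_iff_twSL h2).mp hg)
  let r := h.res ((sl4 K).comp H.subtype) fun g => (hH _).mp g.2
  have hsq : ∀ a : F, IsSquare (algebraMap F K a) := fun a => by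
    by_cases h6 : (2 : F) = 0
    · obtain ⟨x, rfl⟩ := exists_sq_eq_of_two_eq_zero h6 a
      rw [map_pow]; exact IsSquare.sq _
    · obtain ⟨b, hb⟩ := exists_mul_conj_eq h3 h5 ((h4 _).mpr ⟨a, rfl⟩)
      rw [← hb, h2, ← pow_succ']
      exact (odd_card_of_two_ne_zero h6).add_one.isSquare_pow _
  refine ⟨r.comp (Subgroup.inclusion hle), fun _ _ => rfl, ?_⟩
  rw [← (Om h.form).range_subtype, MonoidHom.range_eq_map, ← hR.commutator_Om (by omega),
    Subgroup.map_subtype_commutator, Subgroup.commutator_le]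
  have key : ∀ x ∈ Om h.form, ∃ a : H, r a = x ∧
      ∃ z ∈ Subgroup.center SL(4, K), twSL σ a = a * z := fun x hx => by
    obtain ⟨y, hy, h6, h7⟩ := h.exists_lift h1 hsq nd_QPlus good_six hG hx
    obtain ⟨g, rfl⟩ := range_sl4.ge hy
    have hg := (hH g).mpr h6
    refine ⟨⟨g, hg⟩, OG_ext fun v => Subtype.ext (h7 v), g⁻¹ * twSL σ g,
      (sl4_eq_iff _).mp (Or.inl ?_), (mul_inv_cancel_left _ _).symm⟩
    rw [map_mul, map_inv, inv_mul_eq_one]
    exact hg.symm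
  intro x hx y hy
  obtain ⟨a, rfl, z, hz, ha⟩ := key x hx
  obtain ⟨b, rfl, w, hw, hb⟩ := key y hy
  exact ⟨⟨⁅a.1, b.1⁆, (mem_SU_iff_twSL h2).mpr (by
    rw [map_commutatorElement, ha, hb, commutatorElement_center_mul hz hw])⟩,
    (congrArg r (Subtype.ext rfl)).trans (map_commutatorElement r a b)⟩

variable {σ : F →+* F} {T : V →ₛₗ[σ] V →ₗ[F] F}

theorem mem_UG_iff_muB {c : F} (hc : c ≠ 0) (hb : ∀ i k, T (b i) (b k) = if i = k then c else 0) {τ : F ≃+* F}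
    (hτ : ∀ a, τ a = σ a) : g ∈ UG T ↔ H28.cT τ (muB b g) * muB b g = 1 := by
  have e : ∀ i k, T (g (b i)) (g (b k)) = c * (H28.cT τ (muB b g) * muB b g) i k := fun i k => by
    simp [muB_apply g, hb, LinearMap.map_smulₛₗ, Matrix.mul_apply, H28.cT, hτ, Finset.mul_sum, mul_comm,
      mul_left_comm]
  refine ⟨fun H => Matrix.ext fun i k => mul_left_cancel₀ hc ?_, fun H x y => ?_⟩
  · rw [← e, H, hb]; simp [Matrix.one_apply]
  · rw [← b.sum_repr x, ← b.sum_repr y]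
    simp only [map_sum, map_smul g, LinearMap.map_smulₛₗ, LinearMap.sum_apply, LinearMap.smul_apply, e, H, hb, Matrix.one_apply,
      mul_ite, mul_one, mul_zero]

theorem B4.gram (H : B4 P b xs) (h2 : (2 : F) ≠ 0) (D : SD T) (hU : ∀ a, P a ∈ UG T) :
    ∃ c, c ≠ 0 ∧ ∀ i k, T (b i) (b k) = if i = k then c else 0 := by
  have e : ∀ t i k, T (b i) (b k) = T (∑ l, G4 F t l i • b l) (∑ l, G4 F t l k • b l) := fun t i k => by
    rw [← H.mat, ← muB_apply, ← muB_apply, hU]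
  have z : ∀ {a : F}, a = -a → a = 0 := fun {a} h =>
    (mul_eq_zero.mp (by linear_combination h : 2 * a = 0)).resolve_left h2
  have d : ∀ i k, T (b i) (b k) = if i = k then T (b 0) (b 0) else 0 := fun i k => by
    have a0 := e 0 i k
    have a1 := e 1 i k
    have a2 := e 2 i k
    have a3 := e 3 i k
    have a4 := e 2 0 0
    fin_cases i <;> fin_cases k <;> simp [G4, Fin.sum_univ_four] at a0 a1 a2 a3 a4 ⊢ <;>
      first | exact z a1 | exact z a3 | exact a0 | exact a2 | exact a0.trans a4.symm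
  refine ⟨_, fun h0 => b.ne_zero 0 (D.sep _ fun y => ?_), d⟩
  rw [← b.sum_repr y, map_sum]
  exact Finset.sum_eq_zero fun i _ => by rw [map_smul, d, h0, ite_self, smul_zero]

theorem B4.nm_of_fixU [Fintype F] [Finite E] [FiniteDimensional F V] {p : ℕ} {hF : Fintype.card F = p ^ 2}
    {T : V →ₛₗ[frobq hF] V →ₗ[F] F} (H : B4 P b xs) (h : Pau B P) {j : F} (hj : j * j = -1) (hp : p.Prime)
    (hj' : j ^ p = -j) (D : SD T) (hU : ∀ a, P a ∈ UG T) (hN : ∀ g ∈ SUG T, Nm P g.1 → g.1 ∈ M)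
    (hc : ¬ ∀ g ∈ SUG T, g.1 ∈ M) {g : UG T} (h1 : g.1 ∈ M) (h2 : g ∈ SUG T) {a : Fin 3 ⊕ Fin 3}
    (h3 : rhoB b g (frm j a) = frm j a) : Nm P g.1 := by
  by_contra h4
  have := Fact.mk hp
  obtain ⟨_, τ, t1, t2, t3, t4, t5⟩ := exists_quadratic_ext (F := ZMod p) (K := F) (by rwa [ZMod.card])
  have w : Twist (ZMod p) (hodge τ) := ⟨rfl, fun v => by ext i; simp [hodge_apply, t3], t3, t4, t5⟩
  obtain ⟨r, r1, r2⟩ := exists_su4 w t1 t2
  obtain ⟨c, c1, c2⟩ := H.gram h.two D hU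
  have u := fun g => mem_UG_iff_muB (g := g) c1 c2 (τ := τ) fun a => by rw [t2, ZMod.card, frobq_apply]
  let s : SUG T →* SU 4 F (Fintype.card (ZMod p)) := MonoidHom.mk' (fun g =>
    ⟨slB b ⟨g.1.1, mem_SLV.mpr (mem_SUG.mp g.2)⟩, (H28.mem_SU_iff t2).mpr ((u _).mp g.1.2)⟩)
      fun _ _ => Subtype.ext (Subtype.ext (map_mul (muB b) _ _))
  have s1 : Function.Surjective s := fun y => by
    obtain ⟨g, hg⟩ := slB_surj b y.1
    exact ⟨⟨⟨g, (u _).mpr (by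
      rw [show muB b g = y.1.1 from congrArg Subtype.val hg]; exact (H28.mem_SU_iff t2).mp y.2)⟩,
        mem_SUG.mpr (mem_SLV.mp g.2)⟩, Subtype.ext hg⟩
  have s2 : ∀ g v, ((r (s g)).1 v).1 = rhoB b g.1.1 v := fun g v => r1 _ _
  let e : Fin 3 ⊕ Fin 3 → w.fixed := fun i => ⟨frm j i, w.mem_fixed.mpr (by
    have : τ j = -j := by rw [t2, ZMod.card, hj']
    rcases i with i | i <;> fin_cases i <;> ext (k | k) <;> fin_cases k <;> simp [hodge_apply, frm, this])⟩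
  have o := on_frm h.two hj
  have i0 := (algebraMap (ZMod p) F).injective
  have p1 : ∀ x y : w.fixed, algebraMap _ F (polar ((2 : ZMod p)⁻¹ • w.form : QuadraticForm _ _) x y) =
      polar ((2 : F)⁻¹ • QPlus 3 F : QuadraticForm _ _) x.1 y.1 := fun x y => by
    rw [polar_smul_form, polar_smul_form, map_mul, w.polar_form, map_inv₀, map_ofNat]
  have t2' : (2 : ZMod p) ≠ 0 := fun e => h.two (by
    rw [← map_ofNat (algebraMap (ZMod p) F), e, map_zero])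
  have o' : ON ((2 : ZMod p)⁻¹ • w.form) e := ⟨t2', fun a b => i0 (by
      rw [p1, o.pol]; split_ifs <;> simp), fun x => Subtype.ext (by
    rw [← o.sum x.1, AddSubmonoidClass.coe_finsetSum]
    exact Finset.sum_congr rfl fun i _ => by rw [← p1 (e i), algebraMap_smul]; rfl)⟩
  have m : ∀ g, (∀ i, ∃ k, ∃ c : ZMod p, (r (s g)).1 (e i) = c • e k) → Nm P g.1.1 := fun g hg =>
    H.nm h hj fun i => by
      obtain ⟨k, c, hc⟩ := hg i
      have := s2 g (e i)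
      rw [hc] at this
      exact ⟨k, algebraMap _ F c, by rw [algebraMap_smul]; exact this.symm⟩
  have : Finite w.fixed := inferInstance
  have := fr_Om_le' (inv_ne_zero t2') o' (by rwa [ZMod.card]) (by simp)
    (M := ((M.comap (UG T).subtype).subgroupOf (SUG T)).map (r.comp s)) (fun g h1 h2 => by
      obtain ⟨y, rfl⟩ := r2 h1
      obtain ⟨y, rfl⟩ := s1 y
      exact ⟨y, hN _ y.2 (m y h2), rfl⟩) (g := r (s ⟨g, h2⟩)) ⟨_, h1, rfl⟩ (a := a)
    (Subtype.ext ((s2 _ _).trans h3)) fun h5 => h4 (m _ h5)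
  refine hc fun y hy => ?_
  obtain ⟨n, m1, m2⟩ := this (map_mem_Om_of_perfect (commutator_SU (by rwa [ZMod.card]) (by omega) (by omega)) r
    (s ⟨y, hy⟩))
  obtain ⟨c, hc⟩ := eq_zs_of_sl4 (b := b) (g := ⟨(n⁻¹ * ⟨y, hy⟩).1.1, mem_SLV.mpr (mem_SUG.mp (n⁻¹ * ⟨y, hy⟩).2)⟩)
    (OG_ext fun v => by
      have : r (s (n⁻¹ * ⟨y, hy⟩)) = 1 := by
        rw [map_mul, map_mul, map_inv, map_inv, inv_mul_eq_one]; exact m2
      rw [← o.sum v, sl4_slB, map_sum, OG_one_apply]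
      exact Finset.sum_congr rfl fun i _ => by rw [map_smul, ← s2 _ (e i), this]; rfl)
  exact (mul_mem_cancel_left (inv_mem (show n.1.1 ∈ M from m1))).mp (hN _ (n⁻¹ * ⟨y, hy⟩).2 (by
    rw [show (n⁻¹ * ⟨y, hy⟩).1.1 = zs V c from hc]; exact Nm.zs c))

theorem Sim.mul (h : Sim T g) (h' : Sim T k) : Sim T (g * k) := by
  obtain ⟨c, c1, c2⟩ := h
  obtain ⟨d, d1, d2⟩ := h'
  exact ⟨c * d, mul_ne_zero c1 d1, fun x y => by simp [c2, d2, mul_assoc]⟩

theorem comm_mem_UG (h : Sim T k) (h' : Sim T l) : k * l * k⁻¹ * l⁻¹ ∈ UG T := fun x y => by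
  obtain ⟨c, c1, c2⟩ := h
  obtain ⟨d, d1, d2⟩ := h'
  have a1 := d2 (l⁻¹ x) (l⁻¹ y)
  have a2 := c2 (k⁻¹ (l⁻¹ x)) (k⁻¹ (l⁻¹ y))
  simp only [LinearEquiv.mul_apply, c2, d2]
  simp only [LinearEquiv.coe_inv, LinearEquiv.apply_symm_apply] at a1 a2 ⊢
  rw [a1, a2]; ring

theorem PL.base_SU [Fintype F] [Finite E] [Finite V] [FiniteDimensional F V] {p : ℕ} {hF : Fintype.card F = p ^ 2}
    {T : V →ₛₗ[frobq hF] V →ₗ[F] F} (h : PL B P j M) (hp : p.Prime) (hj : (j : F) ^ p = -j) (D : SD T)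
    (hU : ∀ a, P a ∈ UG T) (hS : ∀ g ∈ M, Sim T g) (h4 : finrank (ZMod 2) E = 4)
    (hc : ¬ ∀ g ∈ SUG T, g.1 ∈ M) (hg : g ∈ M) : Nm P g :=
  h.nm_of_comm (by omega) (fun x hx k hk l hl h1 h2 => by
    obtain ⟨b, xs, H, rfl⟩ := h.exists_B4 h.sq1 h4 hx
    exact H.nm_of_fixU h.toPau (congrArg Units.val h.jj) hp hj D hU (fun _ _ => h.mem_of_nm) hc
      (g := ⟨_, comm_mem_UG (hS k hk) (hS l hl)⟩)
      (mul_mem (mul_mem (mul_mem hk hl) (inv_mem hk)) (inv_mem hl)) (mem_SUG.mpr (mem_SLV.mp (comm_mem_SLV k l)))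
      (H.comm_fix h.two _ h1 h2)) hg

end Cfsg.Agent.H12
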