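import Mathlib
import Cfsg.Agent.H12.PxI

/-!
Pauli systems: overgroups in the linear case.
-/

set_option autoImplicit false

namespace Cfsg.Agent.H12

open Module

universe u v

variable {F V : Type*} [Field F] [AddCommGroup V] [Module F V] {E : Type*} [AddCommGroup E]
  [Module (ZMod 2) E] {B : LinearMap.BilinForm (ZMod 2) E} {P : E → V ≃ₗ[F] V} {j : Fˣ} {x : E}
  {g k l s u C : V ≃ₗ[F] V} {M : Subgroup (V ≃ₗ[F] V)} {v z : V}

/-- non-scalar involutions -/
def RI (P : E → V ≃ₗ[F] V) (s : V ≃ₗ[F] V) : Prop := s * s = 1 ∧ ∃ a c, a ≠ 0 ∧ s = zs V c * P a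

theorem RI.rz (h : RI P s) : Rz P s := h.2.elim fun a ⟨c, _, H⟩ => ⟨a, c, H⟩

theorem RI.neg (h : RI P s) : RI P (zs V (-1) * s) :=
  ⟨by rw [mul_assoc, zs_left _ s, zs_zs, h.1]; simp, h.2.elim fun a ⟨c, h1, H⟩ => ⟨a, -1 * c, h1, by rw [H, zs_zs]⟩⟩

theorem inv_agree (hk : k * s = s * k) (H : ∀ z, s z = z → k z = g z) (hz : s z = z) : k⁻¹ z = g⁻¹ z :=
  g.injective (by rw [← H _ (by rw [← comm_apply (comm_inv hk), hz])]; simp)

theorem comm_of_eig (h2 : (2 : F) ≠ 0) (hs : s * s = 1) (h1 : ∀ z, s z = z → s (g z) = g z)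
    (h3 : ∀ z, s z = -z → s (g z) = -g z) : g * s = s * g :=
  ext_eig' h2 hs (fun z hz => by simp [hz, h1 z hz]) fun z hz => by simp [hz, h3 z hz]

theorem conj_agree (h2 : (2 : F) ≠ 0) (hs : s * s = 1) (hk : k * s = s * k) (hg : g * s = s * g)
    (H : ∀ z, s z = z → k z = g z) (hC : C * s = s * C) (hC' : ∀ z, s z = -z → C z = z) :
    k * C * k⁻¹ = g * C * g⁻¹ :=
  ext_eig' h2 hs (fun z hz => by
    simp only [LinearEquiv.mul_apply]
    rw [inv_agree hk H hz, H _ (by rw [← comm_apply hC, ← comm_apply (comm_inv hg), hz])]) fun z hz => by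
      simp only [LinearEquiv.mul_apply]
      rw [hC' _ (by rw [← comm_apply (comm_inv hk), hz, map_neg]),
        hC' _ (by rw [← comm_apply (comm_inv hg), hz, map_neg])]
      simp

theorem eig_four (h2 : (2 : F) ≠ 0) (hs : s * s = 1) (hu : u * u = 1) (H : s * u = u * s) {p : V → Prop}
    (h1 : ∀ x y, p x → p y → p (x + y)) {v : V} (h3 : ∀ (α β : ZMod 2) (w : V), s w = (sgU F α : F) • w →
      u w = (sgU F β : F) • w → w = (4 : F)⁻¹ • (v + (sgU F α : F) • s v + (sgU F β : F) • u v +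
        (sgU F α : F) • (sgU F β : F) • s (u v)) → p w) : p v := by
  have e1 : ∀ v, s (s v) = v := fun v => LinearEquiv.congr_fun hs v
  have e2 : ∀ v, u (u v) = v := fun v => LinearEquiv.congr_fun hu v
  have e3 : ∀ v, u (s v) = s (u v) := fun v => (comm_apply H v).symm
  have t4 : (4 : F) ≠ 0 := by rw [show (4 : F) = 2 * 2 by norm_num]; exact mul_ne_zero h2 h2
  have a := fun α β => h3 α β _ (by
    rcases z2_cases α with rfl | rfl <;> rcases z2_cases β with rfl | rfl <;> simp [e1] <;> module) (by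
    rcases z2_cases α with rfl | rfl <;> rcases z2_cases β with rfl | rfl <;> simp [e2, e3] <;> module) rfl
  convert h1 _ _ (h1 _ _ (a 0 0) (a 0 1)) (h1 _ _ (a 1 0) (a 1 1)) using 1
  simp only [sgU_zero, sgU_one, Units.val_one, Units.val_neg]
  match_scalars <;> field_simp <;> ring

namespace PL

variable (h : PL B P j M)
include h

theorem sign_of_sq {a : E} {c : Fˣ} (H : zs V c * P a * (zs V c * P a) = 1) : ∃ t, c = sgU F t := by
  rw [mul_assoc, zs_left _ (P a), zs_zs, h.sq1, mul_one, ← map_one (zs V)] at H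
  rcases mul_self_eq_one_iff.mp (congrArg Units.val (h.zs_injective H)) with e | e
  exacts [⟨0, Units.ext (by simpa using e)⟩, ⟨1, Units.ext (by simpa using e)⟩]

theorem hS_mem_of_rz (h1 : Rz P s) (h2 : s * s = 1) : hS (zs V j * s) ∈ M := by
  obtain ⟨a, c, rfl⟩ := h1
  obtain ⟨t, rfl⟩ := h.sign_of_sq h2
  exact h.hS_sg_mem t a

theorem ctrl (h1 : Rz P s) (h2 : s * s = 1) (h3 : Rz P u) (h4 : u * u = 1) (H : s * u = u * s) :
    ∃ C ∈ M, C * s = s * C ∧ (∀ z, s z = z → C z = u z) ∧ ∀ z, s z = -z → C z = z := by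
  have h5 : s * u * (s * u) = 1 := by rw [mul_assoc, ← mul_assoc u, ← H, mul_assoc, h4, mul_one, h2]
  have jj : (j : F) * j = -1 := congrArg Units.val h.jj
  have j1 : 1 + (j : F) ≠ 0 := fun e => h.two (by linear_combination (1 - j) * e + jj)
  have j2 : 1 - (j : F) ≠ 0 := fun e => h.two (by linear_combination (1 + j) * e + jj)
  have e2 : ∀ v, u (u v) = v := fun v => LinearEquiv.congr_fun h4 v
  have a1 : ∀ z, s z = z → (hS (zs V j * s))⁻¹ z = (1 + j : F)⁻¹ • z := fun z hz => (LinearEquiv.symm_apply_eq _).mpr (by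
    simp [hS_apply h.two (sq_zs_mul h.jj h2), hz]; match_scalars; field_simp)
  have a2 : ∀ z, s z = -z → (hS (zs V j * s))⁻¹ z = (1 - j : F)⁻¹ • z := fun z hz => (LinearEquiv.symm_apply_eq _).mpr (by
    simp [hS_apply h.two (sq_zs_mul h.jj h2), hz]; match_scalars; field_simp; ring)
  have b1 : ∀ z, s z = z → (zs V (Units.mk0 _ j1)⁻¹ * (hS (zs V j * u) * hS (zs V j * (s * u)) *
      (hS (zs V j * s))⁻¹)) z = u z := fun z hz => by
    simp only [LinearEquiv.mul_apply, a1 z hz]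
    simp only [hS_apply h.two (sq_zs_mul h.jj h4), hS_apply h.two (sq_zs_mul h.jj h5), comm_apply H, hz, e2,
      LinearEquiv.mul_apply, zs_apply, map_add, map_smul, Units.val_inv_eq_inv_val, Units.val_mk0]
    match_scalars <;> field_simp
    · linear_combination jj
    · linear_combination -jj
  have b2 : ∀ z, s z = -z → (zs V (Units.mk0 _ j1)⁻¹ * (hS (zs V j * u) * hS (zs V j * (s * u)) *
      (hS (zs V j * s))⁻¹)) z = z := fun z hz => by
    simp only [LinearEquiv.mul_apply, a2 z hz]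
    simp only [hS_apply h.two (sq_zs_mul h.jj h4), hS_apply h.two (sq_zs_mul h.jj h5), comm_apply H, hz, e2,
      LinearEquiv.mul_apply, zs_apply, map_add, map_smul, Units.val_inv_eq_inv_val, Units.val_mk0, map_neg]
    match_scalars <;> field_simp <;> ring
  exact ⟨_, mul_mem (h.zm _) (mul_mem (mul_mem (h.hS_mem_of_rz h3 h4) (h.hS_mem_of_rz (h.rz_mul h1 h3) h5))
    (inv_mem (h.hS_mem_of_rz h1 h2))), comm_of_eig h.two h2 (fun z hz => by rw [b1 z hz, comm_apply H, hz])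
      fun z hz => by rw [b2 z hz, hz], b1, b2⟩

variable [Finite E]

theorem conj_RI (h1 : RI P s) (h2 : RI P u) : ∃ n ∈ M, n * s * n⁻¹ = u := by
  obtain ⟨a0, a, c, a1, rfl⟩ := h1
  obtain ⟨b0, b, d, b1, rfl⟩ := h2
  obtain ⟨n, n1, -, -, e, n2⟩ := h.trans (x := 0) a1 a1 b1 b1 (by simp) (by simp)
  obtain ⟨t, ht⟩ := h.sign_of_sq (a := b) (c := d⁻¹ * (c * e)) (by
    obtain ⟨t, rfl⟩ := h.sign_of_sq b0
    obtain ⟨t', ht⟩ := h.sign_of_sq (a := b) (c := c * e) (by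
      rw [← zs_zs, ← n2, ← zs_conj, conj_mul, a0]; simp)
    rw [ht, mul_assoc, zs_left _ (P b), zs_zs, h.sq1, mul_one, mul_mul_mul_comm, sgU_mul_self, ← mul_inv,
      sgU_mul_self]; simp)
  obtain ⟨w, hw⟩ : ∃ w, B w b = t := by
    rcases z2_cases t with rfl | rfl
    exacts [⟨0, by simp⟩, (h.exists_one b1).imp fun w hw => by rwa [h.symm]]
  refine ⟨P w * n, mul_mem (h.pm w) n1, ?_⟩
  rw [show P w * n * (zs V c * P a) * (P w * n)⁻¹ = P w * (n * (zs V c * P a) * n⁻¹) * (P w)⁻¹ by group, zs_conj, n2,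
    zs_zs, zs_conj, h.conj, zs_zs, hw, inv_mul_eq_iff_eq_mul.mp ht, mul_assoc d, sgU_mul_self, mul_one]

theorem exists_pair (h3 : 3 ≤ finrank (ZMod 2) E) : ∃ x b, B x b = 0 ∧ x ≠ 0 ∧ b ≠ 0 ∧ x ≠ b ∧
    ∀ α β : ZMod 2, RI P (zs V (sgU F α) * P x) ∧ RI P (zs V (sgU F β) * P b) ∧
      RI P (zs V (sgU F α) * P x * (zs V (sgU F β) * P b)) ∧
      zs V (sgU F α) * P x * (zs V (sgU F β) * P b) = zs V (sgU F β) * P b * (zs V (sgU F α) * P x) := by
  obtain ⟨x, x1, -, -⟩ := h.exists_perp_one h3 0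
  obtain ⟨b, b1, b2, b3⟩ := h.exists_perp_one h3 x
  have e : ∀ α a, zs V (sgU F α) * P a * (zs V (sgU F α) * P a) = 1 := fun α a => by
    rw [mul_assoc, zs_left _ (P a), zs_zs, sgU_mul_self, h.sq1]; simp
  refine ⟨x, b, b3, x1, b1, b2.symm, fun α β => ?_⟩
  have c : zs V (sgU F α) * P x * (zs V (sgU F β) * P b) = zs V (sgU F β) * P b * (zs V (sgU F α) * P x) := by
    rw [mul_assoc, mul_assoc, zs_left _ (P x), zs_left _ (P b), h.comm0 b3, zs_left]
  obtain ⟨d, hd⟩ := h.mul x b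
  exact ⟨⟨e _ _, x, _, x1, rfl⟩, ⟨e _ _, b, _, b1, rfl⟩, ⟨by
    rw [mul_assoc (zs V (sgU F α) * P x), ← mul_assoc (zs V (sgU F β) * P b), ← c,
      mul_assoc (zs V (sgU F α) * P x), e, mul_one, e], x + b, _,
      fun e => b2 (e2_eq_of_add e).symm, by rw [mul_assoc, zs_left _ (P x), hd, zs_zs, zs_zs]⟩, c⟩

end PL

/-- transvections are induced on the fixed space -/
def LA (M : Subgroup (V ≃ₗ[F] V)) (s : V ≃ₗ[F] V) : Prop := ∀ v (φ : Dual F V), s v = v → φ v = 0 →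
  ∃ k ∈ M, k * s = s * k ∧ ∀ w, s w = w → k w = w + φ w • v

theorem LA.conj (h : LA M s) (hg : g ∈ M) : LA M (g * s * g⁻¹) := fun v φ h1 h2 => by
  obtain ⟨k, k1, k2, k3⟩ := h (g⁻¹ v) (φ ∘ₗ g.toLinearMap) (g.injective (by simpa using h1)) (by simpa)
  exact ⟨g * k * g⁻¹, mul_mem (mul_mem hg k1) (inv_mem hg), by rw [conj_mul, conj_mul, k2], fun w hw => by
    simp [k3 (g.symm w) (g.injective (by simpa using hw))]⟩

theorem LA.of_res [FiniteDimensional F V] (h : SLV F (fx s) ≤ resM M s) : LA M s := fun v φ h1 h2 => by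
  obtain ⟨-, g, ⟨k, k1, k2, k3⟩, hg⟩ := TR.of_SLV (M := resM M s) (v := ⟨v, h1⟩) (φ := φ ∘ₗ (fx s).subtype)
    (P := fun _ => True) (fun g hg _ => h hg) h2 fun _ _ => trivial
  exact ⟨k, k1, k2, fun w hw => (k3 ⟨w, hw⟩).symm.trans (congrArg Subtype.val (hg _))⟩

theorem LA.tr (hA : LA M s) (h2 : (2 : F) ≠ 0) (hs : s * s = 1) (hu : u * u = 1) (H : s * u = u * s) (c1 : C ∈ M)
    (c2 : C * s = s * C) (c3 : ∀ z, s z = z → C z = u z) (c4 : ∀ z, s z = -z → C z = z) {φ : Dual F V}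
    (h3 : s v = v) (h4 : u v = v) (h5 : ∀ w, φ (s w) = φ w) (h6 : ∀ w, φ (u w) = -φ w) : TR M v φ := by
  have z : ∀ {a : F}, a = -a → a = 0 := fun {a} h =>
    (mul_eq_zero.mp (by linear_combination h : 2 * a = 0)).resolve_left h2
  have h7 : φ v = 0 := z (by rw [← h6, h4])
  obtain ⟨k, k1, k2, k3⟩ := hA v ((2 : F)⁻¹ • φ) h3 (by simp [h7])
  have e2 : ∀ v, u (u v) = v := fun v => LinearEquiv.congr_fun hu v
  refine ⟨h7, k * C * k⁻¹ * C⁻¹, mul_mem (mul_mem (mul_mem k1 c1) (inv_mem k1)) (inv_mem c1), fun w =>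
    LinearMap.congr_fun (ext_eig h2 hs (f := (k * C * k⁻¹ * C⁻¹).toLinearMap)
      (f' := LinearMap.id + φ.smulRight v) (fun w hw => ?_) fun w hw => ?_) w⟩
  · have a1 : s (u w) = u w := by rw [comm_apply H, hw]
    have a2 : C⁻¹ w = u w := C.injective (by simp [c3 _ a1, e2])
    have a3 : s (u w + ((2 : F)⁻¹ * φ w) • v) = u w + ((2 : F)⁻¹ * φ w) • v := by simp [a1, h3]
    have a4 : k⁻¹ (u w) = u w + ((2 : F)⁻¹ * φ w) • v := k.injective (by simp [-map_add, k3 _ a3]; simp [h6, h7])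
    have a5 : s (w + ((2 : F)⁻¹ * φ w) • v) = w + ((2 : F)⁻¹ * φ w) • v := by simp [hw, h3]
    simp only [LinearEquiv.coe_coe, LinearEquiv.mul_apply, a2, a4, c3 _ a3, map_add u, map_smul u, e2, h4, k3 _ a5]
    simp [h7]; match_scalars <;> field_simp <;> ring
  · have a2 : C⁻¹ w = w := C.injective (by simp [c4 _ hw])
    simp only [LinearEquiv.coe_coe, LinearEquiv.mul_apply, a2,
      c4 (k⁻¹ w) (by rw [← comm_apply (comm_inv k2), hw, map_neg])]
    simp [z (a := φ w) (by rw [← map_neg, ← hw, h5])]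

theorem PL.SLV_le [Finite E] [FiniteDimensional F V] (h : PL B P j M) (h3 : 3 ≤ finrank (ZMod 2) E) (hx : x ≠ 0)
    (hA : LA M (P x)) : SLV F V ≤ M := by
  have A : ∀ {s u}, RI P s → RI P u → s * u = u * s → ∀ {v} {φ : Dual F V}, s v = v → u v = v →
      (∀ w, φ (s w) = φ w) → (∀ w, φ (u w) = -φ w) → TR M v φ := fun hs hu H => by
    obtain ⟨n, n1, rfl⟩ := h.conj_RI ⟨h.sq1 x, x, 1, hx, by simp⟩ hs
    obtain ⟨C, c1, c2, c3, c4⟩ := h.ctrl hs.rz hs.1 hu.rz hu.1 H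
    exact (hA.conj n1).tr h.two hs.1 hu.1 H c1 c2 c3 c4
  obtain ⟨x, b, b1, b2, b3, b4, b5⟩ := h.exists_pair h3
  refine SLV_le_of_PS (eq_top_iff.mpr fun v _ => eig_four h.two (h.sq1 x) (h.sq1 b) (h.comm0 b1)
    (p := (· ∈ PS M)) (fun _ _ => add_mem) fun α β v v1 v2 _ φ hφ => ?_)
  obtain ⟨s1, u1, su, c⟩ := b5 α β
  have v3 : (zs V (sgU F α) * P x) v = v := by simp [v1, smul_smul, ← Units.val_mul, sgU_mul_self]
  have v4 : (zs V (sgU F β) * P b) v = v := by simp [v2, smul_smul, ← Units.val_mul, sgU_mul_self]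
  obtain ⟨w, w1, w2, w3⟩ := h.exists_eig (h.sq1 x) (h.sq1 b) b2 b3 b4 b1 α (β + 1)
  replace w2 : (zs V (sgU F α) * P x) w = w := by simp [w2, smul_smul, ← Units.val_mul, sgU_mul_self]
  replace w3 : (zs V (sgU F β) * P b) w = -w := by
    simp [w3, smul_smul, ← Units.val_mul, sgU_add, sgU_mul_self]
  generalize zs V (sgU F α) * P x = s, zs V (sgU F β) * P b = u at s1 u1 su c v3 v4 w2 w3
  have e1 : ∀ v, s (s v) = v := fun v => LinearEquiv.congr_fun s1.1 v
  have e2 : ∀ v, u (u v) = v := fun v => LinearEquiv.congr_fun u1.1 v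
  have e3 : ∀ v, u (s v) = s (u v) := fun v => (comm_apply c v).symm
  have t4 : (4 : F) ≠ 0 := by rw [show (4 : F) = 2 * 2 by norm_num]; exact mul_ne_zero h.two h.two
  let π : F → F → Dual F V → Dual F V := fun a b φ => (4 : F)⁻¹ • (φ + a • φ ∘ₗ s.toLinearMap +
    b • φ ∘ₗ u.toLinearMap + (a * b) • φ ∘ₗ s.toLinearMap ∘ₗ u.toLinearMap)
  obtain ⟨ψ, p1, -⟩ := exists_dual_one (W := (⊥ : Submodule F V)) (v := w) w1
  have t1 : ∀ φ, TR M v (π 1 (-1) φ) := fun φ => A s1 u1 c v3 v4 (fun w => by simp [π, e1, e3]; ring)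
    fun w => by simp [π, e2, e3]; ring
  have t2 : TR M v (π (-1) 1 φ) := A u1 s1 c.symm v4 v3 (fun w => by simp [π, e2, e3]; ring)
    fun w => by simp [π, e1, e3]; ring
  have t3 : TR M v (π (-1) (-1) φ) := A su u1 (by rw [mul_assoc, u1.1, ← mul_assoc, ← c, mul_assoc, u1.1])
    (by simp [v3, v4]) v4 (fun w => by simp [π, e1, e2, e3]; ring) fun w => by simp [π, e2, e3]; ring
  have t5 := (t1 ψ).comm (A s1 u1.neg (by rw [zs_left, c, mul_assoc]) w2 (by simp [w3]) (φ := π 1 1 φ)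
    (fun w => by simp [π, e1, e3]; ring) fun w => by simp [π, e2, e3]; ring) (by simp [π, v3, v4, hφ])
  rw [show π 1 (-1) ψ w = 1 by simp [π, w2, w3, p1]; field_simp; ring, one_smul] at t5
  convert ((t1 φ).add_right t2).add_right (t3.add_right t5) using 1
  ext w; simp [π]; field_simp; ring

theorem PL.nm_of_not_SL_aux {F : Type*} [Field F] [Fintype F] (hp : (Fintype.card F).Prime) {j : Fˣ} (m : ℕ) :
    ∀ {V : Type u} [AddCommGroup V] [Module F V] [Finite V] {E : Type v} [AddCommGroup E] [Module (ZMod 2) E]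
      [Finite E] {B : LinearMap.BilinForm (ZMod 2) E} {P : E → V ≃ₗ[F] V} {M : Subgroup (V ≃ₗ[F] V)},
      PL B P j M → finrank (ZMod 2) E = 2 * m + 4 → ¬ SLV F V ≤ M → ∀ g ∈ M, Nm P g := by
  induction m with
  | zero =>
    intro V _ _ _ E _ _ _ B P M h h1 h2 g hg
    have := Module.Finite.of_finite (R := F) (M := V)
    exact h.base_SL hp h1 h2 hg
  | succ m ih =>
    intro V _ _ _ E _ _ _ B P M h h1 h2 g hg
    have := Module.Finite.of_finite (R := F) (M := V)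
    refine h.nm_of_res (by omega) (fun x hx => ?_) hg
    obtain ⟨E₁, P₁, a1, a2, -, a3⟩ := h.exists_res hx
    exact a3 (ih a1 (by omega) fun H => h2 (h.SLV_le (by omega) hx (LA.of_res H)))

theorem Pau.exists_finrank [Finite E] (h : Pau B P) (h3 : 3 ≤ finrank (ZMod 2) E) :
    ∃ m, finrank (ZMod 2) E = 2 * m + 4 := by
  have := Module.Finite.of_finite (R := ZMod 2) (M := E)
  obtain ⟨m, hm⟩ := h.sd.even_finrank
  exact ⟨m - 2, by omega⟩

theorem PL.nm_of_not_SL [Fintype F] [Finite V] [Finite E] (h : PL B P j M) (hp : (Fintype.card F).Prime)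
    (h3 : 3 ≤ finrank (ZMod 2) E) (hc : ¬ SLV F V ≤ M) (hg : g ∈ M) : Nm P g :=
  (h.exists_finrank h3).elim fun m hm => PL.nm_of_not_SL_aux hp m h hm hc g hg

end Cfsg.Agent.H12
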