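import Mathlib
import Cfsg.Agent.H12.PxJ

/-!
Pauli systems: overgroups in the unitary case.
-/

set_option autoImplicit false

namespace Cfsg.Agent.H12

open Module

universe u v

variable {F V : Type*} [Field F] [AddCommGroup V] [Module F V] {E : Type*} [AddCommGroup E]
  [Module (ZMod 2) E] {B : LinearMap.BilinForm (ZMod 2) E} {P : E → V ≃ₗ[F] V} {j : Fˣ} {x : E}
  {g k l s u C : V ≃ₗ[F] V} {M : Subgroup (V ≃ₗ[F] V)} {v z e w : V} {σ : F →+* F} {T : V →ₛₗ[σ] V →ₗ[F] F}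

theorem perp_of_eig (h2 : (2 : F) ≠ 0) (hs : s ∈ UG T) (h1 : s v = v) (h3 : s w = -w) : T v w = 0 := by
  have := hs v w
  rw [h1, h3, map_neg] at this
  exact (mul_eq_zero.mp (by linear_combination -this : 2 * T v w = 0)).resolve_left h2

theorem perp_of_eig' (h2 : (2 : F) ≠ 0) (hs : s ∈ UG T) (h1 : s v = -v) (h3 : s w = w) : T v w = 0 := by
  have := hs v w
  rw [h1, h3, map_neg, LinearMap.neg_apply] at this
  exact (mul_eq_zero.mp (by linear_combination -this : 2 * T v w = 0)).resolve_left h2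

theorem neg_mem_UG (hs : s ∈ UG T) : zs V (-1) * s ∈ UG T := fun x y => by simpa using hs x y

theorem sgU_mem_UG (hs : s ∈ UG T) (t : ZMod 2) : zs V (sgU F t) * s ∈ UG T := by
  rcases z2_cases t with rfl | rfl
  exacts [by simpa, neg_mem_UG hs]

theorem adj_of_invol (hs : s ∈ UG T) (h : s * s = 1) (x y : V) : T x (s y) = T (s x) y := by
  rw [← hs, show s (s y) = y from LinearEquiv.congr_fun h y]

theorem SD.res_fx (D : SD T) (h2 : (2 : F) ≠ 0) (hs : s ∈ UG T) (h : s * s = 1) : SD (res T (fx s)) :=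
  ⟨D.invol, fun x y => D.skew _ _, fun x hx => Subtype.ext (D.sep _ fun y => by
    have := hx ⟨y + s y, by rw [mem_fx, map_add, show s (s y) = y from LinearEquiv.congr_fun h y, add_comm]⟩
    rw [res_apply, map_add, adj_of_invol hs h, x.2] at this
    exact (mul_eq_zero.mp (by linear_combination this : 2 * T x y = 0)).resolve_left h2), fun x => D.trace _⟩

theorem rho_comm (D : SD T) {c : F} (hs : s ∈ UG T) (h1 : s e = e) (h3 : s w = w) :
    (rho T e w c).1 * s = s * (rho T e w c).1 := by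
  have := congrArg Subtype.val (conj_rho D ⟨s, hs⟩ e w c)
  simp only [h1, h3] at this
  exact (mul_inv_eq_iff_eq_mul.mp this).symm

theorem Sim.fix (D : SD T) [Nontrivial V] {c : F} (h : ∀ x y, T (g x) (g y) = c * T x y) : σ c = c := by
  obtain ⟨x, hx⟩ := exists_ne (0 : V)
  obtain ⟨y, hy⟩ := D.exists_ne hx
  have := D.skew (g x) (g y)
  rw [h, h, map_mul, D.skew x y] at this
  exact (mul_right_cancel₀ (D.σ_ne_zero hy) (by linear_combination -this)).symm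

/-- Siegel elements are induced on the fixed space -/
def UA (T : V →ₛₗ[σ] V →ₗ[F] F) (M : Subgroup (V ≃ₗ[F] V)) (s : V ≃ₗ[F] V) : Prop := ∀ e w c, Adm T e w c →
  s e = e → s w = w → ∃ k ∈ M, k * s = s * k ∧ ∀ z, s z = z → k z = (rho T e w c).1 z

theorem UA.conj [Nontrivial V] (h : UA T M s) (D : SD T) (hg : g ∈ M) (hS : Sim T g) : UA T M (g * s * g⁻¹) :=
  fun e w c hc h1 h2 => by
    obtain ⟨l, l1, l2⟩ := hS
    have l3 := Sim.fix D l2
    have l4 : ∀ x y, T x y = l * T (g.symm x) (g.symm y) := fun x y => by simp [← l2]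
    have a : Adm T (g.symm e) (l • g.symm w) (l * c) := ⟨by simpa [l4 e, l1] using hc.ee,
      by simpa [l4 e, l1] using hc.eu, by
        simp only [map_mul, l3, LinearMap.map_smulₛₗ, LinearMap.smul_apply, smul_eq_mul, RingHom.id_apply]
        rw [← l4, ← hc.cc]; ring⟩
    obtain ⟨k, k1, k2, k3⟩ := h _ _ _ a (g.injective (by simpa using h1)) (g.injective (by
      simpa [l1] using congrArg (l • ·) h2))
    exact ⟨g * k * g⁻¹, mul_mem (mul_mem hg k1) (inv_mem hg), by rw [conj_mul, conj_mul, k2], fun z hz => by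
      simp [k3 (g.symm z) (g.injective (by simpa using hz)), rho_apply D a, rho_apply D hc, l4 e z, l4 w z,
        LinearMap.map_smulₛₗ, l3]
      module⟩

theorem UA.of_res (D : SD T) (D' : SD (res T (fx s))) (h : ∀ g ∈ SUG (res T (fx s)), g.1 ∈ resM M s) : UA T M s :=
  fun e w c hc h1 h2 => by
    have a : Adm (res T (fx s)) ⟨e, h1⟩ ⟨w, h2⟩ c := ⟨hc.ee, hc.eu, hc.cc⟩
    obtain ⟨k, k1, k2, k3⟩ := h _ (rho_mem_SUG D' ⟨e, h1⟩ ⟨w, h2⟩ c)
    exact ⟨k, k1, k2, fun z hz => by rw [← k3 ⟨z, hz⟩, rho_apply D' a, rho_apply D hc]; rfl⟩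

theorem rho_fix_neg (D : SD T) (h2 : (2 : F) ≠ 0) (hs : s ∈ UG T) (c : F) (h1 : s e = e) (h3 : s w = w)
    (hz : s z = -z) : (rho T e w c).1 z = z :=
  rho_apply_of_perp D c (perp_of_eig h2 hs h1 hz) (perp_of_eig h2 hs h3 hz)

theorem UA.am (hA : UA T M s) (D : SD T) (h2 : (2 : F) ≠ 0) (hs : s * s = 1) (hs' : s ∈ UG T) (hu' : u ∈ UG T)
    (H : s * u = u * s) (c1 : C ∈ M) (c2 : C * s = s * C) (c3 : ∀ z, s z = z → C z = u z) (c4 : ∀ z, s z = -z → C z = z)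
    (he : T e e = 0) (h3 : s e = e) (h4 : u e = e) (h5 : s w = w) (h6 : u w = -w) :
    AM (M.comap (UG T).subtype) e w := by
  obtain ⟨w, rfl⟩ : ∃ w', w' + w' = w := ⟨(2 : F)⁻¹ • w, by rw [← two_smul F, smul_smul, mul_inv_cancel₀ h2, one_smul]⟩
  replace h5 : s w = w := smul_right_injective V h2 (by simpa [two_smul] using h5)
  replace h6 : u w = -w := smul_right_injective V h2 (by simpa [two_smul] using h6)
  obtain ⟨c, hc⟩ := exists_adm D he (perp_of_eig h2 hu' h4 h6)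
  obtain ⟨k, k1, k2, k3⟩ := hA e w c hc h3 h5
  have a1 := conj_agree h2 hs k2 (rho_comm D hs' h3 h5) k3 c2 c4
  have a2 := conj_agree h2 hs c2 H.symm c3 (rho_comm D (c := -σ c) hs' h3 (w := -w) (by simp [h5])) fun z => rho_fix_neg D h2 hs' _ h3 (by simp [h5])
  have a3 := congrArg Subtype.val (conj_rho D ⟨u, hu'⟩ e (-w) (-σ c))
  simp only [h4, map_neg, h6, neg_neg] at a3
  have a4 : Adm T e w (-σ c) := by simpa [h4, h6] using (adm_conj ⟨u, hu'⟩).mpr (hc.neg D)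
  refine ⟨_, hc.add D a4, ?_⟩
  rw [← rho_mul D hc a4, Subgroup.mem_comap, map_mul]
  convert mul_mem (mul_mem (mul_mem k1 c1) (inv_mem k1)) (inv_mem c1) using 1
  rw [a1, mul_assoc, mul_assoc, ← mul_assoc C]
  exact congrArg _ (a3.symm.trans (a2.symm.trans (by rw [← rho_inv D hc]; rfl)))

theorem UA.am' (hA : UA T M s) (D : SD T) (h2 : (2 : F) ≠ 0) (hs : s * s = 1) (hs' : s ∈ UG T) {f y : V}
    (h1 : s e = e) (h3 : s w = w) (h4 : s f = f) (h5 : s y = y) (a1 : T f f = 0) (a2 : T f y = 1) (a3 : T f e = 0)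
    (a4 : T f w = 0) (a5 : T w e = 0) (a6 : T w y = 0) (b1 : AM (M.comap (UG T).subtype) e y)
    (b2 : ∀ c : F, AM (M.comap (UG T).subtype) e (y + c • f)) : AM (M.comap (UG T).subtype) e w := by
  obtain ⟨c, hc⟩ := exists_adm D a1 a4
  obtain ⟨k, k1, k2, k3⟩ := hA f w c hc h4 h3
  obtain ⟨d, d1, d2⟩ := b1
  have a := conj_agree h2 hs k2 (rho_comm D hs' h4 h3) k3 (rho_comm D (c := d) hs' h1 h5)
    fun z => rho_fix_neg D h2 hs' _ h1 h5
  have b : AM (M.comap (UG T).subtype) ((rho T f w c).1 e) ((rho T f w c).1 y) :=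
    ⟨d, (adm_conj _).mpr d1, by
      rw [← conj_rho D]
      exact Subgroup.mem_comap.mpr (a ▸ mul_mem (mul_mem k1 d2) (inv_mem k1) :)⟩
  rw [rho_apply_of_perp D c a3 a5, rho_apply D hc, a2, a6] at b
  convert b.sub D (b2 c) using 1
  simp

theorem PL.exists_iso [Finite F] [Finite E] (h : PL B P j M) (h5 : 5 ≤ finrank (ZMod 2) E) (D : SD T)
    (hσ : σ ≠ RingHom.id F) (hU : ∀ a, P a ∈ UG T) {b : E} {α β : F} (h1 : v ≠ 0) (h2 : P x v = α • v)
    (h3 : P b v = β • v) : ∃ f, f ≠ 0 ∧ P x f = α • f ∧ P b f = β • f ∧ T f f = 0 := by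
  obtain ⟨a, a1, a2⟩ := h.exists_perp (Submodule.span _ {x, b}) (Submodule.span _ {x, b}) (by
    have := frk_pair (K := ZMod 2) x b; omega)
  obtain ⟨a', a3, a4⟩ := h.exists_sep a1
  simp only [e2_mem_span_pair, forall_eq_or_imp, forall_eq] at a2 a4
  have m : ∀ {c}, B x c = 0 → B b c = 0 → ∀ {v}, P x v = α • v ∧ P b v = β • v →
      P x (P c v) = α • P c v ∧ P b (P c v) = β • P c v := fun h1 h2 v hv => by
    simp [comm_apply (h.comm0 h1), comm_apply (h.comm0 h2), hv]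
  have m' := @m a' (h.symm _ _ ▸ a4.2.1) (h.symm _ _ ▸ a4.2.2.1)
  have an : ∀ v, P a (P a' v) = -P a' (P a v) := fun v => by simp [h.comm_app a, h.symm a, a3]
  obtain ⟨v, v1, v2, v3⟩ : ∃ v, v ≠ 0 ∧ (P x v = α • v ∧ P b v = β • v) ∧ P a v = v := by
    by_cases H : v + P a v = 0
    · exact ⟨P a' v, by simpa, m' ⟨h2, h3⟩, by simp [an, eq_neg_of_add_eq_zero_right H]⟩
    · exact ⟨_, H, by simp [m a2.2.1 a2.2.2.1 ⟨h2, h3⟩, h2, h3], by simp [h.PP, add_comm]⟩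
  obtain ⟨l, hl⟩ := D.ns.resolve_left hσ (-1) (by simp)
  have b1 : P a (P a' v) = -P a' v := by rw [an, v3]
  refine ⟨v + l • P a' v, fun H => v1 (smul_right_injective V h.two ?_), by simp [v2, m' v2, smul_comm l],
    by simp [v2, m' v2, smul_comm l], ?_⟩
  · have := congrArg (P a) H
    simp only [map_add, map_smul, v3, b1, map_zero] at this
    linear_combination (norm := module) H + this
  · simp [LinearMap.map_smulₛₗ, perp_of_eig h.two (hU a) v3 b1, perp_of_eig' h.two (hU a) b1 v3, hU a' v v]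
    linear_combination T v v * hl

theorem exists_partner (D : SD T) (h2 : (2 : F) ≠ 0) (hs : s * s = 1) (hu : u * u = 1) (H : s * u = u * s)
    (hs' : s ∈ UG T) (hu' : u ∈ UG T) (h0 : e ≠ 0) (h1 : s e = e) (h3 : u e = e) :
    ∃ y, s y = y ∧ u y = y ∧ T e y = 1 := by
  obtain ⟨y, hy⟩ := D.exists_ne h0
  have e1 : ∀ v, s (s v) = v := fun v => LinearEquiv.congr_fun hs v
  have e2 : ∀ v, u (u v) = v := fun v => LinearEquiv.congr_fun hu v
  have e3 : ∀ v, u (s v) = s (u v) := fun v => (comm_apply H v).symm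
  have t4 : (4 : F) ≠ 0 := by rw [show (4 : F) = 2 * 2 by norm_num]; exact mul_ne_zero h2 h2
  refine ⟨(4 * T e y)⁻¹ • (y + s y + u y + s (u y)), by simp [e1]; abel, by simp [e2, e3]; abel, ?_⟩
  simp [adj_of_invol hs' hs, adj_of_invol hu' hu, h1, h3]; field_simp; ring

theorem PL.SUG_le [Finite F] [Finite E] [FiniteDimensional F V] (h : PL B P j M) (h5 : 5 ≤ finrank (ZMod 2) E)
    (D : SD T) (hσ : σ ≠ RingHom.id F) (hU : ∀ a, P a ∈ UG T) (hS : ∀ g ∈ M, Sim T g) (hx : x ≠ 0)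
    (hA : UA T M (P x)) : SUG T ≤ M.comap (UG T).subtype := by
  have := h.nt
  have A0 : ∀ {s}, RI P s → UA T M s := fun hs => by
    obtain ⟨n, n1, rfl⟩ := h.conj_RI ⟨h.sq1 x, x, 1, hx, by simp⟩ hs
    exact hA.conj D n1 (hS n n1)
  have A : ∀ {s u}, RI P s → RI P u → s * u = u * s → s ∈ UG T → u ∈ UG T → ∀ {e w}, T e e = 0 → s e = e → u e = e →
      s w = w → u w = -w → AM (M.comap (UG T).subtype) e w := fun hs hu H s1 u1 => by
    obtain ⟨C, c1, c2, c3, c4⟩ := h.ctrl hs.rz hs.1 hu.rz hu.1 H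
    exact (A0 hs).am D h.two hs.1 s1 u1 H c1 c2 c3 c4
  obtain ⟨x, b, b1, b2, b3, b4, b5⟩ := h.exists_pair (by omega)
  obtain ⟨s1, u1, su, c⟩ := b5 0 0
  simp only [sgU_zero, map_one, one_mul] at s1 u1 su c
  obtain ⟨v, v1, v2, v3⟩ := h.exists_eig (h.sq1 x) (h.sq1 b) b2 b3 b4 b1 0 0
  obtain ⟨e, e1, e2, e3, e4⟩ := h.exists_iso h5 D hσ hU v1 v2 v3
  obtain ⟨v, v1, v2, v3⟩ := h.exists_eig (h.sq1 x) (h.sq1 b) b2 b3 b4 b1 0 1
  obtain ⟨f, f1, f2, f3, f4⟩ := h.exists_iso h5 D hσ hU v1 v2 v3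
  simp only [sgU_zero, sgU_one, Units.val_one, Units.val_neg, one_smul, neg_smul] at e2 e3 f2 f3
  obtain ⟨y, y1, y2, y3⟩ := exists_partner D h.two s1.1 u1.neg.1 (by rw [zs_left, c, mul_assoc]) (hU x)
    (neg_mem_UG (hU b)) f1 f2 (by simp [f3])
  replace y2 : P b y = -y := by simpa [neg_eq_iff_eq_neg] using y2
  have ES' : ∀ e, T e e = 0 → P x e = e → P b e = e → ES (M.comap (UG T).subtype) e := fun e e4 e2 e3 => by
    have a1 : ∀ w, P x w = w → P b w = -w → AM (M.comap (UG T).subtype) e w := fun w =>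
      A s1 u1 c (hU x) (hU b) e4 e2 e3
    refine ES.of_AM D (IS.of_fix e4 fun d hd => ?_) fun w hw => eig_four h.two s1.1 u1.1 c
      (p := AM _ e) (fun _ _ => AM.add D) fun α β w' w1 w2 w3 => ?_
    · obtain ⟨d, rfl⟩ := H13.exists_add_conj_eq hσ D.invol hd
      simpa [y3] using (a1 f f2 f3).tv_mem D (a1 (d • y) (by simp [y1]) (by simp [y2]))
    rcases z2_cases α with rfl | rfl <;> rcases z2_cases β with rfl | rfl <;>
      simp only [sgU_zero, sgU_one, Units.val_one, Units.val_neg, one_smul, neg_smul] at w1 w2 w3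
    · exact (A0 s1).am' D h.two s1.1 (hU x) e2 w1 f2 y1 f4 y3 (perp_of_eig' h.two (hU b) f3 e3)
        (perp_of_eig' h.two (hU b) f3 w2) (D.comm0 (by
          simp [w3, adj_of_invol (hU x) s1.1, adj_of_invol (hU b) u1.1, e2, e3, hw]))
        (perp_of_eig h.two (hU b) w2 y2) (a1 y y1 y2) fun c => a1 _ (by simp [y1, f2]) (by simp [y2, f3]; abel)
    · exact a1 _ w1 w2
    · exact A u1 s1 c.symm (hU b) (hU x) e4 e3 e2 w2 w1
    · exact A su u1 (by rw [mul_assoc, u1.1, ← mul_assoc, ← c, mul_assoc, u1.1]) (mul_mem (hU x) (hU b)) (hU b) e4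
        (by simp [e2, e3]) e3 (by simp [w1, w2]) w2
  obtain ⟨y', y4, y5, y6⟩ := exists_partner D h.two s1.1 u1.1 c (hU x) (hU b) e1 e2 e3
  obtain ⟨a, ha⟩ := D.exists_iso_add e4 (y6 ▸ one_ne_zero)
  exact D.SUG_le_of_ES₂ D.ns (ES' e e4 e2 e3) (ES' _ ha (by simp [y4, e2]) (by simp [y5, e3])) (by simp [y6, e4])

theorem PL.nm_of_not_SU_aux {F : Type*} [Field F] [Fintype F] {p : ℕ} {hF : Fintype.card F = p ^ 2} (hp : p.Prime)
    {j : Fˣ} (hj : (j : F) ^ p = -j) (m : ℕ) :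
    ∀ {V : Type u} [AddCommGroup V] [Module F V] [Finite V] {E : Type v} [AddCommGroup E] [Module (ZMod 2) E]
      [Finite E] {B : LinearMap.BilinForm (ZMod 2) E} {P : E → V ≃ₗ[F] V} {M : Subgroup (V ≃ₗ[F] V)}
      {T : V →ₛₗ[frobq hF] V →ₗ[F] F}, PL B P j M → SD T → (∀ a, P a ∈ UG T) → (∀ g ∈ M, Sim T g) →
      finrank (ZMod 2) E = 2 * m + 4 → ¬ (∀ g ∈ SUG T, g.1 ∈ M) → ∀ g ∈ M, Nm P g := by
  induction m with
  | zero =>
    intro V _ _ _ E _ _ _ B P M T h D hU hS h1 h2 g hg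
    have := Module.Finite.of_finite (R := F) (M := V)
    exact h.base_SU hp hj D hU hS h1 h2 hg
  | succ m ih =>
    intro V _ _ _ E _ _ _ B P M T h D hU hS h1 h2 g hg
    have := Module.Finite.of_finite (R := F) (M := V)
    refine h.nm_of_res (by omega) (fun x hx => ?_) hg
    obtain ⟨E₁, P₁, a1, a2, a4, a3⟩ := h.exists_res hx
    have D' := D.res_fx h.two (hU x) (h.sq1 x)
    refine a3 (ih a1 D' (fun a x y => by simp [a4, hU a.1 x y]) ?_ (by omega) fun H =>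
      h2 (h.SUG_le (by omega) D (frobq_ne_id hF) hU hS hx (UA.of_res D D' H)))
    rintro g ⟨k, k1, -, k3⟩
    obtain ⟨c, c1, c2⟩ := hS k k1
    exact ⟨c, c1, fun x y => by simp [k3, c2]⟩

theorem PL.nm_of_not_SU [Fintype F] [Finite V] [Finite E] {p : ℕ} {hF : Fintype.card F = p ^ 2}
    {T : V →ₛₗ[frobq hF] V →ₗ[F] F} (h : PL B P j M) (hp : p.Prime) (hj : (j : F) ^ p = -j) (D : SD T)
    (hU : ∀ a, P a ∈ UG T) (hS : ∀ g ∈ M, Sim T g) (h3 : 3 ≤ finrank (ZMod 2) E)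
    (hc : ¬ ∀ g ∈ SUG T, g.1 ∈ M) (hg : g ∈ M) : Nm P g :=
  (h.exists_finrank h3).elim fun m hm => PL.nm_of_not_SU_aux hp hj m h D hU hS hm hc g hg

end Cfsg.Agent.H12
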