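import Mathlib
import Cfsg.Agent.H12.PxK
import Cfsg.Agent.H12.MaxB
import Cfsg.Agent.H18.SLMax
import Cfsg.Agent.H1.Frattini
import Cfsg.Agent.S3762

/-!
Pauli systems attached to absolutely irreducible 2-groups of symplectic type.
-/

set_option autoImplicit false

namespace Cfsg.Agent.H12

open Module Cfsg.Geo

universe u v

variable {F : Type u} {V : Type v} [Field F] [AddCommGroup V] [Module F V] {R M G : Subgroup (V ≃ₗ[F] V)}
  {g k : V ≃ₗ[F] V}

/-- absolutely irreducible group whose squares are signs -/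
structure AI (R : Subgroup (V ≃ₗ[F] V)) : Prop where
  nt : Nontrivial V
  irr : ∀ W : Submodule F V, (∀ g ∈ R, ∀ w ∈ W, g w ∈ W) → W = ⊥ ∨ W = ⊤
  cen : ∀ f : End F V, (∀ g ∈ R, ∀ w, f (g w) = g (f w)) → ∃ c : F, ∀ w, f w = c • w
  sq : ∀ g ∈ R, ∃ t, g * g = zs V (sgU F t)

theorem AI.span [Finite V] (h : AI R) :
    Submodule.span F ((fun g : V ≃ₗ[F] V => (g : V →ₗ[F] V)) '' R) = ⊤ := by
  classical
  have := Fintype.ofFinite V
  have := h.nt
  let A : Subalgebra F (End F V) := Algebra.adjoin F ((fun g : V ≃ₗ[F] V => (g : V →ₗ[F] V)) '' R)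
  have e : ∀ (a : A) (x : V), a • x = a.1 x := fun _ _ => rfl
  have m : ∀ g ∈ R, (g : V →ₗ[F] V) ∈ A := fun g hg => Algebra.subset_adjoin ⟨g, hg, rfl⟩
  haveI : IsSimpleModule A V := isSimpleModule_iff_toSpanSingleton_surjective.mpr ⟨inferInstance, fun x hx y => by
    obtain ⟨a, ha, h1⟩ := ((h.irr (A.toSubmodule.map (LinearMap.applyₗ x)) (by
      rintro g hg _ ⟨a, ha, rfl⟩
      exact ⟨_, A.mul_mem (m g hg) ha, rfl⟩)).resolve_left fun H => hx (H.le ⟨1, A.one_mem, rfl⟩)).ge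
        (Submodule.mem_top (x := y))
    exact ⟨⟨a, ha⟩, h1⟩⟩
  have hA : A.toSubmodule ≤ Submodule.span F ((fun g : V ≃ₗ[F] V => (g : V →ₗ[F] V)) '' R) := by
    rw [Algebra.adjoin_eq_span]
    refine Submodule.span_mono fun x hx => ?_
    induction hx using Submonoid.closure_induction with
    | mem x hx => exact hx
    | one => exact ⟨1, one_mem _, rfl⟩
    | mul _ _ _ _ h1 h2 =>
      obtain ⟨a, ha, rfl⟩ := h1
      obtain ⟨b, hb, rfl⟩ := h2
      exact ⟨a * b, mul_mem ha hb, rfl⟩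
  refine eq_top_iff.mpr fun θ _ => hA ?_
  obtain ⟨a, ha⟩ := jacobson_density (R := A) (M := V) ⟨θ.toAddHom, fun φ x => by
    obtain ⟨c, hc⟩ := h.cen ⟨φ.toAddHom, fun c w => φ.map_smul (algebraMap F A c) w⟩
      fun g hg w => φ.map_smul ⟨_, m g hg⟩ w
    exact (congrArg θ (hc x)).trans ((θ.map_smul c x).trans (hc _).symm)⟩ Finset.univ
  exact (LinearMap.ext fun x => ha x (Finset.mem_univ x) : θ = a) ▸ a.2

theorem AI.comm (h : AI R) (hg : g ∈ R) (hk : k ∈ R) : ∃ t, g * k = zs V (sgU F t) * (k * g) := by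
  obtain ⟨s, h1⟩ := h.sq g hg
  obtain ⟨t, h2⟩ := h.sq k hk
  obtain ⟨r, h3⟩ := h.sq _ (mul_mem hk hg)
  refine ⟨s + t + r, mul_left_cancel (a := k * g) ?_⟩
  rw [zs_left, h3, ← map_mul, ← sgU_add, add_assoc, z2_add_self, add_zero, sgU_add, map_mul,
    show k * g * (g * k) = k * (g * g) * k by group, h1, zs_comm, mul_assoc, h2]

theorem AI.exists_pau [Finite V] (h : AI R) (h2 : (2 : F) ≠ 0) :
    ∃ (E : Type v) (_ : AddCommGroup E) (_ : Module (ZMod 2) E) (_ : Finite E) (B : LinearMap.BilinForm (ZMod 2) E)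
      (P : E → V ≃ₗ[F] V), Pau B P ∧ (∀ a, P a ∈ R) ∧ ∀ g ∈ R, Rz P g := by
  classical
  have := h.nt
  haveI : Finite (V ≃ₗ[F] V) := Finite.of_injective _ DFunLike.coe_injective
  letI : CommGroup (PQ R) := { (inferInstance : Group (PQ R)) with
    mul_comm := fun a b => QuotientGroup.induction_on a fun a => QuotientGroup.induction_on b fun b =>
      (h.comm a.2 b.2).elim fun t ht => pq_eq.mpr ⟨_, ht⟩ }
  letI : Module (ZMod 2) (Additive (PQ R)) := AddCommGroup.zmodModule fun a => by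
    obtain ⟨a, rfl⟩ : ∃ g : R, Additive.ofMul (g : PQ R) = a := QuotientGroup.mk_surjective a.toMul
    obtain ⟨t, ht⟩ := h.sq _ a.2
    rw [two_nsmul]
    exact (pq_eq (g := a * a) (k := 1)).mpr ⟨_, by simpa using ht⟩
  have : ∀ a : Additive (PQ R), ∃ g : R, (g : PQ R) = a.toMul ∧ (a = 0 → g = 1) := fun a => by
    by_cases ha : a = 0
    exacts [⟨1, by simp [ha], fun _ => rfl⟩, (QuotientGroup.mk_surjective a.toMul).imp fun g hg => ⟨hg, fun e => (ha e).elim⟩]
  choose P p1 p2 using this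
  have p3 : ∀ a b, ∃ c, (P a).1 * (P b).1 = zs V c * (P (a + b)).1 := fun a b =>
    (pq_eq (g := P a * P b)).mp (by rw [QuotientGroup.mk_mul, p1, p1, p1]; rfl)
  choose β hβ using fun a b => h.comm (P a).2 (P b).2
  have u : ∀ {s t} {g : V ≃ₗ[F] V}, zs V (sgU F s) * g = zs V (sgU F t) * g → s = t := fun H =>
    sgU_inj h2 (zs_inj (mul_right_cancel H))
  have b1 : ∀ a b, β a b = β b a := fun a b => u (g := (P b).1 * (P a).1) (by
    rw [← hβ, hβ b a, zs_zs, sgU_mul_self, map_one, one_mul])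
  have b2 : ∀ a b c, β a (b + c) = β a b + β a c := fun a b c => by
    obtain ⟨d, hd⟩ := p3 b c
    refine u (g := (P b).1 * (P c).1 * (P a).1) (Eq.trans (b := (P a).1 * ((P b).1 * (P c).1)) ?_ ?_)
    · rw [hd, zs_left _ (P a).1, hβ a (b + c), mul_assoc, zs_zs, zs_zs, mul_comm d]
    · rw [← mul_assoc, hβ a b, mul_assoc, mul_assoc, hβ a c, zs_left, zs_zs, sgU_add, mul_assoc]
  have r1 : ∀ g ∈ R, Rz (fun a => (P a).1) g := fun g hg =>
    ⟨Additive.ofMul ((⟨g, hg⟩ : R) : PQ R), (pq_eq (g := ⟨g, hg⟩)).mp (p1 _).symm⟩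
  have b0 : ∀ a, β a 0 = 0 := fun a => by simpa using b2 a 0 0
  refine ⟨_, inferInstance, inferInstance, inferInstance, LinearMap.mk₂ (ZMod 2) β
    (fun a b c => by rw [b1, b2, b1 c, b1 c]) (fun c a b => ?_) b2 (fun c a b => ?_), fun a => (P a).1,
    ⟨h2, fun a => u (g := (P a).1 * (P a).1) ((hβ a a).symm.trans (by simp)), fun a ha => ?_, h.nt,
      congrArg Subtype.val (p2 0 rfl), p3, hβ, eq_top_iff.mpr (h.span.ge.trans (Submodule.span_le.mpr ?_))⟩,
    fun a => (P a).2, r1⟩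
  · rcases z2_cases c with rfl | rfl <;> simp [b1 0, b0]
  · rcases z2_cases c with rfl | rfl <;> simp [b0]
  · obtain ⟨c, hc⟩ := h.cen (P a).1 fun g hg w => by
      obtain ⟨b, d, rfl⟩ := r1 g hg
      simpa [show β a b = 0 from ha b] using congrArg ((d : F) • ·) (LinearEquiv.congr_fun (hβ a b) w)
    obtain ⟨v, hv⟩ := exists_ne (0 : V)
    have c0 : c ≠ 0 := by rintro rfl; exact hv ((P a).1.injective (by simpa using hc v))
    exact (p1 a).symm.trans ((pq_eq (k := 1)).mpr ⟨Units.mk0 c c0, LinearEquiv.ext hc⟩)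
  · rintro _ ⟨g, hg, rfl⟩
    obtain ⟨b, d, rfl⟩ := r1 g hg
    exact Submodule.smul_mem _ (d : F) (Submodule.subset_span ⟨b, rfl⟩)

variable {E : Type*} [AddCommGroup E] [Module (ZMod 2) E] {B : LinearMap.BilinForm (ZMod 2) E}
  {P : E → V ≃ₗ[F] V} {j : Fˣ} {a : E}

theorem Pau.le_finrank [Finite E] [FiniteDimensional F V] (h : Pau B P) {m : ℕ} (H : 2 ^ m < finrank F V ^ 2) :
    m < finrank (ZMod 2) E := by
  have := Fintype.ofFinite E
  have a1 := finrank_range_le_card (R := F) fun a => (P a : V →ₗ[F] V)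
  rw [Set.finrank, h.span, finrank_top, finrank_linearMap, Module.card_eq_pow_finrank (K := ZMod 2), ZMod.card,
    ← pow_two] at a1
  exact (Nat.pow_lt_pow_iff_right (by omega)).mp (H.trans_le a1)

theorem Pau.mem_norm_iff [Finite E] (h : Pau B P) (hA : AI R) (h1 : ∀ a, P a ∈ R) (h2 : ∀ g ∈ R, Rz P g) (hG : R ≤ G)
    (hz : ∀ c t, c * c = sgU F t → zs V c ∈ G → zs V c ∈ R) (hg : g ∈ G) :
    g ∈ Subgroup.normalizer (R : Set (V ≃ₗ[F] V)) ↔ Nm P g := by
  have key : ∀ g ∈ G, Nm P g → ∀ k ∈ R, g * k * g⁻¹ ∈ R := fun g hg H k hk => by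
    obtain ⟨a, c, hc⟩ := H.conj (h2 k hk)
    obtain ⟨s, hs⟩ := hA.sq k hk
    obtain ⟨t, ht⟩ := hA.sq _ (h1 a)
    have a1 := sq_conj hs g
    rw [hc, mul_assoc, zs_left, zs_zs, ht, ← map_mul] at a1
    rw [hc]
    refine mul_mem (hz c (s + t) (by rw [sgU_add, ← h.zs_injective a1, mul_assoc, sgU_mul_self, mul_one]) ?_) (h1 a)
    rw [← mul_inv_cancel_right (zs V c) (P a), ← hc]
    exact mul_mem (mul_mem (mul_mem hg (hG hk)) (inv_mem hg)) (inv_mem (hG (h1 a)))
  refine ⟨fun H a => h2 _ ((Subgroup.mem_normalizer_iff.mp H _).mp (h1 a)), fun H =>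
    Subgroup.mem_normalizer_iff.mpr fun k => ⟨key g hg H k, fun hk => ?_⟩⟩
  simpa [mul_assoc] using key _ (inv_mem hg) (h.nm_inv H) _ hk

/-- rescaling to involutions -/
theorem AI.exists_PL [Finite V] (h : AI R) (h2 : (2 : F) ≠ 0) (hj : j * j = -1) (hR : zs V j ∈ R) :
    ∃ (E : Type v) (_ : AddCommGroup E) (_ : Module (ZMod 2) E) (_ : Finite E) (B : LinearMap.BilinForm (ZMod 2) E)
      (P : E → V ≃ₗ[F] V), PL B P j ⊤ ∧ (∀ a, P a ∈ R) ∧ ∀ g, g ∈ Subgroup.normalizer (R : Set (V ≃ₗ[F] V)) ↔ Nm P g := by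
  obtain ⟨E, _, _, _, B, P, h1, h3, h4⟩ := h.exists_pau h2
  have : ∀ a, ∃ d, zs V d ∈ R ∧ zs V d * P a * (zs V d * P a) = 1 ∧ (a = 0 → d = 1) := fun a => by
    obtain ⟨t, ht⟩ := h.sq _ (h3 a)
    rcases z2_cases t with rfl | rfl
    · exact ⟨1, by simp, by simpa using ht, fun _ => rfl⟩
    · refine ⟨j, hR, by rw [mul_assoc, zs_left, zs_zs, ht, ← map_mul, hj]; simp, ?_⟩
      rintro rfl
      exact absurd (sgU_inj h2 (h1.zs_injective (a₁ := sgU F 0) (by rw [← ht, h1.zero]; simp))) zero_ne_one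
  choose d d1 d2 d3 using this
  have h5 : Pau B fun a => zs V (d a) * P a := h1.rescale (by simp [d3 0 rfl, h1.zero]) fun a => ⟨_, rfl⟩
  refine ⟨E, _, _, inferInstance, B, _, ⟨h5, hj, d2, fun _ => trivial, fun _ => trivial, fun _ => trivial⟩,
    fun a => mul_mem (d1 a) (h3 a), fun g => h5.mem_norm_iff h (fun a => mul_mem (d1 a) (h3 a)) (fun g hg => ?_)
      le_top (fun c t hc _ => ?_) trivial⟩
  · obtain ⟨a, c, rfl⟩ := h4 g hg
    exact ⟨a, c * (d a)⁻¹, by simp [zs_zs]⟩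
  · have m : zs V (-1) ∈ R := by rw [← hj, map_mul]; exact mul_mem hR hR
    have e : (c : F) * c = sgU F t := by exact_mod_cast congrArg Units.val hc
    have e' : (j : F) * j = -1 := congrArg Units.val hj
    rcases z2_cases t with rfl | rfl
    · rcases mul_self_eq_one_iff.mp e with e | e
      exacts [by simp [show c = 1 from Units.ext e], (show c = -1 from Units.ext e) ▸ m]
    · rcases mul_self_eq_mul_self_iff.mp (e.trans e'.symm) with e | e
      exacts [(show c = j from Units.ext e) ▸ hR,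
        by rw [show c = -1 * j from Units.ext (by simpa using e), map_mul]; exact mul_mem m hR]

end Cfsg.Agent.H12
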