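import Mathlib
import Cfsg.Agent.H12.PxL

/-!
Normalisers of 2-groups of symplectic type with centre of order four are maximal.
-/

set_option autoImplicit false

namespace Cfsg.Agent.H12

open Module Cfsg.Geo

universe u v

theorem sq_mem_of_symp {G : Type*} [Group G] [Finite G] (h : IsPGroup 2 G)
    (hs : ∀ A : Subgroup G, A.Characteristic → IsMulCommutative A → IsCyclic A) (he : Monoid.exponent G = 4)
    (g : G) : g * g ∈ Subgroup.center G := by
  obtain ⟨E, C, h1, h2, h3, h4⟩ := S3762.result h hs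
  have o : ∀ x : C, orderOf x ≤ 4 := fun x => Nat.le_of_dvd (by omega)
    (by rw [← he, ← Subgroup.orderOf_coe]; exact Monoid.order_dvd_exponent _)
  have hC : IsCyclic C := h4.elim id fun ⟨_, a1, a2⟩ => by
    rcases a2 with ⟨m, ⟨e⟩⟩ | ⟨m, ⟨e⟩⟩ | ⟨n, a2, -, x, -, a3, -⟩
    · have := o (e.symm (.r 1))
      rw [MulEquiv.orderOf_eq, DihedralGroup.orderOf_r_one] at this
      rw [Nat.card_congr e.toEquiv, DihedralGroup.nat_card] at a1
      omega
    · have := o (e.symm (.a 1))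
      rw [MulEquiv.orderOf_eq, QuaternionGroup.orderOf_a_one] at this
      rw [Nat.card_congr e.toEquiv] at a1
      rcases m with _ | m
      · have := Finite.of_equiv _ e.toEquiv
        have := Finite.of_injective (QuaternionGroup.a (n := 0)) fun _ _ h => by injection h
        exact (not_finite (ZMod 0)).elim
      · rw [Nat.card_eq_fintype_card, QuaternionGroup.card] at a1
        omega
    · have := Nat.pow_le_pow_right (n := 2) (by omega) a2
      have := o x
      omega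
  have cen : ∀ z, (∀ e ∈ E, e * z = z * e) → (∀ c ∈ C, c * z = z * c) → z ∈ Subgroup.center G := fun z a1 a2 =>
    Subgroup.mem_center_iff.mpr fun g => Subgroup.mem_centralizer_singleton_iff.mp (h2.ge.trans (sup_le
      (fun e he => Subgroup.mem_centralizer_singleton_iff.mpr (a1 e he))
      fun e he => Subgroup.mem_centralizer_singleton_iff.mpr (a2 e he)) (Subgroup.mem_top g))
  have c1 : C ≤ Subgroup.center G := fun z hz => cen z (fun e he => h1 e he z hz) fun c hc =>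
    congrArg Subtype.val (hC.commGroup.mul_comm ⟨c, hc⟩ ⟨z, hz⟩)
  obtain ⟨e, he, z, hz, rfl⟩ := Subgroup.mem_sup_of_normal_right.mp ((sup_le_sup_left c1 E).trans' h2.ge trivial :
    g ∈ E ⊔ Subgroup.center G)
  rw [show e * z * (e * z) = e * e * (z * z) by
    rw [mul_assoc, ← mul_assoc z, ← Subgroup.mem_center_iff.mp hz e]; group]
  refine mul_mem ?_ (mul_mem hz hz)
  rcases h3 with rfl | ⟨⟨a1, a2, -⟩, -⟩
  · simp [Subgroup.mem_bot.mp he]
  · have := a2 ▸ H1.pow_mem_frattini a1 ⟨e, he⟩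
    exact cen _ (fun x hx => by
      simpa [pow_two] using congrArg Subtype.val (Subgroup.mem_center_iff.mp this ⟨x, hx⟩))
      fun c hc => (h1 _ (mul_mem he he) c hc).symm

variable {F : Type u} {V : Type v} [Field F] [AddCommGroup V] [Module F V] {R M G : Subgroup (V ≃ₗ[F] V)}
  {g k s : V ≃ₗ[F] V} {E : Type*} [AddCommGroup E] [Module (ZMod 2) E] {B : LinearMap.BilinForm (ZMod 2) E}
  {P : E → V ≃ₗ[F] V} {j : Fˣ} {a : E}

theorem eq_zs_of_smul [Nontrivial V] {c : F} (h : ∀ w, g w = c • w) : ∃ d, g = zs V d := by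
  obtain ⟨v, hv⟩ := exists_ne (0 : V)
  exact ⟨Units.mk0 c (by rintro rfl; exact hv (g.injective (by simpa using h v))), LinearEquiv.ext h⟩

theorem mem_fx_neg {v : V} : v ∈ fx (zs V (-1) * s) ↔ s v = -v := by simp [mem_fx, neg_eq_iff_eq_neg]

theorem isCompl_fx (h2 : (2 : F) ≠ 0) (hs : s * s = 1) : IsCompl (fx s) (fx (zs V (-1) * s)) := by
  have e : ∀ v, s (s v) = v := fun v => LinearEquiv.congr_fun hs v
  refine ⟨Submodule.disjoint_def.mpr fun v h1 h3 => ?_,
    codisjoint_iff.mpr (eq_top_iff.mpr fun v _ => Submodule.mem_sup.mpr ⟨(2 : F)⁻¹ • (v + s v), ?_,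
      (2 : F)⁻¹ • (v - s v), ?_, ?_⟩)⟩
  · refine smul_right_injective V h2 ?_
    simpa [two_smul] using add_eq_zero_iff_eq_neg.mpr ((mem_fx.mp h1).symm.trans (mem_fx_neg.mp h3))
  · simp [mem_fx, e, add_comm]
  · simp [mem_fx_neg, e, smul_sub]
  · rw [← smul_add, add_add_sub_cancel, ← two_smul F, smul_smul, inv_mul_cancel₀ h2, one_smul]

theorem det_eig [FiniteDimensional F V] (h2 : (2 : F) ≠ 0) (hs : s * s = 1) {c : F} (h1 : ∀ v, s v = v → g v = v)
    (h3 : ∀ v, s v = -v → g v = c • v) :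
    LinearMap.det (g : V →ₗ[F] V) = c ^ finrank F (fx (zs V (-1) * s)) := by
  let e := Submodule.prodEquivOfIsCompl _ _ (isCompl_fx h2 hs)
  rw [← LinearMap.det_conj _ e.symm, show _ ∘ₗ _ ∘ₗ _ = LinearMap.prodMap LinearMap.id (c • LinearMap.id) from
    LinearMap.ext fun x => e.injective (by
      simp [e, h1 _ x.1.2, h3 x.2 (mem_fx_neg.mp x.2.2)]), LinearMap.det_prodMap]
  simp

theorem Pau.finrank_fx [FiniteDimensional F V] (h : Pau B P) (ha : a ≠ 0) (hs : P a * P a = 1) :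
    2 * finrank F (fx (zs V (-1) * P a)) = finrank F V := by
  obtain ⟨b, hb⟩ := h.exists_one ha
  rw [← Submodule.finrank_add_eq_of_isCompl (isCompl_fx h.two hs), two_mul, ← (P b).finrank_map_eq (fx (P a))]
  refine congrArg (fun W : Submodule F V => finrank F W + _) (Submodule.ext fun v => ?_)
  obtain ⟨v, rfl⟩ := (P b).surjective v
  simp [mem_fx_neg, Submodule.mem_map_equiv, h.comm_app a b, hb, mem_fx]

theorem comm_mem_of_mz (hg : g ∈ M ⊔ (zs V).range) (hk : k ∈ M ⊔ (zs V).range) : g * k * g⁻¹ * k⁻¹ ∈ M := by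
  obtain ⟨g, hg', _, ⟨c, rfl⟩, rfl⟩ := Subgroup.mem_sup_of_normal_right.mp hg
  obtain ⟨k, hk', _, ⟨d, rfl⟩, rfl⟩ := Subgroup.mem_sup_of_normal_right.mp hk
  rw [zs_comm c, conj_zs, zs_comm d, zs_conj, ← inv_inv (g * k * g⁻¹), mul_inv_rev (zs V d), ← mul_assoc,
    mul_assoc _ _ k⁻¹, ← zs_comm, mul_inv_cancel_right, inv_inv]
  exact mul_mem (mul_mem (mul_mem hg' hk') (inv_mem hg')) (inv_mem hk')

theorem SLV_le_of_mz [Fintype F] [FiniteDimensional F V] (h : SLV F V ≤ M ⊔ (zs V).range) : SLV F V ≤ M := by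
  refine SLV_le_of_TR fun v φ h0 => ⟨h0, LinearEquiv.transvection h0, ?_, fun _ => rfl⟩
  obtain ⟨g, hg, _, ⟨c, rfl⟩, e⟩ := Subgroup.mem_sup_of_normal_right.mp (h (LinearEquiv.transvection.det_eq_one h0))
  have a1 : ∀ (n : ℕ) x, (LinearEquiv.transvection h0 ^ n) x = x + ((n : F) * φ x) • v := fun n x => by
    induction n with
    | zero => simp
    | succ n ih =>
      rw [pow_succ', LinearEquiv.mul_apply, ih, LinearEquiv.transvection.apply]
      simp only [map_add, map_smul, h0, Nat.cast_succ, smul_zero, add_zero]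
      module
  have a2 : LinearEquiv.transvection h0 * LinearEquiv.transvection h0 ^ (Fintype.card F - 1) = 1 := by
    rw [← pow_succ', Nat.sub_add_cancel Fintype.card_pos]
    exact LinearEquiv.ext fun x => by simp [a1]
  rw [eq_inv_of_mul_eq_one_left a2, ← e, Commute.mul_pow (zs_comm c g), ← map_pow, ← Nat.card_eq_fintype_card,
    ← Nat.card_units, pow_card_eq_one', map_one, mul_one]
  exact inv_mem (pow_mem hg _)

namespace PL

variable (h : PL B P j ⊤)
include h

theorem exists_gS (a : E) : ∃ c : Fˣ, (∀ v, P a v = v → (zs V c * hS (zs V j * P a) : V ≃ₗ[F] V) v = v) ∧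
    ∀ v, P a v = -v → (zs V c * hS (zs V j * P a) : V ≃ₗ[F] V) v = -(j : F) • v := by
  have e' : (j : F) * j = -1 := congrArg Units.val h.jj
  have a1 : 1 + (j : F) ≠ 0 := fun e => h.two (by linear_combination (1 - j) * e + e')
  refine ⟨(Units.mk0 _ a1)⁻¹, fun v hv => ?_, fun v hv => ?_⟩ <;>
  · simp only [LinearEquiv.mul_apply, hS_apply h.two (h.sqY a), zs_apply, hv, Units.val_inv_eq_inv_val, Units.val_mk0]
    rw [inv_smul_eq_iff₀ a1]
    match_scalars
    first | ring1 | linear_combination e'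

theorem of_mem [FiniteDimensional F V] {p : (V ≃ₗ[F] V) → Prop} (h8 : 8 ∣ finrank F V)
    (hp : ∀ a g, (∀ v, P a v = v → g v = v) → (∀ v, P a v = -v → g v = -(j : F) • v) → p g)
    (hM : ∀ g ∈ SLV F V, p g → Nm P g → g ∈ M) : PL B P j (M ⊔ (zs V).range) := by
  have e' : (j : F) * j = -1 := congrArg Units.val h.jj
  have z : ∀ c, zs V c ∈ M ⊔ (zs V).range := fun c => Subgroup.mem_sup_right ⟨c, rfl⟩
  have key : ∀ a, P a ∈ M ⊔ (zs V).range ∧ hS (zs V j * P a) ∈ M ⊔ (zs V).range := fun a => by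
    obtain ⟨c, c1, c2⟩ := h.exists_gS a
    have : zs V c * hS (zs V j * P a) ∈ M ⊔ (zs V).range := by
      by_cases ha : a = 0
      · rw [show zs V c * _ = 1 from LinearEquiv.ext fun v => c1 v (by simp [ha, h.zero])]
        exact one_mem _
      refine Subgroup.mem_sup_left (hM _ (mem_SLV.mpr ?_) (hp a _ c1 c2) ((Nm.zs c).mul (h.G_nm a)))
      obtain ⟨n, hn⟩ := h8
      have := h.finrank_fx ha (h.sq1 a)
      rw [det_eig h.two (h.sq1 a) c1 c2, show finrank F (fx _) = 4 * n by omega, pow_mul,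
        show (-j : F) ^ 4 = 1 by linear_combination (j * j - 1) * e', one_pow]
    refine ⟨?_, by simpa [← mul_assoc, ← map_mul] using mul_mem (z c⁻¹) this⟩
    convert mul_mem this this using 1
    exact ext_eig' h.two (h.sq1 a) (fun v hv => by rw [LinearEquiv.mul_apply, c1 v hv, c1 v hv, hv]) fun v hv => by
      rw [LinearEquiv.mul_apply, c2 v hv, map_smul, c2 v hv, hv, smul_smul, neg_mul_neg, e', neg_one_smul]
  exact ⟨h.toPau, h.jj, h.sq1, z, fun a => (key a).1, fun a => (key a).2⟩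

end PL

section
variable {ι : Type} [Fintype ι] [DecidableEq ι] [Fintype F] {R : Subgroup (GL ι F)}

/-- a matrix group as a group of linear automorphisms -/
abbrev glR (R : Subgroup (GL ι F)) : Subgroup ((ι → F) ≃ₗ[F] (ι → F)) := R.map (glEq ι F).toMonoidHom

theorem zs_of_center [Nonempty ι] (h : ActsAbsolutelyIrreducibly (matrixSet R)) {z : R} (hz : z ∈ Subgroup.center R) :
    ∃ c, glEq ι F z = zs (ι → F) c := by
  obtain ⟨c, hc⟩ := H18.scalar_of_absIrr h (y := z) fun y hy =>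
    congrArg Subtype.val (Subgroup.mem_center_iff.mp hz ⟨y, hy⟩)
  exact eq_zs_of_smul (c := c) fun w => by simp [glEq_apply, hc, Matrix.smul_mulVec]

theorem ai_of_geo [Nonempty ι] (hR : IsSymplecticTypeGroup 2 R) (h : ActsAbsolutelyIrreducibly (matrixSet R)) :
    AI (glR R) := by
  refine ⟨inferInstance, fun W hW => h.1 W ?_, fun f hf => ?_, ?_⟩
  · rintro _ ⟨g, hg, rfl⟩ _ ⟨w, hw, rfl⟩
    exact hW _ ⟨g, hg, rfl⟩ w hw
  · obtain ⟨c, hc⟩ := h.2 (LinearMap.toMatrix' f) (by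
      rintro _ ⟨g, hg, rfl⟩
      exact mat_ext_mulVec fun v => by
        simpa [← Matrix.mulVec_mulVec, glEq_apply] using hf _ ⟨g, hg, rfl⟩ v)
    exact ⟨c, fun w => by simpa [Matrix.smul_mulVec] using congrArg (Matrix.mulVec · w) hc⟩
  · rintro _ ⟨g, hg, rfl⟩
    obtain ⟨c, hc⟩ := zs_of_center h (sq_mem_of_symp hR.pGroup hR.cyclic_of_characteristic hR.exponent_eq ⟨g, hg⟩)
    have a1 := congrArg (fun x : R => glEq ι F x) (Monoid.pow_exponent_eq_one (⟨g, hg⟩ : R))
    rw [hR.exponent_eq, show 2 * Nat.gcd 2 2 = 2 * 2 from rfl, pow_mul, pow_two, pow_two] at a1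
    simp only [Subgroup.coe_mul, map_mul, OneMemClass.coe_one, map_one] at a1 hc
    rw [hc, ← map_mul, ← map_one (zs _)] at a1
    rcases mul_self_eq_one_iff.mp (congrArg Units.val (zs_inj a1)) with e | e
    exacts [⟨0, hc.trans (congrArg _ (Units.ext e))⟩, ⟨1, hc.trans (congrArg _ (Units.ext e))⟩]

theorem exists_j [Nonempty ι] (hR : IsSymplecticTypeGroup 2 R) (h : ActsAbsolutelyIrreducibly (matrixSet R))
    (hZ : Nat.card (Subgroup.center R) = 4) : ∃ j : Fˣ, j * j = -1 ∧ zs (ι → F) j ∈ glR R := by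
  obtain ⟨z, hz⟩ := (hR.cyclic_of_characteristic _ inferInstance inferInstance :
    IsCyclic (Subgroup.center R)).exists_ofOrder_eq_natCard
  obtain ⟨c, hc⟩ := zs_of_center h z.2
  have : orderOf c = 4 := by
    rw [← orderOf_injective (zs (ι → F)) zs_inj, ← hc, MulEquiv.orderOf_eq, Subgroup.orderOf_coe,
      Subgroup.orderOf_coe, hz, hZ]
  refine ⟨c, ?_, _, z.1.2, hc⟩
  rcases mul_self_eq_one_iff.mp (show ((c * c : Fˣ) : F) * (c * c : Fˣ) = 1 by
    rw [← Units.val_mul, ← pow_two, ← pow_two, ← pow_mul, show 2 * 2 = 4 from rfl, ← this, pow_orderOf_eq_one]; rfl) with e | e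
  · have := this ▸ orderOf_dvd_of_pow_eq_one (show c ^ 2 = 1 from Units.ext (pow_two c ▸ e))
    omega
  · exact Units.ext e

theorem norm_glEq {g : GL ι F} : g ∈ subgroupNormalizer R ↔
    glEq ι F g ∈ Subgroup.normalizer (glR R : Set ((ι → F) ≃ₗ[F] (ι → F))) := by
  rw [← Subgroup.map_equiv_normalizer_eq]
  exact (Subgroup.mem_map_iff_mem (f := (glEq ι F).toMonoidHom) (glEq ι F).injective).symm

theorem max_SL_c6 (hR : IsSymplecticTypeGroup 2 R) (h : ActsAbsolutelyIrreducibly (matrixSet R))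
    (hZ : Nat.card (Subgroup.center R) = 4) (hp : (Fintype.card F).Prime) (h2 : (2 : F) ≠ 0)
    (h0 : 0 < Fintype.card ι) (h8 : 8 ∣ Fintype.card ι) :
    IsMaximalIn (specialLinear ι F) (subgroupNormalizer R ⊓ specialLinear ι F) := by
  have := Fintype.card_pos_iff.mp h0
  have := Nat.le_of_dvd h0 h8
  obtain ⟨j, j1, j2⟩ := exists_j hR h hZ
  obtain ⟨E, _, _, _, B, P, a1, -, a2⟩ := (ai_of_geo hR h).exists_PL h2 j1 j2
  refine isMaximalIn_SL (Nm P) (fun g => norm_glEq.trans (a2 _))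
    (H18.SL_not_le_normalizer (by omega) hR.pGroup (by exact_mod_cast h2) (H18.irr_of_absIrr h))
    fun M m1 _ g hg H => SLV_le_of_mz (by_contra fun hc => H ?_)
  exact (a1.of_mem (p := fun _ => True) (by simpa using h8) (fun _ _ _ _ => trivial) fun g hg _ => m1 g hg).nm_of_not_SL hp
    (a1.le_finrank (m := 2) (by simp; nlinarith)) hc (Subgroup.mem_sup_left hg)

end

theorem max_SU_c6 [Fintype F] {n p : ℕ} (hF : Fintype.card F = p ^ 2) {R : Subgroup (GL (Fin n) F)}
    (hR : IsSymplecticTypeGroup 2 R) (h : ActsAbsolutelyIrreducibly (matrixSet R)) (hU : R ≤ GU n F p)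
    (hZ : Nat.card (Subgroup.center R) = 4) (hp : p.Prime) (h4 : p % 4 = 3) (h0 : 0 < n) (h8 : 8 ∣ n) :
    IsMaximalIn (GU n F p ⊓ specialLinear _ F) (subgroupNormalizer R ⊓ (GU n F p ⊓ specialLinear _ F)) := by
  have : Nonempty (Fin n) := ⟨⟨0, h0⟩⟩
  have := Nat.le_of_dvd h0 h8
  have h2 : (2 : F) ≠ 0 := H18.two_ne_zero_iff_odd.mpr (hF ▸ (Nat.odd_iff.mpr (by omega)).pow)
  obtain ⟨j, j1, j2⟩ := exists_j hR h hZ
  have e' : (j : F) * j = -1 := congrArg Units.val j1
  have hj : (j : F) ^ p = -j := by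
    rw [← Nat.div_add_mod p 4, h4, pow_add, pow_mul, show (j : F) ^ 4 = 1 by linear_combination (j * j - 1) * e']
    linear_combination j * e'
  obtain ⟨E, _, _, _, B, P, a1, a3, a2⟩ := (ai_of_geo hR h).exists_PL h2 j1 j2
  obtain ⟨a, hf⟩ := exists_tvF_su hF (by omega : 2 ≤ n)
  have D := sd_tB hf
  have u : ∀ a, P a ∈ UG (tB hf) := fun a => by
    obtain ⟨g, hg, e⟩ := a3 a
    exact e ▸ (glEq_mem_UG hf).mpr (hU hg)
  refine isMaximalIn_iso hf (Nm P) (fun g => norm_glEq.trans (a2 _))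
    ((has_SU hf).not_le_normalizer Nat.prime_two hR.pGroup h (Or.inr (by simp; omega))) fun M m1 _ g hg H => ?_
  have b1 := a1.of_mem (M := M.map (UG _).subtype) (p := (· ∈ UG (tB hf))) (by simpa using h8)
    (fun a g c1 c2 x y => ?_) fun g hg g1 g2 => ⟨⟨g, g1⟩, m1 _ (mem_SUG.mpr (mem_SLV.mp hg)) g2, rfl⟩
  · have b2 : ∀ g ∈ SUG (tB hf), g.1 ∈ M.map (UG _).subtype ⊔ (zs _).range := by_contra fun hc => H
      (b1.nm_of_not_SU hp hj D u (fun g hg => ?_) (a1.le_finrank (m := 2) (by simp; nlinarith)) hc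
        (Subgroup.mem_sup_left ⟨g, hg, rfl⟩))
    · intro g hg
      refine (show _ ≤ M.comap (SUG _).subtype from ?_) ((D.commutator_SUG_of_ne (ns_of_finite D.invol)
        (Or.inr (Or.inr (by simp; omega))) (frobq_ne_id hF) (by simp; omega)).ge (Subgroup.mem_top ⟨g, hg⟩))
      refine Subgroup.commutator_le.mpr fun x _ y _ => ?_
      obtain ⟨k, k1, k2⟩ := comm_mem_of_mz (b2 _ x.2) (b2 _ y.2)
      exact (congrArg (· ∈ M) (Subtype.ext k2 : k = (x * y * x⁻¹ * y⁻¹ : SUG _).1)).mp k1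
    · obtain ⟨_, ⟨g, -, rfl⟩, _, ⟨c, rfl⟩, rfl⟩ := Subgroup.mem_sup_of_normal_right.mp hg
      exact ⟨frobq hF c * c, by simp, fun x y => by simp [UG_map, mul_left_comm, mul_assoc]⟩
  · have s1 : frobq hF j = -j := hj
    obtain ⟨x, hx, x', hx', rfl⟩ := Submodule.mem_sup.mp ((isCompl_fx h2 (a1.sq1 a)).sup_eq_top.ge (Submodule.mem_top (x := x)))
    obtain ⟨y, hy, y', hy', rfl⟩ := Submodule.mem_sup.mp ((isCompl_fx h2 (a1.sq1 a)).sup_eq_top.ge (Submodule.mem_top (x := y)))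
    rw [mem_fx_neg] at hx' hy'
    simp only [map_add, c1 x hx, c1 y hy, c2 x' hx', c2 y' hy', LinearMap.add_apply, LinearMap.map_smulₛₗ, map_neg, s1,
      LinearMap.smul_apply, smul_eq_mul, perp_of_eig h2 (u a) hx hy', perp_of_eig' h2 (u a) hx' hy, RingHom.id_apply]
    linear_combination (-tB hf x' y') * e'

end Cfsg.Agent.H12
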