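import Mathlib
import Cfsg.Agent.H12.PxM

/-!
Quadratic forms over the field with two elements attached to Pauli systems.
-/

set_option autoImplicit false

namespace Cfsg.Agent.H12

open Module

variable {F V : Type*} [Field F] [AddCommGroup V] [Module F V] {E : Type*} [AddCommGroup E]
  [Module (ZMod 2) E] {B : LinearMap.BilinForm (ZMod 2) E} {P : E → V ≃ₗ[F] V} {q : E → ZMod 2}
  {a b c d e f u v w x y : E}

/-- transvection -/
def tq (B : LinearMap.BilinForm (ZMod 2) E) (u e : E) : E := e + B u e • u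

theorem tq_zero (H : B u e = 0) : tq B u e = e := by simp [tq, H]

theorem tq_one (H : B u e = 1) : tq B u e = e + u := by simp [tq, H]

theorem z2_ne {t : ZMod 2} : t ≠ 0 ↔ t = 1 := by revert t; decide

theorem z2_ne' {t : ZMod 2} : t ≠ 1 ↔ t = 0 := by revert t; decide

theorem ns_of_pair (hq : ∀ a b, q (a + b) = q a + q b + B a b) {p : E → Prop} (hp : ∀ a b, p a → p b → p (a + b))
    (h1 : p e) (h2 : p f) (H : B e f = 1) : ∃ w, p w ∧ q w = 1 := by
  by_contra! h
  have := h _ (hp _ _ h1 h2)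
  rw [hq, z2_ne'.mp (h e h1), z2_ne'.mp (h f h2), H] at this
  exact this (by decide)

/-- no totally singular plane -/
def NP (B : LinearMap.BilinForm (ZMod 2) E) (q : E → ZMod 2) : Prop :=
  ∀ a b, q a = 0 → q b = 0 → B a b = 0 → a = 0 ∨ b = 0 ∨ a = b

namespace Pau

variable (h : Pau B P) (hq : ∀ a b, q (a + b) = q a + q b + B a b)
include h

theorem tq_tq (u e : E) : tq B u (tq B u e) = e := by
  simp [tq, h.self, add_assoc, e2_add_self]

theorem B_tq (u a b : E) : B (tq B u a) b = B a (tq B u b) := by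
  simp [tq, h.symm a u, mul_comm]

include hq

theorem q_zero : q 0 = 0 := by simpa using hq 0 0

theorem ne_of_q (H : q u = 1) : u ≠ 0 := fun e => by simp [e, h.q_zero hq] at H

theorem q_tq (hu : q u = 1) (e : E) : q (tq B u e) = q e := by
  rcases z2_cases (B u e) with H | H
  · rw [tq_zero H]
  · rw [tq_one H, hq, hu, h.symm, H, add_assoc, z2_add_self, add_zero]

variable [Finite E]

theorem exists_q (W : Submodule (ZMod 2) E) (H : 2 * finrank (ZMod 2) W < finrank (ZMod 2) E) (e : E) (t : ZMod 2) :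
    ∃ e', q e' = t ∧ ∀ w ∈ W, B w e' = B w e := by
  obtain ⟨a, a1, a2⟩ := h.exists_perp W W (by omega)
  obtain ⟨b, b1, b2⟩ := h.exists_sep a1
  by_contra! H
  have key : ∀ c, (∀ w ∈ W, B w c = 0) → q (e + c) = t + 1 := fun c hc => by
    have : q (e + c) ≠ t := fun e' => (H _ e').elim fun w hw => hw.2 (by simp [hc w hw.1])
    exact (by decide : ∀ s t : ZMod 2, s ≠ t → s = t + 1) _ _ this
  have c1 := key 0 (by simp)
  have c2 := key a a2
  have c3 := key b fun w hw => h.symm w b ▸ b2 w hw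
  have c4 := key (b + a) fun w hw => by simp [a2 w hw, h.symm w b, b2 w hw]
  rw [add_zero] at c1
  rw [hq, c1] at c2 c3 c4
  rw [hq, b1, map_add] at c4
  exact (by decide : ∀ t x1 x2 x3 x4 : ZMod 2, t + 1 + x1 + x3 = t + 1 → t + 1 + x2 + x4 = t + 1 →
    t + 1 + (x2 + x1 + 1) + (x4 + x3) ≠ t + 1) _ _ _ _ _ c2 c3 c4

theorem exists_q₁ (h3 : 3 ≤ finrank (ZMod 2) E) (a e : E) (t : ZMod 2) : ∃ e', q e' = t ∧ B a e' = B a e :=
  (h.exists_q hq ((ZMod 2) ∙ a) (by
    have : finrank (ZMod 2) ((ZMod 2) ∙ a) ≤ 1 := (finrank_span_le_card ({a} : Set E)).trans (by simp)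
    omega) e t).imp fun _ H => ⟨H.1, H.2 a (Submodule.mem_span_singleton_self a)⟩

theorem exists_q₂ (h5 : 5 ≤ finrank (ZMod 2) E) (a b e : E) (t : ZMod 2) :
    ∃ e', q e' = t ∧ B a e' = B a e ∧ B b e' = B b e :=
  (h.exists_q hq (Submodule.span _ {a, b}) (by have := frk_pair (K := ZMod 2) a b; omega) e t).imp fun _ H =>
    ⟨H.1, H.2 a (Submodule.subset_span (by simp)), H.2 b (Submodule.subset_span (by simp))⟩

theorem ns_perp₂ (h3 : 3 ≤ finrank (ZMod 2) E) (ha : q a = 1) (b : E) : ∃ w, (B a w = 0 ∧ B b w = 0) ∧ q w = 1 := by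
  rcases z2_cases (B a b) with H | H
  · exact ⟨a, ⟨h.self a, h.symm a b ▸ H⟩, ha⟩
  obtain ⟨e, e1, e2⟩ := h.exists_perp (Submodule.span _ {a, b}) ⊥ (by
    have := frk_pair (K := ZMod 2) a b; simp; omega)
  obtain ⟨f, hf⟩ := h.exists_one e1
  simp only [e2_mem_span_pair, forall_eq_or_imp, forall_eq] at e2
  exact ns_of_pair hq (fun _ _ h1 h2 => by simp [h1, h2]) ⟨e2.2.1, e2.2.2.1⟩ (f := f + B b f • a + B a f • b)
    (by simp [h.self, H, h.symm b a, z2_add_self]) (by simp [hf, h.symm e a, h.symm e b, e2])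

theorem ns_perp₄ (h5 : 5 ≤ finrank (ZMod 2) E) (h1 : B a b = 1) (h2 : B c d = 1) (h3 : B a c = 0) (h4 : B a d = 0)
    (h6 : B b c = 0) (h7 : B b d = 0) : ∃ w, (B a w = 0 ∧ B b w = 0 ∧ B c w = 0 ∧ B d w = 0) ∧ q w = 1 := by
  obtain ⟨e, e1, e2⟩ := h.exists_perp (Submodule.span _ {a, b} ⊔ Submodule.span _ {c, d}) ⊥ (by
    have := frk_pair (K := ZMod 2) a b; have := frk_pair (K := ZMod 2) c d
    have := Submodule.finrank_add_le_finrank_add_finrank (Submodule.span (ZMod 2) {a, b}) (Submodule.span _ {c, d})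
    simp; omega)
  obtain ⟨f, hf⟩ := h.exists_one e1
  have e3 := e2 a (Submodule.mem_sup_left (Submodule.subset_span (by simp)))
  have e4 := e2 b (Submodule.mem_sup_left (Submodule.subset_span (by simp)))
  have e5 := e2 c (Submodule.mem_sup_right (Submodule.subset_span (by simp)))
  have e6 := e2 d (Submodule.mem_sup_right (Submodule.subset_span (by simp)))
  exact ns_of_pair hq (fun _ _ h1 h2 => by simp [h1, h2]) ⟨e3, e4, e5, e6⟩
    (f := f + B b f • a + B a f • b + B d f • c + B c f • d)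
    (by simp [h.self, h.symm b a, h.symm c a, h.symm d a, h.symm c b, h.symm d b, h.symm d c, z2_add_self, *])
    (by simp [hf, h.symm e a, h.symm e b, h.symm e c, h.symm e d, *])

theorem core (h4 : 4 ≤ finrank (ZMod 2) E) (hd : 5 ≤ finrank (ZMod 2) E ∨ NP B q) {ψ : E →ₗ[ZMod 2] E}
    (h1 : ∀ a b, B (ψ a) (ψ b) = B a b) (h2 : ∀ a, q (ψ a) = q a)
    (H : ∀ u v w, q u = 1 → q v = 1 → q w = 1 → tq B (ψ u) (tq B (ψ v) w) = tq B u (tq B v w) →
      ∀ e, tq B (ψ u) (tq B (ψ v) e) = tq B u (tq B v e)) : ∃ u, q u = 1 ∧ ψ u = u := by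
  by_contra! N
  have k1 : ∀ y, q y = 1 → ψ (ψ y) = tq B (ψ y) y := fun y hy => by
    obtain ⟨w, ⟨w1, w2⟩, w3⟩ := h.ns_perp₂ hq (by omega) hy (tq B (ψ y) (ψ (ψ y)))
    obtain ⟨e, he⟩ := h.exists_one (h.ne_of_q hq hy)
    have := H (ψ y) y w (by rw [h2, hy]) hy w3 (by rw [tq_zero w1, tq_zero (by rw [← h.B_tq, w2])]) e
    rw [tq_one he, show tq B (ψ y) (e + y) = tq B (ψ y) e + tq B (ψ y) y by simp only [tq, map_add]; module, tq,
      add_right_inj] at this
    rcases z2_cases (B (ψ (ψ y)) (tq B (ψ y) e)) with a | a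
    · exact absurd this.symm (by simpa [a] using h.ne_of_q hq (by rw [h.q_tq hq (by rw [h2, hy]), hy]))
    · simpa [a] using this
  by_cases k2 : ∃ y, q y = 1 ∧ B y (ψ y) = 0
  · obtain ⟨y, y1, y2⟩ := k2
    have y3 : ψ (ψ y) = y := (k1 y y1).trans (tq_zero (h.symm y _ ▸ y2))
    rcases hd with hd | hd
    · obtain ⟨e, e1, e2⟩ := h.exists_perp (Submodule.span _ {y, ψ y}) (Submodule.span _ {y, ψ y}) (by
        have := frk_pair (K := ZMod 2) y (ψ y); omega)
      simp only [e2_mem_span_pair, forall_eq_or_imp, forall_eq, not_or] at e1 e2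
      obtain ⟨v, v1, v2, v3, v4, v5⟩ : ∃ v, q v = 1 ∧ B y v = 0 ∧ B (ψ y) v = 0 ∧ v ≠ y ∧ v ≠ ψ y := by
        rcases z2_cases (q e) with a | a
        · exact ⟨y + e, by simp [hq, a, y1, e2], by simp [h.self, e2], by simp [h.symm _ y, y2, e2], by simp [e1],
            fun b => e1.2.2.2 (by rw [← b, e2_cancel])⟩
        · exact ⟨e, a, e2.2.1, e2.2.2.1, e1.2.1, e1.2.2.1⟩
      have v6 : B (ψ v) y = 0 := by rw [← y3, h1, h.symm, v3]
      obtain ⟨f, f1, f2⟩ := h.exists_one_zero (h.ne_of_q hq y1) v4.symm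
      have := H y v y y1 v1 y1 (by
        rw [tq_zero v6, tq_zero ((h.symm _ y).trans y2), tq_zero ((h.symm v y).trans v2), tq_zero (h.self y)]) f
      rw [tq_zero ((h.symm v f).trans f2), tq_one ((h.symm y f).trans f1)] at this
      simp only [tq, map_add, map_smul, h1, v2, smul_zero, add_zero, add_assoc, add_right_inj] at this
      rcases z2_cases (B (ψ v) f) with a | a <;> rcases z2_cases (B (ψ y) f) with b | b <;>
        simp only [a, b, zero_smul, one_smul, add_zero, zero_add] at this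
      · exact h.ne_of_q hq y1 this.symm
      · exact N y y1 this
      · exact v5 (h.inj_of_iso h1 (this.trans y3.symm))
      · have := congrArg q this
        rw [hq, h2, h2, h1, v1, y1, h.symm, v2] at this
        exact absurd this (by decide)
    · have c1 : ∀ y, q y = 1 → B y (ψ y) = 0 → q (y + ψ y) = 0 ∧ y + ψ y ≠ 0 := fun y a b =>
        ⟨by rw [hq, h2, a, b]; decide, fun e => N y a (e2_eq_of_add e).symm⟩
      obtain ⟨e, he⟩ := h.exists_one (c1 y y1 y2).2
      obtain ⟨z, z1, z2⟩ := h.exists_q₁ hq (by omega) (y + ψ y) e 1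
      rw [he] at z2
      have z3 : B (y + ψ y) (ψ z) = 1 := by rw [← z2, ← h1 _ z, map_add ψ, y3, add_comm]
      have z4 : B z (ψ z) = 0 := by
        by_contra z4
        have := h1 (y + ψ y) (ψ z)
        rw [map_add ψ, y3, add_comm, k1 z z1, tq_one (h.symm z _ ▸ z2_ne.mp z4), map_add, z2, z3] at this
        exact absurd this (by decide)
      rcases hd _ _ (c1 y y1 y2).1 (c1 z z1 z4).1 (by rw [map_add, z2, z3]; decide) with a | a | a
      exacts [(c1 y y1 y2).2 a, (c1 z z1 z4).2 a, by simp [a, h.self, h.symm _ z, z4] at z2]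
  simp only [not_exists, not_and, ← ne_eq, z2_ne] at k2
  obtain ⟨y, y1, -⟩ := h.exists_q₁ hq (by omega) 0 0 1
  obtain ⟨v, ⟨v1, v2⟩, v3⟩ := h.ns_perp₂ hq (by omega) y1 (ψ y)
  have y2 := k2 y y1
  have v4 : B (ψ y) (ψ v) = 0 := by rw [h1, v1]
  have v5 : B y (ψ v) = 0 := by
    have := h1 (ψ y) v
    rwa [k1 y y1, tq_one (h.symm y _ ▸ y2), map_add, LinearMap.add_apply, v2, v4, add_zero] at this
  rcases hd with hd | hd
  · obtain ⟨w, ⟨w1, w2, w3, w4⟩, w5⟩ := h.ns_perp₄ hq hd y2 (k2 v v3) v1 v5 v2 v4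
    have := H y v w y1 v3 w5 (by rw [tq_zero w4, tq_zero w2, tq_zero w3, tq_zero w1]) y
    rw [tq_zero ((h.symm _ y).trans v5), tq_one ((h.symm _ y).trans y2), tq_zero ((h.symm _ y).trans v1), tq_zero (h.self y),
      add_eq_left] at this
    simp [this] at y2
  · have a1 : q (y + v) = 0 := by rw [hq, y1, v3, v1]; decide
    rcases hd (y + v) (ψ (y + v)) a1 (by rw [h2, a1]) (by
      simp [y2, k2 v v3, v5, h.symm v (ψ y), v2, z2_add_self]) with a | a | a
    · simpa [v2, h.symm _ y, y2] using congrArg (B (ψ y)) a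
    · simpa [v5, y2] using congrArg (B y) a
    · simpa [v5, y2, v1, h.self] using congrArg (B y) a

end Pau

end Cfsg.Agent.H12
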