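import Mathlib
import Cfsg.Agent.H12.PyA

/-!
Pauli systems of isometries: fusion.
-/

set_option autoImplicit false

namespace Cfsg.Agent.H12

open Module

variable {F V : Type*} [Field F] [AddCommGroup V] [Module F V] {E : Type*} [AddCommGroup E]
  [Module (ZMod 2) E] {B : LinearMap.BilinForm (ZMod 2) E} {P : E → V ≃ₗ[F] V} {q : E → ZMod 2}
  {a b c e u v w x : E} {g k n y z : V ≃ₗ[F] V} {M : Subgroup (V ≃ₗ[F] V)} {T : V →ₗ[F] V →ₗ[F] F}

/-- conjugation modulo scalars -/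
def Cj (P : E → V ≃ₗ[F] V) (g : V ≃ₗ[F] V) (a b : E) : Prop := ∃ c, g * P a * g⁻¹ = zs V c * P b

theorem Cj.mul (h : Cj P g b c) (h' : Cj P k a b) : Cj P (g * k) a c := by
  obtain ⟨s, hs⟩ := h
  obtain ⟨t, ht⟩ := h'
  exact ⟨t * s, by rw [show g * k * P a * (g * k)⁻¹ = g * (k * P a * k⁻¹) * g⁻¹ by group, ht, zs_conj, hs, zs_zs]⟩

theorem Cj.inv (h : Cj P g a b) : Cj P g⁻¹ b a := by
  obtain ⟨s, hs⟩ := h
  exact ⟨s⁻¹, by rw [map_inv, eq_inv_mul_iff_mul_eq, ← zs_conj, ← hs]; group⟩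

theorem Cj.of_comm (H : g * P a = P a * g) : Cj P g a a := ⟨1, by simp [H]⟩

theorem Pau.cj_uniq (h : Pau B P) (h1 : Cj P g a b) (h2 : Cj P g a c) : b = c :=
  h1.elim fun _ h1 => h2.elim fun _ h2 => h.uniq (h1.symm.trans h2)

theorem Pau.cj_of_rz (h : Pau B P) (hg : Rz P g) (a : E) : Cj P g a a := by
  obtain ⟨b, c, rfl⟩ := hg
  exact ⟨_, by rw [conj_zs, h.conj]⟩

theorem Pau.rz_add (h : Pau B P) (h1 : Rz P (g * P a * g⁻¹)) (h2 : Rz P (g * P b * g⁻¹)) :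
    Rz P (g * P (a + b) * g⁻¹) := by
  obtain ⟨c, hc⟩ := h.mul a b
  have := (h.rz_mul h1 h2).zs_mul c⁻¹
  rwa [conj_mul, hc, zs_conj, zs_zs, inv_mul_cancel, map_one, one_mul] at this

theorem Pau.exists_comm_of_cj [Finite E] (h : Pau B P) (ha : a ≠ 0) (hb : b ≠ 0) (hab : a ≠ b) (h1 : Cj P g a a)
    (h2 : Cj P g b b) : ∃ w, P w * g * P a = P a * (P w * g) ∧ P w * g * P b = P b * (P w * g) := by
  have key : ∀ {a w t}, g * P a * g⁻¹ = zs V (sgU F t) * P a → B w a = t → P w * g * P a = P a * (P w * g) :=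
    fun {a w t} h1 h2 => by
      rw [mul_assoc, mul_inv_eq_iff_eq_mul.mp h1, mul_assoc, zs_left, ← mul_assoc (P w), h.comm, h2,
        mul_assoc, zs_zs, sgU_mul_self, map_one, one_mul, mul_assoc]
  obtain ⟨c, hc⟩ := h1
  obtain ⟨d, hd⟩ := h2
  obtain ⟨s, rfl⟩ := h.sign_of_fix hc
  obtain ⟨t, rfl⟩ := h.sign_of_fix hd
  obtain ⟨w, w1, w2⟩ := h.exists_vals ha hb hab s t
  exact ⟨w, key hc w1, key hd w2⟩

theorem Sim.conj (h : Sim T k) (hg : g ∈ UG T) : k * g * k⁻¹ ∈ UG T := by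
  have := mul_mem (comm_mem_UG h ⟨1, one_ne_zero, fun x y => by rw [hg, one_mul]⟩) hg
  rwa [inv_mul_cancel_right] at this

theorem hS_neg' (h2 : (2 : F) ≠ 0) (hy : y * y = zs V (-1)) : hS (zs V (-1) * y) = hS y * (zs V (-1) * y) := by
  have : zs V (-1) * y * (zs V (-1) * y) = zs V (-1) := by rw [mul_assoc, zs_left _ y, zs_zs, hy]; simp
  exact LinearEquiv.ext fun v => by simp [hS_apply h2 this, hS_apply h2 hy, apply_apply_of_sq hy, add_comm]

/-- Pauli system of isometries -/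
structure PO (B : LinearMap.BilinForm (ZMod 2) E) (P : E → V ≃ₗ[F] V) (q : E → ZMod 2) (T : V →ₗ[F] V →ₗ[F] F)
    (M : Subgroup (V ≃ₗ[F] V)) : Prop extends Pau B P where
  sq' : ∀ a, P a * P a = zs V (sgU F (q a))
  sep : ∀ v, (∀ w, T v w = 0) → v = 0
  iso : ∀ a, P a ∈ UG T
  sim : ∀ g ∈ M, Sim T g
  zm : ∀ c, zs V c ∈ M
  pm : ∀ a, P a ∈ M
  hm : ∀ a b, q a = 1 → q b = 1 → hS (P a) * hS (P b) ∈ M

/-- nonsingular members, up to sign -/
def NSg (P : E → V ≃ₗ[F] V) (q : E → ZMod 2) (y : V ≃ₗ[F] V) : Prop := ∃ a t, q a = 1 ∧ y = zs V (sgU F t) * P a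

theorem NSg.self (H : q a = 1) : NSg P q (P a) := ⟨a, 0, H, by simp⟩

namespace PO

variable (h : PO B P q T M)
include h

theorem sqy (H : q a = 1) : P a * P a = zs V (-1) := by rw [h.sq', H, sgU_one]

theorem sqN (H : NSg P q y) : y * y = zs V (-1) := by
  obtain ⟨a, t, h1, rfl⟩ := H
  rw [mul_assoc, zs_left _ (P a), zs_zs, sgU_mul_self, h.sqy h1]; simp

theorem sgn {c : Fˣ} (hg : g ∈ UG T) (H : zs V c * g ∈ UG T) : ∃ t, c = sgU F t := by
  have := h.nt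
  obtain ⟨v, hv⟩ := exists_ne (0 : V)
  obtain ⟨w, hw⟩ := not_forall.mp (mt (h.sep v) hv)
  have := H v w
  simp only [LinearEquiv.mul_apply, zs_apply, map_smul, LinearMap.smul_apply, hg v w, smul_eq_mul, ← mul_assoc] at this
  rcases mul_self_eq_one_iff.mp ((mul_eq_right₀ hw).mp this) with e | e
  exacts [⟨0, Units.ext (by simpa using e)⟩, ⟨1, Units.ext (by simpa using e)⟩]

theorem mul' (a b : E) : ∃ t, P a * P b = zs V (sgU F t) * P (a + b) := by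
  obtain ⟨c, hc⟩ := h.mul a b
  obtain ⟨t, rfl⟩ := h.sgn (h.iso _) (hc ▸ mul_mem (h.iso a) (h.iso b))
  exact ⟨t, hc⟩

theorem q_add (a b : E) : q (a + b) = q a + q b + B a b := by
  obtain ⟨t, ht⟩ := h.mul' a b
  have : P a * P b * (P a * P b) = zs V (sgU F (q a + q b + B a b)) := by
    rw [mul_assoc, ← mul_assoc (P b), h.comm b a, h.symm b, mul_assoc, zs_left, mul_assoc, h.sq', ← mul_assoc (P a),
      h.sq', ← map_mul, ← map_mul, ← sgU_add, ← sgU_add, add_comm]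
  rw [ht, mul_assoc, zs_left, zs_zs, sgU_mul_self, map_one, one_mul, h.sq'] at this
  exact sgU_inj h.two (h.zs_injective this)

theorem ne (H : q u = 1) : u ≠ 0 := h.ne_of_q h.q_add H

theorem cj_sgn (hg : g ∈ M) (H : Cj P g a b) : ∃ t, g * P a * g⁻¹ = zs V (sgU F t) * P b := by
  obtain ⟨c, hc⟩ := H
  obtain ⟨t, rfl⟩ := h.sgn (h.iso _) (hc ▸ (h.sim g hg).conj (h.iso a))
  exact ⟨t, hc⟩

theorem cj_q (hg : g ∈ M) (H : Cj P g a b) : q b = q a := by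
  obtain ⟨t, ht⟩ := h.cj_sgn hg H
  have := sq_conj (h.sq' a) g
  rw [ht, mul_assoc, zs_left, zs_zs, sgU_mul_self, map_one, one_mul, h.sq'] at this
  exact sgU_inj h.two (h.zs_injective this)

theorem hm' (h1 : NSg P q y) (h2 : NSg P q z) : hS y * hS z ∈ M := by
  have key : ∀ {y}, NSg P q y → ∃ a, q a = 1 ∧ ∃ r ∈ M, hS y = hS (P a) * r ∧ hS y = r * hS (P a) := by
    rintro _ ⟨a, t, a1, rfl⟩
    rcases z2_cases t with rfl | rfl
    · exact ⟨a, a1, 1, one_mem _, by simp⟩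
    · exact ⟨a, a1, _, mul_mem (h.zm _) (h.pm a), hS_neg' h.two (h.sqy a1), (hS_neg' h.two (h.sqy a1)).trans
        (comm_hS h.two (h.sqy a1) (by rw [zs_left, mul_assoc])).symm⟩
  obtain ⟨a, a1, r, a2, -, a3⟩ := key h1
  obtain ⟨b, b1, s, b2, b3, -⟩ := key h2
  rw [a3, b3, mul_assoc, ← mul_assoc (hS _)]
  exact mul_mem a2 (mul_mem (h.hm a b a1 b1) b2)

theorem hS_comm (hu : q u = 1) (H : B u a = 0) : hS (P u) * P a = P a * hS (P u) :=
  (comm_hS h.two (h.sqy hu) (h.comm0 H).symm).symm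

theorem cj_hS (hu : q u = 1) (a : E) : Cj P (hS (P u)) a (tq B u a) := by
  rcases z2_cases (B u a) with H | H
  · rw [tq_zero H]; exact .of_comm (h.hS_comm hu H)
  · rw [tq_one H, add_comm]
    exact (h.mul u a).imp fun c hc => by rw [hS_conj h.two (h.sqy hu) (by rw [h.comm, H, sgU_one]), hc]

theorem cj_hh (hu : q u = 1) (hv : q v = 1) (a : E) : Cj P (hS (P u) * hS (P v)) a (tq B u (tq B v a)) :=
  (h.cj_hS hu _).mul (h.cj_hS hv a)

theorem conj (hk : k ∈ M) : PO B (fun a => k * P a * k⁻¹) q T M := by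
  refine ⟨⟨h.two, h.alt, h.nd, h.nt, by simp [h.zero], fun a b => (h.mul a b).imp fun c hc => by
      rw [conj_mul, hc, zs_conj], fun a b => by rw [conj_mul, conj_mul, h.comm, zs_conj],
    eq_top_iff.mpr fun X _ => ?_⟩, fun a => sq_conj (h.sq' a) k, h.sep, fun a => (h.sim k hk).conj (h.iso a),
    h.sim, h.zm, fun a => mul_mem (mul_mem hk (h.pm a)) (inv_mem hk), fun a b ha hb => ?_⟩
  · obtain ⟨X, rfl⟩ := k.conj.surjective X
    induction (h.span ▸ Submodule.mem_top : X ∈ _) using Submodule.span_induction with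
    | zero => simp
    | add x y _ _ h1 h2 => rw [map_add]; exact add_mem (h1 trivial) (h2 trivial)
    | smul c x _ h1 => rw [map_smul]; exact Submodule.smul_mem _ _ (h1 trivial)
    | mem X hX => obtain ⟨a, rfl⟩ := hX; exact Submodule.subset_span ⟨a, rfl⟩
  · rw [← conj_hS h.two (h.sqy ha), ← conj_hS h.two (h.sqy hb), conj_mul]
    exact mul_mem (mul_mem hk (h.hm a b ha hb)) (inv_mem hk)

variable [Finite E] (h5 : 5 ≤ finrank (ZMod 2) E)
include h5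

theorem trans (ha : a ≠ 0) (hb : b ≠ 0) (H : q a = q b) : ∃ n ∈ M, Nm P n ∧ Cj P n a b := by
  have t : ∀ {a b}, q a = q b → B a b = 1 → ∃ n ∈ M, Nm P n ∧ Cj P n a b := fun {a b} h1 h2 => by
    have h3 : q (a + b) = 1 := by rw [h.q_add, h1, h2, z2_add_self, zero_add]
    obtain ⟨v, v1, v2⟩ := h.exists_q₁ h.q_add (by omega) b 0 1
    refine ⟨_, h.hm _ _ v1 h3, fun a => ⟨_, h.cj_hh v1 h3 a⟩, ?_⟩
    convert h.cj_hh v1 h3 a
    rw [tq_one (u := a + b) (by simp [h.self, h.symm b, h2]), e2_cancel, tq_zero (by simpa [h.symm v] using v2)]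
  obtain ⟨e, e1, e2⟩ := h.exists_one_one ha hb
  obtain ⟨f, f1, f2, f3⟩ := h.exists_q₂ h.q_add h5 a b e (q a)
  obtain ⟨n, n1, n2, n3⟩ := t f1.symm (by rw [f2, h.symm, e1])
  obtain ⟨m, m1, m2, m3⟩ := t (f1.trans H) (by rw [h.symm, f3, h.symm, e2])
  exact ⟨_, mul_mem m1 n1, m2.mul n2, m3.mul n3⟩

theorem nm_of_cj (hC : ∀ k ∈ M, k * P a = P a * k → Nm P k) (ha : a ≠ 0) (hk : k ∈ M) (H : Cj P k a b) : Nm P k := by
  obtain ⟨n, n1, n2, n3⟩ := h.trans h5 (a := b) (fun e => ha (h.cj_uniq H.inv (by rw [e]; exact .of_comm (by simp [h.zero]))))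
    ha (h.cj_q hk H)
  obtain ⟨c, hc⟩ := n3.mul H
  simpa using (h.nm_inv n2).mul (h.nm_of_cent h.pm hC ha (mul_mem n1 hk) hc)

omit h5 in
theorem trans_x (hx : q x = 1) (a1 : q a = 1) (a2 : a ≠ x) (b1 : q b = 1) (b2 : b ≠ x) (a3 : B x a = 0)
    (b3 : B x b = 0) : ∃ n ∈ M, Nm P n ∧ n * P x = P x * n ∧ Cj P n a b := by
  have t : ∀ {a b}, q a = 1 → q b = 1 → B x a = 0 → B x b = 0 → B a b = 1 →
      ∃ n ∈ M, Nm P n ∧ n * P x = P x * n ∧ Cj P n a b := fun {a b} h1 h2 h3 h4 h5 => by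
    have h6 : q (a + b) = 1 := by rw [h.q_add, h1, h2, h5]; decide
    refine ⟨_, h.hm _ _ h6 hx, fun a => ⟨_, h.cj_hh h6 hx a⟩, by rw [mul_assoc, h.hS_comm hx (h.self x), ← mul_assoc,
      h.hS_comm h6 (by simp [h.symm _ x, h3, h4]), mul_assoc], ?_⟩
    convert h.cj_hh h6 hx a
    rw [tq_zero h3, tq_one (u := a + b) (by simp [h.self, h.symm b, h5]), e2_cancel]
  obtain ⟨e, c1, c2, c3⟩ := h.exists_three (h.ne a1) a2 (h.ne b1) b2
  obtain ⟨f, f1, f2, f3, f4⟩ : ∃ f, q f = 1 ∧ B x f = 0 ∧ B a f = 1 ∧ B f b = 1 := by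
    rcases z2_cases (q e) with c | c
    · exact ⟨e + x, by simp [h.q_add, c, hx, c1], by simp [h.self, h.symm x e, c1],
        by simp [h.symm a, c2, a3], by simp [c3, b3]⟩
    · exact ⟨e, c, h.symm e x ▸ c1, h.symm e a ▸ c2, c3⟩
  obtain ⟨n, n1, n2, n3, n4⟩ := t a1 f1 a3 f2 f3
  obtain ⟨m, m1, m2, m3, m4⟩ := t f1 b1 f2 b3 f4
  exact ⟨_, mul_mem m1 n1, m2.mul n2, by rw [mul_assoc, n3, ← mul_assoc, m3, mul_assoc], m4.mul n4⟩

theorem cent_ns (hL : ∀ x, q x = 1 → ∀ k ∈ M, k * P x = P x * k → ∀ u, B x u = 0 → Rz P (k * P u * k⁻¹))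
    (hx : q x = 1) (hk : k ∈ M) (H : k * P x = P x * k) : Nm P k := by
  obtain ⟨u, u1, u2, u3⟩ : ∃ u, q u = 1 ∧ u ≠ x ∧ B x u = 0 := by
    obtain ⟨u, u1, u2, u3⟩ := h.exists_perp_one (by omega) x
    rcases z2_cases (q u) with c | c
    exacts [⟨x + u, by simp [h.q_add, *], by simpa, by simp [h.self, u3]⟩, ⟨u, c, u2, u3⟩]
  obtain ⟨a, ha⟩ : ∃ a, Cj P k u a := hL x hx k hk H u u3
  obtain ⟨n, n1, n2, n3, n4⟩ := h.trans_x hx (a := a) (b := u) ((h.cj_q hk ha).trans u1)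
    (fun e => u2 (h.cj_uniq ha.inv (e ▸ (Cj.of_comm H).inv))) u1 u2 (ha.elim fun c ha => h.symm a x ▸ h.perp_of_comm (c := c) (by
      rw [← ha, mul_assoc, comm_inv H, ← mul_assoc, mul_assoc k, ← h.comm0 u3, ← mul_assoc, H]; group)) u3
  obtain ⟨w, w1, w2⟩ := h.exists_comm_of_cj (h.ne hx) (h.ne u1) u2.symm ((Cj.of_comm n3).mul (.of_comm H)) (n4.mul ha)
  have b4 := mul_mem (h.pm w) (mul_mem n1 hk)
  have b5 : Nm P (P w * (n * k)) := fun v => by
    obtain ⟨f, f1, f2⟩ := h.exists_vals (h.ne hx) (h.ne u1) u2.symm 0 (B u v)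
    rw [← e2_cancel f v]
    exact h.rz_add (hL x hx _ b4 w1 f (h.symm f x ▸ f1)) (hL u u1 _ b4 w2 _ (by simp [h.symm u f, f2, z2_add_self]))
  simpa using (h.nm_inv n2).mul ((h.nm_inv (h.nm_P w)).mul b5)

theorem rz_of_nm [FiniteDimensional F V] (hC : ∀ a ≠ 0, ∀ k ∈ M, k * P a = P a * k → Nm P k) (hk : k ∈ M)
    (H : Nm P (k * P a * k⁻¹)) : Rz P (k * P a * k⁻¹) := by
  by_contra H'
  have := Module.Finite.of_finite (R := ZMod 2) (M := E)
  have hN : ¬ Nm P k := fun e => H' (e a)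
  have h' := h.conj hk
  have hC' : ∀ a ≠ 0, ∀ g ∈ M, g * (k * P a * k⁻¹) = k * P a * k⁻¹ * g → Nm (fun a => k * P a * k⁻¹) g :=
    fun a ha g hg H b => by
      obtain ⟨c, d, hc⟩ := hC a ha (k⁻¹ * g * k) (mul_mem (mul_mem (inv_mem hk) hg) hk) (by
        rw [show k⁻¹ * g * k * P a = k⁻¹ * (g * (k * P a * k⁻¹)) * k by group, H]; group) b
      exact ⟨c, d, by rw [← zs_conj, ← hc]; group⟩
  have t1 : ∀ a, Rz P (k * P a * k⁻¹) → a = 0 := fun a ⟨b, H⟩ => by_contra fun e => hN (h.nm_of_cj h5 (hC a e) e hk H)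
  generalize hP' : (fun a => k * P a * k⁻¹) = P' at h' hC'
  simp only [show ∀ a, k * P a * k⁻¹ = P' a from fun a => congrFun hP' a] at H H' t1 hC'
  clear hP' hN hk
  have key : ∀ {P P' : E → V ≃ₗ[F] V}, PO B P q T M → PO B P' q T M → (∀ a, Rz P (P' a) → a = 0) →
      (∀ a ≠ 0, ∀ k ∈ M, k * P' a = P' a * k → Nm P' k) → ∀ {a}, a ≠ 0 → Nm P (P' a) →
      ∃ W : Submodule (ZMod 2) E, finrank (ZMod 2) E ≤ 2 * finrank (ZMod 2) W ∧ (∀ b, b ∈ W ↔ Nm P' (P b)) ∧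
        ∀ a b, Nm P (P' a) → b ∈ W → Cj P (P' a) b b := fun {P P'} h h' t hC {a} ha H => by
    have c1 : ∀ a b, Nm P (P' a) → Nm P' (P b) → Cj P (P' a) b b := fun a b h1 h2 => by
      obtain ⟨e, c, he⟩ := h'.rz_mul (Rz.self a) (h2.conj (h'.rz_inv (Rz.self a)))
      obtain rfl := t e (by
        have := (h.rz_mul (h1 b) (h.rz_inv (Rz.self b))).zs_mul c⁻¹
        rwa [mul_assoc (P' a), mul_assoc (P' a), he, zs_zs, inv_mul_cancel, map_one, one_mul] at this)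
      exact ⟨c, by rw [← mul_one (zs V c), ← h'.zero, ← he]; group⟩
    obtain ⟨φ, -, h2⟩ := h.exists_act H
    have h4 : LinearMap.range (φ + LinearMap.id) ≤ LinearMap.ker (φ + LinearMap.id) := by
      rintro _ ⟨b, rfl⟩
      have := h.cj_uniq (Cj.mul (h2 _) (h2 b)) (by rw [h'.sq']; exact h.cj_of_rz (h.rz_zs _) b)
      simp [this, add_comm b, e2_add_self]
    have h5 := LinearMap.finrank_range_add_finrank_ker (φ + LinearMap.id)
    have h6 := Submodule.finrank_mono h4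
    have h7 : ∀ b, b ∈ LinearMap.ker (φ + LinearMap.id) ↔ Nm P' (P b) := fun b => ⟨fun hb => by
      obtain ⟨c, hc⟩ := h2 b
      rw [e2_eq_of_add (show φ b + b = 0 from hb)] at hc
      exact h'.nm_of_cent h'.pm (hC a ha) ha (h.pm b) (c := c⁻¹) (by
        rw [map_inv, eq_inv_mul_iff_mul_eq, ← mul_assoc, ← mul_assoc, ← hc]; group),
      fun hb => by simp [h.cj_uniq (h2 b) (c1 a b H hb), e2_add_self]⟩
    exact ⟨_, by omega, h7, fun a b h1 h2 => c1 a b h1 ((h7 b).mp h2)⟩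
  have t2 : ∀ a, Rz P' (P a) → a = 0 := fun a ⟨b, c, H⟩ => by
    obtain rfl := t1 b ⟨a, c⁻¹, by rw [H, zs_zs]; simp⟩
    exact h.uniq (c := 1) (d := c) (by simp [H, h.zero, h'.zero])
  obtain ⟨W, w1, w2, w3⟩ := key h h' t1 hC' (fun e => H' (by simpa [e, h'.zero] using h.rz_zs 1)) H
  obtain ⟨b, b1, b2⟩ := W.exists_mem_ne_zero_of_ne_bot (by rintro rfl; simp at w1; omega)
  obtain ⟨A, a1, a2, -⟩ := key h' h t2 hC b2 ((w2 b).mp b1)
  have d0 : ∀ a ∈ A, ∀ v, Cj P (P' a) v v → a = 0 ∨ v ∈ W := fun a ha v H => or_iff_not_imp_left.mpr fun e =>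
    (w2 v).mpr (H.elim fun c hc => h'.nm_of_cent h'.pm (hC' a e) e (h.pm v) (c := c⁻¹) (by
      rw [map_inv, eq_inv_mul_iff_mul_eq, ← mul_assoc, ← mul_assoc, ← hc]; group))
  have d1 := h.sd.finrank_sperp W
  have d2 : ∀ v ∉ W, finrank (ZMod 2) A ≤ finrank (ZMod 2) (sperp B W) ∧ ∀ w ∈ sperp B W, q w = B v w := fun v hv => by
    choose φ c1 c2 using fun a : A => h.exists_act ((a2 _).mp a.2)
    have c3 : ∀ a : A, φ a v + v ∈ sperp B W := fun a w hw => by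
      rw [map_add, ← c1 a w v, h.cj_uniq (c2 a w) (w3 a w ((a2 _).mp a.2) hw), z2_add_self]
    have c4 : Function.Injective fun a : A => (⟨_, c3 a⟩ : sperp B W) := fun a a' e => by
      obtain ⟨c, hc⟩ := h'.mul a' a
      obtain ⟨d, hd⟩ := h'.inv a'
      obtain ⟨f, hf⟩ := Cj.mul (Cj.inv (c2 a' v)) (add_right_cancel (congrArg Subtype.val e) ▸ c2 a v : Cj P (P' a) v _)
      rw [hd, mul_assoc (zs V d), hc, zs_zs, conj_zs] at hf
      exact Subtype.ext (e2_eq_of_add ((d0 _ (add_mem a'.2 a.2) v ⟨f, hf⟩).resolve_right hv)).symm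
    have c5 : ∀ U : Submodule (ZMod 2) E, Nat.card U = 2 ^ finrank (ZMod 2) U := fun U => by
      rw [Module.natCard_eq_pow_finrank (K := ZMod 2), Nat.card_zmod]
    refine ⟨(Nat.pow_le_pow_iff_right (a := 2) (by omega)).mp (by
      rw [← c5, ← c5]; exact Nat.card_le_card_of_injective _ c4), fun w hw => ?_⟩
    obtain ⟨a, ha⟩ := (c4.bijective_of_nat_card_le (by
      rw [c5, c5]; exact Nat.pow_le_pow_right (by simp) (by omega))).2 ⟨w, hw⟩
    have := h.cj_q (h'.pm a) (c2 a v)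
    rw [← e2_cancel v (φ a v), add_comm v (φ a v), show φ a v + v = w from congrArg Subtype.val ha, h.q_add,
      add_assoc, add_eq_left] at this
    exact e2_eq_of_add this
  obtain ⟨v, hv⟩ : ∃ v, v ∉ W := by_contra fun e => H' (h.rz_of_fix fun v => w3 a v H (by_contra fun e' => e ⟨v, e'⟩))
  have d3 := (d2 v hv).1
  obtain ⟨x, x1, x2⟩ := (sperp B W).exists_mem_ne_zero_of_ne_bot (by intro e; rw [e, finrank_bot] at d3; omega)
  obtain ⟨y, y1, y2⟩ := exists_notMem_of_finrank_lt (H := (ZMod 2) ∙ x) (W := sperp B W) (by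
    rw [finrank_span_singleton x2]; omega)
  rw [e2_mem_span, not_or] at y2
  obtain ⟨e, e1, e2⟩ := h.exists_one_zero x2 (Ne.symm y2.2)
  obtain ⟨f, f1⟩ := h.exists_one y2.1
  have d4 := (d2 e fun he => by simp [x1 e he] at e1).2 y y1
  have d5 := (d2 f fun he => by simp [h.symm y, y1 f he] at f1).2 y y1
  rw [d4, e2, h.symm, f1] at d5
  exact zero_ne_one d5

theorem nm_of_cent_all [Finite V] (hC : ∀ a ≠ 0, ∀ k ∈ M, k * P a = P a * k → Nm P k) (hg : g ∈ M) : Nm P g :=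
  have := Module.Finite.of_finite (R := F) (M := V)
  h.nm_of_fu h.pm (h.fu h.pm hC fun _ hk _ => h.rz_of_nm h5 hC hk) (by omega) hg

end PO

end Cfsg.Agent.H12
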