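import Mathlib
import Cfsg.Agent.H12.PyB

/-!
Pauli systems of isometries: centralisers of singular members.
-/

set_option autoImplicit false

namespace Cfsg.Agent.H12

open Module

variable {F V : Type*} [Field F] [AddCommGroup V] [Module F V] {E : Type*} [AddCommGroup E]
  [Module (ZMod 2) E] {B : LinearMap.BilinForm (ZMod 2) E} {P : E → V ≃ₗ[F] V} {q : E → ZMod 2}
  {a b c e u v w x : E} {g k l n s y z : V ≃ₗ[F] V} {M : Subgroup (V ≃ₗ[F] V)} {T : V →ₗ[F] V →ₗ[F] F}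

/-- centraliser in `M` -/
def cenM (M : Subgroup (V ≃ₗ[F] V)) (s : V ≃ₗ[F] V) : Subgroup (V ≃ₗ[F] V) where
  carrier := {k | k ∈ M ∧ k * s = s * k}
  one_mem' := ⟨one_mem _, by simp⟩
  mul_mem' h1 h2 := ⟨mul_mem h1.1 h2.1, by rw [mul_assoc, h2.2, ← mul_assoc, h1.2, mul_assoc]⟩
  inv_mem' h := ⟨inv_mem h.1, comm_inv h.2⟩

/-- restriction to the fixed space -/
def rsH (M : Subgroup (V ≃ₗ[F] V)) (s : V ≃ₗ[F] V) : cenM M s →* (fx s ≃ₗ[F] fx s) :=
  MonoidHom.mk' (fun k => rsx k.2.2) fun _ _ => rfl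

@[simp] theorem rsH_apply (k : cenM M s) (w : fx s) : (rsH M s k w : V) = k.1 w := rfl

theorem rsH_mem (k : cenM M s) : rsH M s k ∈ resM M s := rsx_mem k.2.1 k.2.2

theorem exists_rsH {g : fx s ≃ₗ[F] fx s} (hg : g ∈ resM M s) : ∃ k, rsH M s k = g :=
  hg.elim fun k hk => ⟨⟨k, hk.1, hk.2.1⟩, LinearEquiv.ext fun w => Subtype.ext (hk.2.2 w).symm⟩

/-- elements trivial on the negated space -/
def ctl (M : Subgroup (V ≃ₗ[F] V)) (s : V ≃ₗ[F] V) : Subgroup (cenM M s) where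
  carrier := {k | ∀ v, s v = -v → k.1 v = v}
  one_mem' _ _ := rfl
  mul_mem' {a b} h1 h2 v hv := show a.1 (b.1 v) = v by rw [h2 v hv, h1 v hv]
  inv_mem' {a} h v hv := a.1.injective (by simp [h v hv])

theorem ctl_conj (k : cenM M s) {l : cenM M s} (hl : l ∈ ctl M s) : k * l * k⁻¹ ∈ ctl M s := fun v hv =>
  show k.1 (l.1 (k.1⁻¹ v)) = v by rw [hl _ (by rw [← comm_apply (comm_inv k.2.2), hv, map_neg])]; simp

/-- no totally singular solid -/
def MT (B : LinearMap.BilinForm (ZMod 2) E) (q : E → ZMod 2) : Prop := ∀ x a b, x ≠ 0 → q x = 0 → q a = 0 → q b = 0 →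
  B x a = 0 → B x b = 0 → B a b = 0 → (a = 0 ∨ a = x) ∨ (b = 0 ∨ b = x) ∨ a + b = 0 ∨ a + b = x

namespace PO

variable (h : PO B P q T M) [Finite E]
include h

theorem nm_of_ns (h3 : 3 ≤ finrank (ZMod 2) E) (H : ∀ u, q u = 1 → Rz P (g * P u * g⁻¹)) : Nm P g := fun a => by
  rcases z2_cases (q a) with c | c
  · obtain ⟨u, u1, u2⟩ := h.exists_q₁ h.q_add h3 a 0 1
    rw [← e2_cancel u a]
    exact h.rz_add (H u u1) (H _ (by simpa [h.q_add, u1, c, h.symm u] using u2))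
  · exact H a c

theorem cj_conj {φ : E →ₗ[ZMod 2] E} (h1 : ∀ a b, B (φ a) (φ b) = B a b) (h2 : ∀ a, Cj P g a (φ a))
    (h3 : ∀ a, Cj P n a (tq B u (tq B v a))) (e : E) : Cj P (g * n * g⁻¹) e (tq B (φ u) (tq B (φ v) e)) := by
  obtain ⟨e, rfl⟩ := Finite.surjective_of_injective (h.inj_of_iso h1) e
  convert ((h2 _).mul (h3 e)).mul (h2 e).inv using 1
  simp [tq, h1]

theorem rz_of_semi (h4 : 4 ≤ finrank (ZMod 2) E) (hd : 5 ≤ finrank (ZMod 2) E ∨ NP B q) {L : Subgroup (V ≃ₗ[F] V)}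
    (h1 : L ≤ M) (h2 : ∀ g ∈ M, ∀ l ∈ L, g * l * g⁻¹ ∈ L) (h3 : ∀ l ∈ L, Nm P l)
    (h5 : ∀ l ∈ L, ∀ w, q w = 1 → Cj P l w w → Rz P l) (hl : l ∈ L) : Rz P l := by
  obtain ⟨ψ, a1, a2⟩ := h.exists_act (h3 l hl)
  obtain ⟨u, u1, u2⟩ := h.core h.q_add h4 hd a1 (fun a => h.cj_q (h1 hl) (a2 a)) fun u v w hu hv hw H e => by
    have b1 := h.cj_conj a1 a2 (h.cj_hh hu hv)
    have b2 := h5 _ (mul_mem (h2 _ (inv_mem (h.hm u v hu hv)) l hl) (inv_mem hl)) w hw (by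
      convert (h.cj_hh hu hv w).inv.mul (H ▸ b1 w) using 1; group)
    exact h.cj_uniq (b1 e) (by convert (h.cj_hh hu hv e).mul (h.cj_of_rz b2 e) using 1; group)
  exact h5 l hl u u1 (by have := a2 u; rwa [u2] at this)

omit [Finite E] in
theorem sep_fx (hs : s * s = 1) (hs' : s ∈ UG T) (v : fx s) (H : ∀ w, res T (fx s) v w = 0) : v = 0 :=
  Subtype.ext (h.sep _ fun w => by
    obtain ⟨y, hy, y', hy', rfl⟩ := Submodule.mem_sup.mp ((isCompl_fx h.two hs).sup_eq_top.ge (Submodule.mem_top (x := w)))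
    rw [map_add, perp_of_eig h.two hs' v.2 (mem_fx_neg.mp hy'), add_zero]
    exact H ⟨y, hy⟩)

theorem cent_sg [FiniteDimensional F V] (h6 : 6 ≤ finrank (ZMod 2) E) (hd : 7 ≤ finrank (ZMod 2) E ∨ MT B q)
    (hC : ∀ u, q u = 1 → ∀ k ∈ M, k * P u = P u * k → Nm P k) (hx : x ≠ 0) (hq : q x = 0) (hk : k ∈ M)
    (H : k * P x = P x * k) : Nm P k := by
  have hs : P x * P x = 1 := by rw [h.sq', hq]; simp
  obtain ⟨E₁, P₁, a1, a2, a3, a4, a5⟩ := h.exists_res hx hs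
  have m : ∀ a, B x a = 0 → P a ∈ cenM M (P x) := fun a ha => ⟨h.pm a, (h.comm0 ha).symm⟩
  have mh : ∀ u v : E₁, q u = 1 → q v = 1 → hS (P u) * hS (P v) ∈ cenM M (P x) := fun u v hu hv =>
    ⟨h.hm _ _ hu hv, by rw [mul_assoc, h.hS_comm hv (h.symm x v ▸ a3 v), ← mul_assoc,
      h.hS_comm hu (h.symm x u ▸ a3 u), mul_assoc]⟩
  have r1 : ∀ a : E₁, rsH M _ ⟨_, m a (a3 a)⟩ = P₁ a := fun a => LinearEquiv.ext fun w => Subtype.ext (a4 a w).symm
  have s1 : ∀ a, P₁ a * P₁ a = zs _ (sgU F (q a)) := fun a => LinearEquiv.ext fun w => Subtype.ext (by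
    simpa [a4] using LinearEquiv.congr_fun (h.sq' a) w)
  have h₁ : PO (B.restrict E₁) P₁ (fun a => q a) (res T (fx (P x))) (resM M (P x)) :=
    ⟨a1, s1, h.sep_fx hs (h.iso x), fun a v w => by simpa [a4] using h.iso a v w, fun g ⟨k, k1, _, k3⟩ =>
      (h.sim k k1).imp fun c hc => ⟨hc.1, fun v w => by simpa [k3] using hc.2 v w⟩,
      fun c => ⟨_, h.zm c, (zs_comm ..).symm, fun _ => rfl⟩, fun a => r1 a ▸ rsH_mem _, fun u v hu hv =>
        ⟨_, h.hm _ _ hu hv, (mh u v hu hv).2, fun w => by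
          simp [hS_apply h.two (h.sqy hu), hS_apply h.two (h.sqy hv), hS_apply h.two (by rw [s1, hu, sgU_one] : P₁ u * _ = _),
            hS_apply h.two (by rw [s1, hv, sgU_one] : P₁ v * _ = _), a4]⟩⟩
  have r2 : ∀ (k : cenM M (P x)) (a : E₁) w, ((rsH M _ k * P₁ a * (rsH M _ k)⁻¹) w : V) = (k.1 * P a * k.1⁻¹) w :=
    fun k a w => by rw [← r1, ← map_inv, ← map_mul, ← map_mul]; rfl
  have c0 : ∀ (k : cenM M (P x)) (a b : E₁) (c : Fˣ), (∀ w, P x w = w → (k.1 * P a * k.1⁻¹) w = (c : F) • P b w) →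
      Cj P₁ (rsH M _ k) a b := fun k a b c hc =>
    ⟨c, LinearEquiv.ext fun w => Subtype.ext (by rw [r2, hc _ w.2]; simp [a4])⟩
  have c1 : ∀ (k : cenM M (P x)) (a b : E₁), Cj P k.1 a b → Cj P₁ (rsH M _ k) a b := fun k a b ⟨c, hc⟩ =>
    c0 k a b c fun w _ => by rw [hc]; rfl
  have c2 : ∀ k : cenM M (P x), Nm P k.1 → Nm P₁ (rsH M _ k) := fun k hk a => by
    obtain ⟨b, c, hb⟩ := hk a
    obtain ⟨b', d, hd⟩ := a5 b (h.symm b x ▸ h.perp_of_comm (c := c) (hb ▸ (k * ⟨_, m a (a3 a)⟩ * k⁻¹).2.2))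
    exact ⟨b', c0 k a b' (c * d) fun w hw => by rw [hb]; simp [hd w hw, mul_smul, smul_comm (c : F)]⟩
  have c3 : ∀ u : E₁, q u = 1 → ∃ C ∈ ctl M (P x), rsH M _ C = P₁ u := fun u hu => by
    obtain ⟨t, ht⟩ := h.mul' x u
    have b1 : NSg P q (P x * P u) := ⟨_, t, by simp [h.q_add, hq, hu, a3], ht⟩
    have b2 := fun v => comm_apply (h.comm0 (a3 u)) v
    have b3 := apply_apply_of_sq (h.sqy hu)
    refine ⟨⟨zs V (Units.mk0 2⁻¹ (inv_ne_zero h.two)) * (hS (P u) * hS (P x * P u)), mul_mem (h.zm _) (h.hm' (.self hu) b1), ?_⟩,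
      fun v hv => ?_, LinearEquiv.ext fun w => Subtype.ext ?_⟩
    · rw [zs_left, mul_assoc, mul_assoc, ← comm_hS h.two (h.sqN b1) (by rw [mul_assoc, ← h.comm0 (a3 u)]),
        ← mul_assoc (hS _), h.hS_comm hu (h.symm x u ▸ a3 u), mul_assoc]
    · simp [hS_apply h.two (h.sqy hu), hS_apply h.two (h.sqN b1), b2, hv, b3, ← add_smul, ← two_mul, h.two]
    · simp [hS_apply h.two (h.sqy hu), hS_apply h.two (h.sqN b1), b2, mem_fx.mp w.2, b3, a4]
      match_scalars <;> field_simp [h.two] <;> ring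
  obtain ⟨e, e1, e2⟩ : ∃ e, q e = 1 ∧ B x e = 1 := (h.exists_one hx).elim fun e he =>
    (h.exists_q₁ h.q_add (by omega) x e 1).imp fun _ H => ⟨H.1, H.2.trans he⟩
  have e3 : ∀ v, P x (P e v) = -P e (P x v) := fun v => by simp [h.comm_app x, e2]
  have e4 : ∀ v, P x ((P e)⁻¹ v) = -(P e)⁻¹ (P x v) := fun v => by
    obtain ⟨v, rfl⟩ := (P e).surjective v
    simp [e3]
  let σ : cenM M (P x) →* cenM M (P x) := MonoidHom.mk' (fun k => ⟨P e * k.1 * (P e)⁻¹,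
    mul_mem (mul_mem (h.pm e) k.2.1) (inv_mem (h.pm e)), h.conj_comm k.2.2 e⟩) fun _ _ => Subtype.ext conj_mul.symm
  have σ1 : ∀ k, (σ k).1 = P e * k.1 * (P e)⁻¹ := fun _ => rfl
  have c4 : ∀ l ∈ ctl M (P x), Nm P₁ (rsH M _ l) := fun l hl => by
    have b1 : ∀ v, P x v = v → (σ l).1 v = v := fun v hv => by
      rw [σ1, LinearEquiv.mul_apply, LinearEquiv.mul_apply, hl _ (by rw [e4, hv])]; simp
    have b2 : l.1 * (σ l).1 = (σ l).1 * l.1 := ext_eig' h.two hs (fun v hv => by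
      rw [LinearEquiv.mul_apply, LinearEquiv.mul_apply, b1 v hv, b1 _ (by rw [← comm_apply l.2.2, hv])]) fun v hv => by
      rw [LinearEquiv.mul_apply, LinearEquiv.mul_apply, hl v hv, hl _ (by rw [← comm_apply (σ l).2.2, hv, map_neg])]
    convert c2 (l * σ l) (hC e e1 _ (l * σ l).2.1 (by
      rw [Subgroup.coe_mul, eq_comm, ← mul_inv_eq_iff_eq_mul, ← conj_mul, b2, σ1,
        show P e * (P e * l.1 * (P e)⁻¹) * (P e)⁻¹ = P e * P e * l.1 * (P e * P e)⁻¹ by group, h.sq', ← zs_comm,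
        mul_inv_cancel_right, ← σ1])) using 1
    exact LinearEquiv.ext fun w => Subtype.ext (by simp [b1 _ w.2])
  obtain ⟨v₀, v1, v2⟩ := h.exists_fix hx hs
  have z0 : ∀ (d : E) (c : Fˣ), (∀ v, P x v = -v → (c : F) • P d v = v) → d = 0 ∨ d = x := fun d c H => by
    by_contra! hd
    obtain ⟨f, f1, f2⟩ := h.exists_one_zero hd.1 hd.2
    have := H (P f (P e v₀)) (by rw [← comm_apply (h.comm0 f2), e3, v2, map_neg])
    rw [h.comm_app d, h.symm, f1, smul_comm, ← map_smul, H _ (by rw [e3, v2])] at this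
    exact v1 (by simpa [neg_eq_iff_add_eq_zero, ← two_smul F (P f _), h.two] using this)
  have c5 : ∀ l ∈ ctl M (P x), Nm P l.1 → Rz P₁ (rsH M _ l) := fun l hl hN => h₁.rz_of_fix fun a => by
    obtain ⟨b, c, hb⟩ := hN a
    obtain ⟨d, hd⟩ := h.mul a (a + b)
    rw [e2_cancel] at hd
    have b1 : ∀ v, P b v = (d⁻¹ : Fˣ) • P a (P (a + b) v) := fun v => by
      simp [show P a (P (a + b) v) = _ from LinearEquiv.congr_fun hd v, Units.smul_def]
    rcases z0 (a + b) (c * d⁻¹) fun v hv => (P a).injective (by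
      have := LinearEquiv.congr_fun hb v
      rw [LinearEquiv.mul_apply, LinearEquiv.mul_apply, show l.1⁻¹ v = v from (inv_mem hl : l⁻¹ ∈ _) v hv,
        hl _ (by rw [comm_apply (h.comm0 (a3 a)), hv, map_neg])] at this
      simp [this, b1, smul_smul, Units.smul_def, mul_comm]) with b2 | b2 <;>
    exact c0 l a a (c * d⁻¹) fun w hw => by rw [hb]; simp [b1, b2, h.zero, hw, smul_smul, Units.smul_def, mul_comm]
  have d1 : 5 ≤ finrank (ZMod 2) E₁ ∨ NP (B.restrict E₁) fun a => q a := hd.imp (by omega) fun hd a b b1 b2 b3 => by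
    have : ∀ a : E₁, (a : E) = 0 ∨ a = x → a = 0 := fun a ha => ha.elim (fun e => Subtype.ext e) fun e =>
      a1.nd a fun b => by simpa [e] using a3 b
    exact (hd x a b hx hq b1 b2 (a3 a) (a3 b) b3).imp (this a) (Or.imp (this b) fun e => e2_eq_of_add (this (a + b) e))
  have c6 : ∀ l ∈ ctl M (P x), Rz P₁ (rsH M _ l) := fun l hl => h₁.rz_of_semi (by omega) d1
    (L := (ctl M (P x)).map (rsH M _)) (by rintro _ ⟨l, -, rfl⟩; exact rsH_mem l) (by
      rintro g hg _ ⟨l, hl, rfl⟩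
      obtain ⟨k, rfl⟩ := exists_rsH hg
      exact ⟨_, ctl_conj k hl, by simp⟩) (by rintro _ ⟨l, hl, rfl⟩; exact c4 l hl) (by
      rintro _ ⟨l, hl, rfl⟩ w hw hc
      have key : ∀ l ∈ ctl M (P x), rsH M _ l * P₁ w = P₁ w * rsH M _ l → Rz P₁ (rsH M _ l) := fun l hl H =>
        c5 l hl (hC w hw _ l.2.1 (ext_eig' h.two hs (fun v hv => by
          simpa [a4] using congrArg Subtype.val (LinearEquiv.congr_fun H ⟨v, hv⟩)) fun v hv => by
          rw [LinearEquiv.mul_apply, LinearEquiv.mul_apply, hl v hv,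
            hl _ (by rw [comm_apply (h.comm0 (a3 w)), hv, map_neg])]))
      obtain ⟨t, ht⟩ := h₁.cj_sgn (rsH_mem l) hc
      rcases z2_cases t with rfl | rfl
      · exact key l hl (by simpa [mul_inv_eq_iff_eq_mul] using ht)
      obtain ⟨f, hf⟩ := a1.exists_one (h₁.ne hw)
      obtain ⟨b, b1, b2⟩ := h₁.exists_q₁ (q := fun a : E₁ => q a) h₁.q_add (by omega) w f 1
      obtain ⟨C, C1, C2⟩ := c3 b b1
      have := key _ (mul_mem C1 hl) (by
        rw [map_mul, C2, mul_assoc, mul_inv_eq_iff_eq_mul.mp ht, ← mul_assoc (P₁ w), a1.comm w, b2, hf, mul_assoc,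
          zs_left, mul_assoc, mul_assoc])
      simpa [C2] using a1.rz_mul (a1.rz_inv (Rz.self b)) this) ⟨l, hl, rfl⟩
  have c7 : ∀ k : cenM M (P x), Nm P₁ (rsH M _ k) := fun k => h₁.nm_of_ns (by omega) fun u hu => by
    obtain ⟨C, C1, C2⟩ := c3 u hu
    simpa [C2] using c6 _ (ctl_conj k C1)
  have c8 : ∀ k : cenM M (P x), Rz P₁ (rsH M _ (σ k)) → Rz P₁ (rsH M _ k) := fun k ⟨a, c, ha⟩ => by
    let z : cenM M (P x) := ⟨zs V (c * sgU F (B a e)) * P a, mul_mem (h.zm _) (h.pm a), by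
      rw [zs_left, mul_assoc, h.comm0 (a3 a)]⟩
    have b1 := c6 (z⁻¹ * k) fun v hv => z.1.injective ((P e).injective (by
      have := congrArg Subtype.val (LinearEquiv.congr_fun ha ⟨P e v, by rw [mem_fx, e3, hv, map_neg, neg_neg]⟩)
      simp only [rsH_apply, σ1, LinearEquiv.mul_apply, zs_apply, Submodule.coe_smul, a4, h.comm_app a e] at this
      simpa [z, mul_smul, smul_comm (c : F)] using this))
    have b2 : Rz P₁ (rsH M _ z) := ⟨a, c * sgU F (B a e), LinearEquiv.ext fun w => Subtype.ext (by simp [z, a4])⟩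
    simpa using a1.rz_mul b2 b1
  let K : cenM M (P x) := ⟨k, hk, H⟩
  obtain ⟨φ, f1, f2⟩ := a1.exists_act (c7 K)
  obtain ⟨φ', f3, f4⟩ := a1.exists_act (c7 (σ K))
  obtain ⟨ψ, f5, f6⟩ := a1.exists_act (c7 (σ K * K⁻¹))
  have f7 : ∀ a, ψ (φ a) = φ' a := fun a => a1.cj_uniq (f6 _) (by
    rw [map_mul, map_inv]; exact Cj.mul (f4 a) (Cj.inv (f2 a)))
  have f8 := Finite.surjective_of_injective (a1.inj_of_iso f1)
  have g1 : ∀ (u v : E₁) hu hv a, Cj P₁ (rsH M _ ⟨_, mh u v hu hv⟩) a (tq (B.restrict E₁) u (tq (B.restrict E₁) v a)) :=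
    fun u v hu hv a => c1 _ _ _ (h.cj_hh hu hv a)
  have g2 : ∀ (u v : E₁) hu hv a, Cj P₁ (rsH M _ (σ ⟨_, mh u v hu hv⟩)) a
      (tq (B.restrict E₁) u (tq (B.restrict E₁) v a)) := fun u v hu hv a => c1 _ _ _
    (((h.cj_of_rz (Rz.self e) _).mul (h.cj_hh hu hv a)).mul (h.cj_of_rz (Rz.self e) _).inv)
  obtain ⟨u, u1, u2⟩ := a1.core (q := fun a : E₁ => q a) h₁.q_add (by omega) d1 f5 (fun a => h₁.cj_q (rsH_mem _) (f6 a))
    fun u v _ hu hv _ _ a => by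
      obtain ⟨u, rfl⟩ := f8 u
      obtain ⟨v, rfl⟩ := f8 v
      replace hu := (h₁.cj_q (rsH_mem _) (f2 u)).symm.trans hu
      replace hv := (h₁.cj_q (rsH_mem _) (f2 v)).symm.trans hv
      have hu' := (h₁.cj_q (rsH_mem _) (f4 u)).trans hu
      have hv' := (h₁.cj_q (rsH_mem _) (f4 v)).trans hv
      have := c8 ((⟨_, mh _ _ hu' hv'⟩ : cenM M _)⁻¹ * (K * ⟨_, mh _ _ hu hv⟩ * K⁻¹)) (a1.rz_of_fix fun a => by
        simp only [map_mul, map_inv]
        exact (g2 _ _ hu' hv' a).inv.mul (h₁.cj_conj f3 f4 (g2 _ _ hu hv) a))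
      rw [f7, f7]
      refine a1.cj_uniq ((g1 _ _ hu' hv' a).mul (a1.cj_of_rz this a)) ?_
      simpa only [map_mul, map_inv, mul_inv_cancel_left] using h₁.cj_conj f1 f2 (g1 _ _ hu hv) a
  obtain ⟨u, rfl⟩ := f8 u
  replace u1 := (h₁.cj_q (rsH_mem _) (f2 u)).symm.trans u1
  obtain ⟨s, b1⟩ := h₁.cj_sgn (rsH_mem _) (f2 u)
  obtain ⟨t, b2⟩ := h₁.cj_sgn (rsH_mem _) (f4 u)
  rw [← f7, u2] at b2
  have b3 : ∀ v, P x v = v → (k * P u * k⁻¹) v = (sgU F s : F) • P (φ u) v := fun v hv => by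
    simpa [a4] using (r2 K u ⟨v, hv⟩).symm.trans (congrArg Subtype.val (LinearEquiv.congr_fun b1 ⟨v, hv⟩))
  have b4 : ∀ v, P x v = -v → (k * P u * k⁻¹) v = (sgU F (B u e + t + B (φ u) e) : F) • P (φ u) v := fun v hv => by
    have hv' : P x (P e v) = P e v := by rw [e3, hv, map_neg, neg_neg]
    have := (r2 (σ K) u ⟨_, hv'⟩).symm.trans (congrArg Subtype.val (LinearEquiv.congr_fun b2 ⟨_, hv'⟩))
    refine (P e).injective (smul_right_injective V (sgU F (B u e)).ne_zero ?_)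
    simp only [σ1, mul_inv_rev, inv_inv, LinearEquiv.mul_apply, zs_apply, Submodule.coe_smul, a4,
      h.comm_app _ e] at this
    simp only [map_smul, smul_smul, ← Units.val_mul, ← sgU_add, ← add_assoc, z2_add_self, zero_add]
    simpa [sgU_add, mul_smul, K, smul_comm (sgU F t : F)] using this
  generalize B u e + t + B (φ u) e = r at b4
  suffices Rz P (k * P u * k⁻¹) from this.elim fun b hb => h.nm_of_cj (by omega) (hC u u1) (h.ne u1) hk hb
  rcases z2_cases (s + r) with b5 | b5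
  · exact ⟨_, _, ext_eig' h.two hs b3 (e2_eq_of_add b5 ▸ b4)⟩
  rw [ext_eig' (g := k * P u * k⁻¹) (k := zs V (sgU F s) * P (φ u) * P x) h.two hs (fun v hv => by simp only [b3 v hv]; simp [hv])
    fun v hv => by rw [b4 v hv, ← e2_cancel s r, b5, sgU_add]; simp [hv]]
  exact h.rz_mul ((Rz.self _).zs_mul _) (Rz.self x)

theorem nm_of_loc [Finite V] (h6 : 6 ≤ finrank (ZMod 2) E) (hd : 7 ≤ finrank (ZMod 2) E ∨ MT B q) (hu : q u = 1)
    (hL : ∀ k ∈ M, k * P u = P u * k → ∀ a, B u a = 0 → Rz P (k * P a * k⁻¹)) (hg : g ∈ M) : Nm P g := by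
  have := Module.Finite.of_finite (R := F) (M := V)
  have a1 : ∀ x, q x = 1 → ∀ k ∈ M, k * P x = P x * k → ∀ a, B x a = 0 → Rz P (k * P a * k⁻¹) := fun x hx k hk H a ha => by
    obtain ⟨n, n1, n2, n3⟩ := h.trans (by omega) (h.ne hx) (h.ne hu) (hx.trans hu.symm)
    obtain ⟨φ, f1, f2⟩ := h.exists_act n2
    obtain ⟨c, hc⟩ := f2 a
    obtain ⟨d, hd⟩ := n3
    have := (h.nm_inv n2).conj ((hL _ (mul_mem (mul_mem n1 hk) (inv_mem n1)) (mul_left_cancel (a := zs V d) (by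
      rw [← zs_left, ← mul_assoc (zs V d), ← hd, conj_mul, conj_mul, H])) (φ a) (by
      rw [h.cj_uniq ⟨d, hd⟩ (f2 x), f1, ha])).zs_mul c)
    rw [← zs_conj, ← hc] at this
    convert this using 1; group
  have a2 := fun x hx k hk => h.cent_ns (by omega) a1 (x := x) (k := k) hx hk
  exact h.nm_of_cent_all (by omega) (fun a ha k hk H => (z2_cases (q a)).elim
    (fun e => h.cent_sg h6 hd a2 ha e hk H) fun e => a2 a e k hk H) hg

end PO

end Cfsg.Agent.H12
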