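import Mathlib
import Cfsg.Agent.H12.PyC

/-!
Pauli systems of isometries: centralisers of nonsingular members, split case.
-/

set_option autoImplicit false

namespace Cfsg.Agent.H12

open Module

variable {F V : Type*} [Field F] [AddCommGroup V] [Module F V] {E : Type*} [AddCommGroup E]
  [Module (ZMod 2) E] {B : LinearMap.BilinForm (ZMod 2) E} {P : E → V ≃ₗ[F] V} {q : E → ZMod 2}
  {a b c e u v w x : E} {g k l n s y z : V ≃ₗ[F] V} {M : Subgroup (V ≃ₗ[F] V)} {T T₀ : V →ₗ[F] V →ₗ[F] F} {j : Fˣ}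

/-- unitary transvections lie in `M` -/
def UTy (T : V →ₗ[F] V →ₗ[F] F) (M : Subgroup (V ≃ₗ[F] V)) (y : V ≃ₗ[F] V) : Prop :=
  ∀ b (c : F), T b (y b) = 0 → ∃ g ∈ M, ∀ v, g v = v + c • (T b v • b + T (y b) v • y b)

theorem sq_sgU {c : Fˣ} {t : ZMod 2} (hj : j * j = -1) (h : c * c = sgU F t) : ∃ r, c = sgU F r ∨ c = sgU F r * j := by
  have e : (c : F) * c = sgU F t := congrArg Units.val h
  have e' : (j : F) * j = -1 := congrArg Units.val hj
  rcases z2_cases t with rfl | rfl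
  · rcases mul_self_eq_one_iff.mp e with e | e
    exacts [⟨0, Or.inl (Units.ext e)⟩, ⟨1, Or.inl (Units.ext e)⟩]
  · rcases mul_self_eq_mul_self_iff.mp (e.trans e'.symm) with e | e
    exacts [⟨0, Or.inr (Units.ext (by simpa using e))⟩, ⟨1, Or.inr (Units.ext (by simpa using e))⟩]

theorem eq_of_anti (h2 : (2 : F) ≠ 0) (sep : ∀ v, (∀ w, T v w = 0) → v = 0) (hs : s * s = 1)
    (hT : ∀ x y, T (s x) (s y) = -T x y) (hg : g ∈ UG T) (hk : k ∈ UG T) (h1 : g * s = s * g) (h3 : k * s = s * k)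
    (H : ∀ v, s v = v → g v = k v) : g = k := ext_eig' h2 hs H fun v hv => sub_eq_zero.mp (sep _ fun w => by
  obtain ⟨y, hy, y', hy', rfl⟩ := Submodule.mem_sup.mp ((isCompl_fx h2 hs).sup_eq_top.ge (Submodule.mem_top (x := w)))
  obtain ⟨y, rfl⟩ := g.surjective y
  have a1 : s y = y := g.injective (by rw [comm_apply h1, mem_fx.mp hy])
  have a2 := hT (g v - k v) y'
  rw [map_sub, ← comm_apply h1, ← comm_apply h3, hv, mem_fx_neg.mp hy'] at a2
  rw [map_add, map_sub, LinearMap.sub_apply, hg, H y a1, hk, sub_self, zero_add]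
  simp only [map_neg, map_sub, LinearMap.sub_apply, LinearMap.neg_apply] at a2 ⊢
  exact mul_left_cancel₀ h2 (by linear_combination a2))

theorem Sim.pow_mem [Fintype F] {σ : F →+* F} {T : V →ₛₗ[σ] V →ₗ[F] F} (h : Sim T k) :
    k ^ (Fintype.card F - 1) ∈ UG T := by
  obtain ⟨c, c1, c2⟩ := h
  have : ∀ (n : ℕ) x y, T ((k ^ n) x) ((k ^ n) y) = c ^ n * T x y := fun n x y => by
    induction n with
    | zero => simp
    | succ n ih => simp [pow_succ', c2, ih, mul_assoc]
  exact fun x y => by rw [this, FiniteField.pow_card_sub_one_eq_one c c1, one_mul]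

theorem PO.ut_split (h : PO B P q T M) [Fintype F] (hp : (Fintype.card F).Prime) [Finite V] [Finite E]
    (h5 : 5 ≤ finrank (ZMod 2) E) (hu : q u = 1) (D : SD T₀) (h1 : ∀ a, B u a = 0 → P a ∈ UG T₀)
    (h2 : ∀ k ∈ M, k * P u = P u * k → Sim T₀ k) (hj : j * j = -1) :
    UTy T₀ M (P u) ∨ ∀ k ∈ M, k * P u = P u * k → ∀ a, B u a = 0 → Rz P (k * P a * k⁻¹) := by
  have := Module.Finite.of_finite (R := F) (M := V)
  have e' : (j : F) * j = -1 := congrArg Units.val hj
  obtain ⟨d, d1, d2⟩ : ∃ d : E → Fˣ, (∀ a, q a = 0 → d a = 1) ∧ ∀ a, q a = 1 → d a = -j :=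
    ⟨fun a => if q a = 0 then 1 else -j, fun a h => if_pos h, fun a h => if_neg (by simp [h])⟩
  obtain ⟨P', hP⟩ : ∃ P' : E → V ≃ₗ[F] V, ∀ a, P' a = zs V (d a) * P a := ⟨_, fun _ => rfl⟩
  have h' : Pau B P' := h.rescale (by simp [hP, d1 0 (h.q_zero h.q_add), h.zero]) fun a => ⟨_, hP a⟩
  have p1 : ∀ a, P' a * P' a = 1 := fun a => by
    rw [hP, mul_assoc, zs_left, zs_zs, h.sq', ← map_mul]
    rcases z2_cases (q a) with e | e <;> simp [d1, d2, e, hj]
  have p2 : ∀ w, P' u w = w ↔ P u w = (j : F) • w := fun w => by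
    rw [hP, d2 u hu, ← (zs V j).injective.eq_iff]; simp [smul_smul, e']
  have p3 : ∀ k, k * P' u = P' u * k ↔ k * P u = P u * k := fun k => by rw [hP, zs_left, mul_assoc, mul_right_inj]
  have p4 : ∀ x y, T₀ (P' u x) (P' u y) = -T₀ x y := fun x y => by
    simp [hP, d2 u hu, h1 u (h.self u) x y, ← mul_assoc, e']
  have uq := fun {g k} => eq_of_anti (g := g) (k := k) h.two D.sep (p1 u) p4
  obtain ⟨E₁, P₁, a1, a2, a3, a4, a5⟩ := h'.exists_res (h.ne hu) (p1 u)
  have a6 : ∀ a, P₁ a * P₁ a = 1 := fun a => LinearEquiv.ext fun w => Subtype.ext (by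
    simpa [a4] using LinearEquiv.congr_fun (p1 a) w)
  have a7 : 1 + (j : F) ≠ 0 := fun e => h.two (by linear_combination (1 - j) * e + e')
  have h₁ : PL (B.restrict E₁) P₁ j (resM M (P' u)) := by
    refine ⟨a1, hj, a6, fun c => ⟨_, h.zm c, (zs_comm ..).symm, fun _ => rfl⟩, fun a => ⟨_, hP a ▸ mul_mem (h.zm _) (h.pm a),
      (h'.comm0 (a3 a)).symm, a4 a⟩, fun a => ?_⟩
    obtain ⟨z, z1, z2, z3⟩ : ∃ z, NSg P q z ∧ P u * z = z * P u ∧ ∀ w, P' u w = w → z w = (j : F) • P' a w := by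
      rcases z2_cases (q a) with e | e
      · obtain ⟨t, ht⟩ := h.mul' u a
        exact ⟨P u * P a, ⟨_, t, by simp [h.q_add, hu, e, a3], ht⟩, by rw [mul_assoc, ← h.comm0 (a3 a)], fun w hw => by
          simp [hP, d1 a e, comm_apply (h.comm0 (a3 a)), (p2 w).mp hw]⟩
      · exact ⟨P a, .self e, h.comm0 (a3 a), fun w _ => by simp [hP, d2 a e, smul_smul, e']⟩
    refine ⟨zs V (Units.mk0 _ (inv_ne_zero a7)) * (hS z * hS (P u)), mul_mem (h.zm _) (h.hm' z1 (.self hu)), (p3 _).mpr (by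
      rw [zs_left, mul_assoc, mul_assoc, h.hS_comm hu (h.self u), ← mul_assoc (hS z), ← comm_hS h.two (h.sqN z1) z2,
        mul_assoc]), fun w => ?_⟩
    simp [hS_apply h.two (sq_zs_mul hj (a6 a)), hS_apply h.two (h.sqN z1), hS_apply h.two (h.sqy hu), (p2 _).mp w.2,
      a4, z3 _ w.2]
    match_scalars <;> field_simp
  by_cases hc : SLV F (fx (P' u)) ≤ resM M (P' u)
  · refine Or.inl fun b c hb => ?_
    obtain ⟨e, he, f, hf, rfl⟩ := Submodule.mem_sup.mp ((isCompl_fx h.two (p1 u)).sup_eq_top.ge (Submodule.mem_top (x := b)))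
    rw [mem_fx_neg] at hf
    have b1 := (p2 e).mp he
    have b2 : P u f = -(j : F) • f := (zs V (-j)).injective (by
      simpa [hP, d2 u hu, smul_smul, e'] using hf)
    have b3 := D.self_eq_zero rfl
    have b4 : T₀ e f = 0 := mul_left_cancel₀ (mul_ne_zero h.two j.ne_zero) (by
      simp [b1, b2, b3, D.skew e f] at hb; linear_combination -hb)
    have b5 : Adm T₀ e ((2 * c) • f) 0 := ⟨b3 e, by simp [b4], by simp [b3]⟩
    have b6 : ∀ x y (t : F), t * t = 1 → P' u x = t • x → P' u y = t • y → T₀ x y = 0 := fun x y t ht hx hy => by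
      have := p4 x y
      simp only [hx, hy, map_smul, LinearMap.smul_apply, smul_eq_mul, ← mul_assoc, ht, one_mul] at this
      exact mul_left_cancel₀ h.two (by linear_combination this)
    have b7 := fun x y hx hy => b6 x y 1 (by simp) (by simpa using hx) (by simpa using hy)
    have b8 := fun x y hx hy => b6 x y (-1) (by simp) (by simpa using hx) (by simpa using hy)
    obtain ⟨k, k1, k2, k3⟩ := LA.of_res hc e (-(2 * c) • T₀ f) he (by simp [D.comm0 b4])
    have k4 : ∀ (n : ℕ) w, P' u w = w → (k ^ n) w = w + (n * (-(2 * c) * T₀ f w)) • e := fun n w hw => by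
      induction n with
      | zero => simp
      | succ n ih =>
        rw [pow_succ', LinearEquiv.mul_apply, ih, map_add, map_smul, k3 w hw, k3 e he]
        simp only [LinearMap.smul_apply, D.comm0 b4, smul_eq_mul, Nat.cast_succ]
        module
    refine ⟨_, pow_mem k1 (Fintype.card F - 1), fun v => ?_⟩
    rw [uq (h2 k k1 ((p3 k).mp k2)).pow_mem (rho T₀ e ((2 * c) • f) 0).2 (Commute.pow_left k2 _)
      (comm_of_eig h.two (p1 u) (fun z hz => by simp [rho_apply D b5, hz, b7 e z he hz, mem_fx.mp he])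
        fun z hz => by simp [rho_apply D b5, hz, b8 f z hf hz, hf, add_comm]) fun w hw => by
        rw [k4 _ w hw, rho_apply D b5, Nat.cast_sub Fintype.card_pos, FiniteField.cast_card_eq_zero]
        simp [b7 e w he hw], rho_apply D b5]
    simp only [map_add, b1, b2, map_smul, LinearMap.add_apply, LinearMap.smul_apply, smul_eq_mul]
    match_scalars
    · ring
    · linear_combination (c * (T₀ e v - T₀ f v)) * e'
    · linear_combination (c * (T₀ f v - T₀ e v)) * e'
  refine Or.inr fun k hk H a ha => ?_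
  obtain ⟨b, c, b1, b2⟩ := loc_of_res a3 a4 a5 ((p3 k).mpr H)
    (h₁.nm_of_not_SL hp (by omega) hc (rsx_mem hk _)) ha
  have b3 : ∀ v, P' u v = v → (k * P a * k⁻¹) v = (((d a)⁻¹ * c * d b : Fˣ) : F) • P b v := fun v hv =>
    (zs V (d a)).injective ((show (d a : F) • (k * P a * k⁻¹) v = ((d b : F) * c) • P b v by
      simpa [hP, smul_smul] using b2 v hv).trans (by simp [smul_smul]; congr 1; field_simp))
  generalize (d a)⁻¹ * c * d b = c at b3
  have b4 : k * P a * k⁻¹ * P' u = P' u * (k * P a * k⁻¹) := (p3 _).mpr (by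
    rw [mul_assoc, comm_inv H, ← mul_assoc, mul_assoc k, ← h.comm0 ha, ← mul_assoc, H]; group)
  have b5 := fun v hv => (p2 _).mpr (show P u (P b v) = (j : F) • P b v by
    rw [comm_apply (h.comm0 b1), (p2 v).mp hv, map_smul])
  obtain ⟨v, v1, v2⟩ := h'.exists_fix (h.ne hu) (p1 u)
  obtain ⟨r, hr⟩ := sq_sgU (c := c) (t := q a + q b) hj (Units.ext (smul_left_injective F v1 (by
    have := apply_apply_of_sq (sq_conj (h.sq' a) k) v
    rw [b3 v v2, map_smul, b3 _ (b5 v v2), apply_apply_of_sq (h.sq' b)] at this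
    have e2 := congrArg Units.val (sgU_mul_self (F := F) (q b))
    simp only [sgU_add, Units.val_mul, Units.val_one] at e2 ⊢
    linear_combination (norm := module) (sgU F (q b) : F) • this - ((c : F) * c) • congrArg (· • v) e2)))
  have b6 := (h2 k hk H).conj (h1 a ha)
  rcases hr with rfl | rfl
  · exact ⟨b, _, uq b6 (sgU_mem_UG (h1 b b1) r) b4 (by rw [zs_left, mul_assoc, (p3 _).mpr (h.comm0 b1).symm]) b3⟩
  rw [uq b6 (sgU_mem_UG (mul_mem (h1 u (h.self u)) (h1 b b1)) r) b4 (by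
    rw [zs_left, mul_assoc, (p3 _).mpr (by rw [mul_assoc, ← h.comm0 b1])]) fun v hv => by
      rw [b3 v hv]; simp [(p2 _).mp (b5 v hv), smul_smul, mul_comm]]
  exact (h.rz_mul (Rz.self u) (Rz.self b)).zs_mul _

end Cfsg.Agent.H12
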