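import Mathlib
import Cfsg.Agent.H12.PyD

/-!
Pauli systems of isometries: centralisers of nonsingular members, non-split case.
-/

set_option autoImplicit false

namespace Cfsg.Agent.H12

open Module QuadraticAlgebra

variable {F V : Type*} [Field F] [AddCommGroup V] [Module F V] {E : Type*} [AddCommGroup E]
  [Module (ZMod 2) E] {B : LinearMap.BilinForm (ZMod 2) E} {P : E → V ≃ₗ[F] V} {q : E → ZMod 2}
  {a b c e u v w x : E} {g k l n s y z : V ≃ₗ[F] V} {M : Subgroup (V ≃ₗ[F] V)} {T T₀ : V →ₗ[F] V →ₗ[F] F}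

theorem mem_of_mz_pow [Fintype F] (h : g ∈ M ⊔ (zs V).range) (H : g ^ Fintype.card F = 1) : g ∈ M := by
  obtain ⟨k, hk, _, ⟨c, rfl⟩, rfl⟩ := Subgroup.mem_sup_of_normal_right.mp h
  rw [← Nat.sub_add_cancel (Fintype.card_pos (α := F)), pow_succ'] at H
  rw [eq_inv_of_mul_eq_one_left H, Commute.mul_pow (zs_comm c k), ← map_pow, ← Nat.card_eq_fintype_card,
    ← Nat.card_units, pow_card_eq_one', map_one, mul_one]
  exact inv_mem (pow_mem hk _)

theorem tv_pow_card [Fintype F] {σ : F →+* F} {T : V →ₛₗ[σ] V →ₗ[F] F} (D : SD T) {v : V} {c : F} (hv : T v v = 0)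
    (hc : σ c = c) : tv T v c ^ Fintype.card F = 1 := by
  have : ∀ n : ℕ, tv T v c ^ n = tv T v (n * c) := fun n => by
    induction n with
    | zero => simp [tv_zero D]
    | succ n ih => rw [pow_succ, ih, tv_mul D hv (by simp [hc]) hc, Nat.cast_succ, add_one_mul]
  rw [this, FiniteField.cast_card_eq_zero, zero_mul, tv_zero D]

/-- adjoining a square root of minus one -/
abbrev KI (F : Type*) [Field F] := QuadraticAlgebra F (-1) 0

variable [Fact (∀ r : F, r ^ 2 ≠ -1 + 0 * r)]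

theorem exists_KI (hy : y * y = zs V (-1)) : ∃ _ : Module (KI F) V, ∀ (t : KI F) (v : V), t • v = t.re • v + t.im • y v := by
  have h := apply_apply_of_sq hy
  letI : SMul (KI F) V := ⟨fun t v => t.re • v + t.im • y v⟩
  have e : ∀ (t : KI F) (v : V), t • v = t.re • v + t.im • y v := fun _ _ => rfl
  exact ⟨Module.ofMinimalAxioms (fun t v w => by simp only [e, map_add]; module) (fun t t' v => by
    simp only [e, re_add, im_add]; module) (fun t t' v => by
    simp only [e, re_mul, im_mul, map_add, map_smul, h, Units.val_neg, Units.val_one]; module) (fun v => by simp [e]), e⟩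

/-- the square root of minus one -/
def iK (F : Type*) [Field F] [Fact (∀ r : F, r ^ 2 ≠ -1 + 0 * r)] : (KI F)ˣ :=
  ⟨⟨0, 1⟩, ⟨0, -1⟩, by ext <;> simp, by ext <;> simp⟩

theorem iK_val : (iK F : KI F) = ⟨0, 1⟩ := rfl

theorem iK_sq : iK F * iK F = -1 := Units.ext (by ext <;> simp [iK_val])

theorem frobq_KI [Fintype F] [Fintype (KI F)] (hK : Fintype.card (KI F) = Fintype.card F ^ 2) (t : KI F) :
    frobq hK t = ⟨t.re, -t.im⟩ := by
  have a1 : ∀ a : F, frobq hK (algebraMap F _ a) = algebraMap F _ a := fun a => by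
    rw [frobq_apply, ← map_pow, FiniteField.pow_card]
  have a2 : ∀ t : KI F, t = algebraMap F _ t.re + algebraMap F _ t.im * iK F := fun t => by ext <;> simp [iK_val]
  have e' : (iK F : KI F) * iK F = -1 := congrArg Units.val iK_sq
  rcases mul_self_eq_mul_self_iff.mp (show frobq hK (iK F) * frobq hK (iK F) = iK F * iK F by
    rw [← map_mul, e', map_neg, map_one]) with e | e
  · exact absurd (RingHom.ext fun t => by rw [a2 t, map_add, map_mul, a1, a1, e]; rfl) (frobq_ne_id hK)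
  · rw [a2 t, map_add, map_mul, a1, a1, e]
    ext <;> simp [iK_val]

variable [Module (KI F) V] (hs : ∀ (t : KI F) (v : V), t • v = t.re • v + t.im • y v)

/-- an element of the centraliser as a linear map over the extension -/
def kx (H : k * y = y * k) : V ≃ₗ[KI F] V :=
  { k.toAddEquiv with map_smul' := fun t v => by simp [hs, comm_apply H] }

@[simp] theorem kx_apply (H : k * y = y * k) (v : V) : kx hs H v = k v := rfl

/-- the centraliser as a group of linear maps over the extension -/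
def MK (M : Subgroup (V ≃ₗ[F] V)) (y : V ≃ₗ[F] V) : Subgroup (V ≃ₗ[KI F] V) where
  carrier := {g | ∃ k ∈ M, k * y = y * k ∧ ∀ w, g w = k w}
  one_mem' := ⟨1, one_mem _, by simp, fun _ => rfl⟩
  mul_mem' := by
    rintro a b ⟨k, k1, k2, k3⟩ ⟨l, l1, l2, l3⟩
    exact ⟨k * l, mul_mem k1 l1, by rw [mul_assoc, l2, ← mul_assoc, k2, mul_assoc], fun w => by simp [k3, l3]⟩
  inv_mem' := by
    rintro a ⟨k, k1, k2, k3⟩
    exact ⟨k⁻¹, inv_mem k1, comm_inv k2, fun w => a.injective (by rw [k3 (k⁻¹ w)]; simp)⟩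

/-- the hermitian form -/
def bK [Fintype F] [Fintype (KI F)] (hK : Fintype.card (KI F) = Fintype.card F ^ 2) (hy : y * y = zs V (-1))
    (hT : y ∈ UG T₀) : V →ₛₗ[frobq hK] V →ₗ[KI F] KI F :=
  have h1 := apply_apply_of_sq hy
  have h2 : ∀ v w, T₀ v (y w) = -T₀ (y v) w := fun v w => by rw [← hT v, h1]; simp
  LinearMap.mk₂'ₛₗ _ _ (fun v w => ⟨T₀ v w, T₀ (y v) w⟩) (fun _ _ _ => by ext <;> simp)
    (fun t v w => by ext <;> simp [hs, frobq_KI, h1] <;> ring) (fun _ _ _ => by ext <;> simp)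
    fun t v w => by ext <;> simp [hs, h1, h2]

theorem bK_apply [Fintype F] [Fintype (KI F)] (hK : Fintype.card (KI F) = Fintype.card F ^ 2) (hy : y * y = zs V (-1))
    (hT : y ∈ UG T₀) (v w : V) : bK hs hK hy hT v w = ⟨T₀ v w, T₀ (y v) w⟩ := rfl

theorem sd_bK [Fintype F] [Fintype (KI F)] (hK : Fintype.card (KI F) = Fintype.card F ^ 2) (hy : y * y = zs V (-1))
    (hT : y ∈ UG T₀) (D : SD T₀) (h2 : (2 : F) ≠ 0) : SD (bK hs hK hy hT) := by
  have h1 := apply_apply_of_sq hy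
  have h3 : ∀ v w, T₀ v (y w) = -T₀ (y v) w := fun v w => by rw [← hT v, h1]; simp
  refine ⟨frobq_frobq hK, fun v w => ?_, fun v hv => D.sep v fun w => congrArg re (hv w),
    fun v => ⟨⟨0, T₀ (y v) v / 2⟩, ?_⟩⟩
  · ext
    · simpa [bK_apply, frobq_KI] using D.skew v w
    · simpa [bK_apply, frobq_KI, h3] using D.skew v (y w)
  · ext <;> simp [bK_apply, frobq_KI, D.self_eq_zero rfl, ← two_mul, mul_div_cancel₀ _ h2]

omit hs [Module (KI F) V] in
theorem PO.ut_nonsplit (h : PO B P q T M) [Fintype F] (hp : (Fintype.card F).Prime) [Finite V] [Finite E]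
    (h5 : 5 ≤ finrank (ZMod 2) E) (hu : q u = 1) (D : SD T₀) (h1 : ∀ a, B u a = 0 → P a ∈ UG T₀)
    (h2 : ∀ k ∈ M, k * P u = P u * k → Sim T₀ k) :
    UTy T₀ M (P u) ∨ ∀ k ∈ M, k * P u = P u * k → ∀ a, B u a = 0 → Rz P (k * P a * k⁻¹) := by
  have := Module.Finite.of_finite (R := ZMod 2) (M := E)
  have hy := h.sqy hu
  have yy := apply_apply_of_sq hy
  obtain ⟨_, hs⟩ := exists_KI hy
  letI : Fintype (KI F) := Fintype.ofEquiv _ (equivProd _ _).symm
  have hK : Fintype.card (KI F) = Fintype.card F ^ 2 := by rw [Fintype.ofEquiv_card, Fintype.card_prod, sq]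
  have D' := sd_bK hs hK hy (h1 u (h.self u)) D h.two
  have two : (2 : KI F) ≠ 0 := fun e => h.two (congrArg re e)
  have e' : (iK F : KI F) * iK F = -1 := congrArg Units.val iK_sq
  have iy : ∀ v : V, (iK F : KI F) • v = P u v := fun v => by simp [hs, iK_val]
  have al : ∀ (c : F) (v : V), algebraMap F (KI F) c • v = c • v := fun c v => by simp [hs]
  have sg : ∀ (t : ZMod 2) (v : V), (sgU (KI F) t : KI F) • v = (sgU F t : F) • v := fun t v => by
    rcases z2_cases t with rfl | rfl <;> simp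
  obtain ⟨e, he⟩ := h.exists_one (h.ne hu)
  have he' := h.symm u e ▸ he
  have m : ∀ {a}, a ∈ LinearMap.ker ((B u).prod (B e)) ↔ B u a = 0 ∧ B e a = 0 := by simp
  have m1 : ∀ a, a + B e a • u + B u a • e ∈ LinearMap.ker ((B u).prod (B e)) := fun a =>
    m.mpr (by simp [h.self, he, he', z2_add_self])
  have m2 : finrank (ZMod 2) (LinearMap.ker ((B u).prod (B e))) + 2 = finrank (ZMod 2) E := by
    have h1 := LinearMap.finrank_range_add_finrank_ker ((B u).prod (B e))
    rw [LinearMap.range_eq_top.mpr fun p => ⟨p.2 • u + p.1 • e, by simp [h.self, he, he']⟩] at h1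
    simpa [add_comm] using h1
  generalize LinearMap.ker ((B u).prod (B e)) = E₁ at m m1 m2
  have c1 : ∀ a : E₁, P a * P u = P u * P a := fun a => (h.comm0 (m.mp a.2).1).symm
  have c2 : ∀ a, B u a = 0 → a ∈ E₁ ∨ u + a ∈ E₁ := fun a ha => (z2_cases (B e a)).imp (fun e => m.mpr ⟨ha, e⟩)
    fun e => by simpa [e, ha, add_comm] using m1 a
  have h₀ : Pau (B.restrict E₁) fun a => kx hs (c1 a) := by
    refine ⟨two, fun a => h.self a.1, fun a ha => Subtype.ext (h.nd _ fun b => ?_), h.nt,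
      LinearEquiv.ext fun w => by simp [h.zero], fun a b => (h.mul a b).elim fun c hc =>
        ⟨Units.map (algebraMap F (KI F)).toMonoidHom c, LinearEquiv.ext fun w => by simpa [al] using LinearEquiv.congr_fun hc w⟩,
      fun a b => LinearEquiv.ext fun w => by simpa [sg] using LinearEquiv.congr_fun (h.comm a b) w,
      eq_top_iff.mpr fun φ _ => ?_⟩
    · simpa [h.symm a.1 u, h.symm a.1 e, m.mp a.2] using ha ⟨_, m1 b⟩
    have p3 : ∀ X : End F V, ∃ Y ∈ Submodule.span (KI F) (Set.range fun a => (kx hs (c1 a)).toLinearMap),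
        ∀ v, X v - P u (X (P u v)) = Y v := fun X => by
      induction (h.span ▸ Submodule.mem_top : X ∈ _) using Submodule.span_induction with
      | zero => exact ⟨0, zero_mem _, by simp⟩
      | add x y _ _ h1 h2 =>
        obtain ⟨Y, a1, a2⟩ := h1
        obtain ⟨Z, b1, b2⟩ := h2
        exact ⟨Y + Z, add_mem a1 b1, fun v => by simp [← a2, ← b2]; abel⟩
      | smul c x _ h1 =>
        obtain ⟨Y, a1, a2⟩ := h1
        exact ⟨algebraMap F (KI F) c • Y, Submodule.smul_mem _ _ a1, fun v => by simp [← a2, al, smul_sub]⟩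
      | mem X hX =>
        obtain ⟨a, rfl⟩ := hX
        rcases z2_cases (B u a) with e | e
        · have b1 : ∀ v, P a v - P u (P a (P u v)) = (2 : KI F) • P a v := fun v => by
            simp [← comm_apply (h.comm0 e), yy, two_smul]
          rcases c2 a e with b2 | b2
          · exact ⟨_, Submodule.smul_mem _ 2 (Submodule.subset_span ⟨⟨a, b2⟩, rfl⟩), b1⟩
          obtain ⟨c, hc⟩ := h.mul u (u + a)
          exact ⟨_, Submodule.smul_mem _ (2 * algebraMap F (KI F) (c⁻¹ : Fˣ) * (iK F : KI F)) (Submodule.subset_span ⟨⟨_, b2⟩, rfl⟩),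
            fun v => (b1 v).trans (by
              simp [mul_smul, iy, show P u (P (u + a) v) = _ from LinearEquiv.congr_fun hc v, e2_cancel, ← al])⟩
        · exact ⟨0, zero_mem _, fun v => by simp [h.comm_app u a, e, yy]⟩
    obtain ⟨Y, a1, a2⟩ := p3 { φ.toAddHom with map_smul' := fun c v => by simp [← al] }
    convert Submodule.smul_mem _ 2⁻¹ a1 using 1
    ext v
    simp [← a2, ← iy, smul_smul, e', ← two_smul (KI F), two]
  obtain ⟨d, d1, d2⟩ : ∃ d : E → (KI F)ˣ, (∀ a, q a = 0 → d a = 1) ∧ ∀ a, q a = 1 → d a = -iK F :=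
    ⟨fun a => if q a = 0 then 1 else -iK F, fun a h => if_pos h, fun a h => if_neg (by simp [h])⟩
  obtain ⟨P₁, hP⟩ : ∃ P₁ : E₁ → V ≃ₗ[KI F] V, ∀ a, P₁ a = zs V (d a) * kx hs (c1 a) := ⟨_, fun _ => rfl⟩
  have h' : Pau (B.restrict E₁) P₁ := h₀.rescale (by
    rw [hP, h₀.zero, d1 (0 : E₁) (h.q_zero h.q_add)]; simp) fun a => ⟨_, hP a⟩
  have p0 : ∀ a : E₁, kx hs (c1 a) * kx hs (c1 a) = zs V (sgU _ (q a)) := fun a =>
    LinearEquiv.ext fun w => by simpa [sg] using LinearEquiv.congr_fun (h.sq' a) w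
  have p1 : ∀ a, P₁ a * P₁ a = 1 := fun a => by
    rw [hP, mul_assoc, zs_left, zs_zs, p0, ← map_mul]
    rcases z2_cases (q a) with e | e <;> simp [d1, d2, e, iK_sq]
  have z : ∀ c, zs V c ∈ MK M (P u) ⊔ (zs V).range := fun c => Subgroup.mem_sup_right ⟨c, rfl⟩
  have mk : ∀ {k} (H : k * P u = P u * k), k ∈ M → kx hs H ∈ MK M (P u) ⊔ (zs V).range := fun H hk =>
    Subgroup.mem_sup_left ⟨_, hk, H, fun _ => rfl⟩
  have a7 : 1 + (iK F : KI F) ≠ 0 := fun e => by simpa [iK_val] using congrArg re e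
  have h₁ : PL (B.restrict E₁) P₁ (iK F) (MK M (P u) ⊔ (zs V).range) := by
    refine ⟨h', iK_sq, p1, z, fun a => hP a ▸ mul_mem (z _) (mk _ (h.pm a)), fun a => ?_⟩
    obtain ⟨z', z1, z2, z3⟩ : ∃ z, NSg P q z ∧ P u * z = z * P u ∧ ∀ w, z w = (iK F : KI F) • P₁ a w := by
      rcases z2_cases (q a) with e | e
      · obtain ⟨t, ht⟩ := h.mul' u a
        exact ⟨P u * P a, ⟨_, t, by simp [h.q_add, hu, e, m.mp a.2], ht⟩, by rw [mul_assoc, c1], fun w => by
          simp [hP, d1 a e, iy]⟩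
      · exact ⟨P a, .self e, (c1 a).symm, fun w => by simp [hP, d2 a e, smul_smul, e']⟩
    convert mul_mem (z (Units.mk0 _ (inv_ne_zero a7))) (mk (k := hS z' * hS (P u)) (by
      rw [mul_assoc, h.hS_comm hu (h.self u), ← mul_assoc (hS z'), ← comm_hS h.two (h.sqN z1) z2,
        mul_assoc]) (h.hm' z1 (.self hu))) using 1
    ext w
    simp [hS_apply two (sq_zs_mul iK_sq (p1 a)), hS_apply h.two (h.sqN z1), hS_apply h.two hy, ← iy, z3]
    match_scalars <;> field_simp
  have s1 : frobq hK (iK F) = -iK F := by ext <;> simp [frobq_KI, iK_val]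
  by_cases hc : ∀ g ∈ SUG (bK hs hK hy (h1 u (h.self u))), g.1 ∈ MK M (P u) ⊔ (zs V).range
  · refine Or.inl fun b c hb => ?_
    have b1 : bK hs hK hy (h1 u (h.self u)) b b = 0 := by
      ext <;> simp [bK_apply, D.self_eq_zero rfl, D.comm0 hb]
    have b2 : frobq hK (algebraMap F _ c) = algebraMap F _ c := by ext <;> simp [frobq_KI]
    obtain ⟨k, k1, -, k3⟩ := mem_of_mz_pow (hc _ (tv_mem_SUG D' b (algebraMap F _ c))) (by
      rw [← Subgroup.coe_pow, tv_pow_card D' b1 b2]; rfl)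
    exact ⟨k, k1, fun v => by rw [← k3, tv_apply D' b1 b2, mul_smul, al, hs]; rfl⟩
  have hN := fun g hg => h₁.nm_of_not_SU (g := g) hp s1 D' (fun a v w => by
    have := h1 a (m.mp a.2).1
    rw [hP]
    rcases z2_cases (q a) with e | e <;> ext <;>
      simp [bK_apply, d1, d2, e, iy, ← comm_apply (c1 a), this _, h1 u (h.self u) _]) (fun g hg => by
    obtain ⟨g, ⟨k, k1, k2, k3⟩, _, ⟨c, rfl⟩, rfl⟩ := Subgroup.mem_sup_of_normal_right.mp hg
    obtain ⟨r, r1, r2⟩ := h2 k k1 k2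
    refine Sim.mul ⟨algebraMap F _ r, by simpa, fun v w => ?_⟩
      ⟨frobq hK c * c, by simp, fun x y => by simp [mul_left_comm, mul_assoc]⟩
    ext <;> simp [bK_apply, k3, ← comm_apply k2, r2]) (by omega) hc hg
  have key : ∀ k ∈ M, k * P u = P u * k → ∀ a : E₁, Rz P (k * P a * k⁻¹) := fun k hk H a => by
    obtain ⟨b, c, hb⟩ := hN _ (mk H hk) a
    rw [hP, hP, zs_conj, zs_zs, ← eq_inv_mul_iff_mul_eq, ← map_inv, zs_zs] at hb
    generalize (d a)⁻¹ * (c * d b) = c at hb
    have b1 := sq_conj (p0 a) (kx hs H)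
    rw [hb, mul_assoc, zs_left, zs_zs, p0, ← map_mul] at b1
    obtain ⟨r, hr⟩ := sq_sgU (c := c) (t := q a + q b) iK_sq (by
      rw [sgU_add, ← h'.zs_injective b1, mul_assoc, sgU_mul_self, mul_one])
    have b2 : ∀ v, (k * P a * k⁻¹) v = (c : KI F) • P b v := fun v => LinearEquiv.congr_fun hb v
    rcases hr with rfl | rfl
    · exact ⟨b, sgU F r, LinearEquiv.ext fun v => by simp only [b2, sg]; rfl⟩
    rw [show k * P a * k⁻¹ = zs V (sgU F r) * (P u * P b) from LinearEquiv.ext fun v => by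
      rw [b2, Units.val_mul, mul_smul, sg, iy]; rfl]
    exact (h.rz_mul (Rz.self u) (Rz.self _)).zs_mul _
  refine Or.inr fun k hk H a ha => (c2 a ha).elim (fun b => key k hk H ⟨a, b⟩) fun b => ?_
  rw [← e2_cancel u a]
  exact h.rz_add (by rw [H, mul_inv_cancel_right]; exact Rz.self u) (key k hk H ⟨_, b⟩)

omit hs [Module (KI F) V] [Fact (∀ r : F, r ^ 2 ≠ -1 + 0 * r)] in
theorem PO.ut_or (h : PO B P q T M) [Fintype F] (hp : (Fintype.card F).Prime) [Finite V] [Finite E]
    (h5 : 5 ≤ finrank (ZMod 2) E) (hu : q u = 1) (D : SD T₀) (h1 : ∀ a, B u a = 0 → P a ∈ UG T₀)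
    (h2 : ∀ k ∈ M, k * P u = P u * k → Sim T₀ k) :
    UTy T₀ M (P u) ∨ ∀ k ∈ M, k * P u = P u * k → ∀ a, B u a = 0 → Rz P (k * P a * k⁻¹) := by
  by_cases H : ∀ r : F, r ^ 2 ≠ -1 + 0 * r
  · have := Fact.mk H
    exact h.ut_nonsplit hp h5 hu D h1 h2
  obtain ⟨r, hr⟩ := not_forall.mp H
  rw [not_not, zero_mul, add_zero, sq] at hr
  exact h.ut_split hp h5 hu D h1 h2 (j := Units.mk0 r (by rintro rfl; simp at hr)) (Units.ext hr)

end Cfsg.Agent.H12
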