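import Mathlib
import Cfsg.Agent.H12.K4A
import Cfsg.Agent.H12.PyE
import Cfsg.Agent.H13.Low

/-!
The five-dimensional orthogonal module of the symplectic group in dimension four.
-/

set_option autoImplicit false

namespace Cfsg.Agent.H12

open Module QuadraticMap H13 H18

variable {F V : Type*} [Field F] [AddCommGroup V] [Module F V] {B : V →ₗ[F] V →ₗ[F] F}

/-- self-adjoint endomorphisms of trace zero -/
def SA (B : V →ₗ[F] V →ₗ[F] F) : Submodule F (End F V) where
  carrier := {X | (∀ x y, B (X x) y = B x (X y)) ∧ LinearMap.trace F V X = 0}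
  add_mem' h h' := ⟨fun x y => by simp [h.1, h'.1], by rw [map_add, h.2, h'.2, add_zero]⟩
  zero_mem' := ⟨by simp, by simp⟩
  smul_mem' c _ h := ⟨fun x y => by simp [h.1], by rw [map_smul, h.2, smul_zero]⟩

/-- the quadratic form on them -/
noncomputable def QA (B : V →ₗ[F] V →ₗ[F] F) : QuadraticForm F (SA B) :=
  LinearMap.BilinMap.toQuadraticMap
    (((4 : F)⁻¹ • (LinearMap.mul F (End F V)).compr₂ (LinearMap.trace F V)).compl₁₂ (SA B).subtype (SA B).subtype)

theorem QA_apply (X : SA B) : QA B X = 4⁻¹ * LinearMap.trace F V (X.1 * X.1) := rfl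

/-- coordinates -/
def saM (F : Type*) [Field F] : (Fin 5 → F) →ₗ[F] Matrix (Fin 4) (Fin 4) F where
  toFun v := !![v 0, 0, v 4, -v 2; 0, v 0, -v 3, v 1; v 1, v 2, -v 0, 0; v 3, v 4, 0, -v 0]
  map_add' v w := by ext i j; fin_cases i <;> fin_cases j <;> simp <;> ring
  map_smul' c v := by ext i j; fin_cases i <;> fin_cases j <;> simp

theorem saM_apply (v : Fin 5 → F) :
    saM F v = !![v 0, 0, v 4, -v 2; 0, v 0, -v 3, v 1; v 1, v 2, -v 0, 0; v 3, v 4, 0, -v 0] := rfl

theorem saM_sq (v : Fin 5 → F) : saM F v * saM F v = (v 0 ^ 2 + v 1 * v 4 - v 2 * v 3) • 1 := by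
  ext i j; fin_cases i <;> fin_cases j <;> simp [saM_apply, Matrix.mul_apply, Fin.sum_univ_four] <;> ring

/-- standing hypotheses -/
structure K4 (B : V →ₗ[F] V →ₗ[F] F) : Prop where
  sd : SD B
  two : (2 : F) ≠ 0
  four : finrank F V = 4

theorem nd_orth_pair {Q : QuadraticForm F V} (h2 : (2 : F) ≠ 0) {p w : V} (h : polar Q p w = 0) (hp : Q p ≠ 0)
    (hw : Q w ≠ 0) : ND (Q.restrict (Submodule.span F {p, w})) :=
  nd_restrict_iff.mpr (Submodule.disjoint_def.mpr fun y d1 d2 => by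
    obtain ⟨a, b, rfl⟩ := Submodule.mem_span_pair.mp d1
    obtain ⟨d3, d4⟩ := mem_perp_pair.mp d2
    simp [h, polar_comm Q w p, polar_self', h2, hp, hw] at d3 d4
    simp [d3, d4])

theorem ug_mul_inv (g : UG B) : (g.1 : End F V) * ((g⁻¹).1 : End F V) = 1 := LinearMap.ext (UG_apply_inv g)

theorem ug_inv_mul (g : UG B) : ((g⁻¹).1 : End F V) * (g.1 : End F V) = 1 := LinearMap.ext (UG_inv_apply_apply g)

variable [FiniteDimensional F V]

/-- conjugation on the module -/
noncomputable def rA (B : V →ₗ[F] V →ₗ[F] F) : UG B →* OG (QA B) :=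
  ogHom
    { toFun := fun g => (LinearMap.mulLeftRight F ((g.1 : End F V), ((g⁻¹).1 : End F V))).restrict
        (p := SA B) (q := SA B) fun X hX => ⟨fun x y => by
          change B (g.1 (X ((g⁻¹).1 x))) y = B x (g.1 (X ((g⁻¹).1 y)))
          rw [UG_map_left, hX.1, UG_map_right g], by
          rw [LinearMap.mulLeftRight_apply, LinearMap.trace_mul_cycle, ug_inv_mul, one_mul, hX.2]⟩
      map_one' := LinearMap.ext fun X => Subtype.ext (LinearMap.ext fun x => rfl)
      map_mul' := fun g h => LinearMap.ext fun X => Subtype.ext (LinearMap.ext fun x => rfl) }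
    fun g X => by
      rw [QA_apply, QA_apply]
      change 4⁻¹ * LinearMap.trace F V ((g.1 : End F V) * X.1 * (g⁻¹).1 * ((g.1 : End F V) * X.1 * (g⁻¹).1)) = _
      rw [show (g.1 : End F V) * X.1 * (g⁻¹).1 * ((g.1 : End F V) * X.1 * (g⁻¹).1) =
        (g.1 : End F V) * (X.1 * (((g⁻¹).1 : End F V) * g.1) * X.1) * (g⁻¹).1 by simp only [mul_assoc],
        ug_inv_mul, mul_one, LinearMap.trace_mul_cycle, ug_inv_mul, one_mul]

theorem rA_apply (g : UG B) (X : SA B) : ((rA B g).1 X).1 = (g.1 : End F V) * X.1 * (g⁻¹).1 := rfl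

theorem rA_mul (g : UG B) (X : SA B) : ((rA B g).1 X).1 * (g.1 : End F V) = (g.1 : End F V) * X.1 := by
  rw [rA_apply, mul_assoc, ug_inv_mul, mul_one]

namespace K4

variable (h : K4 B)
include h

omit [FiniteDimensional F V] in
theorem t4 : (4 : F) ≠ 0 := by rw [show (4 : F) = 2 * 2 by norm_num]; exact mul_ne_zero h.two h.two

omit [FiniteDimensional F V] in
theorem polar_tr (X Y : SA B) : polar (QA B) X Y = 2⁻¹ * LinearMap.trace F V (X.1 * Y.1) := by
  have := h.two
  have := h.t4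
  simp only [polar, QA_apply, Submodule.coe_add, add_mul, mul_add, map_add, LinearMap.trace_mul_comm F Y.1 X.1]
  field_simp; ring

theorem exists_mu : ∃ μ : End F V ≃ₐ[F] Matrix (Fin 4) (Fin 4) F,
    (∀ X, LinearMap.trace F V X = (μ X).trace) ∧ ∀ X, X ∈ SA B ↔ ∃ v, μ X = saM F v := by
  have D := h.sd
  have z := D.self_eq_zero rfl
  have : Nontrivial V := Module.nontrivial_of_finrank_pos (R := F) (by rw [h.four]; omega)
  obtain ⟨e, e0⟩ := exists_ne (0 : V)
  obtain ⟨f, a1⟩ := D.exists_SP (z e) e0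
  have a2 := a1.finrank_spp D
  have : Nontrivial (spp B e f) := Module.nontrivial_of_finrank_pos (R := F) (by rw [h.four] at a2; omega)
  obtain ⟨e', e0'⟩ := exists_ne (0 : spp B e f)
  obtain ⟨f', a3⟩ := (a1.sd D).exists_SP (z e') e0'
  have a4 : ∀ i j, B (![e, f, e', f'] i) (![e, f, e', f'] j) =
      !![0, 1, 0, 0; -1, 0, 0, 0; 0, 0, 0, 1; 0, 0, -1, 0] i j := fun i j => by
    have b1 : B e' f' = 1 := a3.ef
    have b2 : B f' e' = -1 := a3.fe (a1.sd D)
    fin_cases i <;> fin_cases j <;>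
      simp [z, a1.ef, a1.fe D, spp_left, spp_right, D.spp_left', D.spp_right', b1, b2]
  have a5 : LinearIndependent F ![e, f, e', f'] := linearIndependent_of_dual_family B _ ![-f, e, -f', e'] fun i j => by
    have b1 : B e' f' = 1 := a3.ef
    have b2 : B f' e' = -1 := a3.fe (a1.sd D)
    fin_cases i <;> fin_cases j <;>
      simp [z, a1.ef, a1.fe D, spp_left, spp_right, D.spp_left', D.spp_right', b1, b2]
  let b := basisOfLinearIndependentOfCardEqFinrank a5 (by simp [h.four])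
  have a6 : ∀ i j, B (b i) (b j) = !![0, 1, 0, 0; -1, 0, 0, 0; 0, 0, 0, 1; 0, 0, -1, 0] i j := by simpa [b] using a4
  generalize b = b at a6
  have a7 : ∀ (X : End F V) i, X (b i) = ∑ k, LinearMap.toMatrix b b X k i • b k := fun X i => by
    simp [LinearMap.toMatrix_apply]
  refine ⟨LinearMap.toMatrixAlgEquiv b, fun X => LinearMap.trace_eq_matrix_trace F b X, fun X => ?_⟩
  change (_ ∧ _) ↔ ∃ v, LinearMap.toMatrix b b X = _
  rw [LinearMap.trace_eq_matrix_trace F b X]
  have a8 : (∀ x y, B (X x) y = B x (X y)) ↔ ∀ i j, B (X (b i)) (b j) = B (b i) (X (b j)) := ⟨fun H _ _ => H _ _,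
    fun H => LinearMap.congr_fun₂ (LinearMap.ext_basis (B := B ∘ₗ X) (B' := B.compl₂ X) b b H)⟩
  simp only [a8, a7, map_sum, LinearMap.sum_apply, map_smul, LinearMap.smul_apply, a6]
  generalize LinearMap.toMatrix b b X = A
  refine ⟨fun ⟨H, H'⟩ => ⟨![A 0 0, A 2 0, A 2 1, A 3 0, A 3 1], ?_⟩, ?_⟩
  · have c := fun i => H i i
    have c0 := c 0; have c1 := c 1; have c2 := c 2; have c3 := c 3
    have d1 := H 0 1; have d2 := H 0 2; have d3 := H 0 3; have d4 := H 1 2; have d5 := H 1 3; have d6 := H 2 3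
    simp [Fin.sum_univ_four, Matrix.trace, neg_eq_iff_add_eq_zero, eq_neg_iff_add_eq_zero, ← two_mul, h.two] at c0 c1 c2 c3 d1 d2 d3 d4 d5 d6 H'
    have d7 : A 2 2 = -A 0 0 := mul_left_cancel₀ h.two (by linear_combination H' + d1 + d6)
    ext i j
    fin_cases i <;> fin_cases j <;> simp [saM_apply] <;> grind
  · rintro ⟨v, rfl⟩
    refine ⟨fun i j => ?_, by simp [saM_apply, Matrix.trace, Fin.sum_univ_four]⟩
    fin_cases i <;> fin_cases j <;> simp [saM_apply, Fin.sum_univ_four]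

theorem sq (X : SA B) : X.1 * X.1 = QA B X • 1 := by
  obtain ⟨μ, a1, a2⟩ := h.exists_mu
  obtain ⟨v, hv⟩ := (a2 X).mp X.2
  refine μ.injective ?_
  rw [QA_apply, a1, map_mul, map_smul, map_one, hv, saM_sq]
  simp [mul_comm _ (4 : F), h.t4]

theorem anti (X Y : SA B) : X.1 * Y.1 + Y.1 * X.1 = polar (QA B) X Y • 1 := by
  have := h.sq (X + Y)
  rw [Q_add, Submodule.coe_add, add_mul, mul_add, mul_add, h.sq, h.sq] at this
  linear_combination (norm := module) this

theorem five : finrank F (SA B) = 5 := by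
  obtain ⟨μ, -, a2⟩ := h.exists_mu
  rw [← μ.toLinearEquiv.finrank_map_eq, show (SA B).map μ.toLinearEquiv.toLinearMap = LinearMap.range (saM F) from
    Submodule.ext fun A => ⟨by rintro ⟨X, hX, rfl⟩; exact ((a2 X).mp hX).imp fun _ => Eq.symm, by
      rintro ⟨v, rfl⟩; exact ⟨μ.symm (saM F v), (a2 _).mpr ⟨v, by simp⟩, by simp⟩⟩,
    LinearMap.finrank_range_of_inj ((injective_iff_map_eq_zero _).mpr fun v hv => ?_)]
  · simp
  · have := fun i j => congrFun₂ hv i j
    have c0 := this 0 0; have c1 := this 2 0; have c2 := this 2 1; have c3 := this 3 0; have c4 := this 3 1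
    ext i; fin_cases i <;> simpa [saM_apply]

theorem nd : ND (QA B) := fun X hX => by
  obtain ⟨μ, a1, a2⟩ := h.exists_mu
  obtain ⟨v, hv⟩ := (a2 X).mp X.2
  have := fun i => hX ⟨μ.symm (saM F (Pi.single i 1)), (a2 _).mpr ⟨_, μ.apply_symm_apply _⟩⟩
  simp only [h.polar_tr, a1, map_mul, hv, AlgEquiv.apply_symm_apply] at this
  have c0 := this 0; have c1 := this 1; have c2 := this 2; have c3 := this 3; have c4 := this 4
  simp [saM_apply, Matrix.trace, Fin.sum_univ_four, Matrix.mul_apply, h.two] at c0 c1 c2 c3 c4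
  have := h.two
  have := h.t4
  refine Subtype.ext (μ.injective ?_)
  rw [hv, show v = 0 from funext fun i => by fin_cases i <;> simp <;> grind]
  simp

theorem cent {Y : End F V} (H : ∀ X : SA B, Y * X.1 = X.1 * Y) : ∃ c : F, Y = c • 1 := by
  obtain ⟨μ, -, a2⟩ := h.exists_mu
  have := fun i => congrArg μ (H ⟨μ.symm (saM F (Pi.single i 1)), (a2 _).mpr ⟨_, μ.apply_symm_apply _⟩⟩)
  simp only [map_mul, AlgEquiv.apply_symm_apply] at this
  refine ⟨μ Y 0 0, μ.injective ?_⟩
  rw [map_smul, map_one]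
  generalize μ Y = A at this
  have c := fun k i j => congrFun₂ (this k) i j
  simp only [Fin.forall_fin_succ, saM_apply, Matrix.mul_apply, Fin.sum_univ_four] at c
  simp at c
  have := h.two
  ext i j
  fin_cases i <;> fin_cases j <;> simp <;> grind

theorem refl_mul {u : SA B} (hu : QA B u ≠ 0) (X : SA B) : ((refl (QA B) u).1 X).1 * u.1 = -(u.1 * X.1) := by
  rw [refl_apply, Submodule.coe_sub, Submodule.coe_smul, sub_mul, smul_mul_assoc, h.sq, smul_smul, mul_assoc,
    inv_mul_cancel₀ hu, mul_one, ← h.anti]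
  abel

theorem exists_rA {u v : SA B} (hu : QA B u ≠ 0) (huv : QA B u = QA B v) :
    ∃ g, rA B g = refl (QA B) u * refl (QA B) v := by
  have a1 : ∀ x y, B (((QA B u)⁻¹ • (u.1 * v.1)) x) (((QA B u)⁻¹ • (u.1 * v.1)) y) = B x y := fun x y => by
    have b1 : ∀ (w : SA B) y, w.1 (w.1 y) = QA B w • y := fun w => LinearMap.congr_fun (h.sq w)
    simp [u.2.1, v.2.1, b1, ← huv, hu]
  have a2 : Function.Injective ((QA B u)⁻¹ • (u.1 * v.1) : End F V) := (injective_iff_map_eq_zero _).mpr fun x hx =>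
    h.sd.sep x fun y => by rw [← a1, hx]; simp
  obtain ⟨g, hg⟩ : ∃ g : UG B, (g.1 : End F V) = (QA B u)⁻¹ • (u.1 * v.1) := ⟨⟨.ofInjectiveEndo _ a2, a1⟩, rfl⟩
  refine ⟨g, OG_ext fun X => Subtype.ext ?_⟩
  suffices (g.1 : End F V) * X.1 = ((refl _ u * refl _ v).1 X).1 * g.1 by
    rw [rA_apply, this, mul_assoc, ug_mul_inv, mul_one]
  rw [hg]
  rw [OG_mul_apply, mul_smul_comm, ← mul_assoc, h.refl_mul hu, neg_mul, mul_assoc, h.refl_mul (huv ▸ hu)]
  simp [mul_assoc]

variable [Finite F]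

theorem Om_le : Om (QA B) ≤ (rA B).range := by
  rw [← h.nd.closure_Root h.five.ge, Subgroup.closure_le]
  rintro _ ⟨u, a, -, -, -, rfl⟩
  exact h.nd.sieg_mem (good_of_five h.five.ge) _ (fun _ _ => h.exists_rA) u a

theorem mem_Om (g : UG B) : rA B g ∈ Om (QA B) := by
  have := Fintype.ofFinite F
  refine (Subgroup.closure_le ((Om (QA B)).comap (rA B))).mpr ?_ ((h.sd.TG_eq_top rfl).ge (Subgroup.mem_top g))
  rintro _ ⟨v, c, rfl⟩
  exact h.nd.mem_Om_of_odd (good_of_five h.five.ge) (two_ne_zero_iff_odd.mp h.two) (by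
    rw [← map_pow, tv_pow_card h.sd (h.sd.self_eq_zero rfl v) rfl, map_one])

theorem le_of {T : Subgroup (OG (QA B))} {M : Subgroup (UG B)} (hM : ∀ g, rA B g ∈ T → g ∈ M)
    (H : ∀ N : Subgroup (OG (QA B)), (∀ g ∈ Om _, g ∈ T → g ∈ N) → ∀ g ∈ N, g ∉ T → Om _ ≤ N) {g : UG B}
    (hg : g ∈ M) (hg' : rA B g ∉ T) : SUG B ≤ M := fun k _ => by
  obtain ⟨m, a1, a2⟩ := H (M.map (rA B)) (fun x a1 a2 => by
    obtain ⟨x, rfl⟩ := h.Om_le a1
    exact ⟨x, hM x a2, rfl⟩) _ ⟨g, hg, rfl⟩ hg' (h.mem_Om k)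
  exact (mul_mem_cancel_left (inv_mem a1)).mp (hM _ (by rw [map_mul, map_inv, a2, inv_mul_cancel]; exact one_mem _))

/-- normalisers of skew elements with scalar square -/
theorem le_of_skew {X : End F V} {d : F} (h1 : ∀ x y, B (X x) y = -B x (X y)) (h2 : X * X = d • 1) (hd : d ≠ 0)
    (hq : 3 < Nat.card F) {M : Subgroup (UG B)}
    (hM : ∀ g : UG B, (∃ c : F, (g.1 : End F V) * X = c • (X * g.1)) → g ∈ M) {g : UG B} (hg : g ∈ M)
    (hg' : ¬ ∃ c : F, (g.1 : End F V) * X = c • (X * g.1)) : SUG B ≤ M := by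
  have t2 := h.two
  have a0 : ∀ Y : End F V, X * Y = 0 → Y = 0 := fun Y H => by
    simpa [← mul_assoc, h2, hd] using congrArg (X * ·) H
  have a1 : ∀ z : SA B, X * z.1 - z.1 * X ∈ SA B := fun z => ⟨fun x y => by simp [h1, z.2.1]; ring, by
    rw [map_sub, LinearMap.trace_mul_comm, sub_self]⟩
  have a2 : ∀ z : SA B, (X * z.1 - z.1 * X) * X = -(X * (X * z.1 - z.1 * X)) := fun z => by
    simp [sub_mul, mul_sub, mul_assoc, h2, ← mul_assoc X X]
  let U : Submodule F (SA B) :=
    { carrier := {z | z.1 * X = -(X * z.1)}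
      add_mem' := fun {a b} (ha : _ = _) (hb : _ = _) => show _ = _ by
        rw [Submodule.coe_add, add_mul, mul_add, ha, hb, neg_add]
      zero_mem' := by simp
      smul_mem' := fun c a (ha : _ = _) => show _ = _ by simp [ha] }
  have a3 : ∀ z ∈ U, X * z.1 ∈ SA B := fun z (hz : _ = _) => by
    convert (SA B).smul_mem 2⁻¹ (a1 z) using 1
    rw [hz]; match_scalars; field_simp; ring
  obtain ⟨w, b1, b2⟩ : ∃ w ∈ U, QA B w ≠ 0 := by
    obtain ⟨z, hz⟩ : ∃ z : SA B, X * z.1 ≠ z.1 * X := by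
      by_contra! H
      obtain ⟨c, rfl⟩ := h.cent H
      have : Nontrivial V := Module.nontrivial_of_finrank_pos (R := F) (by rw [h.four]; omega)
      obtain ⟨e, e0⟩ := exists_ne (0 : V)
      obtain ⟨f, hf⟩ := h.sd.exists_ne e0
      have b1 : c = 0 := by simpa [eq_neg_iff_add_eq_zero, ← two_mul, t2, hf] using h1 e f
      exact one_ne_zero (a0 1 (by simp [b1]))
    obtain ⟨y, hy⟩ := h.nd.exists_ne (x := ⟨_, a3 ⟨_, a1 z⟩ (a2 z)⟩) fun H =>
      hz (sub_eq_zero.mp (a0 _ (congrArg Subtype.val H)))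
    refine exists_Q_ne (W := U) (a := ⟨_, a1 z⟩) (b := ⟨_, a1 y⟩) (a2 z) (a2 y) fun H => hy ?_
    rw [h.polar_tr] at H ⊢
    have := a2 z
    dsimp only at H ⊢
    generalize X * z.1 - z.1 * X = a at H this ⊢
    simp only [mul_sub, ← mul_assoc, this, map_sub, neg_mul, map_neg] at H
    rw [LinearMap.trace_mul_cycle F a] at H
    exact mul_left_cancel₀ t2 (by linear_combination -H)
  have b3 : w.1 * X = -(X * w.1) := b1
  obtain ⟨w', b4⟩ : ∃ w' : SA B, w'.1 = X * w.1 := ⟨⟨_, a3 w b1⟩, rfl⟩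
  have b5 : w'.1 * w.1 = QA B w • X := by simp [b4, mul_assoc, h.sq]
  have b6 : w.1 * w'.1 = -(QA B w • X) := by simp [b4, ← mul_assoc, b3, mul_assoc X, h.sq]
  have o : (1 : End F V) ≠ 0 := fun H => hd (by
    have : Nontrivial V := Module.nontrivial_of_finrank_pos (R := F) (by rw [h.four]; omega)
    exact absurd H one_ne_zero)
  have b7 : polar (QA B) w w' = 0 := by simpa [b5, b6, o] using (h.anti w w').symm
  have b8 : QA B w' ≠ 0 := fun H => by
    have := h.sq w'
    nth_rw 2 [b4] at this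
    rw [← mul_assoc, show w'.1 * X = -(d • w.1) by simp [b4, mul_assoc, b3, ← mul_assoc X, h2]] at this
    simp [H, h.sq, hd, b2, o] at this
  have c1 := nd_orth_pair t2 b7 b2 b8
  have c2 : Submodule.span F {w, w'} ≤ U := sp_le.mpr ⟨b1, show _ = _ by simp [b4, mul_assoc, b3]⟩
  have c3 : U ≤ Submodule.span F {w, w'} := fun z hz => by
    obtain ⟨p, d1, u, d2, rfl⟩ := exists_add_perp h.nd c1 z
    have d3 : u.1 * X = -(X * u.1) := (U.add_mem_iff_right (c2 d1)).mp hz
    obtain ⟨d4, d5⟩ := mem_perp_pair.mp d2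
    have d6 := h.anti w u
    have d7 := h.anti w' u
    rw [d4, zero_smul, add_eq_zero_iff_eq_neg] at d6
    rw [d5, zero_smul, add_eq_zero_iff_eq_neg] at d7
    have d8 : QA B w • (X * u.1) = QA B w • (u.1 * X) := by
      rw [← smul_mul_assoc, ← mul_smul_comm, ← b5, mul_assoc, d6, mul_neg, ← mul_assoc, d7, neg_mul, neg_neg, mul_assoc]
    rw [show u = 0 from Subtype.ext (a0 _ (smul_right_injective _ (mul_ne_zero t2 b2) (by
      rw [d3] at d8; simp only; linear_combination (norm := module) d8))), add_zero]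
    exact d1
  have c4 : ∀ g : UG B, rA B g ∈ stO _ (perp (QA B) (Submodule.span F {w, w'})) ↔
      ∃ c : F, (g.1 : End F V) * X = c • (X * g.1) := fun g => by
    rw [stO_perp h.nd]
    refine ⟨fun H => ?_, fun ⟨c, hc⟩ => mem_stO_of_maps fun z hz => c3 ?_⟩
    · obtain ⟨α, β, d1⟩ := Submodule.mem_span_pair.mp ((H w).mp (Submodule.subset_span (by simp)))
      obtain ⟨γ, δ, d2⟩ := Submodule.mem_span_pair.mp ((H w').mp (Submodule.subset_span (by simp)))
      have d3 := OG_polar (rA B g) w w'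
      have d4 : QA B w • ((g.1 : End F V) * X) = ((rA B g).1 w').1 * ((rA B g).1 w).1 * g.1 := by
        rw [mul_assoc, rA_mul, ← mul_assoc, rA_mul, mul_assoc, b5, mul_smul_comm]
      rw [← d1, ← d2] at d3 d4
      simp only [polar_add_left, polar_add_right, polar_smul_left, polar_smul_right, b7, polar_comm _ w' w,
        polar_self', smul_eq_mul] at d3
      simp only [Submodule.coe_add, Submodule.coe_smul, add_mul, mul_add, mul_smul_comm, h.sq, b5, b6,
        smul_mul_assoc, one_mul, neg_mul] at d4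
      exact ⟨δ * α - γ * β, smul_right_injective _ (mul_ne_zero t2 b2) (by
        simp only; linear_combination (norm := module) (2 : F) • d4 + d3 • (g.1 : End F V))⟩
    · have d1 : z.1 * X = -(X * z.1) := c2 hz
      have d2 : c ≠ 0 := by
        rintro rfl
        have := congrArg (((g⁻¹).1 : End F V) * ·) hc
        simp only [← mul_assoc, ug_inv_mul, zero_smul, mul_zero] at this
        exact o (a0 1 (by simpa using this))
      have d3 : ((g⁻¹).1 : End F V) * X = c⁻¹ • (X * (g⁻¹).1) := by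
        have := congrArg (fun y => ((g⁻¹).1 : End F V) * y * (g⁻¹).1) hc
        simp only [← mul_assoc, ug_inv_mul, one_mul, mul_smul_comm, smul_mul_assoc] at this
        rw [this, mul_assoc _ (g.1 : End F V), ug_mul_inv, mul_one, inv_smul_smul₀ d2]
      change _ = _
      rw [rA_apply, mul_assoc, d3, mul_smul_comm, mul_assoc, ← mul_assoc z.1, d1, neg_mul, mul_neg, ← mul_assoc,
        ← mul_assoc, hc]
      simp [d2, mul_assoc]
  exact h.le_of (fun g H => hM g ((c4 g).mp H)) (fun N a b c d => Om_le_of_nd3 h.nd a t2 h.five.ge (h.nd.nd_perp c1)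
    (by have e1 := h.nd.finrank_perp (Submodule.span F {w, w'}); have e2 := finrank_span_pair_le (F := F) w w'
        have e3 := h.five; omega) hq c d) hg (mt (c4 g).mp hg')

end K4

end Cfsg.Agent.H12
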