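import Mathlib
import Cfsg.Agent.H12.PyE
import Cfsg.Agent.H18.OMxA

/-!
Generation of symplectic and orthogonal groups by the transvections of two unitary subgroups.
-/

set_option autoImplicit false

namespace Cfsg.Agent.H12

open Module QuadraticMap

variable {F V : Type*} [Field F] [AddCommGroup V] [Module F V] {g k l n s y z : V ≃ₗ[F] V}
  {M : Subgroup (V ≃ₗ[F] V)} {T S : V →ₗ[F] V →ₗ[F] F} {e f v w : V}

theorem adj_of_sq (hy : y * y = zs V (-1)) (hT : y ∈ UG T) (v w : V) : T v (y w) = -T (y v) w := by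
  rw [← hT v, apply_apply_of_sq hy]; simp

theorem UTy.neg (h : UTy T M y) : UTy T M (zs V (-1) * y) := fun b c hb =>
  (h b c (by simpa using hb)).imp fun _ hg => ⟨hg.1, fun v => by simp [hg.2]⟩

theorem UTy.sg (h : UTy T M y) (t : ZMod 2) : UTy T M (zs V (sgU F t) * y) := by
  rcases z2_cases t with rfl | rfl
  exacts [by simpa using h, h.neg]

theorem UTy.of_mz [Fintype F] (D : SD T) (h : UTy T (M ⊔ (zs V).range) y) : UTy T M y := fun b c hb => by
  obtain ⟨g, g1, g2⟩ := h b c hb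
  have : ∀ (n : ℕ) v, (g ^ n) v = v + (n * c) • (T b v • b + T (y b) v • y b) := fun n v => by
    induction n with
    | zero => simp
    | succ n ih =>
      rw [pow_succ', LinearEquiv.mul_apply, ih, g2]
      simp only [map_add, map_smul, D.self_eq_zero rfl, hb, D.comm0 hb, Nat.cast_succ, smul_zero, add_zero]
      module
  exact ⟨g, mem_of_mz_pow g1 (LinearEquiv.ext fun v => by simp [this]), g2⟩

section
variable [Finite F] [FiniteDimensional F V] (h2 : (2 : F) ≠ 0) (sym : ∀ x y, S x y = S y x)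
  (sep : ∀ v, (∀ w, S v w = 0) → v = 0) (hs : s * s = 1) (hs' : s ∈ UG S) (h3 : 3 ≤ finrank F (fx s))
include h2 sep hs hs'

omit [Finite F] [FiniteDimensional F V] in
theorem exists_ne_fx (h1 : s v = v) (h0 : v ≠ 0) : ∃ w, s w = w ∧ S v w ≠ 0 := by
  by_contra! H
  refine h0 (sep v fun w => ?_)
  obtain ⟨y, hy, y', hy', rfl⟩ := Submodule.mem_sup.mp ((isCompl_fx h2 hs).sup_eq_top.ge (Submodule.mem_top (x := w)))
  rw [map_add, H y hy, perp_of_eig h2 hs' h1 (mem_fx_neg.mp hy'), add_zero]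

include sym h3

theorem iso_ind {p : V → Prop} (h1 : ∀ v, s v = v → S v v = 0 → p v) (h4 : ∀ v w, p v → p w → p (v + w))
    (v : V) (hv : s v = v) : p v := by
  obtain ⟨u, u1, u2, u3⟩ := H13.exists_singular_mem (LinearMap.BilinMap.toQuadraticMap S) h3
  obtain ⟨w, w1, w2⟩ := exists_ne_fx h2 sep hs hs' u1 u2
  exact H13.singular_induction u3 u1 w1 (by
    rw [LinearMap.BilinMap.polar_toQuadraticMap, sym w, ← two_mul]; exact mul_ne_zero h2 w2) h1
    (fun v _ w _ => h4 v w) v hv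

theorem exists_iso_pair (sep' : ∀ v, (∀ w, T v w = 0) → v = 0) (hT : s ∈ UG T) :
    ∃ e f, s e = e ∧ s f = f ∧ S e e = 0 ∧ S f f = 0 ∧ T e f = 1 := by
  obtain ⟨u, u1, u2, u3⟩ := H13.exists_singular_mem (LinearMap.BilinMap.toQuadraticMap S) h3
  obtain ⟨w, w1, w2⟩ := exists_ne_fx h2 sep' hs hT u1 u2
  obtain ⟨w, a1, a2, a3⟩ : ∃ w, s w = w ∧ S w w = 0 ∧ T u w ≠ 0 := by
    by_contra! H
    exact w2 (iso_ind h2 sym sep hs hs' h3 H (fun v w a b => by simp [a, b]) w w1)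
  exact ⟨u, (T u w)⁻¹ • w, u1, by simp [a1], u3, by simp [a2], by simp [a3]⟩

end

theorem SD.SUG_le_of_UT [Finite F] [FiniteDimensional F V] (D : SD T) (h2 : (2 : F) ≠ 0) (hs : s * s = 1)
    (hs' : s ∈ UG T) (hy : y * y = zs V (-1)) (hy' : y ∈ UG T) (H : y * s = s * y) (h3 : 3 ≤ finrank F (fx s))
    (h4 : 3 ≤ finrank F (fx (zs V (-1) * s))) (a1 : UTy T M y) (a2 : UTy T M (y * s)) :
    SUG T ≤ M.comap (UG T).subtype := by
  have yy := apply_apply_of_sq hy
  have ad := adj_of_sq hy hy'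
  have sf := D.self_eq_zero rfl
  have sk : ∀ v w, T w v = -T v w := fun v w => D.skew v w
  have sym : ∀ v w, T.compl₂ y.toLinearMap v w = T.compl₂ y.toLinearMap w v := fun v w => by simp [ad, sk w]
  have sep : ∀ v, (∀ w, T.compl₂ y.toLinearMap v w = 0) → v = 0 := fun v hv => D.sep v fun w => by
    simpa using hv (y⁻¹ w)
  have sU : s ∈ UG (T.compl₂ y.toLinearMap) := fun v w => by simp [comm_apply H, hs' _]
  have hs1 : zs V (-1) * s * (zs V (-1) * s) = 1 := by rw [mul_assoc, zs_left, zs_zs, hs]; simp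
  have b1 : ∀ e f, s e = e → s f = -f → T e (y e) = 0 → T f (y f) = 0 → AM (M.comap (UG T).subtype) e f ∧
      AM (M.comap (UG T).subtype) f e := fun e f c1 c2 c3 c4 => by
    obtain ⟨e, rfl⟩ := y.surjective e
    obtain ⟨f, rfl⟩ := y.surjective f
    rw [← comm_apply H, y.injective.eq_iff] at c1
    rw [← comm_apply H, ← map_neg, y.injective.eq_iff] at c2
    rw [hy' e] at c3
    rw [hy' f] at c4
    have c5 := perp_of_eig h2 hs' c1 (show s (y f) = -y f by rw [← comm_apply H, c2, map_neg])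
    have c6 := perp_of_eig' h2 hs' c2 (show s (y e) = y e by rw [← comm_apply H, c1])
    have c7 : T (y e) (y f) = 0 := by rw [hy' e, perp_of_eig h2 hs' c1 c2]
    obtain ⟨g, g1, g2⟩ := a1 (e + f) 2⁻¹ (by simp [c3, c4, c5, c6])
    obtain ⟨k, k1, k2⟩ := a2 (e + f) 2⁻¹ (by simp [c1, c2, c3, c4, c5, c6])
    have c8 : Adm T (y e) (y f) 0 := ⟨sf _, c7, by simp [sf]⟩
    have c9 : Adm T (y f) (y e) 0 := ⟨sf _, D.comm0 c7, by simp [sf]⟩
    have : (rho T (y e) (y f) 0).1 = k⁻¹ * g := eq_inv_mul_iff_mul_eq.mpr (LinearEquiv.ext fun v => by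
      simp only [LinearEquiv.mul_apply, g2, k2, rho_apply D c8, map_add, map_smul, LinearMap.add_apply, c1, c2, map_neg,
        LinearMap.neg_apply, c3, c4, c5, c6, c7, D.comm0 c7, sf, smul_eq_mul]
      match_scalars <;> field_simp <;> ring)
    exact ⟨⟨0, c8, (congrArg (· ∈ M) this).mpr (mul_mem (inv_mem k1) g1)⟩, 0, c9, show _ ∈ M by
      convert mul_mem (inv_mem k1) g1 using 1
      rw [← this]; ext v; simp [rho_apply D c8, rho_apply D c9, add_right_comm]⟩
  have b2 : ∀ e, s e = e → T e (y e) = 0 → ∀ f, s f = -f → AM (M.comap (UG T).subtype) e f := fun e c1 c2 f c3 =>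
    iso_ind h2 sym sep hs1 (neg_mem_UG sU) h4 (fun f a b => (b1 e f c1 (mem_fx_neg.mp a) c2 b).1)
      (fun _ _ => AM.add D) f (mem_fx_neg.mpr c3)
  obtain ⟨f, f', f1, f2, f3, -, f4⟩ := exists_iso_pair h2 sym sep hs1 (neg_mem_UG sU) h4 D.sep (neg_mem_UG hs')
  replace f1 := mem_fx_neg.mp f1
  replace f2 := mem_fx_neg.mp f2
  have b3 : ∀ e, s e = e → T e (y e) = 0 → ES (M.comap (UG T).subtype) e := fun e c1 c2 => by
    refine ES.of_AM D ⟨sf e, fun c => ?_⟩ fun u hu => ?_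
    · simpa [f4, ← two_mul, mul_div_cancel₀ _ h2] using
        (b2 e c1 c2 ((c / 2) • f) (by simp [f1])).tv_mem D (b2 e c1 c2 f' f2)
    obtain ⟨u, u1, u', u2, rfl⟩ := Submodule.mem_sup.mp ((isCompl_fx h2 hs).sup_eq_top.ge (Submodule.mem_top (x := u)))
    rw [mem_fx_neg] at u2
    rw [map_add, perp_of_eig h2 hs' c1 u2, add_zero] at hu
    obtain ⟨c, c3, c4⟩ := iso_ind h2 sym sep hs sU h3 (p := AM (M.comap (UG T).subtype) f)
      (fun e a b => (b1 e f a f1 b f3).2) (fun _ _ => AM.add D) u u1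
    have := (b2 e c1 c2 f' f2).map D c4
    rw [rho_apply D c3, rho_apply D c3, perp_of_eig' h2 hs' f1 c1, D.comm0 hu, f4] at this
    simp only [zero_smul, mul_zero, add_zero] at this
    convert this.add D (b2 e c1 c2 (u' - f' - (c * 1 + T u f') • f) (by simp [f1, f2, u2]; abel)) using 1
    module
  obtain ⟨e, e', e1, e2, e3, e4, e5⟩ := exists_iso_pair h2 sym sep hs sU h3 D.sep hs'
  exact D.SUG_le_of_ES₂ ns_id (b3 e e1 e3) (b3 e' e2 e4) (by simp [e5])

variable {Q : QuadraticForm F V}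

theorem mem_OG_iff (h2 : (2 : F) ≠ 0) : g ∈ H13.OG Q ↔ g ∈ UG (polarBilin Q) :=
  ⟨fun h => H13.OG_polar ⟨g, h⟩, fun h v => mul_left_cancel₀ h2 (by
    rw [← H13.polar_self', ← H13.polar_self']; exact h v v)⟩

theorem UTy.as (hy : y * y = zs V (-1)) (hy' : y ∈ UG (polarBilin Q)) (h2 : (2 : F) ≠ 0)
    (h : UTy ((polarBilin Q).compl₂ y.toLinearMap) M y) (he : Q e = 0) (c : F) :
    H18.AS (M.comap (H13.OG Q).subtype) e (c • y e) := by
  have ad : ∀ v w, polar Q v (y w) = -polar Q (y v) w := adj_of_sq hy hy'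
  have a1 : polar Q e (y e) = 0 := mul_left_cancel₀ h2 (by
    have := ad e e
    rw [polar_comm Q (y e)] at this
    linear_combination this)
  have a2 : Q (y e) = 0 := ((mem_OG_iff h2).mpr hy' e).trans he
  obtain ⟨g, g1, g2⟩ := h e (-c) (by simp [apply_apply_of_sq hy, he])
  refine ⟨he, by simp [a1], show _ ∈ M from ?_⟩
  convert g1 using 1
  ext v
  simp only [Subgroup.coe_subtype, H13.sieg_apply he (show polar Q e (c • y e) = 0 by simp [a1]), g2,
    LinearMap.compl₂_apply, polarBilin_apply_apply, LinearEquiv.coe_coe, ad, apply_apply_of_sq hy, H13.Q_smul, a2,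
    polar_smul_left, Units.val_neg, Units.val_one, smul_eq_mul]
  module

theorem Om_le_of_AS [Finite F] [FiniteDimensional F V] (hQ : H13.ND Q) (h2 : (2 : F) ≠ 0) {N : Subgroup (H13.OG Q)}
    (hs : s * s = 1) (hs' : s ∈ UG (polarBilin Q)) (hy' : y ∈ UG (polarBilin Q)) (H : y * s = s * y)
    (h3 : 3 ≤ finrank F (fx s)) (h4 : 3 ≤ finrank F (fx (zs V (-1) * s)))
    (a1 : ∀ e (c : F), Q e = 0 → H18.AS N e (c • y e)) (a2 : ∀ e (c : F), Q e = 0 → H18.AS N e (c • y (s e))) :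
    H13.Om Q ≤ N := by
  have sym : ∀ v w, polarBilin Q v w = polarBilin Q w v := fun v w => polar_comm ..
  have pq : ∀ {v}, polarBilin Q v v = 0 → Q v = 0 := fun h => by simpa [h2] using h
  have hs1 : zs V (-1) * s * (zs V (-1) * s) = 1 := by rw [mul_assoc, zs_left, zs_zs, hs]; simp
  have b1 : ∀ e f, s e = e → s f = -f → Q e = 0 → Q f = 0 → H18.AS N e f := fun e f c1 c2 c3 c4 => by
    obtain ⟨e, rfl⟩ := y.surjective e
    rw [← comm_apply H, y.injective.eq_iff] at c1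
    have c5 := ((mem_OG_iff h2).mpr hy' e).symm.trans c3
    have c6 : Q (e + f) = 0 := by
      rw [H13.Q_add, c5, c4, show polar Q e f = 0 from perp_of_eig h2 hs' c1 c2]; simp
    have c7 : H18.AS N (e + f) (y e) := by
      convert (a1 _ 2⁻¹ c6).add (a2 _ 2⁻¹ c6) using 1
      simp only [map_add, c1, c2, map_neg]
      match_scalars <;> field_simp <;> ring
    simpa using (c7.swap c3).sub ((by simpa using a1 e 1 c5 : H18.AS N e (y e)).swap c3)
  have b2 : ∀ e, s e = e → Q e = 0 → ∀ f, s f = -f → H18.AS N e f := fun e c1 c2 f c3 =>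
    iso_ind h2 sym hQ hs1 (neg_mem_UG hs') h4 (fun f a b => b1 e f c1 (mem_fx_neg.mp a) c2 (pq b))
      (fun _ _ => H18.AS.add) f (mem_fx_neg.mpr c3)
  obtain ⟨f, f', f1, f2, f3, -, f4⟩ := exists_iso_pair (T := polarBilin Q) h2 sym hQ hs1 (neg_mem_UG hs') h4 hQ (neg_mem_UG hs')
  replace f1 := mem_fx_neg.mp f1
  replace f2 := mem_fx_neg.mp f2
  have b3 : ∀ e, s e = e → Q e = 0 → H18.EO N e := fun e c1 c2 => ⟨c2, fun u hu => by
    obtain ⟨u, u1, u', u2, rfl⟩ := Submodule.mem_sup.mp ((isCompl_fx h2 hs).sup_eq_top.ge (Submodule.mem_top (x := u)))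
    rw [mem_fx_neg] at u2
    rw [polar_add_right, show polar Q e u' = 0 from perp_of_eig h2 hs' c1 u2, add_zero, polar_comm] at hu
    have := (b2 e c1 c2 f' f2).act (iso_ind h2 sym hQ hs hs' h3 (p := H18.AS N f)
      (fun e a b => (b1 e f a f1 (pq b) (pq f3)).swap (pq f3)) (fun _ _ => H18.AS.add) u u1)
      (perp_of_eig' h2 hs' f1 c1) hu
    rw [show polar Q f f' = 1 from f4] at this
    convert (b2 e c1 c2 (u' + (polar Q u f' - Q u) • f) (by simp [f1, u2]; abel)).sub this using 1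
    module⟩
  obtain ⟨e, e', e1, e2, e3, e4, e5⟩ := exists_iso_pair (T := polarBilin Q) h2 sym hQ hs hs' h3 hQ hs'
  have := Submodule.finrank_add_eq_of_isCompl (isCompl_fx h2 hs)
  exact H18.Om_le_of_EO hQ (by omega) (b3 e e1 (pq e3)) (b3 e' e2 (pq e4)) (by simpa using e5.trans_ne one_ne_zero)

end Cfsg.Agent.H12
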