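import Mathlib
import Cfsg.Agent.H12.PyF
import Cfsg.Agent.H18.OMxE

/-!
Maximality of normalisers of extraspecial 2-groups in symplectic and orthogonal groups.
-/

set_option autoImplicit false

namespace Cfsg.Agent.H12

open Module QuadraticMap Cfsg.Geo
open scoped MatrixGroups

universe u v

variable {F : Type u} {V : Type v} [Field F] [AddCommGroup V] [Module F V] {E : Type*} [AddCommGroup E]
  [Module (ZMod 2) E] {B : LinearMap.BilinForm (ZMod 2) E} {P : E → V ≃ₗ[F] V} {q : E → ZMod 2}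
  {a b c e u v w x : E} {g k l n s y z : V ≃ₗ[F] V} {M R : Subgroup (V ≃ₗ[F] V)} {T : V →ₗ[F] V →ₗ[F] F}

/-- similarities -/
def simG (T : V →ₗ[F] V →ₗ[F] F) : Subgroup (V ≃ₗ[F] V) where
  carrier := {g | Sim T g}
  one_mem' := ⟨1, one_ne_zero, by simp⟩
  mul_mem' := Sim.mul
  inv_mem' := fun {g} ⟨c, c1, c2⟩ => ⟨c⁻¹, inv_ne_zero c1, fun x y => by
    rw [eq_inv_mul_iff_mul_eq₀ c1, ← c2]; simp⟩

theorem sim_zs (c : Fˣ) : Sim T (zs V c) := ⟨c * c, by simp, fun x y => by simp [mul_assoc]⟩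

theorem sim_of_UG (hg : g ∈ UG T) : Sim T g := ⟨1, one_ne_zero, fun x y => by rw [hg, one_mul]⟩

theorem sim_hS (h2 : (2 : F) ≠ 0) (hy : y * y = zs V (-1)) (hT : y ∈ UG T) : Sim T (hS y) :=
  ⟨2, h2, fun v w => by simp [hS_apply h2 hy, adj_of_sq hy hT, apply_apply_of_sq hy, two_mul]⟩

theorem AI.exists_PO [Finite V] (h : AI R) (h2 : (2 : F) ≠ 0) (sep : ∀ v, (∀ w, T v w = 0) → v = 0) (hU : R ≤ UG T)
    (hd : 2 ≤ finrank F V) :
    ∃ (E : Type v) (_ : AddCommGroup E) (_ : Module (ZMod 2) E) (_ : Finite E) (B : LinearMap.BilinForm (ZMod 2) E)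
      (P : E → V ≃ₗ[F] V) (q : E → ZMod 2), PO B P q T (simG T) ∧ (∀ a, P a ∈ R) ∧ zs V (-1) ∈ R ∧
        ∀ g ∈ UG T, g ∈ Subgroup.normalizer (R : Set (V ≃ₗ[F] V)) ↔ Nm P g := by
  have := Module.Finite.of_finite (R := F) (M := V)
  obtain ⟨E, _, _, _, B, P, a1, a2, a3⟩ := h.exists_pau h2
  choose q hq using fun a => h.sq _ (a2 a)
  have a4 : PO B P q T (simG T) := ⟨a1, hq, sep, fun a => hU (a2 a), fun _ h => h, sim_zs,
    fun a => sim_of_UG (hU (a2 a)), fun a b ha hb => (sim_hS h2 (by rw [hq, ha, sgU_one]) (hU (a2 a))).mul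
      (sim_hS h2 (by rw [hq, hb, sgU_one]) (hU (a2 b)))⟩
  have a5 : zs V (-1) ∈ R := by
    have := Module.nontrivial_of_finrank_pos (a1.le_finrank (m := 0) (by nlinarith))
    obtain ⟨a, ha⟩ := exists_ne (0 : E)
    obtain ⟨b, hb⟩ := a1.exists_one ha
    have := mul_mem (mul_mem (a2 a) (a2 b)) (inv_mem (mul_mem (a2 b) (a2 a)))
    rwa [a1.comm a b, hb, mul_inv_cancel_right, sgU_one] at this
  refine ⟨E, _, _, ‹_›, B, P, q, a4, a2, a5, fun g hg => a1.mem_norm_iff h a2 a3 hU (fun c _ _ hc => ?_) hg⟩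
  obtain ⟨t, rfl⟩ := a4.sgn (c := c) (one_mem _) (by simpa using hc)
  rcases z2_cases t with rfl | rfl
  exacts [by simp, a5]

namespace PO

variable (h : PO B P q T M)
include h

theorem mt (h1 : ∀ a, P a ∈ R) (h2 : zs V (-1) ∈ R) [Finite V]
    (H : ∀ A ≤ R, (∀ g ∈ A, g * g = 1) → Nat.card A < 16) : MT B q := fun x a b x0 qx qa qb b1 b2 b3 => by
  by_contra! hc
  obtain ⟨⟨c1, c2⟩, ⟨c3, c4⟩, c5, c6⟩ := hc
  let f : ZMod 2 × ZMod 2 × ZMod 2 × ZMod 2 → V ≃ₗ[F] V := fun p =>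
    zs V (sgU F p.1) * P (p.2.1 • x + p.2.2.1 • a + p.2.2.2 • b)
  have f1 : ∀ p, f p * f p = 1 := fun ⟨t, i, j, k⟩ => by
    have : q (i • x + j • a + k • b) = 0 := by
      rcases z2_cases i with rfl | rfl <;> rcases z2_cases j with rfl | rfl <;> rcases z2_cases k with rfl | rfl <;>
        simp [h.q_add, h.q_zero h.q_add, *]
    simp only [f]
    rw [mul_assoc, zs_left _ (P _), zs_zs, sgU_mul_self, h.sq', this]; simp
  have f2 : ∀ p p', ∃ p'', f p'' = f p * f p' := fun ⟨t, i, j, k⟩ ⟨t', i', j', k'⟩ => by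
    obtain ⟨r, hr⟩ := h.mul' (i • x + j • a + k • b) (i' • x + j' • a + k' • b)
    refine ⟨⟨t + t' + r, i + i', j + j', k + k'⟩, ?_⟩
    simp only [f]
    rw [mul_assoc, zs_left _ (P _), hr, zs_zs, zs_zs, sgU_add, sgU_add]
    congr 2; module
  let A : Subgroup (V ≃ₗ[F] V) :=
    { carrier := Set.range f
      one_mem' := ⟨0, by simp [f, h.zero]⟩
      mul_mem' := by rintro _ _ ⟨p, rfl⟩ ⟨p', rfl⟩; exact f2 p p'
      inv_mem' := by rintro _ ⟨p, rfl⟩; exact ⟨p, eq_inv_of_mul_eq_one_left (f1 p)⟩ }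
  have f3 : Function.Injective f := fun ⟨t, i, j, k⟩ ⟨t', i', j', k'⟩ e => by
    have key : ∀ i j k : ZMod 2, i • x + j • a + k • b = 0 → i = 0 ∧ j = 0 ∧ k = 0 := fun i j k e => by
      rcases z2_cases i with rfl | rfl <;> rcases z2_cases j with rfl | rfl <;> rcases z2_cases k with rfl | rfl <;>
        simp only [zero_smul, one_smul, add_zero, zero_add, add_assoc] at e <;>
        first | contradiction | exact absurd (e2_eq_of_add e).symm ‹_› | simp
    obtain ⟨d1, d2, d3⟩ := key (i - i') (j - j') (k - k') (by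
      linear_combination (norm := module) h.uniq e)
    rw [show t = t' from sgU_inj h.two (h.uniq' e), sub_eq_zero.mp d1, sub_eq_zero.mp d2, sub_eq_zero.mp d3]
  have := H A (by
    rintro _ ⟨p, rfl⟩
    exact mul_mem (by rcases z2_cases p.1 with e | e <;> simp [e, h2]) (h1 _)) (by rintro _ ⟨p, rfl⟩; exact f1 p)
  rw [show Nat.card A = _ from Nat.card_range_of_injective f3] at this
  simp at this

variable [Finite E] (h5 : 5 ≤ finrank (ZMod 2) E)
include h5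

theorem of_mem {H : Subgroup (V ≃ₗ[F] V)} (hH : H ≤ UG T) (hM : ∀ g ∈ UG T, Nm P g → g * g ∈ H) :
    PO B P q T (H ⊔ (zs V).range) := by
  have z : ∀ c, zs V c ∈ H ⊔ (zs V).range := fun c => Subgroup.mem_sup_right ⟨c, rfl⟩
  have nm : ∀ {y}, NSg P q y → Nm P (hS y) := by
    rintro _ ⟨a, t, a1, rfl⟩
    have : Nm P (hS (P a)) := fun b => ⟨_, h.cj_hS a1 b⟩
    rcases z2_cases t with rfl | rfl
    · simpa using this
    · exact hS_neg' h.two (h.sqy a1) ▸ this.mul (h.nm_of_rz ((Rz.self a).zs_mul _))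
  have iso : ∀ {y}, NSg P q y → y ∈ UG T := by rintro _ ⟨a, t, -, rfl⟩; exact sgU_mem_UG (h.iso a) t
  have z' := z
  have a1 : ∀ {y z}, NSg P q y → NSg P q z → (∀ v, z (y v) = -y (z v)) → hS y * hS z ∈ H ⊔ (zs V).range :=
    fun {y z} hy hz e => by
      have b1 := apply_apply_of_sq (h.sqN hy)
      have b2 := apply_apply_of_sq (h.sqN hz)
      have b3 := adj_of_sq (h.sqN hy) (iso hy)
      have b4 := adj_of_sq (h.sqN hz) (iso hz)
      let c := Units.mk0 (2 : F)⁻¹ (inv_ne_zero h.two)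
      have b5 : zs V c * (hS y * hS z) ∈ UG T := fun v w => by
        simp [c, hS_apply h.two (h.sqN hy), hS_apply h.two (h.sqN hz), b1, b2, b3, b4, e]
        field_simp [h.two]; ring
      have b6 := (Nm.zs c).mul ((nm hy).mul (nm hz))
      convert mul_mem (z' (-Units.mk0 2 h.two)) (Subgroup.mem_sup_left (hM _ (mul_mem b5 b5) (b6.mul b6))) using 1
      ext v
      simp [c, hS_apply h.two (h.sqN hy), hS_apply h.two (h.sqN hz), b1, b2, e]
      match_scalars <;> field_simp [h.two] <;> ring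
  have a2 : ∀ a b, q a = 1 → q b = 1 → hS (P a) * hS (P b) ∈ H ⊔ (zs V).range := fun a b ha hb => by
    rcases z2_cases (B b a) with e | e
    · obtain ⟨e, e1, e2⟩ := h.exists_one_one (h.ne ha) (h.ne hb)
      obtain ⟨f, f1, f2, f3⟩ := h.exists_q₂ h.q_add h5 a b e 1
      have := mul_mem (z (Units.mk0 2 h.two)⁻¹) (mul_mem (a1 (.self ha) ⟨f, 1, f1, rfl⟩ fun v => by
        simp [h.comm_app a f, f2, h.symm a e, e1]) (a1 (.self f1) (.self hb) fun v => by
          simp [h.comm_app b f, f3, h.symm b e, e2]))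
      rwa [mul_assoc, ← mul_assoc (hS (_ * _)), sgU_one, hS_neg h.two (h.sqy f1), zs_left, zs_zs, inv_mul_cancel,
        map_one, one_mul] at this
    · exact a1 (.self ha) (.self hb) fun v => by simp [h.comm_app b a, e]
  have a3 : ∀ a, q a = 1 → P a ∈ H ⊔ (zs V).range := fun a ha => by
    convert mul_mem (z (Units.mk0 2⁻¹ (inv_ne_zero h.two))) (a2 a a ha ha) using 1
    ext v
    simp [hS_apply h.two (h.sqy ha), apply_apply_of_sq (h.sqy ha)]
    match_scalars <;> field_simp [h.two] <;> ring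
  refine ⟨h.toPau, h.sq', h.sep, h.iso, fun g hg => ?_, z, fun a => (z2_cases (q a)).elim (fun e => ?_) (a3 a), a2⟩
  · obtain ⟨g, hg', _, ⟨c, rfl⟩, rfl⟩ := Subgroup.mem_sup_of_normal_right.mp hg
    exact (sim_of_UG (hH hg')).mul (sim_zs c)
  obtain ⟨u, u1, u2⟩ := h.exists_q₁ h.q_add (by omega) a 0 1
  obtain ⟨c, hc⟩ := h.mul u (u + a)
  have := mul_mem (z c⁻¹) (mul_mem (a3 u u1) (a3 (u + a) (by simpa [h.q_add, u1, e, h.symm u] using u2)))
  rwa [hc, e2_cancel, zs_zs, inv_mul_cancel, map_one, one_mul] at this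

theorem exists_xu [FiniteDimensional F V] (hV : 6 ≤ finrank F V) : ∃ x u, q u = 1 ∧ q (u + x) = 1 ∧ B u x = 0 ∧
    P x * P x = 1 ∧ 3 ≤ finrank F (fx (P x)) ∧ 3 ≤ finrank F (fx (zs V (-1) * P x)) := by
  obtain ⟨u, u1, -⟩ := h.exists_q₁ h.q_add (by omega) 0 0 1
  obtain ⟨x, x1, x2, x3⟩ : ∃ x, x ≠ 0 ∧ q x = 0 ∧ B u x = 0 := by
    obtain ⟨w, w1, w2, w3⟩ := h.exists_perp_one (by omega) u
    rcases z2_cases (q w) with e | e
    exacts [⟨w, w1, e, w3⟩, ⟨u + w, fun e => w2 (e2_eq_of_add e).symm, by simp [h.q_add, *, z2_add_self],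
      by simp [h.self, w3]⟩]
  have hs : P x * P x = 1 := by rw [h.sq', x2]; simp
  have a1 := h.finrank_fx x1 hs
  have a2 := Submodule.finrank_add_eq_of_isCompl (isCompl_fx h.two hs)
  exact ⟨x, u, u1, by simp [h.q_add, *], x3, hs, by omega, by omega⟩

end PO

theorem PO.SUG_le [Fintype F] [Finite V] [Finite E] (h : PO B P q T (M ⊔ (zs V).range)) (hp : (Fintype.card F).Prime)
    (D : SD T) (h6 : 6 ≤ finrank (ZMod 2) E) (hd : 7 ≤ finrank (ZMod 2) E ∨ MT B q) (hV : 6 ≤ finrank F V)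
    (hg : g ∈ M) (H : ¬ Nm P g) : SUG T ≤ M.comap (UG T).subtype := by
  have := Module.Finite.of_finite (R := F) (M := V)
  have a1 : ∀ u, q u = 1 → UTy T M (P u) := fun u hu => ((h.ut_or hp (by omega) hu D (fun a _ => h.iso a)
    fun k hk _ => h.sim k hk).resolve_right fun hL => H (h.nm_of_loc h6 hd hu hL (Subgroup.mem_sup_left hg))).of_mz D
  obtain ⟨x, u, b1, b2, b3, b4, b5, b6⟩ := h.exists_xu (by omega) hV
  obtain ⟨t, ht⟩ := h.mul' u x
  exact D.SUG_le_of_UT h.two b4 (h.iso x) (h.sqy b1) (h.iso u) (h.comm0 b3) b5 b6 (a1 u b1) (ht ▸ (a1 _ b2).sg t)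

variable {Q : QuadraticForm F V}

theorem PO.Om_le [Fintype F] [Finite V] [Finite E] (h : PO B P q (polarBilin Q) (M ⊔ (zs V).range))
    (hp : (Fintype.card F).Prime) (h6 : 6 ≤ finrank (ZMod 2) E) (hd : 7 ≤ finrank (ZMod 2) E ∨ MT B q)
    (hV : 6 ≤ finrank F V) (hg : g ∈ M) (H : ¬ Nm P g) : H13.Om Q ≤ M.comap (H13.OG Q).subtype := by
  have := Module.Finite.of_finite (R := F) (M := V)
  have a1 : ∀ u, q u = 1 → ∀ e (c : F), Q e = 0 → H18.AS (M.comap (H13.OG Q).subtype) e (c • P u e) :=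
    fun u hu e c he => by
      have ad : ∀ v w, polar Q v (P u w) = -polar Q (P u v) w := adj_of_sq (h.sqy hu) (h.iso u)
      have D : SD ((polarBilin Q).compl₂ (P u).toLinearMap) := ⟨fun _ => rfl, fun v w => by
        simp [ad v w, polar_comm Q w], fun v hv => h.sep v fun w => by simpa using hv ((P u)⁻¹ w),
        fun v => ⟨0, mul_left_cancel₀ h.two (by
          have := ad v v
          rw [polar_comm Q (P u v)] at this
          change 2 * (0 - 0) = 2 * polar Q v (P u v)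
          linear_combination -this)⟩⟩
      exact (((h.ut_or hp (by omega) hu D (fun a ha v w => by simpa [comm_apply (h.comm0 ha)] using h.iso a v (P u w))
        fun k hk H => (h.sim k hk).imp fun c hc => ⟨hc.1, fun v w => by
          simpa [comm_apply H] using hc.2 v (P u w)⟩).resolve_right fun hL =>
        H (h.nm_of_loc h6 hd hu hL (Subgroup.mem_sup_left hg))).of_mz D).as (h.sqy hu) (h.iso u) h.two he c
  obtain ⟨x, u, b1, b2, b3, b4, b5, b6⟩ := h.exists_xu (by omega) hV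
  obtain ⟨t, ht⟩ := h.mul' u x
  exact Om_le_of_AS h.sep h.two b4 (h.iso x) (h.iso u) (h.comm0 b3) b5 b6 (a1 u b1) fun e c he => by
    rw [show P u (P x e) = (sgU F t : F) • _ from LinearEquiv.congr_fun ht e, smul_smul]
    exact a1 _ b2 e _ he

theorem PO.exists_not_nm [Finite F] [Finite E] [FiniteDimensional F V] (h : PO B P q (polarBilin Q) M)
    (h5 : 5 ≤ finrank (ZMod 2) E) (hV : 6 ≤ finrank F V) : ∃ g ∈ H13.Om Q, ¬ Nm P g.1 := by
  obtain ⟨x, -, -, -, -, b4, b5, b6⟩ := h.exists_xu h5 hV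
  have sym : ∀ v w, polarBilin Q v w = polarBilin Q w v := fun v w => polar_comm ..
  obtain ⟨e, e', e1, -, e2, -, e3⟩ := exists_iso_pair h.two sym h.sep b4 (h.iso x) b5 h.sep (h.iso x)
  obtain ⟨f, f', f1, f2, -, -, f3⟩ := exists_iso_pair h.two sym h.sep (by
    rw [mul_assoc, zs_left, zs_zs, b4]; simp) (neg_mem_UG (h.iso x)) b6 h.sep (neg_mem_UG (h.iso x))
  have c1 : Q e = 0 := by simpa [h.two] using e2
  have c2 : polar Q e f = 0 := perp_of_eig h.two (h.iso x) e1 (mem_fx_neg.mp f1)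
  have c3 : polar Q e f' = 0 := perp_of_eig h.two (h.iso x) e1 (mem_fx_neg.mp f2)
  refine ⟨_, H13.ND.sieg_mem_commutator h.sep (H13.good_of_five (by omega)) e f, fun H => ?_⟩
  have c4 := H13.conj_sieg ⟨P x, (mem_OG_iff h.two).mpr (h.iso x)⟩ e f
  rw [show P x e = e from e1, show P x f = -f from mem_fx_neg.mp f1, H13.sieg_neg c1 c2] at c4
  have c5 : (H13.sieg Q e f).1 f' = f' + e := by simp [H13.sieg_apply c1 c2, c3, show polar Q f f' = 1 from f3]
  have c6 := H13.sieg_apply_self (Q := Q) e f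
  generalize H13.sieg Q e f = ρ at H c4 c5 c6
  obtain ⟨a, c, hc⟩ := h.rz_mul (H.conj (Rz.self x)) (h.rz_inv (Rz.self x))
  rw [show ρ.1 * P x * ρ.1⁻¹ * (P x)⁻¹ = ρ.1 * (P x * ρ.1 * (P x)⁻¹)⁻¹ by group,
    show P x * ρ.1 * (P x)⁻¹ = ρ.1⁻¹ from congrArg Subtype.val c4, inv_inv] at hc
  have c7 : ρ.1 * ρ.1 * (ρ.1 * ρ.1) = zs V (c * c * sgU F (q a)) := by
    rw [hc, mul_assoc, zs_left, h.sq', ← map_mul, ← map_mul, mul_assoc]
  generalize c * c * sgU F (q a) = d at c7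
  have d1 := LinearEquiv.congr_fun c7 e
  have d2 := LinearEquiv.congr_fun c7 f'
  have d0 : e ≠ 0 := by rintro rfl; simp at e3
  simp only [LinearEquiv.mul_apply, c5, c6, map_add, zs_apply] at d1 d2
  rw [← smul_left_injective F d0 ((one_smul F e).trans d1)] at d2
  exact smul_ne_zero (mul_ne_zero h.two h.two) d0 (by linear_combination (norm := module) d2)

section
variable {ι : Type} [Fintype ι] [DecidableEq ι] [Fintype F] {R : Subgroup (GL ι F)}

omit [Fintype F] in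
theorem card_lt_of_minus {k : ℕ} (h : IsOfMinusType k R) (A : Subgroup ((ι → F) ≃ₗ[F] (ι → F))) (hA : A ≤ glR R)
    (H : ∀ g ∈ A, g * g = 1) : Nat.card A < 2 ^ (k + 1) := by
  let φ := (glEq ι F).toMonoidHom.comp R.subtype
  have a1 : Function.Injective φ := (glEq ι F).injective.comp Subtype.val_injective
  have a2 : ∀ g ∈ A.comap φ, g * g = 1 := fun g hg => a1 (by rw [map_mul, map_one]; exact H _ hg)
  rw [← Subgroup.map_comap_eq_self (f := φ) (H := A) fun g hg => (hA hg).elim fun k hk => ⟨⟨k, hk.1⟩, hk.2⟩,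
    Subgroup.card_map_of_injective a1]
  refine h _ ⟨⟨fun a b => Subtype.ext ?_⟩⟩ a2
  have := eq_inv_of_mul_eq_one_left (a2 _ (a * b).2)
  rwa [Subgroup.coe_mul, mul_inv_rev, ← eq_inv_of_mul_eq_one_left (a2 _ a.2), ← eq_inv_of_mul_eq_one_left (a2 _ b.2)] at this

theorem max_Om_c6 {Q : (ι → F) → F} (hQ : IsNondegenerateQuadraticForm Q) (hR : IsSymplecticTypeGroup 2 R)
    (h : ActsAbsolutelyIrreducibly (matrixSet R)) (hU : R ≤ isometryGroup F Q) (hp : (Fintype.card F).Prime)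
    (h2 : (2 : F) ≠ 0) (hn : 9 ≤ Fintype.card ι ∨ 6 ≤ Fintype.card ι ∧ IsOfMinusType 3 R) :
    IsMaximalIn (omegaGL Q) (subgroupNormalizer R ⊓ omegaGL Q) := by
  have := Fintype.card_pos_iff.mp (show 0 < Fintype.card ι by omega)
  obtain ⟨E, _, _, _, B, P, q, a1, a2, a3, a4⟩ := (ai_of_geo hR h).exists_PO (T := polarBilin (H18.mkQ hQ)) h2
    (H18.nd_mkQ hQ) (by rintro _ ⟨g, hg, rfl⟩; exact (mem_OG_iff h2).mp (H13.mem_isometryGroup.mp (hU hg))) (by simp; omega)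
  have a5 := a1.le_finrank (m := 5) (by simp; rcases hn with hn | ⟨hn, -⟩ <;> nlinarith)
  have a6 : ∀ g, glEq ι F (H18.ofOG hQ g) = g.1 := fun g => LinearEquiv.ext (H18.ofOG_mulVec hQ g)
  have a7 : ∀ g, H18.ofOG hQ g ∈ subgroupNormalizer R ↔ g ∈ a1.N.comap (H13.OG _).subtype := fun g =>
    norm_glEq.trans (a6 g ▸ a4 _ ((mem_OG_iff h2).mp g.2))
  refine H18.max_omega hQ _ a7 (fun H => ?_) fun M m1 _ g hg H => ?_
  · obtain ⟨g, g1, g2⟩ := a1.exists_not_nm (by omega) (by simp; omega)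
    exact g2 ((a7 g).mp (H (H18.ofOG_mem hQ g1)))
  rw [← Subgroup.comap_map_eq_self_of_injective (H13.OG _).subtype_injective M]
  exact (a1.of_mem (H := M.map (H13.OG _).subtype) (by omega) (by rintro _ ⟨g, -, rfl⟩; exact (mem_OG_iff h2).mp g.2) fun g g1 g2 =>
    ⟨⟨g, (mem_OG_iff h2).mpr g1⟩ * ⟨g, (mem_OG_iff h2).mpr g1⟩, m1 _ (((H18.nd_mkQ hQ).mem_commutator_iff
      (H13.good_of_five (by simp; omega)) _).mpr (by simp only [map_mul, Int.units_mul_self, and_self])) (g2.mul g2), rfl⟩).Om_le hp a5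
    (hn.imp (fun hn => a1.le_finrank (m := 6) (by simp; nlinarith)) fun hn => a1.mt a2 a3 (card_lt_of_minus hn.2))
    (by simp; omega) ⟨g, hg, rfl⟩ H

end

theorem max_sp_c6 [Fintype F] {m : ℕ} {R : Subgroup (GL (Fin m ⊕ Fin m) F)} (hR : IsSymplecticTypeGroup 2 R)
    (h : ActsAbsolutelyIrreducibly (matrixSet R)) (hU : R ≤ spGL m F) (hp : (Fintype.card F).Prime)
    (h2 : (2 : F) ≠ 0) (hn : 5 ≤ m ∨ 3 ≤ m ∧ IsOfMinusType 3 R) :
    IsMaximalIn (spGL m F) (subgroupNormalizer R ⊓ spGL m F) := by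
  have h0 : 0 < m := by omega
  have : Nonempty (Fin m ⊕ Fin m) := ⟨.inl ⟨0, h0⟩⟩
  have hf := tvF_sp h0 F
  have D := sd_tB hf
  rw [spGL_eq_inf h0] at hU ⊢
  obtain ⟨E, _, _, _, B, P, q, a1, a2, a3, a4⟩ := (ai_of_geo hR h).exists_PO (T := tB hf) h2 D.sep
    (by rintro _ ⟨g, hg, rfl⟩; exact (glEq_mem_UG hf).mpr (hU hg).1) (by simp; omega)
  have a5 := a1.le_finrank (m := 5) (by simp; rcases hn with hn | ⟨hn, -⟩ <;> nlinarith)
  refine isMaximalIn_iso hf _ (fun g => norm_glEq)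
    ((has_SU hf).not_le_normalizer Nat.prime_two hR.pGroup h (Or.inr (by simp; omega))) fun M m1 _ g hg H => ?_
  rw [← Subgroup.comap_map_eq_self_of_injective (UG _).subtype_injective M]
  exact (a1.of_mem (H := M.map (UG _).subtype) (by omega) (by rintro _ ⟨g, -, rfl⟩; exact g.2) fun g g1 g2 =>
    ⟨⟨g, g1⟩ * ⟨g, g1⟩, m1 _ ((D.SUG_eq_top rfl).ge trivial) ((a4 _ (mul_mem g1 g1)).mpr (g2.mul g2)), rfl⟩).SUG_le hp D a5
    (hn.imp (fun hn => a1.le_finrank (m := 6) (by simp; nlinarith)) fun hn => a1.mt a2 a3 (card_lt_of_minus hn.2))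
    (by simp; omega) ⟨g, hg, rfl⟩ (mt (a4 _ g.2).mpr H)

end Cfsg.Agent.H12
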