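import Mathlib
import Cfsg.Agent.H12.SubE
import Cfsg.Agent.H12.CfB
import Cfsg.Agent.H12.DecA

/-!
Subfield subgroups of symplectic groups in characteristic two, down to dimension four.
-/

set_option autoImplicit false

namespace Cfsg.Agent.H12

open Module Cfsg.Geo Matrix

theorem exists_add_mul_of_two {K F : Type*} [Field K] [Field F] [Algebra K F] (h : finrank K F = 2)
    {b : F} (hb : b ∉ (algebraMap K F).range) (c : F) :
    ∃ s t : K, c = algebraMap K F s + algebraMap K F t * b := by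
  have : FiniteDimensional K F := .of_finrank_pos (by omega)
  have h1 := (li_pair_of_notMem (F := K) (one_ne_zero' F) (y := b) fun H => by
    obtain ⟨a, rfl⟩ := Submodule.mem_span_singleton.mp H
    exact hb ⟨a, Algebra.algebraMap_eq_smul_one a⟩).span_eq_top_of_card_eq_finrank' (by simp [h])
  obtain ⟨s, t, rfl⟩ := Submodule.mem_span_pair.mp
    (by simpa [Set.pair_comm] using h1.ge (Submodule.mem_top (x := c)) : c ∈ Submodule.span K {1, b})
  exact ⟨s, t, by simp [Algebra.smul_def]⟩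

theorem IS.of_tv {F V : Type*} [Field F] [AddCommGroup V] [Module F V] {σ : F →+* F}
    {B : V →ₛₗ[σ] V →ₗ[F] F} {M : Subgroup (UG B)} (D : SD B) {v w : V} {c : F} (hw : IS M w)
    (h : tv B v c ∈ M) (hv : B v v = 0) (hc : σ c = c) (h0 : c ≠ 0) (h1 : B v w ≠ 0) : IS M v := by
  have h2 := hw.map D h
  rw [tv_apply D hv hc] at h2
  have h3 := h2.add D (hw.neg D) (by simp [hw.1, hc, h0, h1, D.σ_ne_zero h1]) (by simp [hv])
  exact IS.of_smul D (by simpa using h3) (mul_ne_zero h0 h1)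

variable {F V : Type*} [Field F] [AddCommGroup V] [Module F V]
  {B : V →ₛₗ[RingHom.id F] V →ₗ[F] F} {M : Subgroup (UG B)}
  {K U : Type*} [Field K] [AddCommGroup U] [Module K U] [Algebra K F] [Module K V]
  [IsScalarTower K F V] {j : U →ₗ[K] V} {B₀ : U →ₛₗ[RingHom.id K] U →ₗ[K] K}

/-- Mixed root elements along all rational flags. -/
def ZF (M : Subgroup (UG B)) (B₀ : U →ₛₗ[RingHom.id K] U →ₗ[K] K) (j : U →ₗ[K] V) (s t : F) : Prop :=
  ∀ e u, B₀ e u = 0 → e ≠ 0 → u ∉ K ∙ e → rho B (j e) (s • j u) t ∈ M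

theorem notMem_span_of_B {e u x : U} (h0 : B₀ x e = 0) (h1 : B₀ x u ≠ 0) : u ∉ K ∙ e := fun H => by
  obtain ⟨a, rfl⟩ := Submodule.mem_span_singleton.mp H
  simp [h0] at h1

namespace BF

variable (h : BF B B₀ j) [FiniteDimensional K U] [Finite F]
  (hM : ∀ e u c, Adm B₀ e u c → rho B (j e) (j u) (algebraMap K F c) ∈ M) (h2 : (2 : F) = 0)
  {s t s' t' : F}
include h

omit [FiniteDimensional K U] [Finite F] in
theorem admZ {e u : U} (H : B₀ e u = 0) (s t : F) : Adm B (j e) (s • j u) t :=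
  h.sd.adm_sp (by simp [h.zero H]) t

omit [FiniteDimensional K U] [Finite F] in
theorem zf_add (H : ZF M B₀ j s t) (H' : ZF M B₀ j s' t') : ZF M B₀ j (s + s') (t + t') :=
  fun e u a1 a2 a3 => by
    simpa [rho_mul h.sd (h.admZ a1 _ _) (h.admZ a1 _ _), h.sd.self_eq_zero rfl, add_smul] using
      mul_mem (H e u a1 a2 a3) (H' e u a1 a2 a3)

omit [Finite F] in
theorem partner {e u : U} (a1 : B₀ e u = 0) (a3 : u ∉ K ∙ e) : ∃ f, B₀ u f = 1 ∧ B₀ e f = 0 := by
  obtain ⟨f, -, c1, c2⟩ := h.sd₀.exists_partner _ (h.sd₀.self_eq_zero rfl u) a3 fun x hx => by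
    obtain ⟨a, rfl⟩ := Submodule.mem_span_singleton.mp hx; simp [a1]
  exact ⟨f, c1, c2 e (Submodule.mem_span_singleton_self e)⟩

include h2

omit [Finite F] in
theorem zf_sq (H : ZF M B₀ j s t) : ZF M B₀ j s (s * s) := fun e u a1 a2 a3 => by
  obtain ⟨f, c1, c2⟩ := h.partner a1 a3
  have c3 := h.sd₀.comm0 a1
  have c4 : B₀ e (u - f) = 0 := by simp [a1, c2]
  have c5 := mul_mem (H e (u - f) c4 a2 (notMem_span_of_B c3 (by simp [c1, h.sd₀.self_eq_zero rfl])))
    (H e f c2 a2 (notMem_span_of_B c3 (by simp [c1])))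
  rw [rho_mul h.sd (h.admZ c4 _ _) (h.admZ c2 _ _)] at c5
  convert c5 using 2
  · simp [smul_sub]
  · simp [h.map, c1, h.sd₀.self_eq_zero rfl]; linear_combination t * h2

omit [FiniteDimensional K U] [Finite F] in
theorem zf_diag (H : ZF M B₀ j s t) : ZF M B₀ j t t := fun e u a1 a2 a3 => by
  have c0 : u ≠ 0 := by rintro rfl; simp at a3
  have c1 := h.sd₀.comm0 a1
  have c2 : B₀ (u + e) e = 0 := by simp [c1, h.sd₀.self_eq_zero rfl]
  have c3 := H (u + e) e c2 (fun H => a3 (Submodule.mem_span_singleton.mpr ⟨-1, by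
    rw [eq_neg_of_add_eq_zero_left H, neg_one_smul]⟩)) (notMem_span_symm (fun H => a3 (by
      simpa using sub_mem H (Submodule.mem_span_singleton_self e))) a2)
  refine (Subgroup.mul_mem_cancel_left _ (H u e c1 c0 (notMem_span_symm a3 a2))).mp ?_
  convert c3 using 1
  refine UG_ext fun x => ?_
  rw [UG_mul_apply, rho_apply h.sd (h.admZ a1 _ _), rho_apply h.sd (h.admZ c1 _ _),
    rho_apply h.sd (h.admZ c2 _ _)]
  simp [h.zero a1, h.zero c1, h.sd.self_eq_zero rfl]
  match_scalars <;> first | ring1 | linear_combination (-s * B (j e) x) * h2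

omit h2
include hM

theorem zf_of {e u : U} (a1 : B₀ e u = 0) (a2 : e ≠ 0) (a3 : u ∉ K ∙ e)
    (H : rho B (j e) (s • j u) t ∈ M) : ZF M B₀ j s t := fun e' u' b1 b2 b3 => by
  obtain ⟨g, d1, d2, d3⟩ := h.sd₀.witt_SUG_two (li_pair_of_notMem a2 a3) (li_pair_of_notMem b2 b3)
    (by simp [h.sd₀.self_eq_zero rfl]) (b1.trans a1.symm) (by simp [h.sd₀.self_eq_zero rfl])
    (Or.inl rfl)
  obtain ⟨k, d4, d5⟩ := h.exists_ext hM d1
  simpa [conj_rho h.sd, d5, d2, d3] using mul_mem (mul_mem d4 H) (inv_mem d4)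

omit [FiniteDimensional K U] [Finite F] in
theorem zf_rat (c d : K) : ZF M B₀ j (algebraMap K F c) (algebraMap K F d) := fun e u a1 _ _ => by
  simpa [j_smul F] using hM e (c • u) d (h.sd₀.adm_sp (by simp [a1]) d)

omit hM [Finite F] in
theorem zf_comm (H : ZF M B₀ j 0 t) (H' : ZF M B₀ j s 0) : ZF M B₀ j (s * t) (t * (s * s)) :=
  fun e u a1 a2 a3 => by
    have D := h.sd
    obtain ⟨f, c1, c2⟩ := h.partner a1 a3
    have c3 := h.sd₀.comm0 a1
    have d1 := inv_mem (H' e f c2 a2 (notMem_span_of_B c3 (by simp [c1])))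
    have d2 := H u e c3 (by rintro rfl; simp at a3) (notMem_span_symm a3 a2)
    rw [zero_smul, ← tv] at d2
    have d3 := mul_mem (mul_mem (mul_mem d1 d2) (inv_mem d1)) (inv_mem d2)
    rw [conj_tv D, rho_inv D (h.admZ c2 _ _), ← neg_smul, rho_apply D (h.admZ c2 _ _), h.zero a1,
      tv_inv D, mul_zero, zero_add, show B (-s • j f) (j u) = s by
        simp [D.skew (j u), h.map, c1], zero_smul, add_zero, add_comm,
      ← rho_eq_tv_mul D (D.self_eq_zero rfl _) (D.self_eq_zero rfl _) (by simp [h.zero a1]) rfl,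
      rho_smul D (h.admZ a1 _ _), smul_smul] at d3
    exact d3

include h2

theorem zf_of_two (hr : finrank K F = 2) (H : ZF M B₀ j s t) (hs : s ∉ (algebraMap K F).range)
    {e u : U} (a1 : B₀ e u = 0) (a2 : e ≠ 0) (a3 : u ∉ K ∙ e) (a : F) : ZF M B₀ j 0 a := by
  have D := h.sd
  have k1 : ∀ e u, B₀ e u = 0 → e ≠ 0 → u ∉ K ∙ e → tv B (s • j e + j u) 1 ∈ M :=
    fun e u a1 a2 a3 => by
      have d1 := h.zf_sq h2 H e u a1 a2 a3
      have d2 := rho_smul D (h.admZ a1 1 1) s
      rw [rho_eq_tv_mul D (D.self_eq_zero rfl _) (D.self_eq_zero rfl _) (by simp [h.zero a1]) rfl,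
        one_smul, one_mul, RingHom.id_apply] at d2
      have d3 := h.tv_mem hM (h.sd₀.self_eq_zero rfl u) (c := -1) rfl
      rw [map_neg, map_one] at d3
      exact (Subgroup.mul_mem_cancel_right _ d3).mp (d2 ▸ d1)
  have k2 : IS M (s • j e + j u) := ⟨D.self_eq_zero rfl _, fun c => by
    obtain ⟨c, rfl⟩ := H13.exists_sq_eq_of_two_eq_zero h2 c
    by_cases hc : c = 0
    · simpa [hc, tv_zero D] using one_mem M
    obtain ⟨α, β, b1⟩ := exists_add_mul_of_two hr hs c
    obtain ⟨γ, δ, b2⟩ := exists_add_mul_of_two hr hs (c * s)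
    have b3 : c • (s • j e + j u) = s • j (δ • e + β • u) + j (γ • e + α • u) := by
      rw [smul_add, smul_smul, b2]
      conv_lhs => rw [b1]
      simp only [map_add, j_smul F]; module
    have b4 : ∀ (l : F) x, c • (s • j e + j u) ≠ l • j x := fun l x H => by
      have l0 : l ≠ 0 := by
        rintro rfl
        rw [zero_smul, smul_eq_zero, or_iff_right hc, add_eq_zero_iff_eq_neg', ← neg_smul] at H
        exact bc_notMem_span h.bc a3 (H ▸ Submodule.smul_mem _ _ (Submodule.mem_span_singleton_self _))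
      have b5 : j x = (c * s / l) • j e + (c / l) • j u := by
        rw [← inv_smul_smul₀ l0 (j x), ← H]; match_scalars <;> field_simp
      obtain ⟨x1, b6⟩ := mem_range_of_comb h.bc b5 (notMem_span_symm a3 a2)
      obtain ⟨x2, b7⟩ := mem_range_of_comb h.bc (b5.trans (add_comm _ _)) a3
      exact hs ⟨x1 / x2, by rw [map_div₀, b6, b7]; field_simp⟩
    have b5 := k1 (δ • e + β • u) (γ • e + α • u)
      (by simp [a1, h.sd₀.comm0 a1, h.sd₀.self_eq_zero rfl])
      (fun H => b4 1 (γ • e + α • u) (by rw [b3, H]; simp)) fun H => by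
        obtain ⟨l, hl⟩ := Submodule.mem_span_singleton.mp H
        exact b4 (s + algebraMap K F l) (δ • e + β • u) (by rw [b3, ← hl, j_smul F, add_smul])
    rw [← b3, tv_smul D (D.self_eq_zero rfl _) rfl] at b5
    simpa [sq] using b5⟩
  obtain ⟨f, c1, c2⟩ := h.partner a1 a3
  have c3 := h.sd₀.comm0 a1
  have k3 := k2.of_tv D (h.tv_mem hM (h.sd₀.self_eq_zero rfl f) (c := 1) rfl) (D.self_eq_zero rfl _)
    rfl (by simp) (by simp [h.zero (h.sd₀.comm0 c2), D.skew (j u), h.map, c1])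
  refine h.zf_of hM (h.sd₀.comm0 c2) (by rintro rfl; simp at c1)
    (notMem_span_symm (notMem_span_of_B c3 (by simp [c1])) a2) ?_
  rw [zero_smul]; exact k3.2 a

theorem zf_of_odd (hr : Odd (finrank K F)) (H : ZF M B₀ j t t) : ZF M B₀ j 0 t := by
  have : CharP F 2 := CharTwo.of_one_ne_zero_of_two_eq_zero one_ne_zero h2
  have : CharP K 2 := (Algebra.charP_iff K F 2).mpr ‹_›
  have : Finite K := Finite.of_injective _ (algebraMap K F).injective
  have := Fintype.ofFinite K
  have k1 : ∀ n : ℕ, ZF M B₀ j (t ^ 2 ^ n) (t ^ 2 ^ n) ∧ ZF M B₀ j 0 (t + t ^ 2 ^ n) := fun n => by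
    induction n with
    | zero => exact ⟨by simpa, by simpa [CharTwo.add_self_eq_zero] using h.zf_rat hM 0 0⟩
    | succ n ih =>
      have a1 := h.zf_sq h2 ih.1
      rw [← pow_add, ← two_mul, ← pow_succ'] at a1
      refine ⟨h.zf_diag h2 a1, ?_⟩
      convert h.zf_add ih.2 (h.zf_add ih.1 a1) using 1
      · simp [CharTwo.add_self_eq_zero]
      · linear_combination -t ^ 2 ^ n * h2
  obtain ⟨n, -, hn⟩ := FiniteField.card K 2
  have k2 : ZF M B₀ j 0 (∑ i ∈ Finset.range (finrank K F), (t + t ^ Nat.card K ^ i)) :=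
    Finset.sum_induction _ (ZF M B₀ j 0) (fun _ _ a b => by simpa using h.zf_add a b)
      (by simpa using h.zf_rat hM 0 0) fun i _ => by
        rw [Nat.card_eq_fintype_card, hn, ← pow_mul]; exact (k1 _).2
  rw [Finset.sum_add_distrib, ← FiniteField.algebraMap_trace_eq_sum_pow, Finset.sum_const,
    Finset.card_range] at k2
  obtain ⟨r, hr⟩ := hr
  convert h.zf_add k2 (h.zf_rat hM 0 (Algebra.trace K F t)) using 1
  · simp
  · rw [hr, nsmul_eq_mul]; push_cast; linear_combination (-r * t - algebraMap K F (Algebra.trace K F t)) * h2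

theorem mem_range_of_AM_two (hK : (finrank K F).Prime) (h4 : 4 ≤ finrank K U) (H : ¬ SUG B ≤ M)
    {e : U} {y : V} (hy : AM M (j e) y) (a2 : e ≠ 0) (u : U) (b1 : B₀ e u = 0) :
    B (j u) y ∈ (algebraMap K F).range := by
  have D := h.sd
  have : FiniteDimensional K F := .of_finrank_pos hK.pos
  by_contra b3
  have b2 := h.sd₀.self_eq_zero rfl u
  have b4 := h.tv_mem hM b2 (map_one _)
  have b5 := (hy.map D b4).sub D (by
    rwa [tv_apply_of_perp D _ (h.zero (h.sd₀.comm0 b1))] : AM M _ y)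
  rw [tv_apply_of_perp D _ (h.zero (h.sd₀.comm0 b1)), map_one,
    tv_apply D (h.zero b2) (map_one _), one_mul, add_sub_cancel_left] at b5
  have a3 : u ∉ K ∙ e := fun hx => b3 (by
    obtain ⟨c, rfl⟩ := Submodule.mem_span_singleton.mp hx
    obtain ⟨_, b6, -⟩ := hy
    exact ⟨0, by rw [j_smul F, LinearMap.map_smulₛₗ, LinearMap.smul_apply, b6.eu, smul_zero, map_zero]⟩)
  obtain ⟨t, -, b5⟩ := b5
  have k0 := h.zf_of hM b1 a2 a3 b5
  have k1 : ∀ t, ZF M B₀ j t t → ZF M B₀ j 0 t := fun t ht =>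
    hK.eq_two_or_odd'.elim (fun hr => h.zf_of_two hM h2 hr k0 b3 b1 a2 a3 t)
      fun hr => h.zf_of_odd hM h2 hr ht
  have k2 : ∀ {s t}, ZF M B₀ j s t → ZF M B₀ j s 0 := fun {s t} H => by
    convert h.zf_add H (k1 _ (h.zf_diag h2 H)) using 1
    · simp
    · linear_combination -t * h2
  let S : Subring F :=
    { carrier := {x | ∀ a, ZF M B₀ j 0 a → ZF M B₀ j 0 (a * (x * x))}
      one_mem' := fun a ha => by simpa
      zero_mem' := fun a _ => by simpa using h.zf_rat hM 0 0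
      neg_mem' := fun hx a ha => by simpa using hx a ha
      add_mem' := fun {x y} hx hy a ha => by
        convert h.zf_add (hx a ha) (hy a ha) using 1
        · simp
        · linear_combination (a * x * y) * h2
      mul_mem' := fun {x y} hx hy a ha => by convert hy _ (hx a ha) using 1; ring }
  have k3 : ∀ {s t}, ZF M B₀ j s t → s ∈ S := fun H a ha =>
    k1 _ (h.zf_diag h2 (h.zf_comm ha (k2 H)))
  have k4 := eq_top_of_finrank_prime hK (S := S) (fun c => k3 (h.zf_rat hM c 0)) (k3 k0) b3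
  refine H (h.SUG_le_of_all hM (fun a e e' _ _ => k2 (s := a) (t := a) ?_ e e') h4)
  obtain ⟨a, rfl⟩ := H13.exists_sq_eq_of_two_eq_zero h2 a
  simpa [sq] using h.zf_diag h2 (k4.ge (Subring.mem_top a) 1 (by simpa using h.zf_rat hM 0 1))

end BF

theorem max_sp_subfield_two {F : Type*} [Field F] [Fintype F] {K : Subfield F} {r m : ℕ}
    (hm : 2 ≤ m) (h2 : (2 : F) = 0) (hr : r.Prime) (h : Fintype.card F = Nat.card K ^ r)
    {P : GL (Fin m ⊕ Fin m) F} {ζ : F} (hζ : ζ ≠ 0)
    (hP : IsFormRationalStructure (sympForm m F) K ζ P) :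
    IsMaximalIn (spGL m F) (subfieldSubgroup K P ⊓ spGL m F) := by
  have hf := tvF_sp (by omega : 0 < m) F
  rw [spGL_eq_inf (by omega)]
  have hf' : H18.TvF (RingHom.id F) (-1) (sympForm m F) ζ := ⟨hf.toHForm, hζ, by simp, hf.tr, hf.iso⟩
  obtain ⟨σ₀, B₀, h1⟩ := exists_BF (sd_tB hf') (bc_jP K P) (fun _ => id)
    (fun x y => hP _ _ (fun i => (y i).2) fun i => (x i).2)
    (Or.inr fun x => (sd_tB hf').self_eq_zero rfl _)
  obtain rfl : σ₀ = RingHom.id K := RingHom.ext fun c => (algebraMap K F).injective (h1.conj c).symm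
  exact max_iso_subfield' hf' (by simp; omega) hr h P h1 fun M H hM _ _ hy _ =>
    h1.mem_range_of_AM_two hM h2 (by rwa [finrank_of_card_eq_pow h]) (by simp; omega) H hy

end Cfsg.Agent.H12
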