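import Mathlib
import Cfsg.Agent.H12.K4C
import Cfsg.Agent.H12.K4D
import Cfsg.Agent.H12.PyG
import Cfsg.Agent.H12.SubF
import Cfsg.Agent.H12.CfD
import Cfsg.Agent.H12.MaxD

/-!
Maximal subgroups of geometric type of the symplectic group in dimension four, odd characteristic.
-/

set_option autoImplicit false

namespace Cfsg.Agent.H12

open Module QuadraticMap H13 H18 Cfsg.Geo

theorem Om_le5' {F V : Type*} [Field F] [AddCommGroup V] [Module F V] [Finite V] [Fintype F] {Q : QuadraticForm F V}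
    {ι : Type*} [Fintype ι] [DecidableEq ι] {e : ι → V} {c : F} (hc : c ≠ 0) (h : ON (c • Q) e)
    (hp : (Fintype.card F).Prime) (hn : Fintype.card ι = 5) {M : Subgroup (OG Q)}
    (hM : ∀ g ∈ Om Q, g ∈ Mon Q e → g ∈ M) {g : OG Q} (hg : g ∈ M) (h2 : g ∉ Mon Q e) : Om Q ≤ M := by
  let θ : OG Q ≃* OG (c • Q) := MulEquiv.subgroupCongr (Subgroup.ext fun g => by simp [mem_OG, hc])
  have e1 : (Om Q).map θ.toMonoidHom = Om (c • Q) := by
    rw [map_commutator_eq, MonoidHom.range_eq_top.mpr θ.surjective]; rfl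
  have := Om_le5 h (M := M.map θ.toMonoidHom) (fun g h1 h2 => by
    obtain ⟨g, h3, rfl⟩ := e1 ▸ h1
    exact ⟨g, hM g h3 (mem_Mon.mpr (mem_Mon.mp h2)), rfl⟩) hp hn (g := θ g) ⟨g, hg, rfl⟩
    fun H => h2 (mem_Mon.mpr (mem_Mon.mp H))
  rwa [← e1, Subgroup.map_le_map_iff_of_injective θ.injective] at this

section

variable {F V : Type*} [Field F] [AddCommGroup V] [Module F V] {B : V →ₗ[F] V →ₗ[F] F} {M : Subgroup (UG B)}
  {g : UG B}

theorem K4.le_of_pair [FiniteDimensional F V] [Finite F] (h : K4 B) {W W' : Submodule F V} (hT : TP B W W')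
    (hq : 3 < Nat.card F) (hM : ∀ g : UG B, ((∀ w ∈ W, g.1 w ∈ W) ∧ ∀ w ∈ W', g.1 w ∈ W') ∨
      ((∀ w ∈ W, g.1 w ∈ W') ∧ ∀ w ∈ W', g.1 w ∈ W) → g ∈ M) (hg : g ∈ M)
    (hg' : ¬ (((∀ w ∈ W, g.1 w ∈ W) ∧ ∀ w ∈ W', g.1 w ∈ W') ∨
      ((∀ w ∈ W, g.1 w ∈ W') ∧ ∀ w ∈ W', g.1 w ∈ W))) : SUG B ≤ M := by
  have a0 : ∀ x, ∃ a ∈ W, ∃ b ∈ W', a + b = x := fun x => Submodule.mem_sup.mp (hT.top.ge trivial)
  have hc : IsCompl W W' := ⟨Submodule.disjoint_def.mpr fun x h1 h2 => h.sd.sep x fun y => by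
    obtain ⟨a, ha, b, hb, rfl⟩ := a0 y
    rw [map_add, hT.ti x h1 a ha, hT.ti' x h2 b hb, add_zero], codisjoint_iff.mpr hT.top⟩
  obtain ⟨X, a1, a2⟩ : ∃ X : End F V, (∀ w ∈ W, X w = w) ∧ ∀ w ∈ W', X w = -w :=
    ⟨LinearMap.ofIsCompl hc W.subtype (-W'.subtype), fun w hw => LinearMap.ofIsCompl_apply_left hc ⟨w, hw⟩,
      fun w hw => LinearMap.ofIsCompl_apply_right hc ⟨w, hw⟩⟩
  have a3 : ∀ x, (X x = x → x ∈ W) ∧ (X x = -x → x ∈ W') := fun x => by
    obtain ⟨a, ha, b, hb, rfl⟩ := a0 x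
    rw [map_add, a1 a ha, a2 b hb]
    exact ⟨fun H => by
      rwa [show b = 0 from smul_right_injective _ h.two (by simp only; linear_combination (norm := module) -H), add_zero],
      fun H => by
      rwa [show a = 0 from smul_right_injective _ h.two (by simp only; linear_combination (norm := module) H), zero_add]⟩
  have a4 : ∀ x, X (X x) = x := fun x => by
    obtain ⟨a, ha, b, hb, rfl⟩ := a0 x
    simp [a1 a ha, a2 b hb]
  have a5 : ∀ g : UG B, (∃ c : F, (g.1 : End F V) * X = c • (X * g.1)) ↔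
      ((∀ w ∈ W, g.1 w ∈ W) ∧ ∀ w ∈ W', g.1 w ∈ W') ∨ ((∀ w ∈ W, g.1 w ∈ W') ∧ ∀ w ∈ W', g.1 w ∈ W) := fun g => by
    refine ⟨fun ⟨c, hc⟩ => ?_, fun H => H.elim (fun H => ⟨1, ?_⟩) fun H => ⟨-1, ?_⟩⟩
    · have b1 : ∀ x, g.1 (X x) = c • X (g.1 x) := LinearMap.congr_fun hc
      have : Nontrivial V := Module.nontrivial_of_finrank_pos (R := F) (by rw [h.four]; omega)
      obtain ⟨e, e0⟩ := exists_ne (0 : V)
      have b2 := b1 (X e)
      rw [a4, b1, map_smul, a4, smul_smul] at b2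
      rcases mul_self_eq_one_iff.mp (smul_left_injective F (g.1.map_ne_zero_iff.mpr e0)
        (b2.symm.trans (one_smul _ _).symm)) with rfl | rfl
      · exact Or.inl ⟨fun w hw => (a3 _).1 (by simpa [a1 w hw] using (b1 w).symm),
          fun w hw => (a3 _).2 (by simpa [a2 w hw] using (b1 w).symm)⟩
      · exact Or.inr ⟨fun w hw => (a3 _).2 (by simpa [a1 w hw, neg_eq_iff_eq_neg] using (b1 w).symm),
          fun w hw => (a3 _).1 (by simpa [a2 w hw] using (b1 w).symm)⟩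
    · ext x
      obtain ⟨a, ha, b, hb, rfl⟩ := a0 x
      simp [a1 a ha, a2 b hb, a1 _ (H.1 a ha), a2 _ (H.2 b hb)]
    · ext x
      obtain ⟨a, ha, b, hb, rfl⟩ := a0 x
      simp [a1 a ha, a2 b hb, a2 _ (H.1 a ha), a1 _ (H.2 b hb), add_comm]
  refine h.le_of_skew (X := X) (d := 1) (fun x y => ?_) (LinearMap.ext fun x => by simp [a4]) one_ne_zero hq
    (fun g H => hM g ((a5 g).mp H)) hg (mt (a5 g).mp hg')
  obtain ⟨a, ha, b, hb, rfl⟩ := a0 x
  obtain ⟨a', ha', b', hb', rfl⟩ := a0 y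
  simp [a1 a ha, a2 b hb, a1 a' ha', a2 b' hb', hT.ti a ha a' ha', hT.ti' b hb b' hb']
  ring

theorem K4.le_of_unit [FiniteDimensional F V] [Finite F] (h : K4 B) {K : Type*} [Field K] [Algebra F K] [Module K V]
    [IsScalarTower F K V] [Finite K] {τ : K →+* K} {β : V →ₛₗ[τ] V →ₗ[K] K} {l : Dual F K} (hC : CF B β l)
    (hr : finrank F K = 2) (hτ : τ ≠ RingHom.id K) (hq : 3 < Nat.card F) (hM : ∀ g : UG B, NK K g.1 → g ∈ M)
    (hg : g ∈ M) (hg' : ¬ NK K g.1) : SUG B ≤ M := by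
  have : Nontrivial V := Module.nontrivial_of_finrank_pos (R := F) (by rw [h.four]; omega)
  obtain ⟨e, e0⟩ := exists_ne (0 : V)
  obtain ⟨δ, a1, a2, -, -, a3⟩ := hC.exists_skew hr h.two hτ
  obtain ⟨d, a4⟩ : ∃ d : F, δ * δ = d • 1 := by
    obtain ⟨c, d, b1⟩ := a3 (δ * δ)
    have b2 := congrArg τ b1
    rw [map_mul, a2, neg_mul_neg, ← b1, map_add, Algebra.smul_def, Algebra.smul_def, map_mul, map_mul, hC.conj,
      hC.conj, a2, map_one, RingHom.id_apply, RingHom.id_apply] at b2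
    refine ⟨c, ?_⟩
    rw [← b1, Algebra.smul_def d, show algebraMap F K d * δ = 0 from mul_left_cancel₀
      ((map_ne_zero (algebraMap F K)).mpr h.two) (by rw [map_ofNat]; linear_combination -b2), add_zero]
  let X : End F V := (LinearMap.lsmul K V δ).restrictScalars F
  have a5 : ∀ x, X x = δ • x := fun _ => rfl
  have a6 : ∀ g : UG B, (∃ c : F, (g.1 : End F V) * X = c • (X * g.1)) ↔ NK K g.1 := fun g => by
    refine ⟨fun ⟨c, hc⟩ k => ?_, fun H => ?_⟩
    · obtain ⟨a, b, rfl⟩ := a3 k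
      refine ⟨a • 1 + (b * c) • δ, fun v => ?_⟩
      have : g.1 (δ • v) = c • δ • g.1 v := LinearMap.congr_fun hc v
      simp [add_smul, this, mul_smul]
    obtain ⟨k, hk⟩ := H δ
    have b1 : (δ * δ) • g.1 e = (k * k) • g.1 e := by
      rw [mul_smul k, ← hk, ← hk, smul_smul, a4]; simp
    rcases mul_self_eq_mul_self_iff.mp (smul_left_injective K (g.1.map_ne_zero_iff.mpr e0) b1) with rfl | H
    · exact ⟨1, LinearMap.ext fun v => by simp [a5, hk]⟩
    · exact ⟨-1, LinearMap.ext fun v => by simp [a5, hk, show k = -δ by rw [H, neg_neg]]⟩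
  exact h.le_of_skew (X := X) (d := d) (fun x y => by simp [a5, hC.map, a2])
    (LinearMap.ext fun x => by simp [a5, smul_smul, a4]) (by rintro rfl; simp [a1] at a4) hq
    (fun g H => hM g ((a6 g).mp H)) hg (mt (a6 g).mp hg')

variable {K U : Type*} [Field K] [AddCommGroup U] [Module K U] [Algebra K F] [Module K V]
  [IsScalarTower K F V] {j : U →ₗ[K] V} {B₀ : U →ₛₗ[RingHom.id K] U →ₗ[K] K} {s t : F}

theorem BF.zf_scale (h : BF B B₀ j) (H : ZF M B₀ j s t) {c d : K} (hc : c ≠ 0) (hd : d ≠ 0) :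
    ZF M B₀ j (algebraMap K F (c * d) * s) (t * algebraMap K F (c * c)) := fun e u a1 a2 a3 => by
  have := H (c • e) (d • u) (by simp [a1]) (smul_ne_zero hc a2) (by
    rwa [Submodule.span_singleton_smul_eq hc.isUnit, Submodule.smul_mem_iff _ hd])
  rw [j_smul F c, rho_smul h.sd (h.admZ (by simp [a1]) _ _), j_smul F d, smul_smul, smul_smul] at this
  convert this using 2
  · simp; ring_nf
  · simp

theorem BF.mem_range_of_AM_odd (h : BF B B₀ j) [FiniteDimensional K U] [Finite F]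
    (hM : ∀ e u c, Adm B₀ e u c → rho B (j e) (j u) (algebraMap K F c) ∈ M) (h2 : (2 : F) ≠ 0)
    (hK : (finrank K F).Prime) (h4 : 4 ≤ finrank K U) (H : ¬ SUG B ≤ M)
    {e : U} {y : V} (hy : AM M (j e) y) (a2 : e ≠ 0) (u : U) (b1 : B₀ e u = 0) :
    B (j u) y ∈ (algebraMap K F).range := by
  have D := h.sd
  have : FiniteDimensional K F := .of_finrank_pos hK.pos
  by_contra b3
  have b2 := h.sd₀.self_eq_zero rfl u
  have b4 := h.tv_mem hM b2 (map_one _)
  have b5 := (hy.map D b4).sub D (by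
    rwa [tv_apply_of_perp D _ (h.zero (h.sd₀.comm0 b1))] : AM M _ y)
  rw [tv_apply_of_perp D _ (h.zero (h.sd₀.comm0 b1)), map_one,
    tv_apply D (h.zero b2) (map_one _), one_mul, add_sub_cancel_left] at b5
  have a3 : u ∉ K ∙ e := fun hx => b3 (by
    obtain ⟨c, rfl⟩ := Submodule.mem_span_singleton.mp hx
    obtain ⟨_, b6, -⟩ := hy
    exact ⟨0, by rw [j_smul F, LinearMap.map_smulₛₗ, LinearMap.smul_apply, b6.eu, smul_zero, map_zero]⟩)
  obtain ⟨t, -, b5⟩ := b5
  have k0 := h.zf_of hM b1 a2 a3 b5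
  have t2 : (2 : K) ≠ 0 := fun H => h2 (by rw [← map_ofNat (algebraMap K F), H, map_zero])
  have k1 : ∀ {t}, ZF M B₀ j 0 (2 * t) → ZF M B₀ j 0 t := fun H => by
    have := h.zf_scale H (inv_ne_zero t2) one_ne_zero
    convert h.zf_add this this using 1
    · simp
    · simp only [map_mul, map_inv₀, map_ofNat]; field_simp; ring
  have k2 : ∀ {s t}, ZF M B₀ j s t → ZF M B₀ j (-s) (-t) := fun H e u a1 a2 a3 => by
    simpa [rho_inv D (h.admZ a1 _ _)] using inv_mem (H e u a1 a2 a3)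
  have k3 : ∀ {s t}, ZF M B₀ j s t → ZF M B₀ j 0 t := fun H => k1 (by
    simpa [two_mul] using h.zf_add H (h.zf_scale H one_ne_zero (neg_ne_zero.mpr one_ne_zero)))
  have k4 : ∀ {s t}, ZF M B₀ j s t → ZF M B₀ j s 0 := fun H => by simpa using h.zf_add H (k2 (k3 H))
  have k5 : ZF M B₀ j 0 1 := by simpa using h.zf_rat hM 0 1
  have k6 : ZF M B₀ j 1 0 := by simpa using h.zf_rat hM 1 0
  let S : Subring F :=
    { carrier := {x | ZF M B₀ j x 0}
      one_mem' := k6
      zero_mem' := by simpa using h.zf_rat hM 0 0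
      neg_mem' := fun hx => by simpa using k2 hx
      add_mem' := fun hx hy => by simpa using h.zf_add hx hy
      mul_mem' := fun {x y} hx hy => by
        have c1 := k3 (h.zf_comm k5 (by simpa using h.zf_add hx hy : ZF M B₀ j (x + y) 0))
        have c2 := h.zf_add c1 (k2 (h.zf_add (k3 (h.zf_comm k5 hx)) (k3 (h.zf_comm k5 hy))))
        simpa using k4 (h.zf_comm (k1 (t := x * y) (by convert c2 using 1 <;> ring)) k6) }
  have k7 := eq_top_of_finrank_prime hK (S := S) (fun c => k4 (h.zf_rat hM c 0)) (k4 k0) b3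
  exact H (h.SUG_le_of_all hM (fun a e e' _ _ => k7.ge (Subring.mem_top a) e e') h4)

variable {E : Type*} [AddCommGroup E] [Module (ZMod 2) E] {β : LinearMap.BilinForm (ZMod 2) E} {P : E → V ≃ₗ[F] V}
  {q : E → ZMod 2} {N R : Subgroup (V ≃ₗ[F] V)}

theorem PO.np (h : PO β P q B N) (h1 : ∀ a, P a ∈ R) (h2 : zs V (-1) ∈ R) [Finite V]
    (H : ∀ A ≤ R, (∀ g ∈ A, g * g = 1) → Nat.card A < 8) : NP β q := fun a b qa qb b1 => by
  by_contra! hc
  obtain ⟨c1, c2, c3⟩ := hc
  let f : ZMod 2 × ZMod 2 × ZMod 2 → V ≃ₗ[F] V := fun p => zs V (sgU F p.1) * P (p.2.1 • a + p.2.2 • b)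
  have f1 : ∀ p, f p * f p = 1 := fun ⟨t, j, k⟩ => by
    have : q (j • a + k • b) = 0 := by
      rcases z2_cases j with rfl | rfl <;> rcases z2_cases k with rfl | rfl <;> simp [h.q_add, h.q_zero h.q_add, *]
    simp only [f]
    rw [mul_assoc, zs_left _ (P _), zs_zs, sgU_mul_self, h.sq', this]; simp
  have f2 : ∀ p p', ∃ p'', f p'' = f p * f p' := fun ⟨t, j, k⟩ ⟨t', j', k'⟩ => by
    obtain ⟨r, hr⟩ := h.mul' (j • a + k • b) (j' • a + k' • b)
    refine ⟨⟨t + t' + r, j + j', k + k'⟩, ?_⟩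
    simp only [f]
    rw [mul_assoc, zs_left _ (P _), hr, zs_zs, zs_zs, sgU_add, sgU_add]
    congr 2; module
  let A : Subgroup (V ≃ₗ[F] V) :=
    { carrier := Set.range f
      one_mem' := ⟨0, by simp [f, h.zero]⟩
      mul_mem' := by rintro _ _ ⟨p, rfl⟩ ⟨p', rfl⟩; exact f2 p p'
      inv_mem' := by rintro _ ⟨p, rfl⟩; exact ⟨p, eq_inv_of_mul_eq_one_left (f1 p)⟩ }
  have f3 : Function.Injective f := fun ⟨t, j, k⟩ ⟨t', j', k'⟩ e => by
    have key : ∀ j k : ZMod 2, j • a + k • b = 0 → j = 0 ∧ k = 0 := fun j k e => by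
      rcases z2_cases j with rfl | rfl <;> rcases z2_cases k with rfl | rfl <;>
        simp only [zero_smul, one_smul, add_zero, zero_add] at e <;>
        first | contradiction | exact absurd (e2_eq_of_add e) ‹_› | simp
    obtain ⟨d2, d3⟩ := key (j - j') (k - k') (by linear_combination (norm := module) h.uniq e)
    rw [show t = t' from sgU_inj h.two (h.uniq' e), sub_eq_zero.mp d2, sub_eq_zero.mp d3]
  have := H A (by
    rintro _ ⟨p, rfl⟩
    exact mul_mem (by rcases z2_cases p.1 with e | e <;> simp [e, h2]) (h1 _)) (by rintro _ ⟨p, rfl⟩; exact f1 p)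
  rw [show Nat.card A = _ from Nat.card_range_of_injective f3] at this
  simp at this

theorem K4.le_of_po [Finite V] [Fintype F] [Finite E] [FiniteDimensional F V] (h : K4 B) (hP : PO β P q B N)
    (hN : NP β q) (hp : (Fintype.card F).Prime) (hM : ∀ g : UG B, Nm P g.1 → g ∈ M) (hg : g ∈ M)
    (hg' : ¬ Nm P g.1) : SUG B ≤ M := by
  classical
  have t2 := h.two
  have := Fintype.ofFinite {a // a ≠ 0 ∧ q a = 0}
  have a0 : ∀ a x y, B (P a x) y = sgU F (q a) * B x (P a y) := fun a x y => by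
    rw [← hP.iso a (P a x), ← LinearEquiv.mul_apply, hP.sq']; simp
  let e : {a // a ≠ 0 ∧ q a = 0} → SA B := fun a => ⟨P a, fun x y => by simp [a0, a.2.2], hP.trE_P a.2.1⟩
  have a1 : ∀ a, (e a).1 = P a := fun _ => rfl
  have o : (1 : End F V) ≠ 0 := have := hP.nt; one_ne_zero
  have a2 : ∀ a b, polar ((2 : F)⁻¹ • QA B : QuadraticForm F _) (e a) (e b) = if a = b then 1 else 0 := fun a b => by
    have := h.anti (e a) (e b)
    rw [a1, a1, ← LinearEquiv.coe_toLinearMap_mul, ← LinearEquiv.coe_toLinearMap_mul] at this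
    rw [polar_smul_form]
    split_ifs with H
    · rw [← H, hP.sq', a.2.2] at this
      rw [← H, show polar (QA B) (e a) (e a) = 2 from smul_left_injective F o (by
        simp only; rw [← this, two_smul]; simp; rfl), inv_mul_cancel₀ t2]
    · rw [hP.comm, show β a b = 1 from z2_ne.mp fun H' => by
        simpa [a.2.1, b.2.1, Subtype.val_inj, H] using hN _ _ a.2.2 b.2.2 H'] at this
      rw [show polar (QA B) (e a) (e b) = 0 from smul_left_injective F o (by
        simp only; rw [← this]; ext; simp), mul_zero]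
  have a3 : ∀ X, X ∈ Submodule.span F (Set.range e) := fun X => by
    have : ∀ X : End F V, ∃ S ∈ Submodule.span F (Set.range e), ∃ c : F, ∀ x y, B ((X - S.1 - c • 1) x) y =
        -B x ((X - S.1 - c • 1) y) := fun X => by
      induction (hP.span ▸ Submodule.mem_top : X ∈ _) using Submodule.span_induction with
      | mem x hx =>
        obtain ⟨a, rfl⟩ := hx
        by_cases H : a = 0
        · exact ⟨0, zero_mem _, 1, by simp [H, hP.zero]⟩
        rcases z2_cases (q a) with H' | H'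
        · exact ⟨e ⟨a, H, H'⟩, Submodule.subset_span ⟨_, rfl⟩, 0, by simp [a1]⟩
        · exact ⟨0, zero_mem _, 0, by simp [a0, H']⟩
      | zero => exact ⟨0, zero_mem _, 0, by simp⟩
      | add x y _ _ h1 h2 =>
        obtain ⟨S, b1, c, b2⟩ := h1
        obtain ⟨S', b3, c', b4⟩ := h2
        exact ⟨S + S', add_mem b1 b3, c + c', fun u v => by
          have := b2 u v; have := b4 u v; simp at *; grind⟩
      | smul d x _ h1 =>
        obtain ⟨S, b1, c, b2⟩ := h1
        exact ⟨d • S, Submodule.smul_mem _ _ b1, d * c, fun u v => by have := b2 u v; simp at *; grind⟩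
    obtain ⟨S, b1, c, b2⟩ := this X
    have b3 : X.1 - S.1 = c • 1 := sub_eq_zero.mp (LinearMap.ext fun y => h.sd.sep _ fun x => mul_left_cancel₀ t2 (by
      have := b2 y x; simp [X.2.1, S.2.1] at *; grind))
    have b4 := congrArg (LinearMap.trace F V) b3
    simp [X.2.2, S.2.2, h.four, h.t4] at b4
    rwa [show X = S from Subtype.ext (by simpa [b4, sub_eq_zero] using b3)]
  have a4 : ON ((2 : F)⁻¹ • QA B) e := ⟨t2, a2, fun X => by
    generalize ((2 : F)⁻¹ • QA B : QuadraticForm F _) = Q at a2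
    induction a3 X using Submodule.span_induction with
    | mem x hx => obtain ⟨a, rfl⟩ := hx; simp [a2]
    | zero => simp
    | add x y _ _ h1 h2 => simp [add_smul, Finset.sum_add_distrib, h1, h2]
    | smul d x _ h1 => simp [mul_smul, ← Finset.smul_sum, h1]⟩
  have : Finite (SA B) := Module.finite_of_finite F
  have a5 : ∀ g : UG B, rA B g ∈ Mon (QA B) e ↔ Nm P g.1 := fun g => by
    rw [mem_Mon]
    refine ⟨fun H x => by_contra fun H' => ?_, fun H a => ?_⟩
    · let W : Submodule (ZMod 2) E :=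
        { carrier := {x | Rz P (g.1 * P x * g.1⁻¹)}
          add_mem' := hP.rz_add
          zero_mem' := by simpa [hP.zero] using hP.rz_zs 1
          smul_mem' := fun c x hx => by
            rcases z2_cases c with rfl | rfl
            · simpa [hP.zero] using hP.rz_zs 1
            · simpa using hx }
      obtain ⟨y, b1, b2⟩ := hP.exists_sep (W := W) H'
      obtain ⟨c, hc⟩ := h.cent (Y := P y) fun X => by
        induction a3 X using Submodule.span_induction with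
        | mem x hx =>
          obtain ⟨a, rfl⟩ := hx
          obtain ⟨b, c, hc⟩ := H a
          have c0 : c ≠ 0 := by
            rintro rfl
            have := a2 a a
            rw [(rA B g).1.map_eq_zero_iff.mp (hc.trans (zero_smul _ _)), polar_zero_left] at this
            simp at this
          rw [a1, ← LinearEquiv.coe_toLinearMap_mul, hP.comm, b2 a ⟨b, Units.mk0 c c0, LinearEquiv.toLinearMap_injective
            (congrArg Subtype.val hc)⟩]
          simp
        | zero => simp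
        | add x y _ _ h1 h2 => simp [add_mul, mul_add, h1, h2]
        | smul d x _ h1 => simp [h1]
      have c0 : c ≠ 0 := by
        rintro rfl
        exact o (LinearMap.ext fun v => (P y).map_eq_zero_iff.mp (by simpa using LinearMap.congr_fun hc v))
      rw [hP.uniq (a := y) (b := 0) (c := 1) (d := Units.mk0 c c0) (LinearEquiv.ext fun v => by
        simpa [hP.zero] using LinearMap.congr_fun hc v)] at b1
      simp at b1
    obtain ⟨b, c, hc⟩ := H a
    have c1 : ((rA B g).1 (e a)).1 = (c : F) • (P b : End F V) := congrArg LinearEquiv.toLinearMap hc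
    refine ⟨⟨b, ?_, z2_ne'.mp fun H => ?_⟩, c, Subtype.ext c1⟩
    · rintro rfl
      have := ((rA B g).1 (e a)).2.2
      simp [c1, hP.zero, h.four, h.t4] at this
    have := hP.nt
    obtain ⟨v, v0⟩ := exists_ne (0 : V)
    obtain ⟨w, hw⟩ := h.sd.exists_ne ((P b).map_ne_zero_iff.mpr v0)
    have := ((rA B g).1 (e a)).2.1 v w
    simp [c1, a0, H, neg_eq_iff_add_eq_zero, ← two_mul, t2] at this hw
    exact hw this
  exact h.le_of (fun g H => hM g ((a5 g).mp H)) (fun N a b c d => Om_le5' (inv_ne_zero t2) a4 hp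
    (a4.finrank_eq.symm.trans h.five) a c d) hg (mt (a5 g).mp hg')

end

variable {F : Type*} [Field F] [Fintype F]

theorem k4_sp (h2 : (2 : F) ≠ 0) : K4 (tB (tvF_sp two_pos F)) := ⟨sd_tB _, h2, by simp⟩

theorem max_sp4_pair (h2 : (2 : F) ≠ 0) (hq : 3 < Fintype.card F) {D : Fin 2 → Submodule F (Fin 2 ⊕ Fin 2 → F)}
    (hD : IsMDecomposition 2 D) (hts : ∀ i, IsTotallySingularFor (sympForm 2 F) (D i)) :
    IsMaximalIn (spGL 2 F) (decompositionStabilizer D ⊓ spGL 2 F) := by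
  have hf := tvF_sp two_pos F
  rw [spGL_eq_inf two_pos]
  have h1 : ∀ i, ∀ u ∈ D i, ∀ v ∈ D i, tB hf u v = 0 := fun i u hu v hv =>
    (tB_eq_zero' hf).mpr (hts i u hu v hv)
  have h : TP (tB hf) (D 0) (D 1) := ⟨h1 0, h1 1, by
    rw [eq_top_iff, ← hD.iSup_eq_top]
    exact iSup_le (Fin.forall_fin_two.mpr ⟨le_sup_left, le_sup_right⟩)⟩
  have h3 : ∀ (g : UG (tB hf)) i j, (∀ w ∈ D i, g.1 w ∈ D j) → (D i).map g.1.toLinearMap = D j :=
    fun g i j H => map_eq_of_mapsTo _ H (by rw [hD.finrank_eq, hD.finrank_eq])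
  have h4 : ∀ g : UG (tB hf), ((∀ w ∈ D 0, g.1 w ∈ D 0) ∧ ∀ w ∈ D 1, g.1 w ∈ D 1) ∨
      ((∀ w ∈ D 0, g.1 w ∈ D 1) ∧ ∀ w ∈ D 1, g.1 w ∈ D 0) →
        ∃ π : Equiv.Perm (Fin 2), ∀ i, (D i).map g.1.toLinearMap = D (π i) := fun g H =>
    H.elim (fun H => ⟨1, Fin.forall_fin_two.mpr ⟨h3 g _ _ H.1, h3 g _ _ H.2⟩⟩)
      fun H => ⟨Equiv.swap 0 1, Fin.forall_fin_two.mpr ⟨h3 g _ _ H.1, h3 g _ _ H.2⟩⟩
  exact isMaximalIn_iso hf (fun g => ∃ π : Equiv.Perm (Fin 2), ∀ i, (D i).map g.toLinearMap = D (π i))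
    (fun _ => Iff.rfl) ((has_SU hf).not_le_decomp hD (by omega)) fun M hM _ g hg hg' =>
      (k4_sp h2).le_of_pair h (by rwa [Nat.card_eq_fintype_card])
        (fun g H => hM g (((sd_tB hf).SUG_eq_top rfl).ge trivial) (h4 g H)) hg (mt (h4 g) hg')

theorem max_sp4_unit (h2 : (2 : F) ≠ 0) (hq : 3 < Fintype.card F)
    {K : Subalgebra F (Matrix (Fin 2 ⊕ Fin 2) (Fin 2 ⊕ Fin 2) F)} (hK : IsFieldSubalgebra 2 K)
    (hac : IsAdjointClosedFor (sympForm 2 F) K) (hnsa : ¬ IsSelfAdjointFor (sympForm 2 F) K) :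
    IsMaximalIn (spGL 2 F) (subalgebraNormalizer K ⊓ spGL 2 F) := by
  have hf := tvF_sp two_pos F
  have ha := hf.adjClosed_iff.mp hac
  let := (H18.isField_of_inv K hK.comm hK.inv).toField
  have h4 : H18.adjHom hf.toHForm hK.comm ha ≠ RingHom.id K := fun H =>
    hnsa (hf.selfAdj_iff.mpr fun x hx => congrArg Subtype.val (RingHom.congr_fun H ⟨x, hx⟩))
  obtain ⟨β, h⟩ := exists_CF_adj hf hK ha (Or.inl h4)
  rw [spGL_eq_inf two_pos]
  exact isMaximalIn_iso hf _ (fun _ => mem_normalizer_iff)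
    (iso_not_le_field hf le_rfl hK (by simp)) fun M hM _ g hg hg' =>
      (k4_sp h2).le_of_unit h hK.finrank_eq h4 (by rwa [Nat.card_eq_fintype_card])
        (fun k H => hM _ (((sd_tB hf).SUG_eq_top rfl).ge trivial) H) hg hg'

theorem max_sp_subfield_odd {K : Subfield F} {r m : ℕ} (hm : 2 ≤ m) (h2 : (2 : F) ≠ 0) (hr : r.Prime)
    (h : Fintype.card F = Nat.card K ^ r) {P : GL (Fin m ⊕ Fin m) F} {ζ : F} (hζ : ζ ≠ 0)
    (hP : IsFormRationalStructure (sympForm m F) K ζ P) :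
    IsMaximalIn (spGL m F) (subfieldSubgroup K P ⊓ spGL m F) := by
  have hf := tvF_sp (by omega : 0 < m) F
  rw [spGL_eq_inf (by omega)]
  have hf' : H18.TvF (RingHom.id F) (-1) (sympForm m F) ζ := ⟨hf.toHForm, hζ, by simp, hf.tr, hf.iso⟩
  obtain ⟨σ₀, B₀, h1⟩ := exists_BF (sd_tB hf') (bc_jP K P) (fun _ => id)
    (fun x y => hP _ _ (fun i => (y i).2) fun i => (x i).2)
    (Or.inr fun x => (sd_tB hf').self_eq_zero rfl _)
  obtain rfl : σ₀ = RingHom.id K := RingHom.ext fun c => (algebraMap K F).injective (h1.conj c).symm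
  exact max_iso_subfield' hf' (by simp; omega) hr h P h1 fun M H hM _ _ hy _ =>
    h1.mem_range_of_AM_odd hM h2 (by rwa [finrank_of_card_eq_pow h]) (by simp; omega) H hy

theorem max_sp4_c6 (h2 : (2 : F) ≠ 0) {R : Subgroup (GL (Fin 2 ⊕ Fin 2) F)} (hR : IsSymplecticTypeGroup 2 R)
    (h : ActsAbsolutelyIrreducibly (matrixSet R)) (hU : R ≤ spGL 2 F) (hp : (Fintype.card F).Prime)
    (hn : IsOfMinusType 2 R) : IsMaximalIn (spGL 2 F) (subgroupNormalizer R ⊓ spGL 2 F) := by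
  have hf := tvF_sp two_pos F
  have D := sd_tB hf
  rw [spGL_eq_inf two_pos] at hU ⊢
  obtain ⟨E, _, _, _, B, P, q, a1, a2, a3, a4⟩ := (ai_of_geo hR h).exists_PO (T := tB hf) h2 D.sep
    (by rintro _ ⟨g, hg, rfl⟩; exact (glEq_mem_UG hf).mpr (hU hg).1) (by simp)
  exact isMaximalIn_iso hf _ (fun g => norm_glEq)
    ((has_SU hf).not_le_normalizer Nat.prime_two hR.pGroup h (Or.inl ⟨rfl, h2, by simp⟩)) fun M m1 _ g hg H =>
    (k4_sp h2).le_of_po a1 (a1.np a2 a3 (card_lt_of_minus hn)) hp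
      (fun g H => m1 g ((D.SUG_eq_top rfl).ge trivial) ((a4 _ g.2).mpr H)) hg (mt (a4 _ g.2).mpr H)

end Cfsg.Agent.H12
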