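import Mathlib
import Cfsg.Agent.H12.MaxB
import Cfsg.Agent.H12.UfA

/-!
Unitary similarity groups in dimension four are maximal in the special linear group.
-/

set_option autoImplicit false

namespace Cfsg.Agent.H12

open Module

variable {F V : Type*} [Field F] [AddCommGroup V] [Module F V] {σ : F →+* F}
  {B : V →ₛₗ[σ] V →ₗ[F] F} [FiniteDimensional F V] [Finite F] {M : Subgroup (V ≃ₗ[F] V)}

omit [Finite F] in
theorem SD.witt_two (D : SD B) {x y x' y' : V} (he : LinearIndependent F ![x, y])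
    (hf : LinearIndependent F ![x', y']) (h1 : B x' x' = B x x) (h2 : B x' y' = B x y)
    (h3 : B y' y' = B y y) : ∃ g : UG B, g.1 x = x' ∧ g.1 y = y' := by
  obtain ⟨g, h⟩ := D.witt he hf (fun i j => by
    fin_cases i <;> fin_cases j <;> simp [h1, h2, h3, D.skew x y, D.skew x' y'])
  exact ⟨g, h 0, h 1⟩

theorem SD.TR_smul4 (D : SD B) (hσ : σ ≠ RingHom.id F) (hn : 4 ≤ finrank F V)
    (hM : ∀ k ∈ SUG B, k.1 ∈ M) {u x : V} (hu : u ≠ 0) (h : TR M u (B x)) (hx : x ∉ F ∙ u)
    (h1 : B u x = 0) (h2 : B x x = 0) (c : F) : TR M u (B (c • x)) := by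
  have li := li_pair_of_notMem hu hx
  have h1' := D.comm0 h1
  have lis : ∀ a b : F, a ≠ 0 → b ≠ 0 → LinearIndependent F ![a • u, b • x] := fun a b ha hb => by
    rw [LinearIndependent.pair_iff] at li ⊢
    intro s t hst
    obtain ⟨e1, e2⟩ := li (s * a) (t * b) (by rw [← hst]; module)
    exact ⟨(mul_eq_zero.mp e1).resolve_right ha, (mul_eq_zero.mp e2).resolve_right hb⟩
  by_cases h0 : B u u = 0
  · let A : AddSubgroup F :=
      { carrier := {c | TR M u (B (c • x))}
        zero_mem' := by simpa using TR.zero_right u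
        add_mem' := fun {a b} ha hb => by
          simp only [Set.mem_ofPred_eq, add_smul, map_add] at ha hb ⊢
          exact ha.add_right hb
        neg_mem' := fun {a} ha => by
          simp only [Set.mem_ofPred_eq, neg_smul, map_neg] at ha ⊢
          exact ha.neg_right }
    refine eq_top_of_mu hσ D.invol (A := A) (fun ε hε c hc => ?_) (c := 1)
      (by simpa [A] using h) one_ne_zero c
    obtain ⟨l, hl0, hl⟩ : ∃ l : F, l ≠ 0 ∧ σ l = ε * l := by
      obtain ⟨a, ha⟩ : ∃ a, a + σ ε * σ a ≠ 0 := by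
        by_contra! H
        refine hσ (RingHom.ext fun a => ?_)
        have e1 := H a
        have e2 := H 1
        rw [map_one] at e2
        simp only [RingHom.id_apply]
        linear_combination -e1 + σ a * e2
      refine ⟨_, ha, ?_⟩
      rw [map_add, map_mul, D.invol, D.invol]
      linear_combination -σ a * hε
    obtain ⟨g, g1, g2⟩ := D.witt_two li (by simpa using lis l 1 hl0 one_ne_zero)
      (x' := l • u) (y' := x) (by simp [h0]) (by simp [h1]) rfl
    obtain ⟨s, s1, s2⟩ := D.witt_two li (LinearIndependent.pair_symm_iff.mp li) (by rw [h0, h2])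
      (by rw [h1, h1']) (by rw [h0, h2])
    have hk : g * s * g⁻¹ * s⁻¹ ∈ SUG B := by
      rw [SUG, MonoidHom.mem_ker]
      simp only [map_mul, map_inv]
      rw [mul_comm _ (_ : Fˣ)⁻¹, mul_assoc, mul_comm _ (_ : Fˣ)⁻¹]
      group
    have e1 : s⁻¹.1 u = x := by rw [← s2]; exact s.1.symm_apply_apply x
    have e2 : s⁻¹.1 x = u := by rw [← s1]; exact s.1.symm_apply_apply u
    have e3 : g⁻¹.1 x = x := by conv_lhs => rw [← g2]; exact g.1.symm_apply_apply x
    have e4 : g⁻¹.1 u = l⁻¹ • u := g.1.symm_apply_eq.mpr (by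
      rw [map_smul, g1, smul_smul, inv_mul_cancel₀ hl0, one_smul])
    have := TR.map_form hc (hM _ hk)
    simp only [UG_mul_apply, map_smul _ _ x, map_smul _ _ u, e1, e2, e3, e4, s1, s2, g1, g2] at this
    replace this := this.smul_of_left
    change TR M u (B ((ε * c) • x))
    convert this using 1
    ext z
    simp only [LinearMap.map_smulₛₗ, LinearMap.smul_apply, smul_eq_mul, map_mul, map_inv₀, hl]
    have : ε ≠ 0 := by rintro rfl; simp at hε
    field_simp
    linear_combination σ c * B x z * hε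
  · by_cases hc : c = 0
    · simpa [hc] using TR.zero_right u
    obtain ⟨g, g1, g2⟩ := D.witt_two li (by simpa using lis 1 c one_ne_zero hc)
      (x' := u) (y' := c • x) rfl (by simp [h1]) (by simp [h2])
    obtain ⟨r, r1, r2⟩ : ∃ r, B r r ≠ 0 ∧ ∀ y ∈ ({u, c • x} : Set V), B r y = 0 := by
      by_contra! H
      have a1 := D.ti_of_iso hσ (W := sperp B (Submodule.span F {u, x})) fun r hr => by
        by_contra h0
        obtain ⟨w, hw, h2⟩ := H r h0
        rw [mem_sperp_pair] at hr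
        rcases hw with rfl | rfl
        · exact h2 (D.comm0 hr.1)
        · exact h2 (by simp [D.comm0 hr.2])
      have a2 : sperp B (Submodule.span F {u, x}) ≤ Submodule.span F {u, x} := fun y hy => by
        rw [← D.sperp_sperp (Submodule.span F {u, x})]
        exact fun w hw => a1 w hw y hy
      have a3 := D.finrank_sperp (Submodule.span F {u, x})
      have a4 := finrank_span_pair_le (F := F) u x
      have a5 := (Submodule.eq_of_le_of_finrank_le a2 (by omega)).ge
        (Submodule.subset_span (show u ∈ ({u, x} : Set V) by simp))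
      exact h0 (mem_sperp_pair.mp a5).1
    obtain ⟨k, k1, k2⟩ := D.exists_fix_det g (Or.inr ⟨r, r1, r2⟩)
    have := h.map_form (hM _ k1)
    rwa [UG_mul_apply, UG_mul_apply, g1, g2, k2 _ (by simp), k2 _ (by simp)] at this

theorem SD.mem_PS4 (D : SD B) (hσ : σ ≠ RingHom.id F) (hn : 4 ≤ finrank F V)
    (hM : ∀ k ∈ SUG B, k.1 ∈ M) {u w : V} (hu : u ≠ 0) (h : TR M u (B w)) (hw : w ∉ F ∙ u) :
    u ∈ PS M := by
  have ex : ∀ w, w ∉ F ∙ u → ∃ x, B u x = 0 ∧ B x x = 0 ∧ B x w ≠ 0 := fun w hw => by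
    by_contra! H
    exact hw (D.mem_span_of_perp fun x hx => D.comm0 (D.perp_iso_induction D.ns
      (Or.inr hn) hu (p := fun x => B x w = 0) H
      (fun x y hx hy => by simp [hx, hy]) hx))
  have step : ∀ w x, TR M u (B w) → B u x = 0 → B x x = 0 → TR M u (B (B x w • x)) :=
    fun w x h h1 h2 => by
      have h4 := h.map_form (hM _ (tv_mem_SUG D x 1))
      rw [tv_apply_of_perp D _ (D.comm0 h1), tv_apply D h2 (map_one σ), one_mul, map_add] at h4
      replace h4 := h4.sub_right h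
      rwa [add_sub_cancel_left] at h4
  have step' : ∀ w x, (∀ c : F, TR M u (B (c • w))) → B u x = 0 → B x x = 0 → B x w ≠ 0 →
      ∀ c : F, TR M u (B (c • x)) := fun w x h h1 h2 h3 c => by
    simpa only [map_smul, smul_eq_mul, div_mul_cancel₀ _ h3] using step _ x (h (c / B x w)) h1 h2
  obtain ⟨x, h1, h2, h3⟩ := ex w hw
  have h4 := step w x h h1 h2
  set x₀ := B x w • x with hx₀
  have h5 : B u x₀ = 0 := by simp [hx₀, h1]
  have h6 : B x₀ x₀ = 0 := by simp [hx₀, h2]
  have h7 : x₀ ∉ F ∙ u := fun h7 => by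
    obtain ⟨a, ha⟩ := Submodule.mem_span_singleton.mp h7
    have := congrArg (B w) ha
    simp [h.1, hx₀, h3, D.ne0 h3] at this
  have h8 := D.TR_smul4 hσ hn hM hu h4 h7 h5 h6
  obtain ⟨z, z1, z2, z3⟩ := ex x₀ h7
  have h9 := step' _ z h8 z1 z2 z3
  intro φ hφ
  obtain ⟨y, hy⟩ := D.exists_repr φ
  obtain rfl : B y = φ := LinearMap.ext hy
  refine D.perp_iso_induction D.ns (Or.inr hn) hu (p := fun y => TR M u (B y))
    (fun y hy1 hy2 => ?_) (fun x y hx hy => by rw [map_add]; exact hx.add_right hy) (D.comm0 hφ)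
  by_cases a1 : B y x₀ = 0
  · by_cases a2 : B y z = 0
    · have := (step' _ (y + x₀) h9 (by simp [hy1, h5]) (by simp [hy2, h6, a1, D.comm0 a1])
        (by simpa [a2] using D.ne0 z3) 1).sub_right h4
      rwa [one_smul, map_add, add_sub_cancel_right] at this
    · simpa using step' _ y h9 hy1 hy2 a2 1
  · simpa using step' _ y h8 hy1 hy2 a1 1

theorem SD.SLV_le_of_sim4 (D : SD B) (hσ : σ ≠ RingHom.id F) (hn : 4 ≤ finrank F V)
    (hM : ∀ k ∈ SUG B, k.1 ∈ M) {g : V ≃ₗ[F] V}
    (hg : g ∈ M) (hg' : ¬ Sim B g) : SLV F V ≤ M := by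
  by_contra h0
  refine hg' (D.sim_of_iso D.ns (by omega) fun v hv hv0 => ?_)
  have h1 : TR M v (B v) := ⟨hv, _, hM _ (tv_mem_SUG D v 1), fun x => by
    rw [tv_apply D hv (map_one σ), one_mul]⟩
  obtain ⟨w, hw⟩ := D.exists_repr (B v ∘ₗ g.symm.toLinearMap)
  have h3 : TR M (g v) (B w) := h1.conj hg (by simp [hw])
  have h4 : g v ≠ 0 := by simpa using hv0
  by_cases h5 : w ∈ F ∙ g v
  · obtain ⟨a, rfl⟩ := Submodule.mem_span_singleton.mp h5
    have ha : a ≠ 0 := by
      rintro rfl
      exact hv0 (D.sep v fun y => by simpa using (hw (g y)).symm)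
    refine ⟨(σ a)⁻¹, fun y => ?_⟩
    have := hw (g y)
    simp only [LinearMap.map_smulₛₗ, LinearMap.smul_apply, smul_eq_mul, LinearMap.comp_apply,
      LinearEquiv.coe_coe, LinearEquiv.symm_apply_apply] at this
    rw [← this, inv_mul_cancel_left₀ (D.σ_ne_zero ha)]
  · exact absurd (SLV_le_of_PS (D.eq_top_of_invariant D.ns (Or.inr (by omega))
      (fun k hk _ hw => map_mem_PS hw (hM k hk)) (D.mem_PS4 hσ hn hM h4 h3 h5) h4)) h0

open Cfsg.Geo in
theorem max_SL_unit4 {ι : Type} [Fintype ι] [DecidableEq ι] {f : (ι → F) → (ι → F) → F}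
    {τ : F ≃+* F} (hf : IsUnitaryForm τ f) (h4 : 4 ≤ Fintype.card ι) :
    IsMaximalIn (specialLinear ι F) (similarityGroup f ⊓ specialLinear ι F) := by
  obtain ⟨a, h⟩ := (H18.hform_of_unitary hf).tvF_herm (H18.coe_ne_id hf.ne_refl) (by omega)
  exact isMaximalIn_SL _ (sim_iff h) (H18.SL_not_le_similarity (by omega) h.toHForm)
    fun _ hM _ _ hg hg' => (sd_tB h).SLV_le_of_sim4 (H18.coe_ne_id hf.ne_refl) (by simpa)
      (fun k hk => hM _ (mem_SLV.mpr (mem_SUG.mp hk)) ⟨1, one_ne_zero, fun x y => by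
        rw [UG_map, one_mul]⟩) hg hg'

end Cfsg.Agent.H12
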