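import Mathlib
import Cfsg.Agent.H12.MaxO
import Cfsg.Agent.H18.FxA

/-!
Orthogonal similarity groups in dimension four are maximal in the special linear group.
-/

set_option autoImplicit false

namespace Cfsg.Agent.H12

open Module QuadraticMap H13

variable {F V : Type*} [Field F] [AddCommGroup V] [Module F V] [FiniteDimensional F V] [Finite F]
  {Q : QuadraticForm F V} (hQ : ND Q) {M : Subgroup (V ≃ₗ[F] V)} (h2 : (2 : F) ≠ 0)
  (hn : finrank F V = 4) (hM : ∀ g ∈ SLV F V, (∀ v, Q (g v) = Q v) → g ∈ M)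
include hQ h2 hn hM

theorem SLV_le_of_TR4 {v : V} {ψ : Dual F V} (h : TR M v ψ) (hv : v ≠ 0) (hψ : ψ ≠ 0) :
    SLV F V ≤ M := by
  have hS := sieg_mem_of_SO hQ hM (good_of_two_ne_zero h2)
  have k0 : ∀ {v c} (k : OG Q), k.1 ∈ M → TR M v (polarBilin Q c) →
      TR M (k.1 v) (polarBilin Q (k.1 c)) := fun k hk h => h.conj hk fun x => by simp
  have key : ∀ {v c}, TR M v (polarBilin Q c) → Q v ≠ 0 → c ≠ 0 → SLV F V ≤ M :=
    fun {v c} h hv hc => by
      have v0 : v ≠ 0 := by rintro rfl; simp at hv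
      have hv2 : polar Q v v ≠ 0 := by rw [polar_self']; exact mul_ne_zero h2 hv
      have h1 : v ∈ PS M := fun φ h0 => by
        obtain ⟨x, hx⟩ := hQ.exists_polar_eq_dual φ
        obtain rfl : polarBilin Q x = φ := LinearMap.ext hx
        let A : AddSubgroup V :=
          { carrier := {x | TR M v (polarBilin Q x)}
            zero_mem' := by simpa using TR.zero_right v
            add_mem' := fun {a b} ha hb => by
              simp only [Set.mem_ofPred_eq, map_add] at ha hb ⊢
              exact ha.add_right hb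
            neg_mem' := fun {a} ha => by
              simp only [Set.mem_ofPred_eq, _root_.map_neg] at ha ⊢
              exact ha.neg_right }
        refine H18.add_irr (A := A) (hQ.nd_perp_singleton hv2) (by
          have := hQ.finrank_perp_singleton v0; omega) (fun z hz u hu _ _ a ha => sub_mem ?_ ha)
          (a := c) h (fun hc' => hc ?_) (mem_perp_singleton.mpr ((polar_comm _ _ _).trans h0))
        · rw [mem_perp_singleton, polar_comm] at hz hu
          have := k0 _ (hS z u) ha
          rwa [sieg_apply_of_perp_perp hz hu] at this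
        · rw [hQ.perp_perp] at hc'
          obtain ⟨t, rfl⟩ := Submodule.mem_span_singleton.mp hc'
          have := h.1
          simp only [map_smul, LinearMap.smul_apply, polarBilin_apply_apply, smul_eq_mul,
            mul_eq_zero, hv2, or_false] at this
          simp [this]
      refine SLV_le_of_PS (eq_top_iff.mpr fun x _ => ?_)
      exact H18.add_irr (q := Q) (W := ⊤) (A := (PS M).toAddSubgroup)
        (fun x h => Subtype.ext (hQ x fun y => h ⟨y, trivial⟩)) (by simp [hn])
        (fun z _ u _ _ _ a ha => sub_mem (map_mem_PS ha (hS z u)) ha) h1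
        (fun hv' => v0 (hQ v fun y => (polar_comm _ _ _).trans (hv' y trivial))) trivial
  obtain ⟨c, hc⟩ := hQ.exists_polar_eq_dual ψ
  obtain rfl : polarBilin Q c = ψ := LinearMap.ext hc
  have c0 : c ≠ 0 := by rintro rfl; simp at hψ
  by_cases h1 : Q v = 0
  swap
  · exact key h h1 c0
  obtain ⟨v', a1, a2, a3⟩ := hQ.exists_common_nonperp h1 hv c0 ((polar_comm _ _ _).trans h.1)
  have v0 : v' ≠ 0 := by rintro rfl; simp at a2
  obtain ⟨r, b1, b2⟩ := hQ.exists_nonsingular_perp (F ∙ v') (by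
    rw [finrank_span_singleton v0]; omega)
  rw [mem_perp_singleton, polar_comm] at b1
  have a4 : Q (v - v') ≠ 0 := by simpa [Q_sub, h1, a1] using a2
  have b3 := k0 (refl Q r * refl Q (v - v')) (hM _ (mem_SLV.mpr (by
    change LinearMap.det (((refl Q r).1 : V →ₗ[F] V) * ((refl Q (v - v')).1 : V →ₗ[F] V)) = 1
    rw [map_mul, det_refl b2, det_refl a4]; simp)) (refl Q r * refl Q (v - v')).2) h
  rw [OG_mul_apply _ _ v, refl_sub_apply (h1.trans a1.symm) a4, refl_apply_of_perp b1] at b3
  set c' := (refl Q r * refl Q (v - v')).1 c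
  have b4 : c' ≠ 0 := by simpa [c'] using c0
  have b6 := h.conj_tr b3
  rw [← map_smul (polarBilin Q), ← map_sub] at b6
  refine key b6 (by simpa [Q_add, Q_smul, h1, a1, a3, polar_comm Q v'] using a2) fun e => b4 ?_
  have b7 : polar Q c' v' = 0 := b3.1
  have b8 : polar Q c' v = 0 := by
    simpa [b7, a3] using congrArg (polar Q · v') e
  simpa [b8] using e

theorem mem_OG_of_fix4 (H : ¬ SLV F V ≤ M) {s : V ≃ₗ[F] V} (hs : s ∈ M) (hs' : s ∈ SLV F V) {e : V}
    (he : Q e = 0) (e0 : e ≠ 0) (h1 : s e = e) (h3 : ∀ y, polar Q e (s y) = polar Q e y) (v : V) :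
    Q (s v) = Q v := by
  have hS := sieg_mem_of_SO hQ hM (good_of_two_ne_zero h2)
  have k : ∀ ψ, TR M e ψ → ψ = 0 := fun ψ h => by
    by_contra h0; exact H (SLV_le_of_TR4 hQ h2 hn hM h e0 h0)
  have k1 : ∀ b, polar Q e b = 0 → ∀ y, polar Q b y - polar Q e y * Q b =
      polar Q (s b) (s y) - polar Q e y * Q (s b) := fun b hb y => by
    have hb' := (h3 b).trans hb
    have := k ((polarBilin Q b - Q b • polarBilin Q e - (polarBilin Q (s b) - Q (s b) • polarBilin Q e)
        ∘ₗ s.toLinearMap) ∘ₗ s.symm.toLinearMap ∘ₗ (sieg Q e (s b))⁻¹.1.toLinearMap) ⟨?_, _,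
      mul_mem (mul_mem (mul_mem hs (hS e b)) (inv_mem hs)) (inv_mem (hS e (s b))), fun y => ?_⟩
    · have := DFunLike.congr_fun this ((sieg Q e (s b)).1 (s y))
      simp [h3] at this
      linear_combination this
    · have : (sieg Q e (s b)).1.symm e = e := by rw [LinearEquiv.symm_apply_eq, sieg_apply_self]
      have h4 : s.symm e = e := by rw [LinearEquiv.symm_apply_eq, h1]
      simp [this, h4, h1, he, polar_comm Q _ e, hb, hb']
    · obtain ⟨y, rfl⟩ := (sieg Q e (s b)).1.surjective y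
      obtain ⟨y, rfl⟩ := s.surjective y
      simp [sieg_apply he hb, h1]
      rw [sieg_apply he hb', h3]
      module
  have k2 : ∀ b, polar Q e b = 0 → ∀ y, polar Q (s b) (s y) = polar Q b y := fun b hb y => by
    have a1 := k1 b hb y
    have a2 := k1 (-b) (by simp [hb]) y
    simp only [_root_.map_neg, polar_neg_left, QuadraticMap.map_neg] at a2
    exact mul_left_cancel₀ h2 (by linear_combination a2 - a1)
  obtain ⟨f, hf⟩ := hQ.exists_hp he e0
  have k3 : ∀ y, Q (s y) = Q y + Q (s f) * polar Q e y ^ 2 := fun y => by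
    have a1 : polar Q e (y - polar Q e y • f) = 0 := by simp [hf.uv]
    have a2 := k2 _ a1 (y - polar Q e y • f)
    have a3 := k2 _ a1 f
    rw [polar_self', polar_self', mul_right_inj' h2] at a2
    conv_lhs => rw [← sub_add_cancel y (polar Q e y • f), map_add, Q_add, a2, map_smul, Q_smul,
      polar_smul_right, a3]
    conv_rhs => rw [← sub_add_cancel y (polar Q e y • f), Q_add, Q_smul, polar_smul_right, hf.Qv]
    simp [hf.uv]; ring
  obtain ⟨-, t, t1, t2⟩ := TR.of_SLV (M := SLV F V) (P := fun _ => True) (fun _ h _ => h)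
    (v := e) (φ := -Q (s f) • polarBilin Q e) (by simp [he]) fun _ _ => trivial
  have := k (-Q (s f) • polarBilin Q e) ⟨by simp [he], t, (M.mul_mem_cancel_right hs).mp
    (hM _ (mul_mem t1 hs') fun y => by
      rw [LinearEquiv.mul_apply, t2, Q_add, Q_smul, he, polar_smul_right, polar_comm Q _ e]
      simp [h3, k3 y]; ring), t2⟩
  rw [k3, show Q (s f) = 0 by simpa [hf.uv] using DFunLike.congr_fun this f]; simp

theorem perp_of_sing4 (H : ¬ SLV F V ≤ M) {g : V ≃ₗ[F] V} (hg : g ∈ M) {u : V} (a1 : Q u = 0)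
    (a2 : u ≠ 0) (a3 : Q (g u) = 0) : ∃ c, ∀ y, polar Q (g u) (g y) = c * polar Q u y := by
  have hG : Good Q := good_of_two_ne_zero h2
  obtain ⟨w, hw⟩ := hQ.exists_polar_eq_dual (polarBilin Q (g u) ∘ₗ g.toLinearMap)
  replace hw : ∀ y, polar Q w y = polar Q (g u) (g y) := fun y => by simp [hw]
  have a4 := hQ.finrank_perp (Submodule.span F {u, w})
  have a5 := H13.finrank_span_pair_le (F := F) u w
  obtain ⟨a, c1, c2⟩ := H13.exists_notMem_of_finrank_lt (H := F ∙ u)
    (W := perp Q (Submodule.span F {u, w})) (by rw [finrank_span_singleton a2]; omega)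
  rw [mem_perp_pair, hw] at c1
  have d1 : ∀ y, (g * (sieg Q u a).1 * g⁻¹) (g y) =
      g y + polar Q a y • g u - polar Q u y • (g a + Q a • g u) := fun y => by
    simp [sieg_apply a1 c1.1]
  have gu0 : g u ≠ 0 := by simpa using a2
  have d2 := mem_OG_of_fix4 hQ h2 hn hM H (mul_mem (mul_mem hg (sieg_mem_of_SO hQ hM hG u a))
    (inv_mem hg)) ((MonoidHom.normal_ker _).conj_mem _ (sieg_mem_of_SO hQ (fun _ h _ => h) hG u a) g)
    a3 gu0 (by rw [d1]; simp [a1, polar_comm Q a, c1.1]) fun y => by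
      obtain ⟨y, rfl⟩ := g.surjective y
      simp [d1, a3, c1.2]
  have d3 : ∀ y, polar Q (g u) (g y) = 0 → polar Q u y ≠ 0 →
      polar Q (g a) (g y) = polar Q u y * Q (g a) := fun y b1 b2 => by
    have := d2 (g y)
    rw [d1] at this
    simp only [Q_sub, Q_add, Q_smul, a3, polar_add_left, polar_add_right, polar_smul_left,
      polar_smul_right, polar_self', c1.2, polar_comm Q _ (g u), b1, smul_eq_mul,
      polar_comm Q (g y) (g a)] at this
    exact mul_left_cancel₀ b2 (by linear_combination -this)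
  have d4 : ∀ y, polar Q (g u) (g y) = 0 → polar Q u y = 0 := fun y b1 => by
    by_contra b2
    have e1 := d3 y b1 b2
    have e2 := d3 (y + a) (by simp [b1, c1.2]) (by simpa [c1.1] using b2)
    simp only [map_add, polar_add_right, polar_self', c1.1, add_zero, e1] at e2
    have e3 : Q (g a) = 0 := mul_left_cancel₀ h2 (by linear_combination e2)
    have e4 : g a ∈ F ∙ g u := mem_span_of_polar hQ fun z hz => by
      obtain ⟨z, rfl⟩ := g.surjective z
      rw [mem_perp_singleton] at hz
      by_cases e5 : polar Q u z = 0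
      · simpa [e1, e3] using d3 (y + z) (by simp [b1, hz]) (by simpa [e5] using b2)
      · simpa [e3] using d3 z hz e5
    obtain ⟨t, ht⟩ := Submodule.mem_span_singleton.mp e4
    exact c2 (Submodule.mem_span_singleton.mpr ⟨t, g.injective (by rw [map_smul, ht])⟩)
  obtain ⟨t, ht⟩ := Submodule.mem_span_singleton.mp (mem_span_of_polar hQ (S := F ∙ w) (w := u)
    fun z hz => d4 z (by rw [← hw]; exact mem_perp_singleton.mp hz))
  have t0 : t ≠ 0 := by rintro rfl; exact a2 (by simpa using ht.symm)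
  exact ⟨t⁻¹, fun y => by rw [← hw]; conv_rhs => rw [← ht]; simp [t0]⟩

omit h2 hn hM [Finite F] in
theorem dual_zero_of_sieg {e b : V} (he : Q e = 0) (hb : polar Q e b = 0) (e0 : e ≠ 0)
    (h : b ∉ F ∙ e) {φ : Dual F V} (hφ : ∀ x, φ ((sieg Q e b).1 x) = φ x) : φ e = 0 ∧ φ b = 0 := by
  obtain ⟨x, x1, x2⟩ := hQ.exists_perp_one _ h
  have x3 := x1 e (Submodule.mem_span_singleton_self e)
  have a1 : φ e = 0 := by
    simpa [sieg_apply he hb, polar_comm Q _ x, x2, x3] using hφ x
  obtain ⟨y, hy⟩ := hQ.exists_ne e0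
  exact ⟨a1, by simpa [sieg_apply he hb, a1, hy] using hφ y⟩

theorem sing_map4 (H : ¬ SLV F V ≤ M) {g : V ≃ₗ[F] V} (hg : g ∈ M) {e : V} (a1 : Q e = 0)
    (a2 : e ≠ 0) : Q (g e) = 0 := by
  have hG : Good Q := good_of_two_ne_zero h2
  by_contra hv
  have gu0 : g e ≠ 0 := by simpa using a2
  obtain ⟨e', b1, b2, b3⟩ := exists_singular_mem Q (H := perp Q (F ∙ g e)) (by
    have := hQ.finrank_perp_singleton gu0; omega)
  rw [mem_perp_singleton] at b1
  have a4 := hQ.finrank_perp (Submodule.span F {e', g e})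
  have a5 := H13.finrank_span_pair_le (F := F) e' (g e)
  obtain ⟨b, c1, c2⟩ := H13.exists_notMem_of_finrank_lt (H := F ∙ e')
    (W := perp Q (Submodule.span F {e', g e})) (by rw [finrank_span_singleton b2]; omega)
  rw [mem_perp_pair] at c1
  set y := g⁻¹ * (sieg Q e' b).1 * g with hy
  have y0 : ∀ x, y (g.symm x) = g.symm ((sieg Q e' b).1 x) := fun x => by simp [hy]
  have y1 : y ∈ M := mul_mem (mul_mem (inv_mem hg) (sieg_mem_of_SO hQ hM hG e' b)) hg
  have y2 : y ∈ SLV F V := by
    have := (MonoidHom.normal_ker LinearEquiv.det).conj_mem _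
      (sieg_mem_of_SO hQ (fun _ h _ => h) hG e' b) g⁻¹
    rwa [inv_inv] at this
  have y3 : y e = e := by
    have := y0 (g e)
    rwa [sieg_apply_of_perp_perp ((polar_comm _ _ _).trans b1) ((polar_comm _ _ _).trans c1.2),
      g.symm_apply_apply] at this
  obtain ⟨c, hc⟩ := perp_of_sing4 hQ h2 hn hM H y1 a1 a2 (by rw [y3, a1])
  rw [y3] at hc
  obtain rfl : c = 1 := by
    by_contra hc1
    have k : ∀ x, polar Q e (g.symm ((sieg Q e' b).1 x)) = polar Q e (g.symm x) →
        polar Q e (g.symm x) = 0 := fun x hx => by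
      rw [← y0, hc] at hx
      exact (mul_eq_zero.mp (show (c - 1) * _ = 0 by linear_combination hx)).resolve_left
        (sub_ne_zero.mpr hc1)
    have k1 := k e' (by rw [sieg_apply_self])
    have k2 := k b (by simp [sieg_apply b3 c1.1, k1, c1.1])
    exact a2 (hQ e fun z => by simpa using k (g z) (by simp [sieg_apply b3 c1.1, k1, k2]))
  simp only [one_mul] at hc
  have d2 := mem_OG_of_fix4 hQ h2 hn hM H y1 y2 a1 a2 y3 hc
  have k : ∀ p, y p = p → polar Q p (g.symm e') = 0 ∧ polar Q p (g.symm b) = 0 := fun p hp =>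
    dual_zero_of_sieg hQ b3 c1.1 b2 c2 (φ := polarBilin Q p ∘ₗ g.symm.toLinearMap) fun x => by
      have := OG_polar (⟨y, d2⟩ : OG Q) p (g.symm x)
      simpa [hp, y0] using this
  obtain ⟨k1, k2⟩ := k e y3
  obtain ⟨k3, k4⟩ := k (g.symm e') (by rw [y0, sieg_apply_self])
  have li : LinearIndependent F ![e, g.symm e'] := li_pair_of_notMem a2 fun h => by
    obtain ⟨t, ht⟩ := Submodule.mem_span_singleton.mp h
    have e1 : e' = t • g e := by rw [← map_smul, ht]; simp
    rw [e1] at b1 b2
    simp only [polar_smul_right, polar_self', smul_eq_mul, mul_eq_zero, h2, hv, or_false] at b1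
    simp [b1] at b2
  have f1 : finrank F (Submodule.span F {e, g.symm e'}) = 2 := by
    rw [← Matrix.range_cons_cons_empty e (g.symm e') ![]]
    simpa using finrank_span_eq_card li
  have f2 := hQ.finrank_perp (Submodule.span F {e, g.symm e'})
  have f3 : Submodule.span F {e, g.symm e'} ≤ perp Q (Submodule.span F {e, g.symm e'}) :=
    Submodule.span_le.mpr (by
      rintro _ (rfl | rfl)
      · exact mem_perp_pair.mpr ⟨by simp [a1], (polar_comm _ _ _).trans k1⟩
      · exact mem_perp_pair.mpr ⟨k1, k3⟩)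
  obtain ⟨s, t, hst⟩ := Submodule.mem_span_pair.mp
    ((Submodule.eq_of_le_of_finrank_le f3 (by omega)).ge (mem_perp_pair.mpr ⟨k2, k4⟩))
  have e1 : b = s • g e + t • e' := by simpa using (congrArg g hst).symm
  have e2 := c1.2
  rw [e1] at e2
  simp only [polar_add_right, polar_smul_right, polar_self', b1, smul_eq_mul, mul_zero, add_zero,
    mul_eq_zero, h2, hv, or_false] at e2
  exact c2 (Submodule.mem_span_singleton.mpr ⟨t, by simp [e1, e2]⟩)

theorem SLV_le_of_quad4 {g : V ≃ₗ[F] V} (hg : g ∈ M) (hg' : ¬ ∃ c : Fˣ, ∀ v, Q (g v) = c * Q v) :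
    SLV F V ≤ M := by
  by_contra H
  have k1 : ∀ u, Q u = 0 → u ≠ 0 → ∃ c, ∀ y, polar Q (g u) (g y) = c * polar Q u y := fun u a1 a2 =>
    perp_of_sing4 hQ h2 hn hM H hg a1 a2 (sing_map4 hQ h2 hn hM H hg a1 a2)
  obtain ⟨u, a2, a1⟩ := exists_singular Q (by omega)
  obtain ⟨c, hc⟩ := k1 u a1 a2
  have k2 : ∀ {u v c}, Q v = 0 → polar Q u v ≠ 0 → (∀ y, polar Q (g u) (g y) = c * polar Q u y) →
      ∀ y, polar Q (g v) (g y) = c * polar Q v y := fun {u v c} b1 b2 b3 => by
    obtain ⟨d, hd⟩ := k1 v b1 (by rintro rfl; simp at b2)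
    rwa [mul_right_cancel₀ b2 ((b3 v).symm.trans ((polar_comm _ _ _).trans
      ((hd u).trans (by rw [polar_comm]))))]
  have k3 := hQ.singular_induction_top a1 a2 (p := fun v => ∀ y, polar Q (g v) (g y) = c * polar Q v y)
    (fun v hv => by
      by_cases v0 : v = 0
      · simp [v0]
      by_cases h1 : polar Q u v = 0
      · obtain ⟨z, b1, b2, b3⟩ := hQ.exists_common_nonperp a1 a2 v0 h1
        exact k2 hv (by rwa [polar_comm]) (k2 b1 b2 hc)
      · exact k2 hv h1 hc) fun x y hx hy z => by simp [hx, hy, mul_add]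
  refine hg' ⟨Units.mk0 c ?_, fun v => mul_left_cancel₀ h2 ?_⟩
  · rintro rfl
    exact a2 (g.injective ((hQ _ fun y => by simpa using hc (g.symm y)).trans (map_zero g).symm))
  · rw [← polar_self', k3, polar_self', Units.val_mk0]; ring

omit hQ h2 hn hM in
open Cfsg.Geo in
theorem max_SL_quad4 {ι : Type} [Fintype ι] [DecidableEq ι] (h2 : (2 : F) ≠ 0)
    (hn : Fintype.card ι = 4) {Q : (ι → F) → F} (hQ : IsNondegenerateQuadraticForm Q) :
    IsMaximalIn (specialLinear ι F) (quadSimilarityGroup Q ⊓ specialLinear ι F) :=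
  isMaximalIn_SL (fun g => ∃ c : Fˣ, ∀ v, Q (g v) = c * Q v) (fun _ => Iff.rfl)
    (fun h => H18.SL_not_le_similarity (by omega) (H18.hform_of_quad hQ)
      (h.trans (H18.quadSimilarityGroup_le Q)))
    fun _ hM _ _ hg hg' => SLV_le_of_quad4 (H18.nd_mkQ hQ) h2 (by simpa)
      (fun g hg h => hM g hg ⟨1, fun v => (h v).trans (one_mul _).symm⟩) hg hg'

end Cfsg.Agent.H12
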