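import Mathlib
import Cfsg.Agent.H12.DecD

/-!
The stabiliser of a pair of complementary planes in dimension four.
-/

set_option autoImplicit false

namespace Cfsg.Agent.H12

open Module

variable {F V : Type*} [Field F] [AddCommGroup V] [Module F V] {M : Subgroup (V ≃ₗ[F] V)}
  {κ : Type*} [Fintype κ] {E : κ → Submodule F V} {p : κ → End F V}

theorem exists_pow_four [Finite F] (h : 4 ≤ Nat.card F) :
    (∃ d : F, d ≠ 0 ∧ d ^ 4 ≠ 1) ∨ ((2 : F) ≠ 0 ∧ (3 : F) ≠ 0) := by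
  classical
  haveI := Fintype.ofFinite F
  by_contra! H
  obtain ⟨d, -, hd⟩ := Finset.exists_mem_notMem_of_card_lt_card (s := ({0, 1, -1} : Finset F))
    (t := Finset.univ) (Finset.card_le_three.trans_lt (by rwa [Nat.card_eq_fintype_card] at h))
  simp only [Finset.mem_insert, Finset.mem_singleton, not_or] at hd
  have a1 : d ^ 2 + 1 = 0 := (mul_eq_zero.mp (show (d - 1) * (d + 1) * (d ^ 2 + 1) = 0 by
    linear_combination H.1 d hd.1)).resolve_left (mul_ne_zero (sub_ne_zero.mpr hd.2.1)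
      fun e => hd.2.2 (by linear_combination e))
  have a2 := H.1 (d + 1) fun e => hd.2.2 (by linear_combination e)
  have a3 : (5 : F) = 0 := by linear_combination (d ^ 2 + 4 * d + 5) * a1 - a2
  by_cases h2 : (2 : F) = 0
  · exact one_ne_zero (show (1 : F) = 0 by linear_combination a3 - 2 * h2)
  · exact one_ne_zero (show (1 : F) = 0 by linear_combination 2 * H.2 h2 - a3)

variable [FiniteDimensional F V] [Finite F] (h : PD E p)
  (hM : ∀ g ∈ SLV F V, (∀ i, ∃ j, ∀ x ∈ E i, g x ∈ E j) → g ∈ M)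
  (hm : ∀ i, finrank F (E i) = 2) (hn : finrank F V = 4) (hq : 4 ≤ Nat.card F)
include h hM hm hn hq

theorem PD.SLV_le_of_mixed4 {i j : κ} (hij : i ≠ j) {w : V} (hi : p i w ≠ 0) (hj : p j w ≠ 0)
    {ψ : Dual F V} (h0 : ψ ≠ 0) (H : TR M w ψ) : SLV F V ≤ M := by
  by_cases e : ∀ v ∈ E i, ψ v = 0
  · exact h.SLV_le_of_ann hM hm le_rfl hi h0 e H
  push Not at e
  obtain ⟨x, a1, a2⟩ := e
  by_cases e : ∃ v ∈ E j, ψ v = 0 ∧ v ∉ F ∙ p j w
  · obtain ⟨v, b1, b2, b3⟩ := e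
    exact h.SLV_le_of_ne hM hm le_rfl hij.symm b1 b3 hj b2 a1 a2 H
  obtain ⟨u, d1, d2⟩ := exists_mem_notMem_span (hm i).ge (p i w)
  obtain ⟨φ, d3, d4⟩ := exists_dual_one_zero d2
  obtain ⟨u', e1, e2⟩ := exists_mem_notMem_span (hm j).ge (p j w)
  obtain ⟨φ', e3, e4⟩ := exists_dual_one_zero e2
  have e5 : ψ u' ≠ 0 := fun e' => e ⟨u', e1, e', e2⟩
  have key : ∀ a b d : F, a * b * d ^ 4 = 1 →
      TR M w (ψ + ((a - 1) * ψ u) • φ ∘ₗ p i + ((b - 1) * ψ u') • φ' ∘ₗ p j) := fun a b d hd => by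
    have a0 : a ≠ 0 := by rintro rfl; simp at hd
    have b0 : b ≠ 0 := by rintro rfl; simp at hd
    have d0 : d ≠ 0 := by rintro rfl; simp at hd
    obtain ⟨k, d5, d6⟩ := exists_dil (φ := (a - 1) • φ ∘ₗ p i) (u := u) (by simpa [h.self d1, d3])
    obtain ⟨k', e5, e6⟩ := exists_dil (φ := (b - 1) • φ' ∘ₗ p j) (u := u') (by simpa [h.self e1, e3])
    let s : V ≃ₗ[F] V := LinearEquiv.smulOfNeZero F V d d0
    have s1 : ∀ x, s x = d • x := fun _ => rfl
    have s2 : LinearMap.det (s : V →ₗ[F] V) = d ^ 4 := by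
      rw [show (s : V →ₗ[F] V) = d • LinearMap.id from LinearMap.ext s1, LinearMap.det_smul, hn]
      simp
    have b4 : k * k' * s ∈ M := hM _ (mem_SLV.mpr (by
      rw [LinearEquiv.coe_toLinearMap_mul, LinearEquiv.coe_toLinearMap_mul, map_mul, map_mul, d6, e6,
        s2]
      simpa [h.self d1, h.self e1, d3, e3] using hd)) fun r => ⟨r, fun y hy => by
        have f0 : s y ∈ E r := Submodule.smul_mem _ _ hy
        have f1 : k' (s y) ∈ E r := by
          rcases eq_or_ne j r with rfl | e'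
          · exact e5 _ ▸ add_mem f0 (Submodule.smul_mem _ _ e1)
          · simpa [e5, h.zero e' f0]
        rcases eq_or_ne i r with rfl | e'
        · exact (d5 (k' (s y))).symm ▸ add_mem f1 (Submodule.smul_mem _ _ d1)
        · simpa [d5, h.zero e' f1]⟩
    have := H.conj' (inv_mem b4)
    rw [show (k * k' * s)⁻¹ w = d⁻¹ • w from (k * k' * s).symm_apply_eq.mpr (by
      simp [d5, e5, d4, e4, s1, d0])] at this
    convert this.smul_of_left using 1
    ext y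
    change _ = d⁻¹ * ψ (k (k' (s y)))
    simp [d5, e5, s1, h.zero hij e1]
    field_simp
    ring
  have fin : ∀ c : F, c ≠ 0 → TR M w ((c * ψ u') • φ' ∘ₗ p j) → SLV F V ≤ M := fun c hc H' =>
    h.SLV_le_of_ann hM hm le_rfl hi (fun e' => by
      simpa [h.self e1, e3, hc, e5] using LinearMap.congr_fun e' u')
      (fun v hv => by simp [h.zero hij.symm hv]) H'
  rcases exists_pow_four hq with ⟨d, d0, hd⟩ | ⟨h2, h3⟩
  · refine fin (d ^ 4 - 1) (sub_ne_zero.mpr hd) ?_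
    convert (key 1 (d ^ 4) d⁻¹ (by field_simp)).sub_right H using 1
    ext y; simp
  · refine fin 3⁻¹ (inv_ne_zero h3) ?_
    have k2 := key 2 2⁻¹ 1 (by field_simp)
    convert ((H.add_right (key 3 3⁻¹ 1 (by field_simp))).sub_right k2).sub_right k2 using 1
    ext y; simp; field_simp; ring

theorem PD.SLV_le4 {g : V ≃ₗ[F] V} (hg : g ∈ M) (hg' : ¬ ∀ i, ∃ j, ∀ x ∈ E i, g x ∈ E j) :
    SLV F V ≤ M := by
  push Not at hg'
  obtain ⟨i, hi⟩ := hg'
  have a0 : ∀ x j, x ∉ E j → ∃ l, l ≠ j ∧ p l x ≠ 0 := fun x j hx => by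
    by_contra! e; exact hx (h.mem_of e)
  obtain ⟨w, a1, j, l, a2, a3, a4⟩ : ∃ w ∈ E i, ∃ j l, l ≠ j ∧ p l (g w) ≠ 0 ∧ p j (g w) ≠ 0 := by
    obtain ⟨x, b1, b2⟩ := hi i
    obtain ⟨j, -, b3⟩ := a0 _ _ b2
    by_cases e : g x ∈ E j
    · obtain ⟨y, c1, c2⟩ := hi j
      obtain ⟨l, c3, c4⟩ := a0 _ _ c2
      by_cases e' : p j (g y) = 0
      · exact ⟨x + y, add_mem b1 c1, j, l, c3, by simpa [h.zero c3 e], by simpa [e']⟩
      · exact ⟨y, c1, j, l, c3, c4, e'⟩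
    · obtain ⟨l, c3, c4⟩ := a0 _ _ e
      exact ⟨x, b1, j, l, c3, c4, b3⟩
  obtain ⟨y, b1, b2⟩ := exists_mem_notMem_span (hm i).ge w
  obtain ⟨φ, b3, b4⟩ := exists_dual_one_zero b2
  refine h.SLV_le_of_mixed4 hM hm hn hq a2 a3 a4 (fun e => ?_) ((h.tr hM a1 b4).conj' hg)
  simpa [h.self b1, b3] using LinearMap.congr_fun e (g y)

omit h hM hm hn hq in
open Cfsg.Geo in
theorem max_SL_planes {ι : Type} [Fintype ι] [DecidableEq ι] {t : ℕ} {D : Fin t → Submodule F (ι → F)}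
    (hn : Fintype.card ι = 4) (hD : IsMDecomposition 2 D) (hq : 4 ≤ Nat.card F) :
    IsMaximalIn (specialLinear ι F) (decompositionStabilizer D ⊓ specialLinear ι F) := by
  refine isMaximalIn_SL (fun g => ∀ i, ∃ j, ∀ x ∈ D i, g x ∈ D j)
    (fun g => perm_iff_mapsTo hD (glEq ι F g)) (H18.SL_not_le_decomp hD) fun M hM _ g hg hg' => ?_
  obtain ⟨p, hp⟩ := exists_PD hD.indep hD.iSup_eq_top
  exact hp.SLV_le4 hM hD.finrank_eq (by simpa) hq hg hg'

end Cfsg.Agent.H12
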