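import Mathlib
import Cfsg.Agent.H12.DecD

/-!
Overgroups of the monomial subgroup of the special linear group in dimension four.
-/

set_option autoImplicit false

namespace Cfsg.Agent.H12

open Module

variable {F V : Type*} [Field F] [AddCommGroup V] [Module F V] {M : Subgroup (V ≃ₗ[F] V)}

theorem exists_ne₃' {ι : Type*} [Fintype ι] [DecidableEq ι] (h : 4 ≤ Fintype.card ι) (i j k : ι) :
    ∃ m, m ≠ i ∧ m ≠ j ∧ m ≠ k := by
  obtain ⟨m, -, hm⟩ := Finset.exists_mem_notMem_of_card_lt_card (s := {i, j, k}) (t := Finset.univ)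
    (Finset.card_le_three.trans_lt h)
  exact ⟨m, by simpa using hm⟩

theorem exists_avoid₇ [Finite F] (h7 : 7 ≤ Nat.card F) {A B D : F}
    (h : ¬ (A = 0 ∧ B = 0 ∧ D = 0)) :
    ∃ x, x ≠ 0 ∧ x ≠ 1 ∧ x ≠ -1 ∧ A * x ^ 2 + B * x + D ≠ 0 := by
  open Polynomial in
  by_contra! H
  haveI := Fintype.ofFinite F
  have := eq_zero_of_natDegree_lt_card_of_eval_eq_zero
    ((X - C 0) * (X - C 1) * (X - C (-1)) * (C A * X ^ 2 + C B * X + C D)) Function.injective_id
      (fun x => by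
      by_cases h1 : x = 0
      · simp [h1]
      by_cases h2 : x = 1
      · simp [h2]
      by_cases h3 : x = -1
      · simp [h3]
      simp [H x h1 h2 h3]) (lt_of_le_of_lt (b := 5) (by compute_degree)
        (by rw [← Nat.card_eq_fintype_card]; omega))
  simp only [mul_eq_zero, X_sub_C_ne_zero, false_or] at this
  exact h ⟨by simpa using congrArg (coeff · 2) this, by simpa using congrArg (coeff · 1) this,
    by simpa using congrArg (coeff · 0) this⟩

theorem exists_pow_four_ne [Finite F] (h7 : 7 ≤ Nat.card F) : ∃ x : F, x ≠ 0 ∧ x ^ 4 ≠ 1 := by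
  obtain ⟨x, h0, h1, h2, h3⟩ := exists_avoid₇ h7 (A := 1) (B := 0) (D := 1) (by simp)
  refine ⟨x, h0, fun e => mul_ne_zero (mul_ne_zero (sub_ne_zero.mpr h1) (sub_ne_zero.mpr h2)) h3 ?_⟩
  linear_combination e

theorem arith_four [Finite F] (h7 : 7 ≤ Nat.card F) {a : Fin 4 → F} (a0 : ∀ j, a j ≠ 0)
    (a4 : ∑ j, a j = 0) (key : ∀ t : Fin 4 → F, ∏ i, t i = 1 → ∑ j, t j * a j = 0 →
      (∃ j k, t j ≠ t k) → ∑ j, t j = 0 ∧ ∀ s : F, (∀ j, t j * t j + 1 = s * t j) → s = 0) :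
    False := by
  have p1 : ∀ k : Fin 4, k ≠ 0 → ∀ x y z : F,
      ∏ l, (if l = 0 then x else if l = k then y else z) = x * y * z * z := fun k k0 x y z => by
    fin_cases k <;> simp [Fin.prod_univ_four, -mul_eq_mul_right_iff] at k0 ⊢ <;> ring
  have p2 : ∀ k : Fin 4, k ≠ 0 → ∀ (x y z : F) (a : Fin 4 → F),
      ∑ l, (if l = 0 then x else if l = k then y else z) * a l =
        x * a 0 + y * a k + z * (∑ l, a l - a 0 - a k) := fun k k0 x y z a => by
    fin_cases k <;> simp [Fin.sum_univ_four] at k0 ⊢ <;> ring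
  obtain ⟨k, k0, hk⟩ : ∃ k, k ≠ 0 ∧ a 0 + a k = 0 := by
    by_contra! H
    have b1 : ∀ k, k ≠ 0 → a k = a 0 := fun k k0 => by
      by_contra e
      have := a0 0
      have := a0 k
      obtain ⟨m, m1, m2, -⟩ := exists_ne₃' (by simp) 0 k k
      have b2 := (key (fun l => if l = 0 then a k / a 0 else if l = k then a 0 / a k else 1)
        (by rw [p1 k k0]; field_simp) (by rw [p2 k k0, a4]; field_simp; ring)
        ⟨0, m, by simpa [m1, m2, div_eq_one_iff_eq, *] using e⟩).1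
      have b3 := p2 k k0 (a k / a 0) (a 0 / a k) 1 fun _ => 1
      simp only [mul_one, b2, Finset.sum_const, Finset.card_univ, Fintype.card_fin,
        nsmul_eq_mul] at b3
      refine H k k0 (pow_eq_zero_iff two_ne_zero |>.mp ?_)
      field_simp at b3
      push_cast at b3
      linear_combination -b3
    rw [Fin.sum_univ_four, b1 1 (by simp), b1 2 (by simp), b1 3 (by simp)] at a4
    have b2 := H 1 (by simp)
    rw [b1 1 (by simp)] at b2
    exact mul_ne_zero b2 b2 (by linear_combination a 0 * a4)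
  obtain ⟨e, e0, e1⟩ := exists_pow_four_ne h7
  obtain ⟨m, m1, m2, -⟩ := exists_ne₃' (by simp) 0 k k
  have := (key (fun l => if l = 0 then e else if l = k then e else e⁻¹)
    (by rw [p1 k k0]; field_simp) (by rw [p2 k k0, a4]; linear_combination (e - e⁻¹) * hk)
    ⟨0, m, by
      simp only [if_true, m1, m2, if_false]
      intro e'
      field_simp at e'
      exact e1 (by linear_combination (e ^ 2 + 1) * e')⟩).2 (e + e⁻¹) fun j => by
        split_ifs <;> field_simp <;> ring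
  field_simp at this
  exact e1 (by linear_combination (e ^ 2 - 1) * this)

section
variable {ι : Type*} [Fintype ι] [DecidableEq ι] {b : Basis ι F V}
  (hM : ∀ g ∈ SLV F V, Mon b g → g ∈ M)
include hM

variable [Finite F] (h5 : 5 ≤ Nat.card F) (hn : 4 ≤ Fintype.card ι)
include h5 hn

theorem SLV_le_of_tr_basis4 {a : ι} {χ : Dual F V} (h : TR M (b a) χ) (h0 : χ ≠ 0) : SLV F V ≤ M := by
  haveI := Module.Finite.of_basis b
  obtain ⟨m, hm⟩ := exists_basis_ne (b := b) h0
  have a1 : m ≠ a := by rintro rfl; exact hm h.1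
  obtain ⟨k, k1, k2, -⟩ := exists_ne₃' hn a m m
  obtain ⟨l, l1, l2, l3⟩ := exists_ne₃' hn a m k
  obtain ⟨ε, e1, e2, -⟩ := exists_avoid₄ h5 0 1 0 0
  have a2 := (h.dd hM k2.symm a1 k1 e1).dd hM l2.symm a1 l1 e1
  simp only [LinearMap.add_apply, LinearMap.smul_apply, Basis.coord_apply, Basis.repr_self,
    Finsupp.single_eq_same, Finsupp.single_eq_of_ne k2, Finsupp.single_eq_of_ne l2.symm,
    Finsupp.single_eq_of_ne l3.symm, smul_eq_mul, mul_zero, mul_one, add_zero, zero_smul] at a2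
  have a3 : ∀ c : F, TR M (b a) (c • b.coord m) := fun c => by
    have e3 := mul_ne_zero (sub_ne_zero.mpr e2) (mul_ne_zero (sub_ne_zero.mpr e2) hm)
    by_cases hc : c = 0
    · simpa [hc] using TR.zero_right _
    convert (a2.dd hM l2.symm a1 l1 (div_ne_zero hc e3)).add_right a2 using 1
    ext x; simp [l2.symm]; field_simp; ring
  have a4 : b a ∈ PS M := fun γ hγ => TR.of_coann (S := {β | ∃ i, i ≠ a ∧ β = b.coord i}) (by
    rintro _ ⟨i, hi, rfl⟩ c
    obtain ⟨w, b1, -, -, b2, b3⟩ := exists_weyl hM m i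
    exact b3 a a1.symm hi.symm ▸ (a3 c).conj b1 fun x => by simp [b2]) fun u hu => by
      rw [show u = b.repr u a • b a from b.ext_elem fun i => by
        by_cases e : i = a
        · simp [e]
        · simpa [e] using hu _ ⟨i, e, rfl⟩]
      simp [hγ]
  refine SLV_le_of_PS (eq_top_iff.mpr (b.span_eq ▸ Submodule.span_le.mpr ?_))
  rintro _ ⟨i, rfl⟩
  obtain ⟨w, b1, -, b2, -⟩ := exists_weyl hM a i
  exact b2 ▸ map_mem_PS a4 b1

theorem SLV_le_of_near4 {t : V ≃ₗ[F] V} (ht : t ∈ M) {a j k : ι} (h1 : j ≠ k) (h2 : j ≠ a) (h3 : k ≠ a)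
    {c : F} (H : ∀ x i, i ≠ a → b.repr (t x) i = b.repr (x + (c * b.repr x k) • b j) i)
    (h0 : c ≠ 0 ∨ ¬ Mon b t) : SLV F V ≤ M := by
  obtain ⟨χ, hχ⟩ : ∃ χ : Dual F V, ∀ x, t x = x + (c * b.repr x k) • b j + χ x • b a :=
    ⟨b.coord a ∘ₗ t.toLinearMap - b.coord a, fun x => b.ext_elem fun i => by
      by_cases e : i = a
      · simp [e, h2.symm]
      · simp [H x i e, e]⟩
  obtain ⟨l, l1, l2, l3⟩ := exists_ne₃' hn a j k
  obtain ⟨ε, e1, e2, e3, -⟩ := exists_avoid₄ h5 0 1 (-1) 0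
  have e4 := sub_ne_zero.mpr e2
  by_cases e : ∀ m, m ≠ a → χ (b m) = 0
  · rcases ne_or_eq c 0 with hc | hc
    · obtain ⟨d, a1, a2⟩ := exists_dd hM l2.symm e1
      refine SLV_le_of_tr_basis4 hM h5 hn (TR.of_diff (mul_mem ht a1) (mul_mem a1 ht) (w := b j)
        (χ := ((ε - 1) * c / ε) • b.coord k) (by simp [h1.symm]) fun x => ?_) fun e' => ?_
      · simp [hχ, a2, e j h2, e l l1, h1.symm, l1, l2, l3.symm, h2]
        match_scalars <;> field_simp <;> ring
      · simpa [e1, e4, hc] using LinearMap.congr_fun e' (b k)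
    · refine (h0.resolve_left (not_not.mpr hc) fun i => ?_).elim
      by_cases e' : i = a
      · exact ⟨a, 1 + χ (b a), by simp [hχ, hc, e', add_smul]⟩
      · exact ⟨i, 1, by simp [hχ, hc, e i e']⟩
  push Not at e
  obtain ⟨m, m1, m2⟩ := e
  obtain ⟨d, a1, a2⟩ := exists_dd hM l1.symm e1
  have a3 : 1 + χ (b a) ≠ 0 := fun e => b.ne_zero a (t.map_eq_zero_iff.mp (by
    simpa [hχ, h3, add_smul] using congrArg (· • b a) e))
  refine SLV_le_of_tr_basis4 hM h5 hn (TR.of_diff (mul_mem ht a1) (mul_mem a1 ht) (w := b a)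
    (χ := (ε * (1 + χ (b a)))⁻¹ • (ε • χ - χ ∘ₗ d.toLinearMap)) (by simp [a2, l1]; ring_nf; simp)
    fun x => ?_) fun e' => ?_
  · simp [hχ, a2, l1, l2, l3.symm, h2.symm, h3]
    match_scalars <;> field_simp <;> ring
  · have := LinearMap.congr_fun e' (b m)
    by_cases e : m = l
    · simp [e1, a3, a2, e, l1.symm] at this
      exact mul_ne_zero (mul_ne_zero e4 (add_eq_zero_iff_eq_neg.not.mpr e3)) (e ▸ m2)
        (by field_simp at this; linear_combination this)
    · simp [e1, a3, a2, m1.symm, Ne.symm e] at this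
      exact mul_ne_zero e4 m2 (by linear_combination this)

theorem SLV_le_of_fix4 {g : V ≃ₗ[F] V} (hg : g ∈ M) (hg' : ¬ Mon b g) {a : ι} {c : F}
    (H : g (b a) = c • b a) : SLV F V ≤ M := by
  haveI := Module.Finite.of_basis b
  let π : V →ₗ[F] ({i // i ≠ a} → F) := LinearMap.pi fun i => b.coord i
  let s : ({i // i ≠ a} → F) →ₗ[F] V := Fintype.linearCombination F fun i => b i
  have p1 : ∀ x i, π x i = b.repr x i := fun _ _ => rfl
  have p2 : ∀ i, s (Pi.single i 1) = b i := fun i => by simp [s]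
  have p3 : π (b a) = 0 := funext fun i => by simp [p1, i.2]
  have p4 : ∀ i : {i // i ≠ a}, π (b i) = Pi.single i 1 := fun i => funext fun j => by
    simp [p1, Finsupp.single_apply, Pi.single_apply, Subtype.ext_iff, eq_comm]
  have p5 : ∀ y, π (s y) = y := LinearMap.congr_fun (show π ∘ₗ s = LinearMap.id from
    (Pi.basisFun F _).ext fun i => by simp [p2, p4])
  have p6 : ∀ y, b.repr (s y) a = 0 := LinearMap.congr_fun (show b.coord a ∘ₗ s = 0 from
    (Pi.basisFun F _).ext fun i => by simp [p2, i.2.symm])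
  have p7 : ∀ x, b.repr x a • b a + s (π x) = x := fun x => b.ext_elem fun i => by
    by_cases e : i = a
    · simp [e, p6]
    · simpa [e, p1] using congrFun (p5 (π x)) ⟨i, e⟩
  let N : Subgroup (({i // i ≠ a} → F) ≃ₗ[F] ({i // i ≠ a} → F)) :=
    { carrier := {k | ∃ g ∈ M, ∀ x, π (g x) = k (π x)}
      one_mem' := ⟨1, one_mem _, fun _ => rfl⟩
      mul_mem' := fun ⟨g, a1, a2⟩ ⟨g', a3, a4⟩ => ⟨g * g', mul_mem a1 a3, fun x => by simp [a2, a4]⟩
      inv_mem' := fun {k} ⟨g, a1, a2⟩ => ⟨g⁻¹, inv_mem a1, fun x =>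
        k.eq_symm_apply.mpr (by simp [← a2])⟩ }
  have a1 : ∀ k, Mon (Pi.basisFun F _) k → ∃ h ∈ M, Mon b h ∧ ∀ x, π (h x) = k (π x) := fun k hk => by
    let L : V ≃ₗ[F] V := LinearEquiv.ofLinearMap
      ((b.coord a).smulRight (b a) + s ∘ₗ k.toLinearMap ∘ₗ π)
      ((b.coord a).smulRight (b a) + s ∘ₗ k.symm.toLinearMap ∘ₗ π)
      (by ext; simp [p3, p5, p6, p7]) (by ext; simp [p3, p5, p6, p7])
    have b0 : ∀ x, L x = b.repr x a • b a + s (k (π x)) := fun _ => rfl
    obtain ⟨d, b1, b2⟩ := exists_dil (φ := ((LinearMap.det (L : V →ₗ[F] V))⁻¹ - 1) • b.coord a)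
      (u := b a) (by simpa using L.isUnit_det'.ne_zero)
    have b3 : Mon b (L * d) := fun i => by
      by_cases e : i = a
      · exact ⟨a, (LinearMap.det (L : V →ₗ[F] V))⁻¹, by simp [e, b0, b1, p3, sub_smul]⟩
      · obtain ⟨j, c, hc⟩ := hk ⟨i, e⟩
        simp only [Pi.basisFun_apply] at hc
        exact ⟨j, c, by simp [b0, b1, Ne.symm e, p4 ⟨i, e⟩, hc, p2]⟩
    refine ⟨L * d, hM _ (mem_SLV.mpr ?_) b3, b3, fun x => by simp [b0, b1, p3, p5]⟩
    rw [LinearEquiv.coe_toLinearMap_mul, map_mul, b2]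
    simp [L.isUnit_det'.ne_zero]
  have a2 : ∀ g : V ≃ₗ[F] V, ∀ c : F, g (b a) = c • b a → ∀ x, π (g (s (π x))) = π (g x) :=
    fun g c H x => by conv_rhs => rw [← p7 x]; simp [H, p3]
  have a3 : g.symm (b a) = c⁻¹ • b a := g.symm_apply_eq.mpr (by
    have : c ≠ 0 := fun e => b.ne_zero a (g.map_eq_zero_iff.mp (by simp [H, e]))
    simp [H, this])
  let k : ({i // i ≠ a} → F) ≃ₗ[F] ({i // i ≠ a} → F) := LinearEquiv.ofLinearMap
    (π ∘ₗ g.toLinearMap ∘ₗ s) (π ∘ₗ g.symm.toLinearMap ∘ₗ s)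
    (LinearMap.ext fun y => by simp [a2 g c H, p5]) (LinearMap.ext fun y => by simp [a2 _ _ a3, p5])
  have a4 : ∀ x, π (g x) = k (π x) := fun x => (a2 g c H x).symm
  by_cases e : Mon (Pi.basisFun F _) k
  · obtain ⟨h, b1, b2, b3⟩ := a1 k e
    obtain ⟨j, j1, -⟩ := exists_ne₃' hn a a a
    obtain ⟨l, l1, l2, -⟩ := exists_ne₃' hn a j j
    refine SLV_le_of_near4 hM h5 hn (mul_mem (inv_mem b1) hg) l2 l1 j1 (c := 0) (fun x i hi => ?_)
      (Or.inr fun e' => hg' (by simpa using b2.mul e'))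
    have : π (h.symm (g x)) = π x := k.injective (by rw [← b3, h.apply_symm_apply, a4])
    simpa [p1] using congrFun this ⟨i, hi⟩
  obtain ⟨j, l, c, b1, b2, -, t, ⟨t', b3, b4⟩, b5⟩ := exists_root_of_not_mon (M := N) h5
    (fun k hk => (a1 k hk).imp fun _ h => ⟨h.1, h.2.2⟩) (by simp; omega) ⟨g, hg, a4⟩ e
  refine SLV_le_of_near4 hM h5 hn b3 (Subtype.coe_ne_coe.mpr b1) j.2 l.2 (fun x i hi => ?_) (Or.inl b2)
  rw [← p1 _ ⟨i, hi⟩, ← p1 _ ⟨i, hi⟩, b4, b5]
  simp only [map_add, map_smul, p4, Pi.basisFun_apply, Basis.coord_apply, LinearMap.smul_apply,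
    Pi.basisFun_repr, p1 x l, smul_eq_mul]

end

variable {b : Basis (Fin 4) F V} (hM : ∀ g ∈ SLV F V, Mon b g → g ∈ M) [Finite F]
  (h7 : 7 ≤ Nat.card F)
include hM h7

section nf
variable (NF : ∀ g ∈ M, ∀ (a a' : Fin 4) (c : F), g (b a) = c • b a' → Mon b g)
include NF

theorem nf_two4 {g : V ≃ₗ[F] V} (hg : g ∈ M) {a j k : Fin 4} (h : j ≠ k)
    (h1 : b.repr (g (b a)) j = 0) (h2 : b.repr (g (b a)) k = 0) : Mon b g := by
  obtain ⟨i, h3⟩ : ∃ i, b.repr (g (b i)) j ≠ 0 :=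
    exists_basis_ne (χ := b.coord j ∘ₗ g.toLinearMap) fun e => by
      simpa using LinearMap.congr_fun e (g.symm (b j))
  set A := b.repr (g (b i)) j * b.repr (g.symm (b j)) i with hA
  set B := b.repr (g (b i)) k * b.repr (g.symm (b k)) i with hB
  obtain ⟨ε, e1, e2, e4, e3⟩ := exists_avoid₇ h7 (A := A) (B := 1 - A - B) (D := B)
    (by rintro ⟨a1, a2, a3⟩; simp [a1, a3] at a2)
  obtain ⟨d, a1, a2⟩ := exists_dd hM h e1
  obtain ⟨i', c, hc⟩ := NF _ (mul_mem (mul_mem (inv_mem hg) a1) hg) a a 1 (by simp [a2, h1, h2]) i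
  rcases eq_or_ne i' i with rfl | e
  · have b1 : d (g (b i')) = c • g (b i') := by simpa [g.symm_apply_eq] using hc
    have b3 := congrArg (b.repr · j) b1
    simp [a2, h] at b3
    have b4 : c = ε := mul_right_cancel₀ h3 (by linear_combination -b3)
    refine NF g hg i' j (b.repr (g (b i')) j) (b.ext_elem fun l => ?_)
    by_cases h4 : l = j
    · simp [h4]
    have b2 := congrArg (b.repr · l) b1
    by_cases h6 : l = k
    · simp [a2, h6, h.symm, b4] at b2
      rw [h6]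
      simp only [map_smul, Basis.repr_self, Finsupp.smul_apply, Finsupp.single_eq_of_ne h.symm,
        smul_zero]
      refine (mul_eq_zero.mp ?_).resolve_left
        (mul_ne_zero (sub_ne_zero.mpr e2) (sub_ne_zero.mpr e4))
      field_simp at b2
      linear_combination -b2
    · simp [a2, h4, h6, b4] at b2
      simpa [h4] using (mul_eq_zero.mp (show (ε - 1) * b.repr (g (b i')) l = 0 by
        linear_combination -b2)).resolve_left (sub_ne_zero.mpr e2)
  · have b1 := congrArg (b.repr · i) hc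
    simp [a2, e.symm, mul_assoc, ← hA, ← hB] at b1
    exact (e3 (by field_simp at b1; linear_combination b1)).elim

theorem nf_one4 {g : V ≃ₗ[F] V} (hg : g ∈ M) {i j : Fin 4} (h : b.repr (g (b i)) j = 0) :
    Mon b g := by
  obtain ⟨s, s0, s1⟩ := exists_pow_four_ne h7
  obtain ⟨d, a1, a2⟩ := exists_diag hM (t := fun l => if l = j then s ^ 3 else s⁻¹) (by
    fin_cases j <;> simp [Fin.prod_univ_four] <;> field_simp)
  have a3 : ∀ x, d x = s⁻¹ • x + ((s ^ 3 - s⁻¹) * b.repr x j) • b j := fun x => b.ext_elem fun l => by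
    by_cases e : l = j
    · simp [a2, e]; ring
    · simp [a2, e]
  obtain ⟨l, hl⟩ : ∃ l, b.repr (g (b l)) j ≠ 0 :=
    exists_basis_ne (χ := b.coord j ∘ₗ g.toLinearMap) fun e => by
      simpa using LinearMap.congr_fun e (g.symm (b j))
  obtain ⟨l', c, hc⟩ := NF _ (mul_mem (mul_mem (inv_mem hg) a1) hg) i i s⁻¹ (by simp [a3, h]) l
  have a4 : s ^ 3 - s⁻¹ ≠ 0 := fun e => s1 (by field_simp at e; linear_combination e)
  have a5 : ∀ m, m ≠ l → m ≠ l' → b.repr (g⁻¹ (b j)) m = 0 := fun m m1 m2 => by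
    simpa [a3, m1, m2, a4, hl] using congrArg (b.repr · m) hc
  obtain ⟨m, m1, m2, -⟩ := exists_ne₃' (by simp) l l' l
  obtain ⟨m', m3, m4, m5⟩ := exists_ne₃' (by simp) l l' m
  simpa using (nf_two4 hM h7 NF (inv_mem hg) m5 (a5 m' m3 m4) (a5 m m1 m2)).inv

theorem nf_mon4 {g : V ≃ₗ[F] V} (hg : g ∈ M) : Mon b g := by
  haveI := Module.Finite.of_basis b
  by_contra hg'
  have a1 : ∀ i j, b.repr (g (b i)) j ≠ 0 := fun i j e => hg' (nf_one4 hM h7 NF hg e)
  have a2 : ∀ i j, b.repr (g.symm (b i)) j ≠ 0 := fun i j e =>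
    hg' (by simpa using (nf_one4 hM h7 NF (inv_mem hg) e).inv)
  set a : Fin 4 → F := fun j => b.repr (g (b 0)) j * b.repr (g.symm (b j)) 1 with ha
  have a0 : ∀ j, a j ≠ 0 := fun j => mul_ne_zero (a1 _ _) (a2 _ _)
  have a3 : ∀ (x : V) (m : Fin 4),
      b.repr (g.symm x) m = ∑ j, b.repr x j * b.repr (g.symm (b j)) m := fun x m => by
    conv_lhs => rw [← b.sum_repr x]
    simp only [map_sum, map_smul, Finsupp.finsetSum_apply, Finsupp.smul_apply, smul_eq_mul]
  have a4 : ∑ j, a j = 0 := by simpa [ha] using (a3 (g (b 0)) 1).symm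
  have key : ∀ t : Fin 4 → F, ∏ i, t i = 1 → ∑ j, t j * a j = 0 → (∃ j k, t j ≠ t k) →
      ∑ j, t j = 0 ∧ ∀ s : F, (∀ j, t j * t j + 1 = s * t j) → s = 0 := fun t h1 h2 ⟨j, k, h3⟩ => by
    obtain ⟨d, b4, b5⟩ := exists_diag hM h1
    have b6 := nf_one4 hM h7 NF (mul_mem (mul_mem (inv_mem hg) b4) hg) (i := 0) (j := 1) (by
      rw [← h2]
      change b.repr (g.symm (d (g (b 0)))) 1 = _
      simp only [a3 (d _), b5, ha, mul_assoc])
    have b7 : ∀ r, ∃ (r' : Fin 4) (c : F), r' ≠ r ∧ c ≠ 0 ∧ d (g (b r)) = c • g (b r') := fun r => by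
      obtain ⟨r', c, hc⟩ := b6 r
      replace hc : d (g (b r)) = c • g (b r') := by simpa [g.symm_apply_eq] using hc
      refine ⟨r', c, ?_, ?_, hc⟩
      · rintro rfl
        have c2 := congrArg (b.repr · j) hc
        have c3 := congrArg (b.repr · k) hc
        simp [b5, a1] at c2 c3
        exact h3 (c2.trans c3.symm)
      · rintro rfl
        simp [b.ne_zero] at hc
    refine ⟨?_, fun s hs => ?_⟩
    · have c1 : LinearMap.trace F V (g.symm.toLinearMap * (d.toLinearMap * g.toLinearMap)) = 0 := by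
        rw [LinearMap.trace_eq_matrix_trace F b, Matrix.trace]
        refine Finset.sum_eq_zero fun r _ => ?_
        obtain ⟨r', c, c1, -, c2⟩ := b7 r
        simp [LinearMap.toMatrix_apply, c2, c1.symm]
      rw [LinearMap.trace_mul_comm, mul_assoc, show g.toLinearMap * g.symm.toLinearMap = 1 from
        LinearMap.ext fun x => by simp, mul_one, LinearMap.trace_eq_matrix_trace F b,
        Matrix.trace] at c1
      simpa [LinearMap.toMatrix_apply, b5] using c1
    · obtain ⟨r, c, c1, c0, c2⟩ := b7 0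
      obtain ⟨r', c', c3, -, c4⟩ := b7 r
      have c5 : ∀ x, d (d x) + x = s • d x := fun x => b.ext_elem fun l => by
        simp only [map_add, Finsupp.add_apply, b5, map_smul, Finsupp.smul_apply, smul_eq_mul]
        linear_combination b.repr x l * hs l
      have c6 := congrArg (fun x => b.repr (g.symm x) r) (c5 (g (b 0)))
      simpa [c2, c4, c1, c3.symm, c0] using c6
  exact arith_four h7 a0 a4 key

end nf

theorem SLV_le_of_not_mon4 {g : V ≃ₗ[F] V} (hg : g ∈ M) (hg' : ¬ Mon b g) : SLV F V ≤ M := by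
  by_contra H
  refine hg' (nf_mon4 hM h7 (fun g hg a a' c h => ?_) hg)
  by_contra e
  obtain ⟨k, a1, a2, a3, -⟩ := exists_weyl hM a' a
  exact H (SLV_le_of_fix4 hM (by omega) (by simp) (mul_mem a1 hg)
    (fun e' => e (by simpa using a2.inv.mul e')) (a := a) (c := c) (by simp [h, a3]))

omit hM h7 in
open Cfsg.Geo in
theorem max_SL_lines {ι : Type} [Fintype ι] [DecidableEq ι] {D : Fin 4 → Submodule F (ι → F)}
    (hD : IsMDecomposition 1 D) (hq : 7 ≤ Nat.card F) :
    IsMaximalIn (specialLinear ι F) (decompositionStabilizer D ⊓ specialLinear ι F) := by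
  refine isMaximalIn_SL (fun g => ∀ i, ∃ j, ∀ x ∈ D i, g x ∈ D j)
    (fun g => perm_iff_mapsTo hD (glEq ι F g)) (H18.SL_not_le_decomp hD) fun M hM _ g hg hg' => ?_
  obtain ⟨b, hb⟩ := exists_basis_of_dec hD
  simp only [mapsTo_iff_mon hb] at hM hg'
  exact SLV_le_of_not_mon4 hM hq hg hg'

end Cfsg.Agent.H12
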