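import Mathlib
import Cfsg.Agent.H12.PxG

/-!
Orthonormal frames in dimension six.
-/

set_option autoImplicit false

namespace Cfsg.Agent.H12

open Module QuadraticMap H13 H18

variable {F V : Type*} [Field F] [AddCommGroup V] [Module F V] {Q : QuadraticForm F V}
  {M : Subgroup (OG Q)} {v : V} {g t : OG Q}
  {ι : Type*} [Fintype ι] [DecidableEq ι] {e x : ι → V} {a b i j k l m : ι} {c : F} [Finite V]

/-- standing hypotheses -/
structure FrX (M : Subgroup (OG Q)) (e : ι → V) : Prop where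
  on : ON Q e
  six : Fintype.card ι = 6
  le : ∀ g ∈ Om Q, g ∈ Mon Q e → g ∈ M
  nf : ∀ g ∈ M, ∀ a b, ∀ c : F, g.1 (e a) = c • e b → g ∈ Mon Q e

/-- two frames share a line -/
def Shr (F : Type*) {V ι : Type*} [Field F] [AddCommGroup V] [Module F V] (e x : ι → V) : Prop :=
  ∃ i k, ∃ c : F, x k = c • e i

omit [Fintype ι] [DecidableEq ι] in
theorem mem_Mon_map : t ∈ Mon Q (fun i => g.1 (e i)) ↔ g⁻¹ * t * g ∈ Mon Q e := by
  simp only [mem_Mon]
  refine forall_congr' fun i => exists_congr fun j => exists_congr fun c => ?_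
  rw [OG_mul_apply, OG_mul_apply]
  exact ⟨fun h => by rw [h, map_smul, OG_inv_apply_apply], fun h => by
    rw [← map_smul, ← h, OG_apply_inv]⟩

theorem FrX.map (h : FrX M e) (hg : g ∈ M) : FrX M fun i => g.1 (e i) where
  on := ⟨h.on.two, fun i j => by rw [OG_polar, h.on.pol], fun y => by
    conv_rhs => rw [← OG_apply_inv g y, ← h.on.sum (g⁻¹.1 y), map_sum]
    simp only [map_smul, OG_polar_left]⟩
  six := h.six
  le t h1 h2 := by
    have := h.le _ ((inferInstance : (Om Q).Normal).conj_mem' t h1 g) (mem_Mon_map.mp h2)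
    simpa [mul_assoc] using mul_mem (mul_mem hg this) (inv_mem hg)
  nf t ht a b c H := mem_Mon_map.mpr (h.nf _ (mul_mem (mul_mem (inv_mem hg) ht) hg) a b c (by
    rw [OG_mul_apply, OG_mul_apply, H, map_smul, OG_inv_apply_apply]))

omit [Finite V] in
theorem Shr.symm (o : ON Q x) (h : Shr F e x) : Shr F x e := by
  obtain ⟨i, k, c, H⟩ := h
  have : c ≠ 0 := by
    rintro rfl
    exact o.Q_ne k (by simp [H])
  exact ⟨k, i, c⁻¹, by simp [H, this]⟩

theorem exists_ne_six (h : Fintype.card ι = 6) (s : Finset ι) (hs : s.card ≤ 5) : ∃ m, m ∉ s :=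
  exists_not_mem s (by omega)

theorem FrX.shr_of_two (h : FrX M e) (h' : FrX M x) (hij : i ≠ j) (ha : spt Q e (x a) ⊆ {i, j}) :
    Shr F e x := by
  have o := h.on
  have o' := h'.on
  have := o.fin
  have t2 := o.two
  have z : ∀ p, p ≠ i → p ≠ j → polar Q (e p) (x a) = 0 := fun p h1 h2 => by
    by_contra h3
    simpa [h1, h2] using ha (mem_spt.mpr h3)
  have ne3 : ∀ p q r : ι, ∃ m, m ≠ i ∧ m ≠ j ∧ m ≠ p ∧ m ≠ q ∧ m ≠ r := fun p q r => by
    simpa using exists_ne_six h.six {i, j, p, q, r} Finset.card_le_five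
  have d1 : ∀ p q, p ≠ q → p ≠ i → p ≠ j → q ≠ i → q ≠ j → refl Q (e p) * refl Q (e q) ∈ Mon Q x :=
    fun p q h0 h1 h2 h3 h4 => h'.nf _ (o.d_mem h.le p q) a a 1 (by
      rw [o.d_apply h0]; simp [z p h1 h2, z q h3 h4])
  have xa : x a = polar Q (e i) (x a) • e i + polar Q (e j) (x a) • e j := o.ext fun p => by
    by_cases h1 : p = i
    · simp [h1, o.pol, hij, -polar_self]
    by_cases h2 : p = j
    · simp [h2, o.pol, hij.symm, -polar_self]
    · simp [o.pol, h1, h2, z p h1 h2]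
  obtain ⟨b, hb⟩ := exists_not_mem (mvd x (refl Q (e i) * refl Q (e j))) ((o'.card_mvd
    (h'.nf _ (o.d_mem h.le i j) a a (-1) (by
      rw [o.d_apply hij]; linear_combination (norm := module) (2 : F) • xa))
    (rk_refl_refl o.nd _ _)).trans_lt (by rw [h.six]; omega))
  replace hb := o.zero_of_d hij (not_not.mp (mt mem_mvd.mpr hb))
  let P : Submodule F V :=
    { carrier := {v | ∀ k, ¬ (polar Q (e i) (x k) = 0 ∧ polar Q (e j) (x k) = 0) → polar Q (x k) v = 0}
      add_mem' := fun h1 h2 k hk => by rw [polar_add_right, h1 k hk, h2 k hk, add_zero]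
      zero_mem' := fun _ _ => polar_zero_right _ _
      smul_mem' := fun c v h1 k hk => by rw [polar_smul_right, h1 k hk, smul_zero] }
  have p1 : ∀ t ∈ Mon Q x, t.1 (e i) = e i → t.1 (e j) = e j → ∀ v ∈ P, t.1 v ∈ P :=
    fun t h1 h2 h3 v hv k hk => by
      obtain ⟨k', c, hc⟩ := mem_Mon.mp (inv_mem h1) k
      rw [OG_polar_right, hc, polar_smul_left, hv k' fun H => hk ?_, smul_zero]
      rw [← h2, ← h3, OG_polar_left, OG_polar_left, hc]
      simp [H]
  have p2 : ∀ p q, p ≠ q → p ≠ i → p ≠ j → q ≠ i → q ≠ j → ∀ v ∈ P,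
      polar Q (e p) v • e p + polar Q (e q) v • e q ∈ P := fun p q h0 h1 h2 h3 h4 v hv => by
    have := P.smul_mem (2 : F)⁻¹ (P.sub_mem hv (p1 _ (d1 p q h0 h1 h2 h3 h4)
      (by rw [o.d_apply h0]; simp [o.pol, h1, h3]) (by rw [o.d_apply h0]; simp [o.pol, h2, h4]) v hv))
    convert this using 1
    rw [o.d_apply h0]
    match_scalars <;> field_simp <;> ring
  obtain ⟨p, hp⟩ : ∃ p, polar Q (e p) (x b) ≠ 0 := by
    by_contra! H
    exact o'.Q_ne b (by rw [o.ext (x := x b) (y := 0) (by simpa using H), QuadraticMap.map_zero])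
  have p3 : p ≠ i := by rintro rfl; exact hp hb.1
  have p4 : p ≠ j := by rintro rfl; exact hp hb.2
  have p5 : e p ∈ P := by
    obtain ⟨q, q1, q2, q3, -⟩ := ne3 p p p
    obtain ⟨r, r1, r2, r3, r4, -⟩ := ne3 p q p
    have := p2 p r r3.symm p3 p4 r1 r2 _ (p2 p q q3.symm p3 p4 q1 q2 (x b) fun k hk =>
      o'.pol_ne (by rintro rfl; exact hk hb))
    simp only [polar_add_right, polar_smul_right, o.pol, if_true, q3.symm, r3, r4, if_false,
      smul_eq_mul, mul_one, mul_zero, add_zero, zero_smul] at this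
    exact (P.smul_mem_iff hp).mp this
  have p6 : ∀ q, q ≠ i → q ≠ j → e q ∈ P := fun q q1 q2 => by
    by_cases q3 : p = q
    · exact q3 ▸ p5
    obtain ⟨r, r1, r2, r3, r4, -⟩ := ne3 p q p
    have a1 := (o.cl_root h.le q3 (one_mul 1) q3 (one_mul 1)).mul
      (o.cl_root h.le q3 (one_mul 1) r4.symm (one_mul 1))
    have := p1 _ (h'.nf _ a1 a a 1 (by
      rw [OG_mul_apply, refl_apply_of_perp (x := x a), refl_apply_of_perp, one_smul] <;>
        simp [z, p3, p4, q1, q2, r1, r2]))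
      (by rw [OG_mul_apply, o.refl_root_ne q1 r1, o.refl_root_ne p3 q1])
      (by rw [OG_mul_apply, o.refl_root_ne q2 r2, o.refl_root_ne p4 q2]) _ p5
    rwa [OG_mul_apply, o.refl_root_ne (Ne.symm q3) r3, o.refl_root q3 (one_mul 1), one_smul] at this
  have key : ∀ q, q ≠ p → q ≠ i → q ≠ j → ∀ r, r ≠ p → r ≠ q → polar Q (e r) (x b) = 0 :=
    fun q q0 q1 q2 => by
    set L := refl Q (e i - (1 : F) • e j) * refl Q (e p - (1 : F) • e q) * (refl Q (e i) * refl Q (e p))
      with hL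
    have a1 : L ∈ M := mul_mem ((o.cl_root h.le hij (one_mul 1) hij (one_mul 1)).mul
      (o.cl_root h.le hij (one_mul 1) q0.symm (one_mul 1))) (o.d_mem h.le i p)
    have a2 : ∀ v, L.1 v = v + (polar Q (e j) v - polar Q (e i) v) • e i -
        (polar Q (e i) v + polar Q (e j) v) • e j + (polar Q (e q) v - polar Q (e p) v) • e p -
        (polar Q (e p) v + polar Q (e q) v) • e q := fun v => by
      rw [hL, OG_mul_apply, OG_mul_apply, o.d_apply p3.symm, refl_apply, refl_apply,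
        o.Q_root hij (one_mul 1), o.Q_root q0.symm (one_mul 1)]
      simp only [polar_sub_left, polar_sub_right, polar_smul_left, polar_smul_right, o.pol, if_true,
        hij.symm, p3, p3.symm, p4.symm, q0, q0.symm, q1, q1.symm, q2.symm, if_false, smul_eq_mul]
      match_scalars <;> ring
    have a3 : L.1 (x a) = polar Q (e j) (x a) • e i - polar Q (e i) (x a) • e j := by
      rw [a2, z p p3 p4, z q q1 q2]; linear_combination (norm := module) xa
    obtain ⟨k, hk⟩ : ∃ k, polar Q (x k) (L.1 (x a)) ≠ 0 := by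
      by_contra! H
      exact o'.Q_ne a (by rw [← OG_map L, o'.ext (x := L.1 (x a)) (y := 0) (by simpa using H), QuadraticMap.map_zero])
    have a4 : ¬ (polar Q (e i) (x k) = 0 ∧ polar Q (e j) (x k) = 0) := fun H => hk (by
      simp [a3, polar_comm Q (x k), H])
    have xk : x k = polar Q (e i) (x k) • e i + polar Q (e j) (x k) • e j := o.ext fun r => by
      by_cases h1 : r = i
      · simp [h1, o.pol, hij, -polar_self]
      by_cases h2 : r = j
      · simp [h2, o.pol, hij.symm, -polar_self]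
      · simpa [o.pol, h1, h2] using (polar_comm Q _ _).trans (p6 r h1 h2 k a4)
    have a5 : k ≠ a := by
      rintro rfl
      exact hk (by simp [a3, polar_comm Q (x k), mul_comm])
    have a6 := o'.pol_ne a5
    have a7 := o'.pol_self k
    rw [xa] at a6
    nth_rw 2 [xk] at a7
    simp only [polar_add_right, polar_smul_right, polar_comm Q (x k) (e _), smul_eq_mul] at a6 a7
    have a8 := h'.nf L a1 a k (polar Q (e j) (x a) * polar Q (e i) (x k) -
      polar Q (e i) (x a) * polar Q (e j) (x k)) (by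
        rw [a3]
        generalize polar Q (e i) (x k) = γ at xk a6 a7 ⊢
        generalize polar Q (e j) (x k) = δ at xk a6 a7 ⊢
        rw [xk]
        match_scalars
        · linear_combination -polar Q (e j) (x a) * a7 + δ * a6
        · linear_combination polar Q (e i) (x a) * a7 - γ * a6)
    obtain ⟨m, c, hc⟩ := mem_Mon.mp a8 b
    by_cases a9 : m = b
    · subst a9
      have b1 := congrArg (polar Q (e p)) hc
      have b2 := congrArg (polar Q (e q)) hc
      have b3 := o'.sq_eq hc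
      simp [a2, o.pol, p3, p4, q0, q0.symm, q1, q2, -polar_self] at b1 b2
      exact (mul_ne_zero t2 hp (by linear_combination -b2 - c * b1 - polar Q (e p) (x m) * b3)).elim
    have b1 := congrArg (polar Q (x b)) hc
    simp only [a2, polar_add_right, polar_sub_right, polar_smul_right, polar_comm Q (x b) (e _), hb,
      o'.pol_self, o'.pol_ne (Ne.symm a9), smul_eq_mul] at b1
    obtain ⟨m', c', hc'⟩ := mem_Mon.mp (d1 p q q0.symm p3 p4 q1 q2) b
    have b2 := congrArg (polar Q (x b)) hc'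
    simp only [o.d_apply q0.symm, polar_sub_right, polar_smul_right, polar_comm Q (x b) (e _),
      o'.pol, if_true, smul_eq_mul] at b2
    intro r r1 r2
    by_cases b3 : b = m'
    · subst b3
      have b4 := congrArg (polar Q (e r)) hc'
      simp only [o.d_apply q0.symm, polar_sub_right, polar_smul_right, o.pol, r1, r2, if_false,
        smul_eq_mul, if_true] at b4 b2
      refine mul_left_cancel₀ t2 ?_
      linear_combination b4 + polar Q (e r) (x b) * (2 * b1 - b2)
    · simp [b3] at b2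
      exact (one_ne_zero (by linear_combination 2 * b1 - b2 : (1 : F) = 0)).elim
  obtain ⟨q, q1, q2, q3, -⟩ := ne3 p p p
  obtain ⟨q', r1, r2, r3, r4, -⟩ := ne3 p q p
  refine ⟨p, b, polar Q (e p) (x b), o.ext fun r => ?_⟩
  by_cases h1 : r = p
  · simp [h1, o.pol, -polar_self]
  by_cases h2 : r = q
  · simpa [o.pol, h1] using key q' r3 r1 r2 r h1 (h2 ▸ r4.symm)
  · simpa [o.pol, h1] using key q q3 q1 q2 r h1 h2

theorem FrX.mon_of_comm (h : FrX M e) (ht : t ∈ M) (hij : i ≠ j)
    (H : t * (refl Q (e i) * refl Q (e j)) = refl Q (e i) * refl Q (e j) * t) : t ∈ Mon Q e := by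
  have o := h.on
  obtain ⟨p, k, c, hc⟩ := h.shr_of_two (h.map ht) hij (a := i) fun r hr => by
    by_contra h3
    simp only [Finset.mem_insert, Finset.mem_singleton, not_or] at h3
    have := congrArg (fun g : OG Q => polar Q (e r) (g.1 (e i))) H
    simp only [OG_mul_apply t, OG_mul_apply _ t, o.d_apply hij, o.pol, hij.symm, if_true, if_false,
      map_sub, map_smul, polar_sub_right, polar_smul_right, h3, smul_eq_mul] at this
    exact mul_ne_zero o.two (mem_spt.mp hr) (by linear_combination -this)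
  exact h.nf t ht k p c hc

theorem FrX.shr_of_mon (h : FrX M e) (h' : FrX M x) (hab : a ≠ b)
    (H : refl Q (x a) * refl Q (x b) ∈ Mon Q e) : Shr F e x := by
  have o := h.on
  have o' := h'.on
  have := o.fin
  have t2 := o.two
  by_contra H0
  have A : ∀ i j k, i ≠ j → ¬ spt Q e (x k) ⊆ {i, j} := fun i j k h1 h2 => H0 (h.shr_of_two h' h1 h2)
  have A' : ∀ i j k, i ≠ j → ¬ spt Q x (e k) ⊆ {i, j} := fun i j k h1 h2 =>
    H0 ((h'.shr_of_two h h1 h2).symm o)
  have s0 := o.card_mvd H (rk_refl_refl o.nd _ _)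
  have s1 := o'.d_mul_self hab
  have s2 := o'.d_apply hab
  have s5 : ∀ t ∈ M, t * (refl Q (x a) * refl Q (x b)) = refl Q (x a) * refl Q (x b) * t →
    t ∈ Mon Q x := fun t ht => h'.mon_of_comm ht hab
  generalize refl Q (x a) * refl Q (x b) = s at H s0 s1 s2 s5
  choose π c hc using mem_Mon.mp H
  have s3 : s.1 (x a) = -x a := by rw [s2, o'.pol_self, o'.pol_ne hab.symm]; module
  have s4 := o.spt_subset s3
  have c1 := fun i => o.sq_eq (hc i)
  have c0 := fun i => left_ne_zero_of_mul_eq_one (c1 i)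
  have c2 : ∀ i, s.1 (e (π i)) = c i • e i := fun i => by
    have := congrArg (fun g : OG Q => c i • g.1 (e i)) s1
    simpa [OG_mul_apply, hc i, smul_smul, c1] using this
  have c3 : ∀ i, π (π i) = i := fun i => by
    by_contra h1
    have := congrArg (polar Q (e i)) ((c2 i).symm.trans (hc (π i)))
    simp [o.pol, Ne.symm h1, c0, -polar_self] at this
  have c4 : ∀ i, polar Q (e (π i)) (x a) = -c i * polar Q (e i) (x a) := fun i => by
    have := OG_polar s (e (π i)) (x a)
    rw [c2, s3] at this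
    simpa using this.symm
  have c5 : ∀ i ∈ spt Q e (x a), π i ≠ i := fun i hi h1 => by
    have b1 := c4 i
    have b2 := hc i
    rw [h1] at b1 b2
    have b3 : c i = -1 := mul_right_cancel₀ (mem_spt.mp hi) (by linear_combination b1)
    refine A' a b i hab fun r hr => ?_
    by_contra h3
    simp only [Finset.mem_insert, Finset.mem_singleton, not_or] at h3
    have := congrArg (polar Q (x r)) b2
    simp only [s2, b3, polar_sub_right, polar_smul_right, o'.pol, h3, if_false, smul_eq_mul] at this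
    exact mul_ne_zero t2 (mem_spt.mp hr) (by linear_combination this)
  have c6 : ∀ i ∈ spt Q e (x a), π i ∈ spt Q e (x a) := fun i hi => by
    simpa [mem_spt, c4, c0] using hi
  have c7 : ∀ i ∈ spt Q e (x a), (∃ k, ∃ d : F, (refl Q (e i) * refl Q (e (π i))).1 (x a) = d • x k) ∧
      4 * polar Q (e i) (x a) ^ 2 = 1 := fun i hi => by
    obtain ⟨k, d, hd⟩ := mem_Mon.mp (s5 _ (o.d_mem h.le i (π i)) (by
      rw [eq_comm, ← mul_inv_eq_iff_eq_mul, ← conj_mul, conj_refl, conj_refl, c2, hc,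
        refl_smul (c0 _), refl_smul (c0 _)]
      have := conj_refl (refl Q (e (π i))) (e i)
      rwa [refl_apply_of_perp (o.pol_ne (c5 i hi)), mul_inv_eq_iff_eq_mul] at this)) a
    refine ⟨⟨k, d, hd⟩, ?_⟩
    rw [o.d_apply (c5 i hi).symm] at hd
    by_cases h1 : a = k
    · subst h1
      obtain ⟨r, r1, r2⟩ := Finset.not_subset.mp (A i (π i) a (c5 i hi).symm)
      simp only [Finset.mem_insert, Finset.mem_singleton, not_or] at r2
      have b1 := congrArg (polar Q (e r)) hd
      have b2 := congrArg (polar Q (e i)) hd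
      simp only [polar_sub_right, polar_smul_right, o.pol, r2, (c5 i hi).symm, if_true, if_false,
        smul_eq_mul] at b1 b2
      have b3 : d = 1 := mul_right_cancel₀ (mem_spt.mp r1) (by linear_combination -b1)
      exact (mul_ne_zero t2 (mem_spt.mp hi) (by rw [b3] at b2; linear_combination -b2)).elim
    · have b1 := congrArg (polar Q (x a)) hd
      simp only [polar_sub_right, polar_smul_right, o'.pol, h1, if_true, if_false,
        polar_comm Q (x a) (e _), c4, smul_eq_mul] at b1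
      linear_combination -b1 - 2 * polar Q (e i) (x a) ^ 2 * c1 i
  have c8 : ∀ i p q r, i ∈ spt Q e (x a) → p ∈ spt Q e (x a) → q ∈ spt Q e (x a) → r ∈ spt Q e (x a) →
      p ≠ i → q ≠ i → r ≠ i → p ≠ q → q ≠ r → r ≠ p →
      (∃ k, ∃ d : F, (refl Q (e i) * refl Q (e p)).1 (x a) = d • x k) →
      ∃ k, ∃ d : F, (refl Q (e i) * refl Q (e q)).1 (x a) = d • x k :=
    fun i p q r hi hp hq hr n1 n2 n3 n4 n5 n6 ⟨k, d, hd⟩ => by
      have b0 : ∀ p ∈ spt Q e (x a), ∀ q ∈ spt Q e (x a), (4 * polar Q (e p) (x a) * polar Q (e q) (x a)) *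
          (4 * polar Q (e p) (x a) * polar Q (e q) (x a)) = 1 ∧ polar Q (e p - (4 * polar Q (e p) (x a) *
            polar Q (e q) (x a)) • e q) (x a) = 0 := fun p hp q hq =>
        ⟨by linear_combination 4 * polar Q (e q) (x a) ^ 2 * (c7 p hp).2 + (c7 q hq).2, by
          simp only [polar_sub_left, polar_smul_left, smul_eq_mul]
          linear_combination -polar Q (e p) (x a) * (c7 q hq).2⟩
      obtain ⟨b1, b2⟩ := b0 p hp q hq
      obtain ⟨b3, b4⟩ := b0 q hq r hr
      have b5 := (o.cl_root h.le n4 b1 n4 b1).mul (o.cl_root h.le n4 b1 n5 b3)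
      generalize 4 * polar Q (e p) (x a) * polar Q (e q) (x a) = s₁ at b1 b2 b5
      generalize 4 * polar Q (e q) (x a) * polar Q (e r) (x a) = s₂ at b3 b4 b5
      set w := refl Q (e p - s₁ • e q) * refl Q (e q - s₂ • e r) with hw
      have b6 : w.1 (x a) = x a := by
        rw [hw, OG_mul_apply, refl_apply_of_perp b4, refl_apply_of_perp b2]
      obtain ⟨k', d', hd'⟩ := mem_Mon.mp (h'.nf w b5 a a 1 (by simpa using b6)) k
      refine ⟨k', d * d', ?_⟩
      have b7 : w * (refl Q (e i) * refl Q (e p)) * w⁻¹ = refl Q (e i) * refl Q (e q) := by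
        rw [← conj_mul, conj_refl, conj_refl, hw, OG_mul_apply, OG_mul_apply, o.refl_root_ne n2 n3,
          o.refl_root_ne n1 n2, o.refl_root_ne n4.symm n6, o.refl_root n4 b1,
          refl_smul (left_ne_zero_of_mul_eq_one b1)]
      rw [← b7, OG_mul_apply, OG_mul_apply, ← b6, OG_inv_apply_apply, hd, map_smul, hd', smul_smul]
  obtain ⟨i, hi⟩ : ∃ i, i ∈ spt Q e (x a) := by
    by_contra! H
    exact o'.Q_ne a (by
      rw [o.ext (x := x a) (y := 0) (by simpa [mem_spt] using H), QuadraticMap.map_zero])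
  obtain ⟨k, hk, k1⟩ := Finset.not_subset.mp (A i (π i) a (c5 i hi).symm)
  simp only [Finset.mem_insert, Finset.mem_singleton, not_or] at k1
  have n1 := c5 i hi
  have n2 := c5 k hk
  have n3 : π k ≠ i := fun e => k1.2 (by rw [← e, c3])
  have n4 : π k ≠ π i := fun e => k1.1 (by rw [← c3 k, e, c3])
  have f1 := (c7 i hi).1
  have f2 := c8 i (π i) k (π k) hi (c6 i hi) hk (c6 k hk) n1 k1.1 n3 (Ne.symm k1.2) n2.symm n4 f1
  have f3 := c8 i k (π k) (π i) hi hk (c6 k hk) (c6 i hi) k1.1 n3 n1 n2.symm n4 (Ne.symm k1.2) f2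
  obtain ⟨m, hm⟩ := exists_not_mem (mvd e s) (s0.trans_lt (by rw [h.six]; omega))
  have m1 : ∀ p ∈ spt Q e (x a), m ≠ p := fun p hp e => hm (e ▸ s4 hp)
  have m2 : polar Q (e m) (x a) = 0 := by
    by_contra h1
    exact m1 m (mem_spt.mpr h1) rfl
  have g1 : ∀ {p k} {d : F}, p ∈ spt Q e (x a) → p ≠ i →
      (refl Q (e i) * refl Q (e p)).1 (x a) = d • x k → d ≠ 0 ∧ k ≠ a ∧ k ∉ spt Q x (e m) :=
    fun {p k d} hp h1 hd => by
      have d0 := left_ne_zero_of_mul_eq_one (o'.sq_eq hd)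
      have b1 := congrArg (polar Q (x a)) hd
      have b2 := congrArg (polar Q (e m)) hd
      simp only [o.d_apply h1.symm, polar_sub_right, polar_smul_right, o'.pol, o.pol, if_true,
        polar_comm Q (x a) (e _), smul_eq_mul, m2, m1 i hi, m1 p hp, if_false] at b1 b2
      refine ⟨d0, ?_, fun h2 => mul_ne_zero d0 (mem_spt.mp h2) (by
        rw [polar_comm]; linear_combination -b2)⟩
      rintro rfl
      simp only [if_true] at b1
      exact mul_ne_zero t2 d0 (by linear_combination -2 * b1 - (c7 i hi).2 - (c7 p hp).2)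
  have g2 : ∀ {p q k l} {d d' : F}, p ∈ spt Q e (x a) → q ∈ spt Q e (x a) → p ≠ i → q ≠ i → p ≠ q →
      (refl Q (e i) * refl Q (e p)).1 (x a) = d • x k →
      (refl Q (e i) * refl Q (e q)).1 (x a) = d' • x l → k ≠ l := by
    rintro p q k _ d d' hp hq h1 h2 h3 hd hd' rfl
    have b1 := congrArg₂ (polar Q) hd hd'
    simp only [o.d_apply h1.symm, o.d_apply h2.symm, polar_sub_right, polar_smul_right,
      polar_sub_left, polar_smul_left, o'.pol, o.pol, if_true, polar_comm Q (x a) (e _), smul_eq_mul,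
      h1, h2.symm, h3, if_false] at b1
    exact mul_ne_zero t2 (mul_ne_zero (g1 hp h1 hd).1 (g1 hq h2 hd').1)
      (by linear_combination -2 * b1 - (c7 q hq).2 - (c7 p hp).2)
  obtain ⟨k₁, d₁, f1⟩ := f1
  obtain ⟨k₂, d₂, f2⟩ := f2
  obtain ⟨k₃, d₃, f3⟩ := f3
  obtain ⟨-, u1, w1⟩ := g1 (c6 i hi) n1 f1
  obtain ⟨-, u2, w2⟩ := g1 hk k1.1 f2
  obtain ⟨-, u3, w3⟩ := g1 (c6 k hk) n3 f3
  have u4 := g2 (c6 i hi) hk n1 k1.1 (Ne.symm k1.2) f1 f2
  have u5 := g2 (c6 i hi) (c6 k hk) n1 n3 n4.symm f1 f3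
  have u6 := g2 hk (c6 k hk) k1.1 n3 n2.symm f2 f3
  obtain ⟨p, q, hpq, hT⟩ := Finset.card_eq_two.mp (show ({k₁, k₂, k₃, a}ᶜ : Finset ι).card = 2 by
    rw [Finset.card_compl, h.six, Finset.card_eq_four.mpr ⟨k₁, k₂, k₃, a, u4, u5, u1, u6, u2, u3, rfl⟩])
  refine A' p q m hpq (hT ▸ fun r hr => ?_)
  simp only [Finset.mem_compl, Finset.mem_insert, Finset.mem_singleton, not_or]
  refine ⟨?_, ?_, ?_, ?_⟩ <;> rintro rfl
  exacts [w1 hr, w2 hr, w3 hr, mem_spt.mp hr ((polar_comm Q _ _).trans m2)]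

theorem FrX.mon_of_conj (h : FrX M e) (hg : g ∈ M) (hij : i ≠ j)
    (H : g * (refl Q (e i) * refl Q (e j)) * g⁻¹ ∈ Mon Q e) : g ∈ Mon Q e := by
  obtain ⟨p, k, c, hc⟩ := h.shr_of_mon (h.map hg) hij (by rwa [← conj_refl, ← conj_refl, conj_mul])
  exact h.nf g hg k p c hc

theorem fr_conj_six [Fintype F] {c : F} (hc : c ≠ 0) (h : ON (c • Q) e) (hp : (Fintype.card F).Prime)
    (hn : Fintype.card ι = 6)
    (hM : ∀ g ∈ Om Q, (∀ i, ∃ k, ∃ c : F, g.1 (e i) = c • e k) → g ∈ M) (H : ¬ Om Q ≤ M)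
    (hg : g ∈ M) (hij : i ≠ j) {L : V →ₗ[F] V} (h1 : L (e i) = e i) (h2 : L (e j) = e j)
    (h3 : ∀ k, k ≠ i → k ≠ j → L (e k) = -e k)
    (h4 : ∀ i, ∃ k, ∃ c : F, g.1 (L (g⁻¹.1 (e i))) = c • e k) (m : ι) :
    ∃ k, ∃ c : F, g.1 (e m) = c • e k := by
  let θ : OG Q ≃* OG (c • Q) := MulEquiv.subgroupCongr (Subgroup.ext fun g => by simp [mem_OG, hc])
  have e1 : (Om Q).map θ.toMonoidHom = Om (c • Q) := by
    rw [map_commutator_eq, MonoidHom.range_eq_top.mpr θ.surjective]; rfl
  have a1 : ∀ g ∈ Om (c • Q), g ∈ Mon (c • Q) e → g ∈ M.map θ.toMonoidHom := fun g h1 h2 => by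
    obtain ⟨g, h3, rfl⟩ := e1 ▸ h1
    exact ⟨g, hM g h3 (mem_Mon.mp h2), rfl⟩
  have a2 : FrX (M.map θ.toMonoidHom) e := ⟨h, hn, a1, fun g hg a b d hd => by_contra fun h5 => H (by
    have := fr_Om_le h a1 hp hn.ge hg hd h5
    rwa [← e1, Subgroup.map_le_map_iff_of_injective θ.injective] at this)⟩
  refine mem_Mon.mp (a2.mon_of_conj (g := θ g) ⟨g, hg, rfl⟩ hij (mem_Mon.mpr fun a => ?_)) m
  obtain ⟨k, d, hd⟩ := h4 a
  refine ⟨k, -d, ?_⟩
  have a3 : ∀ v, (refl (c • Q) (e i) * refl (c • Q) (e j)).1 v = -L v := fun v => by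
    rw [← h.sum v, map_sum, map_sum, ← Finset.sum_neg_distrib]
    refine Finset.sum_congr rfl fun l _ => ?_
    rw [map_smul, map_smul, ← smul_neg, h.d_apply hij]
    congr 1
    by_cases b1 : l = i
    · rw [b1, h1, h.pol_self, h.pol_ne hij.symm]; module
    by_cases b2 : l = j
    · rw [b2, h2, h.pol_self, h.pol_ne hij]; module
    · rw [h3 l b1 b2, h.pol_ne (Ne.symm b1), h.pol_ne (Ne.symm b2)]; module
  rw [OG_mul_apply, OG_mul_apply, a3, map_neg, neg_smul, ← hd]
  rfl

end Cfsg.Agent.H12
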