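import Mathlib
import Cfsg.Agent.H12.PxM
import Cfsg.Agent.H12.L4E

/-!
Normalisers of 2-groups of symplectic type in dimension four.
-/

set_option autoImplicit false

namespace Cfsg.Agent.H12

open Module QuadraticMap H13 H18 Cfsg.Geo
open scoped MatrixGroups commutatorElement

variable {F V : Type*} [Field F] [AddCommGroup V] [Module F V] {E : Type*} [AddCommGroup E]
  [Module (ZMod 2) E] {B : LinearMap.BilinForm (ZMod 2) E} {P : E → V ≃ₗ[F] V} {x : E}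
  {g k l : V ≃ₗ[F] V} {M : Subgroup (V ≃ₗ[F] V)} {b : Basis (Fin 4) F V} {xs : Fin 4 → E}

theorem Pau.finrank_four [Finite E] [FiniteDimensional F V] (h : Pau B P) (hs : ∀ a, P a * P a = 1)
    (h4 : finrank F V = 4) : finrank (ZMod 2) E = 4 := by
  classical
  have := Fintype.ofFinite E
  have a1 := h.le_finrank (m := 3) (by rw [h4]; norm_num)
  have a2 : LinearIndependent F fun a => (P a : V →ₗ[F] V) :=
    Fintype.linearIndependent_iff.mpr fun c hc a => by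
      have := congrArg (fun X => LinearMap.trace F V ((P a : V →ₗ[F] V) * X)) hc
      simp only [Finset.mul_sum, mul_smul_comm, map_sum, map_smul, mul_zero, map_zero,
        ← LinearEquiv.coe_toLinearMap_mul] at this
      rw [Finset.sum_eq_single a (fun d _ hd => ?_) (by simp), hs] at this
      · refine (smul_eq_zero.mp this).resolve_right ?_
        rw [show ((1 : V ≃ₗ[F] V) : V →ₗ[F] V) = 1 from rfl, LinearMap.trace_one, h4]
        exact fun e => mul_ne_zero h.two h.two (by push_cast at e; linear_combination e)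
      · obtain ⟨e, he⟩ := h.mul a d
        have := trE_zs e (P (a + d))
        rw [← he, h.trE_P fun e => hd (e2_eq_of_add e).symm, mul_zero] at this
        exact smul_eq_zero_of_right _ this
  have a3 := a2.fintype_card_le_finrank
  rw [finrank_linearMap, h4, Module.card_eq_pow_finrank (K := ZMod 2), ZMod.card] at a3
  have := (Nat.pow_le_pow_iff_right (a := 2) (m := 4) (by omega)).mp a3
  omega

theorem Pau.mem_SLV_four [FiniteDimensional F V] (h : Pau B P) (hs : ∀ a, P a * P a = 1)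
    (h4 : finrank F V = 4) (a : E) : P a ∈ SLV F V := by
  by_cases ha : a = 0
  · rw [ha, h.zero]; exact one_mem _
  have := h.finrank_fx ha (hs a)
  rw [mem_SLV, det_eig h.two (hs a) (c := -1) (fun _ h => h) (fun v h => by simp [h]),
    show finrank F (fx _) = 2 by omega]
  simp

theorem B4.rho_one (H : B4 P b xs) (j : F) :
    rhoB b (P (xs 1)) (frm j (.inl 0)) = frm j (.inl 0) ∧
    rhoB b (P (xs 1)) (frm j (.inr 0)) = frm j (.inr 0) ∧
    ∀ i, i ≠ .inl 0 → i ≠ .inr 0 → rhoB b (P (xs 1)) (frm j i) = -frm j i := by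
  refine ⟨by simp [H.rho, sT], by simp [H.rho, sT], fun i h1 h2 => ?_⟩
  rcases i with i | i <;> fin_cases i <;> simp [H.rho, sT] at h1 h2 ⊢

theorem B4.nm_of_conj [Fintype F] [Finite E] [FiniteDimensional F V] (H : B4 P b xs) (h : Pau B P) {j : F}
    (hj : j * j = -1) (hp : (Fintype.card F).Prime) (hN : ∀ g ∈ SLV F V, Nm P g → g ∈ M) (hc : ¬ SLV F V ≤ M)
    (h1 : g ∈ M) (h2 : g ∈ SLV F V) (h3 : Nm P (g * P (xs 1) * g⁻¹)) : Nm P g := by
  obtain ⟨r1, r2, r3⟩ := H.rho_one j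
  refine H.nm h hj (fr_conj_six (inv_ne_zero h.two) (on_frm h.two hj) hp (by simp)
    (M := (M.subgroupOf (SLV F V)).map ((sl4 F).comp (slB b))) (fun g h1 h2 => by
      obtain ⟨s, rfl⟩ := range_sl4.ge h1
      obtain ⟨s, rfl⟩ := slB_surj b s
      exact ⟨s, hN _ s.2 (H.nm h hj h2), rfl⟩) (fun this => ?_) (g := sl4 F (slB b ⟨g, h2⟩)) ⟨_, h1, rfl⟩
    (by simp) r1 r2 r3 fun i => ?_)
  · refine hc fun s hs => ?_
    obtain ⟨m, m1, m2⟩ := this (sl4_mem_Om (slB b ⟨s, hs⟩))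
    obtain ⟨c, hc⟩ := eq_zs_of_sl4 (b := b) (g := m⁻¹ * ⟨s, hs⟩) (by
      rw [map_mul, map_mul, map_inv, map_inv, inv_mul_eq_one]; exact m2)
    exact (mul_mem_cancel_left (inv_mem m1)).mp (hN (m⁻¹ * ⟨s, hs⟩).1 (m⁻¹ * ⟨s, hs⟩).2 (by
      rw [hc]; exact Nm.zs c))
  · obtain ⟨k, c, hc⟩ := H.mon h hj h3 i
    refine ⟨k, c, ?_⟩
    rw [← hc, ← map_inv, ← map_inv, sl4_slB, sl4_slB, map_mul, map_mul]
    rfl

theorem Pau.nm_of_conj [Finite E] [Finite V] (h : Pau B P) (h3 : 3 ≤ finrank (ZMod 2) E)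
    (hP : ∀ a, P a ∈ M) (H : ∀ a ≠ 0, ∀ k ∈ M, Nm P (k * P a * k⁻¹) → Nm P k) (hg : g ∈ M) : Nm P g :=
  h.nm_of_fu hP (h.fu hP (fun a ha k hk e => H a ha k hk (by
    rw [e, mul_inv_cancel_right]; exact h.nm_P a)) fun k hk a e => by
      by_cases ha : a = 0
      · simpa [ha, h.zero] using h.rz_zs 1
      · exact H a ha k hk e a) h3 hg

theorem max_SL_c6_four {ι : Type} [Fintype ι] [DecidableEq ι] [Fintype F] {R : Subgroup (GL ι F)}
    (hR : IsSymplecticTypeGroup 2 R) (h : ActsAbsolutelyIrreducibly (matrixSet R))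
    (hZ : Nat.card (Subgroup.center R) = 4) (hp : (Fintype.card F).Prime) (h2 : (2 : F) ≠ 0)
    (h4 : Fintype.card ι = 4) :
    IsMaximalIn (specialLinear ι F) (subgroupNormalizer R ⊓ specialLinear ι F) := by
  have := Fintype.card_pos_iff.mp (show 0 < Fintype.card ι by omega)
  obtain ⟨j, j1, j2⟩ := exists_j hR h hZ
  obtain ⟨E, _, _, _, B, P, a1, -, a2⟩ := (ai_of_geo hR h).exists_PL h2 j1 j2
  refine isMaximalIn_SL (Nm P) (fun g => norm_glEq.trans (a2 _))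
    (H18.SL_not_le_normalizer (by omega) hR.pGroup (by exact_mod_cast h2) (H18.irr_of_absIrr h))
    fun M m1 m2 g hg H => by_contra fun hc => H ?_
  have a3 := a1.toPau.finrank_four a1.sq1 (by simpa)
  refine a1.toPau.nm_of_conj (by omega) (fun a => m1 _ (a1.toPau.mem_SLV_four a1.sq1 (by simpa) a)
    (a1.nm_P a)) (fun a ha k hk e => ?_) hg
  obtain ⟨b, xs, H, rfl⟩ := a1.toPau.exists_B4 a1.sq1 a3 ha
  exact H.nm_of_conj a1.toPau (congrArg Units.val j1) hp m1 hc hk (m2 hk) e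

theorem B4.nm_of_conjU [Fintype F] [Finite E] [FiniteDimensional F V] {p : ℕ} {hF : Fintype.card F = p ^ 2}
    {T : V →ₛₗ[frobq hF] V →ₗ[F] F} (H : B4 P b xs) (h : Pau B P) {j : F} (hj : j * j = -1) (hp : p.Prime)
    (hj' : j ^ p = -j) (D : SD T) (hU : ∀ a, P a ∈ (SUG T).map (UG T).subtype)
    (hN : ∀ g ∈ SUG T, Nm P g.1 → g.1 ∈ M)
    (hc : ¬ ∀ g ∈ SUG T, g.1 ∈ M) {g : UG T} (h1 : g.1 ∈ M) (h2 : g ∈ SUG T)
    (h3 : Nm P (g.1 * P (xs 1) * g.1⁻¹)) : Nm P g.1 := by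
  have := Fact.mk hp
  obtain ⟨_, τ, t1, t2, t3, t4, t5⟩ := exists_quadratic_ext (F := ZMod p) (K := F) (by rwa [ZMod.card])
  have w : Twist (ZMod p) (hodge τ) := ⟨rfl, fun v => by ext i; simp [hodge_apply, t3], t3, t4, t5⟩
  obtain ⟨r, r1, r2⟩ := exists_su4 w t1 t2
  obtain ⟨c, c1, c2⟩ := H.gram h.two D fun a => by
    obtain ⟨y, -, hy⟩ := hU a
    exact hy ▸ y.2
  have u := fun g => mem_UG_iff_muB (g := g) c1 c2 (τ := τ) fun a => by rw [t2, ZMod.card, frobq_apply]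
  let s : SUG T →* SU 4 F (Fintype.card (ZMod p)) := MonoidHom.mk' (fun g =>
    ⟨slB b ⟨g.1.1, mem_SLV.mpr (mem_SUG.mp g.2)⟩, (H28.mem_SU_iff t2).mpr ((u _).mp g.1.2)⟩)
      fun _ _ => Subtype.ext (Subtype.ext (map_mul (muB b) _ _))
  have s1 : Function.Surjective s := fun y => by
    obtain ⟨g, hg⟩ := slB_surj b y.1
    exact ⟨⟨⟨g, (u _).mpr (by
      rw [show muB b g = y.1.1 from congrArg Subtype.val hg]; exact (H28.mem_SU_iff t2).mp y.2)⟩,
        mem_SUG.mpr (mem_SLV.mp g.2)⟩, Subtype.ext hg⟩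
  have s2 : ∀ g v, ((r (s g)).1 v).1 = rhoB b g.1.1 v := fun g v => r1 _ _
  let e : Fin 3 ⊕ Fin 3 → w.fixed := fun i => ⟨frm j i, w.mem_fixed.mpr (by
    have : τ j = -j := by rw [t2, ZMod.card, hj']
    rcases i with i | i <;> fin_cases i <;> ext (k | k) <;> fin_cases k <;> simp [hodge_apply, frm, this])⟩
  have o := on_frm h.two hj
  have i0 := (algebraMap (ZMod p) F).injective
  have p1 : ∀ x y : w.fixed, algebraMap _ F (polar ((2 : ZMod p)⁻¹ • w.form : QuadraticForm _ _) x y) =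
      polar ((2 : F)⁻¹ • QPlus 3 F : QuadraticForm _ _) x.1 y.1 := fun x y => by
    rw [polar_smul_form, polar_smul_form, map_mul, w.polar_form, map_inv₀, map_ofNat]
  have t2' : (2 : ZMod p) ≠ 0 := fun e => h.two (by
    rw [← map_ofNat (algebraMap (ZMod p) F), e, map_zero])
  have o' : ON ((2 : ZMod p)⁻¹ • w.form) e := ⟨t2', fun a b => i0 (by
      rw [p1, o.pol]; split_ifs <;> simp), fun x => Subtype.ext (by
    rw [← o.sum x.1, AddSubmonoidClass.coe_finsetSum]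
    exact Finset.sum_congr rfl fun i _ => by rw [← p1 (e i), algebraMap_smul]; rfl)⟩
  have m : ∀ g, (∀ i, ∃ k, ∃ c : ZMod p, (r (s g)).1 (e i) = c • e k) → Nm P g.1.1 := fun g hg =>
    H.nm h hj fun i => by
      obtain ⟨k, c, hc⟩ := hg i
      have := s2 g (e i)
      rw [hc] at this
      exact ⟨k, algebraMap _ F c, by rw [algebraMap_smul]; exact this.symm⟩
  have : Finite w.fixed := inferInstance
  obtain ⟨y, y1, y2⟩ := hU (xs 1)
  obtain ⟨r3, r4, r5⟩ := H.rho_one j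
  rw [← y2] at r3 r4 r5 h3
  refine m ⟨g, h2⟩ (fr_conj_six (inv_ne_zero t2') o' (by rwa [ZMod.card]) (by simp)
    (M := ((M.comap (UG T).subtype).subgroupOf (SUG T)).map (r.comp s)) (fun g h1 h2 => by
      obtain ⟨y, rfl⟩ := r2 h1
      obtain ⟨y, rfl⟩ := s1 y
      exact ⟨y, hN _ y.2 (m y h2), rfl⟩) (fun this => ?_) (g := r (s ⟨g, h2⟩)) ⟨_, h1, rfl⟩
    (i := .inl 0) (j := .inr 0) (by simp) (L := (r (s ⟨y, y1⟩)).1.toLinearMap)
    (Subtype.ext ((s2 _ _).trans r3)) (Subtype.ext ((s2 _ _).trans r4))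
    (fun k k1 k2 => Subtype.ext ((s2 _ _).trans (r5 k k1 k2))) fun i => ?_)
  · refine hc fun y hy => ?_
    obtain ⟨n, m1, m2⟩ := this (map_mem_Om_of_perfect (commutator_SU (by rwa [ZMod.card]) (by omega)
      (by omega)) r (s ⟨y, hy⟩))
    obtain ⟨c, hc⟩ := eq_zs_of_sl4 (b := b)
      (g := ⟨(n⁻¹ * ⟨y, hy⟩).1.1, mem_SLV.mpr (mem_SUG.mp (n⁻¹ * ⟨y, hy⟩).2)⟩) (OG_ext fun v => by
        have : r (s (n⁻¹ * ⟨y, hy⟩)) = 1 := by
          rw [map_mul, map_mul, map_inv, map_inv, inv_mul_eq_one]; exact m2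
        rw [← o.sum v, sl4_slB, map_sum, OG_one_apply]
        exact Finset.sum_congr rfl fun i _ => by rw [map_smul, ← s2 _ (e i), this]; rfl)
    exact (mul_mem_cancel_left (inv_mem (show n.1.1 ∈ M from m1))).mp (hN _ (n⁻¹ * ⟨y, hy⟩).2 (by
      rw [show (n⁻¹ * ⟨y, hy⟩).1.1 = zs V c from hc]; exact Nm.zs c))
  · obtain ⟨k, c, hc⟩ := H.mon h hj h3 i
    have a0 : ∀ z : SUG T, rhoB b z.1.1 (frm j i) = c • frm j k → (r (s z)).1 (e i) =
        polar ((2 : ZMod p)⁻¹ • w.form : QuadraticForm _ _) (e k) ((r (s z)).1 (e i)) • e k :=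
      fun z hz => by
        have a1 := (s2 z (e i)).trans hz
        refine Subtype.ext ?_
        rw [Submodule.coe_smul, ← algebraMap_smul F, p1, a1, polar_smul_right, o.pol_self]
        simp [e]
    have a2 : ((⟨g, h2⟩ : SUG T) * ⟨y, y1⟩ * (⟨g, h2⟩ : SUG T)⁻¹).1.1 =
      g.1 * (UG T).subtype y * g.1⁻¹ := rfl
    refine ⟨k, _, Eq.trans ?_ (a0 _ (by rw [a2]; exact hc))⟩
    simp only [map_mul, map_inv, OG_mul_apply, LinearEquiv.coe_coe]

theorem max_SU_c6_four [Fintype F] {p : ℕ} (hF : Fintype.card F = p ^ 2) {R : Subgroup (GL (Fin 4) F)}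
    (hR : IsSymplecticTypeGroup 2 R) (h : ActsAbsolutelyIrreducibly (matrixSet R)) (hU : R ≤ GU 4 F p)
    (hZ : Nat.card (Subgroup.center R) = 4) (hp : p.Prime) (h4 : p % 4 = 3) :
    IsMaximalIn (GU 4 F p ⊓ specialLinear _ F) (subgroupNormalizer R ⊓ (GU 4 F p ⊓ specialLinear _ F)) := by
  have h2 : (2 : F) ≠ 0 := H18.two_ne_zero_iff_odd.mpr (hF ▸ (Nat.odd_iff.mpr (by omega)).pow)
  obtain ⟨j, j1, j2⟩ := exists_j hR h hZ
  have e' : (j : F) * j = -1 := congrArg Units.val j1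
  have hj : (j : F) ^ p = -j := by
    rw [← Nat.div_add_mod p 4, h4, pow_add, pow_mul, show (j : F) ^ 4 = 1 by linear_combination (j * j - 1) * e']
    linear_combination j * e'
  obtain ⟨E, _, _, _, B, P, a1, a3, a2⟩ := (ai_of_geo hR h).exists_PL h2 j1 j2
  obtain ⟨a, hf⟩ := exists_tvF_su hF (by omega : 2 ≤ 4)
  have D := sd_tB hf
  have u : ∀ a, P a ∈ UG (tB hf) := fun a => by
    obtain ⟨g, hg, e⟩ := a3 a
    exact e ▸ (glEq_mem_UG hf).mpr (hU hg)
  have u' : ∀ a, (⟨P a, u a⟩ : UG (tB hf)) ∈ SUG (tB hf) := fun a =>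
    mem_SUG.mpr (mem_SLV.mp (a1.toPau.mem_SLV_four a1.sq1 (by simp) a))
  refine isMaximalIn_iso hf (Nm P) (fun g => norm_glEq.trans (a2 _))
    ((has_SU hf).not_le_normalizer Nat.prime_two hR.pGroup h (Or.inl ⟨rfl, h2, by simp⟩))
    fun M m1 m2 g hg H => by_contra fun hc => H ?_
  have a4 := a1.toPau.finrank_four a1.sq1 (by simp)
  refine a1.toPau.nm_of_conj (M := M.map (UG _).subtype) (by omega)
    (fun a => ⟨_, m1 _ (u' a) (a1.nm_P a), rfl⟩) ?_ ⟨g, hg, rfl⟩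
  rintro a ha _ ⟨k, hk, rfl⟩ e
  obtain ⟨b, xs, H, rfl⟩ := a1.toPau.exists_B4 a1.sq1 a4 ha
  exact H.nm_of_conjU (M := M.map (UG _).subtype) a1.toPau e' hp hj D (fun a => ⟨_, u' a, rfl⟩)
    (fun g h1 h2 => ⟨g, m1 g h1 h2, rfl⟩) (fun H => hc fun g hg => by
      obtain ⟨k, k1, k2⟩ := H g hg
      exact (Subtype.ext k2 : k = g) ▸ k1) ⟨k, hk, rfl⟩ (m2 hk) e

end Cfsg.Agent.H12
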