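import Mathlib
import Cfsg.Agent.H12.DecD
import Cfsg.Agent.H12.UtD

/-!
Non-maximal stabilisers of decompositions over small fields.
-/

set_option autoImplicit false

namespace Cfsg.Agent.H12

open Module Geo

section abstr
variable {F V : Type*} [Field F] [AddCommGroup V] [Module F V]

/-- The maps preserving a finite set of vectors. -/
def mapSt [Finite V] (F : Type*) [Field F] [Module F V] (S : Set V) : Subgroup (V ≃ₗ[F] V) where
  carrier := {g | ∀ x ∈ S, g x ∈ S}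
  mul_mem' ha hb x hx := ha _ (hb x hx)
  one_mem' _ h := h
  inv_mem' {g} hg x hx := by
    obtain ⟨y, h1, rfl⟩ := ((Set.toFinite S).injOn_iff_bijOn_of_mapsTo (f := g) hg).mp g.injective.injOn |>.surjOn hx
    simpa using h1

/-- The maps preserving a function. -/
def fixW (F : Type*) [Field F] [Module F V] {X : Type*} (w : V → X) : Subgroup (V ≃ₗ[F] V) where
  carrier := {g | ∀ v, w (g v) = w v}
  mul_mem' ha hb v := (ha _).trans (hb v)
  one_mem' _ := rfl
  inv_mem' {g} hg v := by rw [← hg]; simp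

variable {κ : Type*} [Fintype κ] {E : κ → Submodule F V} {p : κ → End F V}

open Classical in
/-- The indicator of the non-zero vectors. -/
noncomputable def dlt (F : Type*) [Field F] (v : V) : F := if v = 0 then 0 else 1

@[simp] theorem dlt_zero : dlt F (0 : V) = 0 := if_pos rfl
theorem dlt_ne {v : V} (h : v ≠ 0) : dlt F v = 1 := if_neg h

/-- The number of non-zero components. -/
noncomputable def wtP (p : κ → End F V) (v : V) : F := ∑ i, dlt F (p i v)

theorem PD.wt_map (h : PD E p) {g : V ≃ₗ[F] V} (hg : ∃ π : Equiv.Perm κ, ∀ i, (E i).map g.toLinearMap = E (π i)) :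
    g ∈ fixW F (wtP p) := fun v => by
  obtain ⟨π, hg⟩ := hg
  refine (Fintype.sum_equiv π _ _ fun i => ?_).symm
  have a1 : ∀ j, g (p j v) ∈ E (π j) := fun j => hg j ▸ ⟨_, h.mem j v, rfl⟩
  have : p (π i) (g v) = g (p i v) := by
    conv_lhs => rw [← h.sum v, map_sum, map_sum]
    rw [Finset.sum_eq_single i (fun j _ hj => h.zero (π.injective.ne hj.symm) (a1 j)) (by simp), h.self (a1 i)]
  rw [this]; by_cases e : p i v = 0
  · simp [e]
  · rw [dlt_ne e, dlt_ne (by simpa)]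

theorem PD.p_sum (h : PD E p) {α : Type*} [Fintype α] (e : α ↪ κ) {y : α → V} (hy : ∀ j, y j ∈ E (e j)) (j : α) :
    p (e j) (∑ l, y l) = y j := by
  rw [map_sum, Finset.sum_eq_single j (fun l _ hl => h.zero (e.injective.ne hl.symm) (hy l)) (by simp), h.self (hy j)]

theorem PD.wt_add (h : PD E p) {α : Type*} [Fintype α] (e : α ↪ κ) {y : α → V} (hy : ∀ j, y j ∈ E (e j)) (x : V) :
    wtP p (x + ∑ j, y j) = wtP p x + ∑ j, (dlt F (p (e j) x + y j) - dlt F (p (e j) x)) := by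
  rw [← sub_eq_iff_eq_add', wtP, wtP, ← Finset.sum_sub_distrib, eq_comm]
  refine Finset.sum_of_injOn e e.injective.injOn (by simp) (fun i _ hi => ?_) fun j _ => by
    rw [map_add, h.p_sum e hy]
  rw [map_add, map_sum, Finset.sum_eq_zero fun l _ => h.zero (fun e' => hi ⟨l, by simp, e'.symm⟩) (hy l), add_zero,
    sub_self]

theorem PD.not_perm (h : PD E p) {g : V ≃ₗ[F] V} {i j k : κ} {a b : V} (ha : a ∈ E i) (hb : b ∈ E i) (hjk : j ≠ k)
    (h1 : p j (g a) ≠ 0) (h2 : p k (g b) ≠ 0) : ¬ ∃ π : Equiv.Perm κ, ∀ i, (E i).map g.toLinearMap = E (π i) := by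
  rintro ⟨π, H⟩
  by_cases e : j = π i
  · exact h2 (h.zero (e ▸ hjk.symm) (H i ▸ ⟨b, hb, rfl⟩))
  · exact h1 (h.zero e (H i ▸ ⟨a, ha, rfl⟩))

theorem PD.wt_two (h : PD E p) (hq : ∀ c : F, c = 0 ∨ c = 1) (e : Fin 3 ↪ κ) {a : Fin 3 → V} (ha : ∀ j, a j ∈ E (e j))
    (h0 : ∀ j, a j ≠ 0) {φ : Dual F V} (h1 : ∀ j, ∀ x ∈ E (e j), φ x = 0 ↔ x = 0 ∨ x = a j)
    (h2 : ∀ x, φ x = ∑ j, φ (p (e j) x)) (x : V) : wtP p (x + φ x • ∑ j, a j) = wtP p x := by
  have e2 : (2 : F) = 0 := two_eq_zero_of_zero_or_one (K := F) hq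
  have e3 : ∀ v : V, v + v = 0 := fun v => by rw [← two_smul F, e2, zero_smul]
  rcases hq (φ x) with c | c
  · simp [c]
  have a1 : ∀ j, dlt F (p (e j) x + a j) - dlt F (p (e j) x) = 1 + φ (p (e j) x) := fun j => by
    rcases hq (φ (p (e j) x)) with d | d
    · rw [d]
      rcases (h1 j _ (h.mem _ x)).mp d with d | d
      · simp [d, dlt_ne (h0 j)]
      · rw [d, e3, dlt_ne (h0 j), dlt_zero]; linear_combination -e2
    · have b1 := mt (h1 j _ (h.mem _ x)).mpr (d ▸ one_ne_zero)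
      push Not at b1
      rw [d, dlt_ne b1.1, dlt_ne fun e' => b1.2 (by rw [← add_left_inj (a j), e', e3])]
      linear_combination -e2
  rw [c, one_smul, h.wt_add e ha]
  simp only [a1, Finset.sum_add_distrib, ← h2, c]
  simp; linear_combination 2 * e2

end abstr

variable {ι : Type} [Fintype ι] [DecidableEq ι] {F : Type*} [Field F] {S : Subgroup (GL ι F)}

theorem nm_SL (T : Subgroup ((ι → F) ≃ₗ[F] (ι → F))) (P : ((ι → F) ≃ₗ[F] (ι → F)) → Prop)
    (hS : ∀ g : GL ι F, g ∈ S ↔ P (glEq ι F g)) (h1 : ∀ g, P g → g ∈ T) (h2 : ∃ g ∈ SLV F (ι → F), g ∉ T)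
    (h3 : ∃ g ∈ SLV F (ι → F), g ∈ T ∧ ¬ P g) : ∃ L, S ⊓ specialLinear ι F < L ∧ L < specialLinear ι F := by
  obtain ⟨g, a1, a2⟩ := h2
  obtain ⟨k, b1, b2, b3⟩ := h3
  refine exists_between (T := T.comap (glEq ι F : _ →* _)) (fun g hg => h1 _ ((hS g).mp hg.1))
    (fun H => a2 ?_) fun H => b3 ?_
  · simpa using H (x := (glEq ι F).symm g) (glEq_mem_SLV.mp (by simpa))
  · simpa using (hS _).mp (H (x := (glEq ι F).symm k) ⟨by simpa, glEq_mem_SLV.mp (by simpa)⟩)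

theorem nm_iso {σ : F →+* F} {ε a : F} {f : (ι → F) → (ι → F) → F} (hf : H18.TvF σ ε f a)
    (T : Subgroup ((ι → F) ≃ₗ[F] (ι → F))) (P : ((ι → F) ≃ₗ[F] (ι → F)) → Prop)
    (hS : ∀ g : GL ι F, g ∈ S ↔ P (glEq ι F g)) (h1 : ∀ g : UG (tB hf), P g.1 → g.1 ∈ T)
    (h2 : ∃ g ∈ SUG (tB hf), g.1 ∉ T) (h3 : ∃ g ∈ SUG (tB hf), g.1 ∈ T ∧ ¬ P g.1) :
    ∃ L, S ⊓ (H18.isoG f ⊓ specialLinear ι F) < L ∧ L < H18.isoG f ⊓ specialLinear ι F := by
  obtain ⟨g, a1, a2⟩ := h2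
  obtain ⟨k, b1, b2, b3⟩ := h3
  refine exists_between (T := T.comap (glEq ι F).toMonoidHom)
    (fun g hg => h1 ⟨_, (glEq_mem_UG hf).mpr hg.2.1⟩ ((hS g).mp hg.1)) (fun H => a2 ?_) fun H => b3 ?_
  · simpa [glEq_toGL] using H ((map_SUG hf).le ⟨g, a1, rfl⟩)
  · simpa [glEq_toGL] using (hS _).mp (H ⟨by simpa [glEq_toGL], (map_SUG hf).le ⟨k, b1, rfl⟩⟩)

variable [Fintype F] {t m : ℕ} {D : Fin t → Submodule F (ι → F)}

omit [Fintype ι] [DecidableEq ι] in
theorem zero_or_one_of_card (h : Fintype.card F = 2) (c : F) : c = 0 ∨ c = 1 := by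
  have := FiniteField.pow_card c
  rw [h] at this
  by_cases e : c = 0
  exacts [Or.inl e, Or.inr (mul_left_cancel₀ e (by rw [← sq, this, mul_one]))]

omit [DecidableEq ι] in
theorem ker_two (h : Fintype.card F = 2) {W : Submodule F (ι → F)} (hW : finrank F W = 2) {a b : ι → F} (ha : a ∈ W)
    (h0 : a ≠ 0) (hb : b ∈ W) {φ : Dual F (ι → F)} (h1 : φ a = 0) (h2 : φ b ≠ 0) (x : ι → F) (hx : x ∈ W) :
    φ x = 0 ↔ x = 0 ∨ x = a := by
  refine ⟨fun H => ?_, by rintro (rfl | rfl) <;> simp [h1]⟩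
  obtain ⟨c, hc⟩ := Submodule.mem_span_singleton.mp (mem_span_of_ker (K := F) (V := W) hW.le (χ := φ ∘ₗ W.subtype)
    (x := ⟨x, hx⟩) (y := ⟨a, ha⟩) (fun e => h2 (LinearMap.congr_fun e ⟨b, hb⟩)) (by simpa) h1 H)
  obtain rfl : c • a = x := congrArg Subtype.val hc
  rcases zero_or_one_of_card h c with rfl | rfl <;> simp

theorem nm_SL_dec (hn : 10 ≤ Fintype.card ι) (hD : IsMDecomposition m D)
    (h : (m = 1 ∧ Fintype.card F ≤ 4) ∨ (m = 2 ∧ Fintype.card F = 2)) :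
    ∃ L, decompositionStabilizer D ⊓ specialLinear ι F < L ∧ L < specialLinear ι F := by
  obtain ⟨p, hp⟩ := exists_PD hD.indep hD.iSup_eq_top
  have a0 := H18.card_eq_of_isMDecomposition hD
  have ht : 5 ≤ t := by rcases h with ⟨rfl, -⟩ | ⟨rfl, -⟩ <;> omega
  choose a a1 a2 using fun i => Submodule.exists_mem_ne_zero_of_ne_bot (p := D i) fun e => by
    have := hD.finrank_eq i; have := hD.pos; rw [e, finrank_bot] at *; omega
  choose χ a3 using fun i => Module.Projective.exists_dual_eq_one F (a2 i)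
  have a4 := fun i => hp.self (a1 i)
  have a5 : ∀ i j, i ≠ j → p i (a j) = 0 := fun i j e => hp.zero e (a1 j)
  let e : Fin 5 ↪ Fin t := Fin.castLEEmb ht
  have a6 : ∀ i j, e i = e j ↔ i = j := fun _ _ => e.injective.eq_iff
  refine nm_SL (fixW F (wtP p)) (fun g => ∃ π : Equiv.Perm (Fin t), ∀ i, (D i).map g.toLinearMap = D (π i))
    (fun _ => Iff.rfl) (fun _ => hp.wt_map) ?_ ?_
  · obtain ⟨k, b1, b2⟩ := exists_dil (φ := χ (e 0) ∘ₗ p (e 0)) (u := a (e 1)) (by simp [a5, a6])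
    refine ⟨k, mem_SLV.mpr (by simp [b2, a5, a6]), fun H => ?_⟩
    have := hp.wt_add (Function.Embedding.mk (fun _ : Unit => e 1) fun _ _ _ => rfl) (y := fun _ => a (e 1))
      (fun _ => a1 _) (a (e 0))
    rw [Finset.sum_const, Finset.card_univ, Fintype.card_unit, one_smul,
      ← show k (a (e 0)) = a (e 0) + a (e 1) by simp [b1, a3, a4], H _] at this
    change _ = _ + ∑ _ : Unit, (dlt F (p (e 1) _ + _) - dlt F (p (e 1) _)) at this
    simp [a5 (e 1) (e 0) (by simp [a6]), dlt_ne (a2 _)] at this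
  rcases h with ⟨rfl, h⟩ | ⟨rfl, h⟩
  · let e' : Fin 4 ↪ Fin t := Fin.castSuccEmb.trans e
    have b0 : ∀ i x, p i x = χ i (p i x) • a i := fun i x => by
      obtain ⟨c, hc⟩ := Submodule.mem_span_singleton.mp ((Submodule.eq_of_le_of_finrank_eq
        ((Submodule.span_singleton_le_iff_mem _ _).mpr (a1 i)) (by rw [finrank_span_singleton (a2 i), hD.finrank_eq])).ge
        (hp.mem i x))
      simp [← hc, a3]
    have b1 : ∀ i (c : F), dlt F (c • a i) = c ^ (Fintype.card F - 1) := fun i c => by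
      by_cases c0 : c = 0
      · have := Fintype.one_lt_card (α := F)
        simp [c0, show Fintype.card F - 1 ≠ 0 by omega]
      · rw [dlt_ne (smul_ne_zero c0 (a2 i)), FiniteField.pow_card_sub_one_eq_one c c0]
    have b2 : (2 : F) = 0 ∧ Fintype.card F - 1 = 1 ∨ (3 : F) = 0 ∧ Fintype.card F - 1 = 2 ∨
        (2 : F) = 0 ∧ Fintype.card F - 1 = 3 := by
      have := FiniteField.cast_card_eq_zero F
      have := Fintype.one_lt_card (α := F)
      interval_cases Fintype.card F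
      · exact Or.inl ⟨by simpa, rfl⟩
      · exact Or.inr (Or.inl ⟨by simpa, rfl⟩)
      · exact Or.inr (Or.inr ⟨pow_eq_zero_iff two_ne_zero |>.mp (by norm_num; simpa), rfl⟩)
    have b3 : (5 : F) ≠ 0 := fun e => by
      rcases b2 with ⟨h, -⟩ | ⟨h, -⟩ | ⟨h, -⟩
      exacts [one_ne_zero (by linear_combination e - 2 * h : (1 : F) = 0),
        one_ne_zero (by linear_combination 2 * h - e : (1 : F) = 0),
        one_ne_zero (by linear_combination e - 2 * h : (1 : F) = 0)]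
    have b4 : ∀ i j, e' i = e' j ↔ i = j := fun _ _ => e'.injective.eq_iff
    have b5 : ∀ i, p (e' i) (∑ j, a (e' j)) = a (e' i) := hp.p_sum e' fun _ => a1 _
    have b6 : 1 + (∑ j, χ (e' j) ∘ₗ p (e' j)) (∑ j, a (e' j)) = 5 := by
      simp only [LinearMap.sum_apply, LinearMap.comp_apply, b5, a3]; norm_num
    obtain ⟨k, c1, c2⟩ := exists_dil (b6 ▸ b3)
    obtain ⟨d, c3, c4⟩ := exists_dil (φ := (5⁻¹ - 1 : F) • χ (e 4) ∘ₗ p (e 4)) (u := a (e 4)) (by simpa [a3, a4])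
    have c5 : ∀ i, e 4 ≠ e' i := fun i => e.injective.ne (Fin.castSucc_lt_last i).ne'
    refine ⟨d * k, mem_SLV.mpr (by
        rw [LinearEquiv.coe_toLinearMap_mul, map_mul, c2, c4, b6]; simp [a3, a4, b3]),
      mul_mem (hp.wt_map ((perm_iff_mapsTo hD d).mpr fun i => ⟨i, fun x hx => ?_⟩)) fun x => ?_,
      hp.not_perm (a1 (e' 0)) (a1 (e' 0)) (j := e' 1) (k := e' 2) (by simp [b4]) ?_ ?_⟩
    · by_cases c : e 4 = i
      · rw [c3]; exact add_mem hx (Submodule.smul_mem _ _ (c ▸ a1 _))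
      · simpa [c3, hp.zero c hx]
    · rw [c1, Finset.smul_sum, hp.wt_add e' (fun _ => Submodule.smul_mem _ _ (a1 _)), add_eq_left]
      rw [Finset.sum_congr rfl fun j _ => by rw [b0 (e' j) x, ← add_smul, b1, b1]]
      simp only [LinearMap.add_apply, LinearMap.comp_apply, Fin.sum_univ_four]
      generalize χ (e' 0) (p (e' 0) x) = x₀, χ (e' 1) (p (e' 1) x) = x₁, χ (e' 2) (p (e' 2) x) = x₂,
        χ (e' 3) (p (e' 3) x) = x₃
      rcases b2 with ⟨h, c⟩ | ⟨h, c⟩ | ⟨h, c⟩ <;> rw [c]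
      · linear_combination 2 * (x₀ + x₁ + x₂ + x₃) * h
      · linear_combination 2 * (x₀ + x₁ + x₂ + x₃) ^ 2 * h
      · linear_combination ((x₀ + x₁ + x₂ + x₃) * (5 * (x₀ + x₁ + x₂ + x₃) ^ 2 -
          3 * (x₀ * x₁ + x₀ * x₂ + x₀ * x₃ + x₁ * x₂ + x₁ * x₃ + x₂ * x₃))) * h
    all_goals simp [c1, c3, b5, a5 _ _ (c5 _).symm, a5, b4, a3, a4, a2, Fin.sum_univ_four]
  · let e' : Fin 3 ↪ Fin t := Fin.castLEEmb (by omega)
    choose b b1 b2 using fun i => exists_mem_notMem_span (hD.finrank_eq i).ge (a i)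
    choose ψ b3 b4 using fun i => exists_dual_one_zero (b2 i)
    have b5 : ∀ i j, e' i = e' j ↔ i = j := fun _ _ => e'.injective.eq_iff
    have b6 : ∀ i, p (e' i) (∑ j, a (e' j)) = a (e' i) := hp.p_sum e' fun _ => a1 _
    have b7 : ∀ j, ∀ x ∈ D (e' j), (∑ j, ψ (e' j) ∘ₗ p (e' j)) x = ψ (e' j) x := fun j x hx => by
      rw [LinearMap.sum_apply, Finset.sum_eq_single j (fun l _ hl => by simp [hp.zero (e'.injective.ne hl) hx])
        (by simp), LinearMap.comp_apply, hp.self hx]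
    have b8 : (∑ j, ψ (e' j) ∘ₗ p (e' j)) (∑ j, a (e' j)) = 0 := by
      simp only [LinearMap.sum_apply, LinearMap.comp_apply, b6, b4]; simp
    obtain ⟨k, c1, c2⟩ := exists_dil (φ := ∑ j, ψ (e' j) ∘ₗ p (e' j)) (u := ∑ j, a (e' j)) (by simp [b8])
    have c3 : k (b (e' 0)) = b (e' 0) + ∑ j, a (e' j) := by rw [c1, b7 0 _ (b1 _), b3, one_smul]
    refine ⟨k, mem_SLV.mpr (by rw [c2, b8, add_zero]), fun x => ?_,
      hp.not_perm (b1 (e' 0)) (b1 (e' 0)) (j := e' 1) (k := e' 2) (by simp [b5]) ?_ ?_⟩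
    · rw [c1]
      refine hp.wt_two (zero_or_one_of_card h) e' (fun _ => a1 _) (fun _ => a2 _) (fun j x hx => ?_) (fun x => ?_) x
      · rw [b7 j x hx]; exact ker_two h (hD.finrank_eq _) (a1 _) (a2 _) (b1 _) (b4 _) (by simp [b3]) x hx
      · rw [Finset.sum_congr rfl fun j _ => b7 j _ (hp.mem _ x)]; simp
    all_goals rw [c3, map_add, b6, hp.zero (by simp [b5]) (b1 _), zero_add]; exact a2 _

theorem nm_sp_dec (hm : 3 ≤ m) (h : Fintype.card F = 2) {D : Fin t → Submodule F (Fin m ⊕ Fin m → F)}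
    (hD : IsNondegenerateMDecomposition (sympForm m F) 2 D) :
    ∃ L, decompositionStabilizer D ⊓ spGL m F < L ∧ L < spGL m F := by
  have hf := tvF_sp (m := m) (by omega) F
  have E := sd_tB hf
  have e0 := E.self_eq_zero rfl
  have O := od_of_decomp hf hD
  obtain ⟨p, hp⟩ := exists_PD hD.decomp.indep hD.decomp.iSup_eq_top
  have a0 := H18.card_eq_of_isMDecomposition hD.decomp
  let e : Fin 3 ↪ Fin t := Fin.castLEEmb (by simp at a0; omega)
  choose a a1 a2 using fun i => Submodule.exists_mem_ne_zero_of_ne_bot (p := D i) fun e => by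
    have := hD.decomp.finrank_eq i; rw [e, finrank_bot] at this; omega
  have a3 : ∀ i, ∃ b ∈ D i, tB hf (a i) b = 1 := fun i => by
    obtain ⟨b, b1, b2⟩ : ∃ b ∈ D i, tB hf (a i) b ≠ 0 := by
      by_contra! H; exact a2 i (E.disjoint_iff.mp (O.nd i) _ (a1 i) H)
    exact ⟨b, b1, (zero_or_one_of_card h _).resolve_left b2⟩
  choose b b1 b2 using a3
  have a4 : ∀ {i j x y}, i ≠ j → x ∈ D i → y ∈ D j → tB hf x y = 0 := fun e hx hy => O.orth _ _ e hy _ hx
  have a6 : ∀ i j, e i = e j ↔ i = j := fun _ _ => e.injective.eq_iff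
  have b6 : ∀ i, p (e i) (∑ j, a (e j)) = a (e i) := hp.p_sum e fun _ => a1 _
  have b7 : ∀ j, ∀ x ∈ D (e j), tB hf (∑ j, a (e j)) x = tB hf (a (e j)) x := fun j x hx => by
    rw [map_sum, LinearMap.sum_apply, Finset.sum_eq_single j (fun l _ hl => a4 (e.injective.ne hl) (a1 _) hx) (by simp)]
  rw [spGL_eq_inf (by omega)]
  refine nm_iso hf (fixW F (wtP p)) (fun g => ∃ π : Equiv.Perm (Fin t), ∀ i, (D i).map g.toLinearMap = D (π i))
    (fun _ => Iff.rfl) (fun _ => hp.wt_map) ⟨_, tv_mem_SUG E (a (e 0) + a (e 1)) 1, fun H => ?_⟩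
    ⟨_, tv_mem_SUG E (∑ j, a (e j)) 1, fun x => ?_,
      hp.not_perm (b1 (e 0)) (b1 (e 0)) (j := e 1) (k := e 2) (by simp [a6]) ?_ ?_⟩
  · have c1 := hp.wt_add (Fin.castSuccEmb.trans e) (y := fun j => a (e j.castSucc)) (fun _ => a1 _) (b (e 0))
    have c2 := H (b (e 0))
    have c3 : b (e 0) + a (e 0) ≠ 0 := fun e' => by simpa [b2, e0] using congrArg (tB hf (a (e 0))) e'
    have c4 : b (e 0) ≠ 0 := fun e' => by simpa [e'] using b2 (e 0)
    rw [tv_apply E (e0 _) rfl, map_add, LinearMap.add_apply, b2, a4 (by simp [a6]) (a1 _) (b1 _)] at c2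
    simp only [add_zero, mul_one, one_smul] at c2
    simp [Fin.sum_univ_two, c2, hp.self (b1 _), hp.zero (show e 1 ≠ e 0 by simp [a6]) (b1 _), dlt_ne c3, dlt_ne c4,
      dlt_ne (a2 _)] at c1
  · rw [tv_apply E (e0 _) rfl, one_mul]
    refine hp.wt_two (zero_or_one_of_card h) e (fun _ => a1 _) (fun _ => a2 _) (fun j x hx => ?_) (fun x => ?_) x
    · rw [b7 j x hx]; exact ker_two h (hD.decomp.finrank_eq _) (a1 _) (a2 _) (b1 _) (e0 _) (by simp [b2]) x hx
    · rw [Finset.sum_congr rfl fun j _ => b7 j _ (hp.mem _ x), map_sum, LinearMap.sum_apply]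
      refine Finset.sum_congr rfl fun j _ => ?_
      conv_lhs => rw [← hp.sum x, map_sum]
      exact Finset.sum_eq_single _ (fun l _ hl => a4 hl.symm (a1 _) (hp.mem _ _)) (by simp)
  all_goals
    rw [tv_apply E (e0 _) rfl, b7 0 _ (b1 _), b2, mul_one, one_smul, map_add, b6, hp.zero (by simp [a6]) (b1 _), zero_add]
    exact a2 _

end Cfsg.Agent.H12
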