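import Mathlib
import Cfsg.Agent.H12.NxA

/-!
Non-maximal stabilisers of unitary decompositions and of tensor decompositions over small fields.
-/

set_option autoImplicit false

namespace Cfsg.Agent.H12

open Module Geo

section abstr
variable {F V : Type*} [Field F] [AddCommGroup V] [Module F V] {σ : F →+* F} {B : V →ₛₗ[σ] V →ₗ[F] F}
  (D : SD B) (hq : ∀ a, σ a = a → a = 0 ∨ a = 1)
include hq

theorem two_eq_zero_of_fix : (2 : F) = 0 :=
  (hq 2 (map_ofNat σ 2)).resolve_right fun e => one_ne_zero (by linear_combination e : (1 : F) = 0)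

include D

theorem SD.self_eq_one {x : V} (hx : B x x ≠ 0) : B x x = 1 :=
  (hq _ (by rw [D.σ_map]; linear_combination -B x x * two_eq_zero_of_fix hq)).resolve_left hx

theorem SD.frame_two [FiniteDimensional F V] {E : Submodule F V} (hE : Disjoint E (sperp B E)) (hd : finrank F E = 2)
    {a x : V} (h1 : a ∈ E) (h2 : x ∈ E) (ha : B a a ≠ 0) (hx : B x x ≠ 0) : x ∈ F ∙ a ∨ B a x = 0 := by
  have a1 := D.self_eq_one hq ha
  have a2 : ∀ z, B a (z - B a z • a) = 0 := fun z => by simp [a1]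
  have a3 : ∀ z ∈ E, z - B a z • a ∈ E := fun z hz => sub_mem hz (E.smul_mem _ h1)
  by_cases e : x - B a x • a = 0
  · exact Or.inl (Submodule.mem_span_singleton.mpr ⟨_, (sub_eq_zero.mp e).symm⟩)
  have a4 : B (x - B a x • a) (x - B a x • a) ≠ 0 := fun e' => e (D.disjoint_iff.mp hE _ (a3 x h2) fun z hz => by
    obtain ⟨c, hc⟩ := Submodule.mem_span_singleton.mp (mem_span_of_ker (K := F) (V := E) hd.le (χ := B a ∘ₗ E.subtype)
      (x := ⟨_, a3 z hz⟩) (y := ⟨_, a3 x h2⟩) (fun e => ha (LinearMap.congr_fun e ⟨a, h1⟩)) (by simpa) (a2 x) (a2 z))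
    rw [show z = c • (x - B a x • a) + B a z • a from (sub_eq_iff_eq_add.mp (congrArg Subtype.val hc).symm),
      map_add, map_smul, map_smul, e', D.comm0 (a2 x)]; simp)
  have a5 := D.self_eq_one hq a4
  simp only [map_sub, LinearMap.sub_apply, map_smul, LinearMap.map_smulₛₗ₂, a1, D.self_eq_one hq hx, D.skew a x,
    smul_eq_mul] at a5
  exact Or.inr (by_contra fun e' => mul_ne_zero e' (D.σ_ne_zero e') (by linear_combination a5))

end abstr

variable {ι : Type} [Fintype ι] [DecidableEq ι] {F : Type*} [Field F] [Fintype F]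

theorem fix_frobq_two (hF : Fintype.card F = 2 ^ 2) (a : F) (h : frobq hF a = a) : a = 0 ∨ a = 1 := by
  by_cases e : a = 0
  exacts [Or.inl e, Or.inr (mul_left_cancel₀ e (by rw [← sq, ← frobq_apply hF, h, mul_one]))]

theorem nm_su_dec {n t : ℕ} (hF : Fintype.card F = 2 ^ 2) (hn : 8 ≤ n) {D : Fin t → Submodule F (Fin n → F)}
    (hD : IsNondegenerateMDecomposition (hermForm n F 2) 2 D) :
    ∃ L, decompositionStabilizer D ⊓ (GU n F 2 ⊓ specialLinear (Fin n) F) < L ∧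
      L < GU n F 2 ⊓ specialLinear (Fin n) F := by
  obtain ⟨s, hf⟩ := exists_tvF_su hF (n := n) (by omega)
  have E := sd_tB hf
  have hq := fix_frobq_two hF
  have e2 := two_eq_zero_of_fix hq
  have O := od_of_decomp hf hD
  obtain ⟨p, hp⟩ := exists_PD hD.decomp.indep hD.decomp.iSup_eq_top
  have a0 := H18.card_eq_of_isMDecomposition hD.decomp
  let e : Fin 4 ↪ Fin t := Fin.castLEEmb (by simp at a0; omega)
  choose a a1 a2 using fun i => O.exists_aniso E (frobq_ne_id hF) (l := i) fun e => by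
    have := hD.decomp.finrank_eq i; rw [e, finrank_bot] at this; omega
  have a3 := fun i => E.self_eq_one hq (a2 i)
  have a4 : ∀ {i j x y}, i ≠ j → x ∈ D i → y ∈ D j → tB hf x y = 0 := fun e hx hy => O.orth _ _ e hy _ hx
  have a5 : ∀ i, a i ≠ 0 := fun i e => by simpa [e] using a2 i
  have a6 : ∀ i j, e i = e j ↔ i = j := fun _ _ => e.injective.eq_iff
  have a7 : ∀ i j, tB hf (a (e i)) (a (e j)) = if i = j then 1 else 0 := fun i j => by
    split_ifs with h
    exacts [h ▸ a3 _, a4 (e.injective.ne h) (a1 _) (a1 _)]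
  have b6 : ∀ i, p (e i) (∑ j, a (e j)) = a (e i) := hp.p_sum e fun _ => a1 _
  have b7 : tB hf (∑ j, a (e j)) (a (e 0)) = 1 := by simp [a7]
  have b1 : tB hf (a (e 0) + a (e 1)) (a (e 0) + a (e 1)) = 0 := by simp [a7]; linear_combination e2
  have b2 : (tv (tB hf) (a (e 0) + a (e 1)) 1).1 (a (e 0)) = a (e 1) := by
    rw [tv_apply E b1 (map_one _)]; simp [a7, ← add_assoc, ← two_smul F, e2]
  have b3 : (tv (tB hf) (a (e 0) + a (e 1)) 1).1 (a (e 1)) = a (e 0) := by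
    rw [tv_apply E b1 (map_one _)]; simp [a7, add_left_comm (a (e 1)), ← two_smul F, e2]
  obtain ⟨y, c1, c2, c3⟩ := E.exists_perp_mem (W := D (e 0)) (S := F ∙ a (e 0)) (by
    rw [finrank_span_singleton (a5 _), hD.decomp.finrank_eq]; omega)
  refine nm_iso hf (mapSt F {x | (∃ i, x ∈ D i) ∧ tB hf x x ≠ 0})
    (fun g => ∃ π : Equiv.Perm (Fin t), ∀ i, (D i).map g.toLinearMap = D (π i)) (fun _ => Iff.rfl)
    (fun g ⟨π, hg⟩ x ⟨⟨i, h1⟩, h2⟩ => ⟨⟨π i, (hg i).le ⟨x, h1, rfl⟩⟩, by rwa [UG_map]⟩)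
    ⟨_, tv_mem_SUG E (∑ j, a (e j)) 1, fun H => ?_⟩
    ⟨_, tv_mem_SUG E (a (e 0) + a (e 1)) 1, fun x ⟨⟨i, h1⟩, h2⟩ => ⟨?_, by rwa [UG_map]⟩,
      hp.not_perm (a1 (e 0)) c1 (j := e 1) (k := e 0) (by simp [a6]) (by rw [b2, hp.self (a1 _)]; exact a5 _) ?_⟩
  · obtain ⟨⟨i, h1⟩, -⟩ := H (a (e 0)) ⟨⟨_, a1 _⟩, a2 _⟩
    rw [tv_apply E (by simp [a7]; linear_combination 2 * e2) (map_one _)] at h1
    have : ∀ j, j ≠ 0 → e j = i := fun j hj => by_contra fun c => a5 (e j) (by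
      simpa [b7, b6, hp.zero (e.injective.ne hj) (a1 _), -map_sum] using hp.zero c h1)
    simpa [a6] using (this 1 (by simp)).trans (this 2 (by simp)).symm
  · by_cases d0 : i = e 0
    · subst d0
      rcases E.frame_two hq (O.nd _) (hD.decomp.finrank_eq _) (a1 _) h1 (a2 _) h2 with d | d
      · obtain ⟨c, rfl⟩ := Submodule.mem_span_singleton.mp d
        exact ⟨_, by rw [map_smul, b2]; exact Submodule.smul_mem _ _ (a1 _)⟩
      · exact ⟨_, by rwa [tv_apply_of_perp E _ (by simp [d, a4 (show e 1 ≠ e 0 by simp [a6]) (a1 _) h1])]⟩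
    by_cases d1 : i = e 1
    · subst d1
      rcases E.frame_two hq (O.nd _) (hD.decomp.finrank_eq _) (a1 _) h1 (a2 _) h2 with d | d
      · obtain ⟨c, rfl⟩ := Submodule.mem_span_singleton.mp d
        exact ⟨_, by rw [map_smul, b3]; exact Submodule.smul_mem _ _ (a1 _)⟩
      · exact ⟨_, by rwa [tv_apply_of_perp E _ (by simp [d, a4 (show e 0 ≠ e 1 by simp [a6]) (a1 _) h1])]⟩
    exact ⟨i, by rwa [tv_apply_of_perp E _ (by simp [a4 (Ne.symm d0) (a1 _) h1, a4 (Ne.symm d1) (a1 _) h1])]⟩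
  · rwa [tv_apply_of_perp E _ (by
      simp [mem_sperp_singleton.mp c3, a4 (show e 1 ≠ e 0 by simp [a6]) (a1 _) c1]), hp.self c1]

omit [Fintype F] in
theorem not_TN_tv {σ : F →+* F} {ε s : F} {f : (ι → F) → (ι → F) → F} (hf : H18.TvF σ ε f s) {a b : ℕ} (ha : 2 ≤ a)
    (hb : 2 ≤ b) (e : ι ≃ Fin a × Fin b) (P : GL ι F) {u : ι → F} (hu : tB hf u u = 0) (h0 : u ≠ 0) :
    ¬ TN (tP e P) (tv (tB hf) u 1).1 := by
  have E := sd_tB hf
  rw [← glEq_toGL, ← mem_tensor_iff (by omega) (by omega)]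
  obtain ⟨v, hv⟩ := E.exists_ne h0
  exact H18.not_mem_tensor_of_small (by rw [Fintype.card_congr e]; simp; nlinarith) (finrank_span_singleton h0).le
    (fun v => by simp [toGL_mulVec, tv_apply E hu, Submodule.smul_mem])
    ⟨v, by simp [toGL_mulVec, tv_apply E hu, hv, h0]⟩ ha hb e P

theorem nm_su_tensor {n b : ℕ} (hF : Fintype.card F = 2 ^ 2) (hb : 2 ≤ b) {e : Fin n ≃ Fin 2 × Fin b}
    {P : GL (Fin n) F} {f₁ : (Fin 2 → F) → (Fin 2 → F) → F} {f₂ : (Fin b → F) → (Fin b → F) → F}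
    (hf₁ : IsUnitaryFormPow 2 f₁) (hf₂ : IsUnitaryFormPow 2 f₂)
    (hT : IsTensorFormStructure (fun x : F => x ^ 2) (hermForm n F 2) f₁ f₂ e P) :
    ∃ L, tensorProductSubgroup 2 b e P ⊓ (GU n F 2 ⊓ specialLinear (Fin n) F) < L ∧
      L < GU n F 2 ⊓ specialLinear (Fin n) F := by
  have a1 : n = 2 * b := by simpa using Fintype.card_congr e
  obtain ⟨t, hf⟩ := exists_tvF_su hF (n := n) (by omega)
  obtain ⟨t₁, h1⟩ := (H18.hform_of_unitaryPow (frobq_apply hF) (frobq_frobq hF) hf₁).tvF_herm (frobq_ne_id hF) (by simp)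
  obtain ⟨t₂, h2⟩ := (H18.hform_of_unitaryPow (frobq_apply hF) (frobq_frobq hF) hf₂).tvF_herm (frobq_ne_id hF)
    (by simpa)
  obtain ⟨c, hc, h⟩ := tensor_form_apply (σ := frobq hF) h1.toSesq h2.toSesq (by
    convert hT; exact frobq_apply hF _)
  obtain ⟨ζ, z0, b1⟩ : ∃ ζ, ζ ≠ 0 ∧ ∀ u w u' w', tB hf (tP e P u w) (tP e P u' w') = ζ * (tB h1 u u' * tB h2 w w') :=
    ⟨t * c / (t₁ * t₂), div_ne_zero (mul_ne_zero hf.ne hc) (mul_ne_zero h1.ne h2.ne), fun u w u' w' => by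
      have := h1.ne; have := h2.ne
      rw [tB_apply, tB_apply, tB_apply, h]; field_simp⟩
  have E := sd_tB hf
  have E₁ := sd_tB h1
  have E₂ := sd_tB h2
  have T := isTen_tP e P
  have hq := fix_frobq_two hF
  obtain ⟨z, z1, z2⟩ := E₂.exists_iso E₂.ns (by simpa)
  obtain ⟨y, z3⟩ := E₂.exists_SP z2 z1
  obtain ⟨x, x1⟩ := E₁.exists_aniso (frobq_ne_id hF)
  have x0 : x ≠ 0 := by rintro rfl; simp at x1
  have hd : Disjoint ⊤ (sperp (tB h1) ⊤) := E₁.disjoint_iff.mpr fun u _ hu => E₁.sep u fun y => hu y trivial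
  have fr := fun {u v} => E₁.frame_two hq hd (by simp) (a := u) (x := v) trivial trivial
  obtain ⟨x', -, x2, x3⟩ := E₁.exists_perp_mem (W := ⊤) (S := F ∙ x) (by rw [finrank_span_singleton x0]; simp)
  replace x3 := mem_sperp_singleton.mp x3
  have x4 : tB h1 x' x' ≠ 0 := fun e' => x2 (E₁.sep _ fun v => by
    obtain ⟨c, hc⟩ := Submodule.mem_span_singleton.mp (mem_span_of_ker (K := F) (by simp) (χ := tB h1 x)
      (x := v - (tB h1 x v / tB h1 x x) • x) (fun e => x1 (by simp [e])) x2 x3 (by simp [x1]))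
    rw [show v = c • x' + (tB h1 x v / tB h1 x x) • x by rw [hc]; abel]; simp [e', E₁.comm0 x3])
  have x5 := E₁.self_eq_one hq x1
  have x6 := E₁.self_eq_one hq x4
  refine nm_iso hf (mapSt F {v | ∃ u w, tB h1 u u ≠ 0 ∧ v = tP e P u w}) (TN (tP e P))
    (fun _ => mem_tensor_iff (by omega) (by omega)) ?_ ⟨_, tv_mem_SUG E (tP e P (x + x') z) 1, fun H => ?_⟩
    ⟨_, tv_mem_SUG E (tP e P x z) 1, ?_, not_TN_tv hf le_rfl hb e P (by simp [b1, z2]) (ten_ne_zero T x0 z1)⟩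
  · rintro g ⟨α, β, hg⟩ _ ⟨u, w, hu, rfl⟩
    refine ⟨_, _, fun e' => ?_, hg u w⟩
    simpa [hg, b1, e', z0, hu, z3.ef] using UG_map g (tP e P u z) (tP e P u y)
  · obtain ⟨u, w, c1, c2⟩ := H _ ⟨x, y, x1, rfl⟩
    rw [tv_apply E (by simp [b1, z2, -map_add]) (map_one _), b1] at c2
    rcases fr x1 c1 with d | d
    · obtain ⟨c, rfl⟩ := Submodule.mem_span_singleton.mp d
      simpa [E₁.comm0 x3, x5, x6, z3.ef, z0, z1] using congrArg (cL T (tB h1 x')) c2
    · simpa [E₁.comm0 x3, x3, x5, x6, z3.ef, z2, d] using congrArg (fun v => tB h2 z (cL T (tB h1 x) v)) c2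
  · rintro _ ⟨u, w, hu, rfl⟩
    rw [tv_apply E (by simp [b1, z2]) (map_one _), b1]
    rcases fr x1 hu with d | d
    · obtain ⟨c, rfl⟩ := Submodule.mem_span_singleton.mp d
      exact ⟨x, c • w + (1 * (ζ * (tB h1 x (c • x) * tB h2 z w))) • z, x1, by simp⟩
    · exact ⟨u, w, hu, by simp [d]⟩

theorem nm_sp_tensor {m a : ℕ} (h3 : Fintype.card F = 3) (hm : 0 < m) {e : (Fin m ⊕ Fin m) ≃ Fin a × Fin 3}
    {P : GL (Fin m ⊕ Fin m) F} {f₁ : (Fin a → F) → (Fin a → F) → F} {f₂ : (Fin 3 → F) → (Fin 3 → F) → F}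
    (hf₁ : IsSymplecticForm f₁) (hf₂ : IsSymmetricForm f₂) (hT : IsTensorFormStructure id (sympForm m F) f₁ f₂ e P) :
    ∃ L, tensorProductSubgroup a 3 e P ⊓ spGL m F < L ∧ L < spGL m F := by
  have hf := tvF_sp hm F
  have a1 := Fintype.card_congr e
  simp only [Fintype.card_sum, Fintype.card_prod, Fintype.card_fin] at a1
  have : Nonempty (Fin a) := ⟨⟨0, by omega⟩⟩
  have h1 := tvF_of_symplectic hf₁
  have h2 := H18.hform_of_symmetric hf₂
  obtain ⟨c, hc, h⟩ := tensor_form_apply (σ := RingHom.id F) h1.toSesq h2.toSesq hT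
  obtain ⟨d, v, hd, -, a2, a3⟩ := h2.frame3 h3 h2.nondegOn_top (by simp)
  have b1 : ∀ u w u' w', tB hf (tP e P u w) (tP e P u' w') = c * (tB h1 u u' * h2.toSesq.toMap w w') :=
    fun u w u' w' => by rw [tB_apply, tB_apply, h]; change _ = _ * (_ * f₂ w' w); ring
  have b2 : ∀ i j, h2.toSesq.toMap (v i) (v j) = if j = i then d else 0 := fun i j => a2 j i
  have E := sd_tB hf
  have E₁ := sd_tB h1
  have T := isTen_tP e P
  have e0 := E.self_eq_zero rfl
  obtain ⟨z, z1⟩ := exists_ne (0 : Fin a → F)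
  obtain ⟨y, z3⟩ := E₁.exists_SP (E₁.self_eq_zero rfl z) z1
  rw [spGL_eq_inf hm]
  refine nm_iso hf (mapSt F {x | ∃ i u, x = tP e P u (v i)}) (TN (tP e P))
    (fun _ => mem_tensor_iff (by omega) (by omega)) ?_ ⟨_, tv_mem_SUG E (tP e P z (v 0 + v 1)) 1, fun H => ?_⟩
    ⟨_, tv_mem_SUG E (tP e P z (v 0)) 1, ?_, not_TN_tv hf (by omega) (by omega) e P (e0 _)
      (ten_ne_zero T z1 fun e' => by simpa [e', hd.symm] using b2 0 0)⟩
  · rintro g ⟨α, β, hg⟩ _ ⟨i, u, rfl⟩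
    have c1 : ∀ i j, tB h1 (α z) (α y) * f₂ (β (v i)) (β (v j)) = if i = j then d else 0 := fun i j => by
      have := UG_map g (tP e P z (v j)) (tP e P y (v i))
      rwa [hg, hg, b1, b1, mul_right_inj' hc, z3.ef, one_mul, b2] at this
    have c2 : tB h1 (α z) (α y) ≠ 0 := fun e' => by simpa [e', hd.symm] using c1 0 0
    obtain ⟨j, hj⟩ := a3 (fun i => β (v i)) (d / tB h1 (α z) (α y)) (div_ne_zero hd c2) (fun _ => trivial)
      (fun i j => by rw [eq_div_of_mul_eq c2 ((mul_comm _ _).trans (c1 i j))]; split_ifs <;> simp) i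
    obtain ⟨s, hs⟩ := Submodule.mem_span_singleton.mp hj
    exact ⟨j, s • α u, by rw [hg, ← hs]; simp⟩
  · obtain ⟨j, u, c2⟩ := H _ ⟨0, y, rfl⟩
    rw [tv_apply E (e0 _) rfl, b1] at c2
    by_cases c3 : j = 0
    · simpa [b2, c3, hc, hd, z3.ef, z1] using congrArg (cR T (h2.toSesq.toMap (v 1))) c2
    · simpa [b2, c3, hc, hd, z3.ef, z3.ee] using congrArg (fun x => tB h1 z (cR T (h2.toSesq.toMap (v 0)) x)) c2
  · rintro _ ⟨i, u, rfl⟩
    rw [tv_apply E (e0 _) rfl, b1]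
    by_cases c3 : i = 0
    · exact ⟨0, u + (c * (tB h1 z u * d)) • z, by simp [c3, b2]⟩
    · exact ⟨i, u, by simp [c3, b2]⟩

theorem nm_SL_tensor {b : ℕ} (h : Fintype.card F = 2) (hb : 2 ≤ b) (e : ι ≃ Fin 2 × Fin b) (P : GL ι F) :
    ∃ L, tensorProductSubgroup 2 b e P ⊓ specialLinear ι F < L ∧ L < specialLinear ι F := by
  have hq := zero_or_one_of_card h
  have e2 : (1 : F) + 1 = 0 := one_add_one_eq_two.trans (two_eq_zero_of_zero_or_one (K := F) hq)
  have e3 : ∀ v : ι → F, v + v = 0 := fun v => by rw [← one_smul F v, ← add_smul, e2, zero_smul]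
  have T := isTen_tP e P
  let w : End F (Fin 2 → F) := Matrix.toLin' !![0, 1; 1, 1]
  let J := T.map T w 1
  have a1 : ∀ x z, J (tP e P x z) = tP e P (w x) z := fun x z => T.map_eq T w 1 x z
  let G : Subgroup ((ι → F) ≃ₗ[F] (ι → F)) :=
    { carrier := {g | (∀ v, g (J v) = J (g v)) ∨ ∀ v, g (J v) = J (g v) + g v}
      mul_mem' := by
        rintro g k (hg | hg) (hk | hk)
        exacts [Or.inl (by simp [hg, hk]), Or.inr (by simp [hg, hk]), Or.inr (by simp [hg, hk]),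
          Or.inl (by simp [hg, hk, add_assoc, e3])]
      one_mem' := Or.inl fun _ => rfl
      inv_mem' := fun {g} hg => hg.imp (fun hg v => g.injective (by simp [hg])) fun hg v =>
        g.injective (by simp [hg, add_assoc, e3]) }
  obtain ⟨z, z0⟩ := exists_notMem_span (K := F) (V := Fin b → F) (by simpa) 0
  obtain ⟨y, y0⟩ := exists_notMem_span (K := F) (V := Fin b → F) (by simpa) z
  obtain ⟨φ, b1, b2⟩ := exists_dual_one_zero y0
  obtain ⟨ψ, b3, b4⟩ := exists_dual_one_zero (notMem_span_symm y0 (by simpa using z0))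
  have z1 : z ≠ 0 := by simpa using z0
  refine nm_SL G (TN (tP e P)) (fun _ => mem_tensor_iff (by omega) (by omega)) ?_ ?_ ?_
  · rintro g ⟨α, β, hg⟩
    have c1 : ∀ x, α x = 0 → x = 0 := fun x hx => by_contra fun e' =>
      ten_ne_zero T e' z1 (g.map_eq_zero_iff.mp (by simp [hg, hx]))
    have c2 : α * w = w * α ∨ α * w = w * α + α := by
      obtain ⟨A, rfl⟩ := Matrix.toLin'.surjective α
      have c3 : A.det ≠ 0 := fun e' => by
        obtain ⟨x, d1, d2⟩ := Matrix.exists_mulVec_eq_zero_iff.mpr e'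
        exact d1 (c1 x d2)
      simp only [w, End.mul_eq_comp, ← Matrix.toLin'_mul, ← map_add, Matrix.toLin'.injective.eq_iff]
      rw [A.eta_fin_two] at c3 ⊢
      generalize A 0 0 = r, A 0 1 = s, A 1 0 = t, A 1 1 = u at c3 ⊢
      rcases hq r with rfl | rfl <;> rcases hq s with rfl | rfl <;> rcases hq t with rfl | rfl <;>
        rcases hq u with rfl | rfl <;> simp [e2] at c3 ⊢
    refine c2.imp (fun c v => ?_) fun c v => ?_
    · exact LinearMap.congr_fun (ten_ext T (f := g.toLinearMap ∘ₗ J) (g := J ∘ₗ g.toLinearMap) fun x z => by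
        simp [a1, hg, show α (w x) = _ from LinearMap.congr_fun c x]) v
    · exact LinearMap.congr_fun (ten_ext T (f := g.toLinearMap ∘ₗ J) (g := J ∘ₗ g.toLinearMap + g.toLinearMap)
        fun x z => by simp [a1, hg, show α (w x) = _ from LinearMap.congr_fun c x]) v
  · obtain ⟨k, c1, c2⟩ := exists_dil (φ := LinearMap.proj 1 ∘ₗ cR T φ) (u := tP e P (Pi.single 0 1) z) (by simp [b2])
    refine ⟨k, mem_SLV.mpr (by simp [c2, b2]), ?_⟩
    rintro (H | H) <;>
      simpa [c1, a1, b1, b3, b4, w] using congrArg (fun v => cR T ψ v 0) (H (tP e P (Pi.single 0 1) y))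
  · obtain ⟨k, c1, c2⟩ := EN.of_sq (M := SLV F (ι → F)) (P := fun _ => True) (fun _ h _ => h) (N := bt T w z φ)
      (by simp [b2]) fun _ _ => trivial
    refine ⟨k, c1, Or.inl fun v => LinearMap.congr_fun (ten_ext T (f := k.toLinearMap ∘ₗ J) (g := J ∘ₗ k.toLinearMap)
      fun x z => by simp [a1, c2]) v, fun ⟨α, β, hk⟩ => ?_⟩
    have d1 := congrArg (cR T φ) (hk (Pi.single 0 1) y)
    have d2 := congrArg (cR T ψ) (hk (Pi.single 0 1) y)
    simp only [c2, bt_apply, map_add, cR_ten, b1, b2, b3, b4, one_smul, zero_smul, add_zero, zero_add] at d1 d2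
    have d3 := congrFun d1 0
    have d4 := congrFun d1 1
    have d5 := congrFun d2 0
    have d6 := congrFun d2 1
    simp [w] at d3 d4 d5 d6
    grind

end Cfsg.Agent.H12
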