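import Mathlib
import Cfsg.Agent.H12.SGen

/-!
Weyl matrices for the extraspecial groups of exponent three.
-/

set_option autoImplicit false
set_option linter.unusedSectionVars false

namespace Cfsg.Agent.H12.T3

open Matrix

abbrev Z3 := ZMod 3

theorem z3c (k : Z3) : k = 0 ∨ k = 1 ∨ k = 2 := by revert k; decide

class Om3 {F : Type*} [Field F] (ω : F) : Prop where
  eq : ω ^ 2 + ω + 1 = 0
  three : (3 : F) ≠ 0

variable {F : Type*} [Field F]

/-- the character of `Z3` -/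
def ch (ω : F) (k : Z3) : F := ω ^ k.val

section
variable (ω : F) [h : Om3 ω]

theorem om_eq : ω ^ 2 + ω + 1 = 0 := h.eq
include h in
theorem om_three : (3 : F) ≠ 0 := h.three
theorem om_cube : ω ^ 3 = 1 := by linear_combination (ω - 1) * h.eq
theorem om_ne_one : ω ≠ 1 := fun e => h.three (by linear_combination h.eq - (ω + 2) * e)
theorem om_ne_zero : ω ≠ 0 := fun e => one_ne_zero (by linear_combination h.eq - (ω + 1) * e : (1 : F) = 0)
theorem om_sq_ne_one : ω ^ 2 ≠ 1 := fun e => h.three (by linear_combination (2 - ω) * h.eq + (ω - 1) * e)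
theorem om_sq_ne : ω ^ 2 ≠ ω := fun e => om_ne_one ω (mul_left_cancel₀ (om_ne_zero ω) (by linear_combination e))

omit h in
@[simp] theorem ch_zero : ch ω 0 = 1 := pow_zero _
omit h in
@[simp] theorem ch_one : ch ω 1 = ω := pow_one _
omit h in
@[simp] theorem ch_two : ch ω 2 = ω ^ 2 := rfl

theorem ch_add (a b : Z3) : ch ω (a + b) = ch ω a * ch ω b := by
  rw [ch, ZMod.val_add, ← pow_eq_pow_mod _ (om_cube ω), pow_add]; rfl

theorem ch_ne (a : Z3) : ch ω a ≠ 0 := pow_ne_zero _ (om_ne_zero ω)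

theorem ch_neg_mul (a : Z3) : ch ω (-a) * ch ω a = 1 := by rw [← ch_add]; simp

theorem ch_cube (a : Z3) : ch ω a ^ 3 = 1 := by rw [ch, ← pow_mul, mul_comm, pow_mul, om_cube, one_pow]

theorem ch_eq_one {a : Z3} (H : ch ω a = 1) : a = 0 := by
  rcases z3c a with rfl | rfl | rfl
  exacts [rfl, absurd (by simpa using H) (om_ne_one ω), absurd H (om_sq_ne_one ω)]

theorem ch_inj {a b : Z3} (H : ch ω a = ch ω b) : a = b :=
  sub_eq_zero.mp (ch_eq_one ω (by rw [sub_eq_neg_add, ch_add, H, ch_neg_mul]))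

theorem exists_ch {c : F} (H : c ^ 3 = 1) : ∃ k, c = ch ω k := by
  have : (c - 1) * (c - ω) * (c - ω ^ 2) = 0 := by
    linear_combination H + (-c ^ 2 + c * ω - (ω - 1)) * h.eq
  simp only [mul_eq_zero, sub_eq_zero] at this
  rcases this with (e | e) | e
  exacts [⟨0, by simpa⟩, ⟨1, by simpa⟩, ⟨2, e⟩]

theorem ch_sum (s : Z3) : 1 + ch ω s + ch ω (-s) = if s = 0 then 3 else 0 := by
  rcases z3c s with rfl | rfl | rfl
  · simp; norm_num
  · rw [if_neg (by decide), show (-1 : Z3) = 2 from rfl]; simp; linear_combination h.eq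
  · rw [if_neg (by decide), show (-2 : Z3) = 1 from rfl]; simp; linear_combination h.eq

end

theorem sum_z3 {M : Type*} [AddCommMonoid M] (f : Z3 → M) : ∑ i, f i = f 0 + f 1 + f 2 := Fin.sum_univ_three f

section mono
variable {A : Type*} [Fintype A] [DecidableEq A]

/-- monomial matrices -/
def mo (f : A → A) (d : A → F) : Matrix A A F := of fun i j => if i = f j then d j else 0

theorem mo_apply (f : A → A) (d : A → F) (i j : A) : mo f d i j = if i = f j then d j else 0 := rfl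

theorem mul_mo (g : Matrix A A F) (f : A → A) (d : A → F) (i j : A) : (g * mo f d) i j = g i (f j) * d j := by
  simp [mul_apply, mo_apply]

theorem mo_mul (f g : A → A) (d e : A → F) : mo f d * mo g e = mo (fun j => f (g j)) fun j => d (g j) * e j := by
  ext i j; simp [mul_mo, mo_apply]

theorem mo_mul_apply {f : A → A} (hf : Function.Injective f) (d : A → F) (g : Matrix A A F) (j k : A) :
    (mo f d * g) (f j) k = d j * g j k := by
  simp [mul_apply, mo_apply, hf.eq_iff]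

theorem smul_mo (c : F) (f : A → A) (d : A → F) : c • mo f d = mo f fun j => c * d j := by
  ext i j; simp [mo_apply]

theorem mo_congr {f g : A → A} {d e : A → F} (h1 : ∀ j, f j = g j) (h2 : ∀ j, d j = e j) : mo f d = mo g e := by
  rw [funext h1, funext h2]

theorem mo_one {f : A → A} {d : A → F} (h1 : ∀ j, f j = j) (h2 : ∀ j, d j = 1) : mo f d = 1 := by
  ext i j; simp [mo_apply, h1, h2, one_apply]

/-- groups of matrices, as predicates -/
structure MG (P : Matrix A A F → Prop) : Prop where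
  one : P 1
  mul : ∀ {g k}, P g → P k → P (g * k)
  inv : ∀ {g}, P g → ∃ k, P k ∧ g * k = 1

variable {P : Matrix A A F → Prop} {g k : Matrix A A F}

theorem MG.inv' (h : MG P) (hg : P g) (H : g * k = 1) : P k := by
  obtain ⟨l, h1, h2⟩ := h.inv hg
  rwa [← Matrix.one_mul k, ← mul_eq_one_comm.mp h2, Matrix.mul_assoc, H, Matrix.mul_one]

theorem MG.inv2 (h : MG P) (hg : P g) : ∃ k, P k ∧ g * k = 1 ∧ k * g = 1 :=
  let ⟨k, h1, h2⟩ := h.inv hg; ⟨k, h1, h2, mul_eq_one_comm.mp h2⟩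

theorem MG.unit (h : MG P) (hg : P g) : IsUnit g := let ⟨_, _, h2⟩ := h.inv hg; .of_mul_eq_one _ h2

theorem MG.pow (h : MG P) (hg : P g) (n : ℕ) : P (g ^ n) := by
  induction n with
  | zero => simpa using h.one
  | succ n ih => rw [pow_succ]; exact h.mul ih hg

/-- the subgroup of the general linear group -/
def MG.sub (h : MG P) : Subgroup (GL A F) where
  carrier := {g | P g}
  one_mem' := h.one
  mul_mem' := h.mul
  inv_mem' {g} hg := h.inv' hg g.mul_inv

theorem MG.mem_sub (h : MG P) {g : GL A F} : g ∈ h.sub ↔ P g := .rfl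

theorem MG.of_mul (h : MG P) (hg : P g) (H : P (g * k)) : P k := by
  obtain ⟨l, h1, -, h3⟩ := h.inv2 hg
  simpa [← Matrix.mul_assoc, h3] using h.mul h1 H

theorem MG.of_mul' (h : MG P) (hg : P g) (H : P (k * g)) : P k := by
  obtain ⟨l, h1, h2, -⟩ := h.inv2 hg
  simpa [Matrix.mul_assoc, h2] using h.mul H h1

end mono

/-- a perfect pairing on an elementary abelian 3-group -/
class Dt (A : Type) [AddCommGroup A] [Module Z3 A] [Fintype A] where
  dot : A →ₗ[Z3] A →ₗ[Z3] Z3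
  sep : ∀ a, (∀ c, dot c a = 0) → a = 0
  sep' : ∀ c, (∀ a, dot c a = 0) → c = 0
  card : ∃ n, Fintype.card A = 3 ^ n

open Dt

variable {A : Type} [AddCommGroup A] [Module Z3 A] [Fintype A] [DecidableEq A] [Dt A]

/-- the symplectic form -/
def Bf (A : Type) [AddCommGroup A] [Module Z3 A] [Fintype A] [Dt A] : LinearMap.BilinForm Z3 (A × A) :=
  LinearMap.mk₂ Z3 (fun e f => dot e.2 f.1 - dot f.2 e.1) (by intros; simp; ring) (by intros; simp; ring)
    (by intros; simp; ring) (by intros; simp; ring)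

theorem Bf_apply (e f : A × A) : Bf A e f = dot e.2 f.1 - dot f.2 e.1 := rfl

@[simp] theorem Bf_self (e : A × A) : Bf A e e = 0 := sub_self _

theorem Bf_skew (e f : A × A) : Bf A f e = -Bf A e f := (neg_sub _ _).symm

theorem Bf_nd {e : A × A} (h : ∀ f, Bf A e f = 0) : e = 0 :=
  Prod.ext (sep _ fun c => by simpa [Bf_apply] using h (0, c)) (sep' _ fun a => by simpa [Bf_apply] using h (a, 0))

theorem Bf_sd : SD (σ := RingHom.id Z3) (Bf A) :=
  ⟨fun _ => rfl, fun x y => Bf_skew x y, fun _ => Bf_nd, fun x => ⟨0, by simp⟩⟩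

theorem add_self_z3 {E : Type*} [AddCommGroup E] [Module Z3 E] (x : E) : x + x = -x := by
  rw [← two_smul Z3, show (2 : Z3) = -1 from rfl, neg_one_smul]

/-- Weyl matrices -/
def W (ω : F) (e : A × A) : Matrix A A F := mo (· + e.1) fun j => ch ω (dot e.2 j + 2 * dot e.2 e.1)

variable (ω : F) [Om3 ω]

@[simp] theorem W_zero : W ω (0 : A × A) = 1 := mo_one (by simp) (by simp)

theorem W_mul (e f : A × A) : W ω e * W ω f = ch ω (-Bf A e f) • W ω (e + f) := by
  simp only [W, mo_mul, smul_mo, ← ch_add]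
  refine mo_congr (fun j => by simp; abel) fun j => congrArg _ ?_
  simp only [Bf_apply, Prod.fst_add, Prod.snd_add, map_add, LinearMap.add_apply]
  linear_combination (-dot f.2 e.1) * (by decide : (3 : Z3) = 0)

theorem W_comm (e f : A × A) : W ω e * W ω f = ch ω (Bf A e f) • (W ω f * W ω e) := by
  rw [W_mul, W_mul, smul_smul, ← ch_add, add_comm f, Bf_skew e f, neg_neg, add_self_z3]

theorem W_mul_neg (e : A × A) : W ω e * W ω (-e) = 1 := by simp [W_mul]

theorem W_neg_mul (e : A × A) : W ω (-e) * W ω e = 1 := by simp [W_mul]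

theorem W_unit (e : A × A) : IsUnit (W ω e) := .of_mul_eq_one _ (W_mul_neg ω e)

theorem W_sq (e : A × A) : W ω e * W ω e = W ω (-e) := by simp [W_mul, add_self_z3]

theorem W_cube (e : A × A) : W ω e ^ 3 = 1 := by rw [pow_succ, pow_two, W_sq, W_neg_mul]

theorem W_add (e f : A × A) : W ω (e + f) = ch ω (Bf A e f) • (W ω e * W ω f) := by
  rw [W_mul, smul_smul, mul_comm, ch_neg_mul, one_smul]

variable {ω}

theorem smul_cancel {g : Matrix A A F} (hg : IsUnit g) {c d : F} (h : c • g = d • g) : c = d := by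
  obtain ⟨k, hk⟩ := hg.exists_right_inv
  simpa [hk] using congrArg (fun x => (x * k) 0 0) h

theorem W_scalar {e : A × A} {c d : F} (hc : c ≠ 0) (h : c • W ω e = d • 1) : e = 0 := Bf_nd fun f => by
  have a1 : W ω e = (c⁻¹ * d) • 1 := by rw [mul_smul, ← h, inv_smul_smul₀ hc]
  have a2 := W_comm ω e f
  refine ch_eq_one ω (smul_cancel ((W_unit ω f).mul (W_unit ω e)) ?_)
  rw [← a2, a1]; simp

theorem W_uniq {e f : A × A} {c d : F} (hc : c ≠ 0) (h : c • W ω e = d • W ω f) : e = f ∧ c = d := by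
  have := congrArg (· * W ω (-f)) h
  simp only [smul_mul_assoc, W_mul_neg] at this
  rw [W_mul, smul_smul] at this
  obtain rfl := add_neg_eq_zero.mp (W_scalar (mul_ne_zero hc (ch_ne ω _)) this)
  exact ⟨rfl, smul_cancel (W_unit ω e) h⟩

theorem trace_W {e : A × A} (he : e ≠ 0) : (W ω e).trace = 0 := by
  obtain ⟨f, hf⟩ : ∃ f, Bf A e f ≠ 0 := by by_contra! H; exact he (Bf_nd H)
  have a1 : W ω e = ch ω (Bf A e f) • (W ω f * W ω e * W ω (-f)) := by
    rw [← smul_mul_assoc, ← W_comm, Matrix.mul_assoc, W_mul_neg, Matrix.mul_one]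
  have a2 := congrArg trace a1
  rw [trace_smul, trace_mul_cycle, W_neg_mul, Matrix.one_mul, smul_eq_mul] at a2
  by_contra H
  exact hf (ch_eq_one ω (mul_right_cancel₀ H (by rw [← a2, one_mul])))

variable (ω) in
include ω in
theorem card_ne : (Fintype.card A : F) ≠ 0 := by
  obtain ⟨n, hn⟩ := card (A := A)
  rw [hn]; exact_mod_cast pow_ne_zero n (om_three ω)

theorem scalar_of_comm {g : Matrix A A F} (h : ∀ e, g * W ω e = W ω e * g) : g = g 0 0 • 1 := by
  ext i j
  by_cases hij : i = j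
  · have := congrArg (· (0 + i) 0) (h (i, 0))
    simp only [W] at this
    rw [mul_mo, mo_mul_apply (add_left_injective i)] at this
    simpa [hij] using this
  obtain ⟨c, hc⟩ : ∃ c, dot c (i - j) ≠ 0 := by by_contra! H; exact hij (sub_eq_zero.mp (sep _ H))
  have := congrArg (· (i + 0) j) (h (0, c))
  simp only [W] at this
  rw [mul_mo, mo_mul_apply (add_left_injective 0)] at this
  simp only [add_zero, map_zero, mul_zero] at this
  rw [Matrix.smul_apply, one_apply_ne hij, smul_zero]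
  by_contra H
  exact hc (by rw [map_sub, ch_inj ω (mul_left_cancel₀ H (this.trans (mul_comm _ _))), sub_self])

theorem sum_ch {a : A} (ha : a ≠ 0) : ∑ c, ch ω (dot c a) = 0 := by
  obtain ⟨d, hd⟩ : ∃ c, dot c a ≠ 0 := by by_contra! H; exact ha (sep _ H)
  by_contra H
  refine hd (ch_eq_one ω (mul_right_cancel₀ H ?_))
  rw [one_mul, Finset.mul_sum, eq_comm, ← Equiv.sum_comp (Equiv.addLeft d)]
  simp [ch_add]

theorem exists_tr {g : Matrix A A F} (hg : g ≠ 0) : ∃ e, (W ω e * g).trace ≠ 0 := by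
  by_contra! H
  refine hg (ext fun i j => mul_left_cancel₀ (card_ne ω (A := A)) ?_)
  have a1 : ∀ c, ∑ l, ch ω (dot c (l - i)) * g l (l + (j - i)) = 0 := fun c => by
    have := congrArg (ch ω (-dot c i - 2 * dot c (j - i)) * ·) (H (j - i, c))
    rw [trace_mul_comm] at this
    simp only [trace, diag, W, mul_mo, Finset.mul_sum, mul_zero] at this
    refine Eq.trans (Finset.sum_congr rfl fun l _ => ?_) this
    rw [mul_left_comm, ← ch_add, mul_comm, map_sub]
    congr 2; ring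
  have a2 := Finset.sum_congr (s₁ := Finset.univ) rfl fun c _ => a1 c
  rw [Finset.sum_comm, Finset.sum_eq_single i (fun l _ hl => by
    rw [← Finset.sum_mul, sum_ch (sub_ne_zero.mpr hl), zero_mul]) (by simp)] at a2
  simpa using a2

variable (ω) in
/-- scalar multiples of Weyl matrices -/
def Rz (g : Matrix A A F) : Prop := ∃ e, ∃ c : F, c ≠ 0 ∧ g = c • W ω e

variable (ω) in
/-- the action on Weyl matrices -/
def Act (g : Matrix A A F) (φ : A × A → A × A) : Prop := ∀ e, ∃ c : F, g * W ω e = c • (W ω (φ e) * g)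

variable (ω) in
/-- the normaliser -/
def Nm (g : Matrix A A F) : Prop := IsUnit g ∧ ∃ φ, Act ω g φ

variable {g k : Matrix A A F} {φ ψ : A × A → A × A} {e f : A × A} {c d : F}

theorem rz_of_fix (hg : IsUnit g) (h : Act ω g id) : Rz ω g := by
  obtain ⟨e, he⟩ := exists_tr (ω := ω) (g := g) (by rintro rfl; exact not_isUnit_zero hg)
  have a1 := scalar_of_comm (ω := ω) (g := W ω e * g) fun f => by
    obtain ⟨c, hc⟩ := h f
    have a2 : W ω e * g * W ω f = (c * ch ω (Bf A e f)) • (W ω f * (W ω e * g)) := by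
      rw [Matrix.mul_assoc, hc, mul_smul_comm, ← Matrix.mul_assoc, id, W_comm, smul_mul_assoc, smul_smul,
        Matrix.mul_assoc]
    have a3 := congrArg (fun x => (W ω (-f) * x).trace) a2
    simp only [mul_smul_comm, ← Matrix.mul_assoc, W_neg_mul, trace_smul, Matrix.one_mul, smul_eq_mul] at a3
    rw [Matrix.mul_assoc (W ω (-f)), trace_mul_cycle, W_mul_neg, Matrix.one_mul] at a3
    rw [a2, ← mul_right_cancel₀ he ((one_mul _).trans a3), one_smul]
  refine ⟨-e, (W ω e * g) 0 0, fun H => he (by rw [a1, H]; simp), ?_⟩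
  calc g = W ω (-e) * (W ω e * g) := by rw [← Matrix.mul_assoc, W_neg_mul, Matrix.one_mul]
    _ = _ := by rw [a1]; simp

theorem Act.mul (h : Act ω g φ) (h' : Act ω k ψ) : Act ω (g * k) fun e => φ (ψ e) := fun e => by
  obtain ⟨c, hc⟩ := h' e
  obtain ⟨d, hd⟩ := h (ψ e)
  exact ⟨c * d, by rw [Matrix.mul_assoc, hc, mul_smul_comm, ← Matrix.mul_assoc, hd, smul_mul_assoc, smul_smul,
    Matrix.mul_assoc]⟩

theorem Act.smul (h : Act ω g φ) (c : F) : Act ω (c • g) φ := fun e => by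
  obtain ⟨d, hd⟩ := h e
  exact ⟨d, by rw [smul_mul_assoc, hd, mul_smul_comm, smul_comm]⟩

theorem act_W (e : A × A) : Act ω (W ω e) id := fun f => ⟨_, W_comm ω e f⟩

theorem act_one : Act ω (1 : Matrix A A F) id := fun f => ⟨1, by simp⟩

theorem Act.congr (h : Act ω g φ) (H : ∀ e, φ e = ψ e) : Act ω g ψ := funext H ▸ h

theorem Act.of_inv (h : Act ω g φ) (H : g * k = 1) (hψ : ∀ e, φ (ψ e) = e) : Act ω k ψ := fun e => by
  obtain ⟨c, hc⟩ := h (ψ e)
  have a1 : W ω (ψ e) * k = c • (k * W ω e) := by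
    rw [← Matrix.one_mul (W ω _), ← mul_eq_one_comm.mp H, Matrix.mul_assoc k, hc, hψ]
    simp [Matrix.mul_assoc, H]
  have c0 : c ≠ 0 := by
    rintro rfl
    exact not_isUnit_zero (M₀ := Matrix A A F) (by simpa [a1] using (W_unit ω (ψ e)).mul (.of_mul_eq_one _ (mul_eq_one_comm.mp H)))
  exact ⟨c⁻¹, by rw [a1, inv_smul_smul₀ c0]⟩

theorem act_ne (hg : IsUnit g) (h : g * W ω e = c • (W ω f * g)) : c ≠ 0 := by
  rintro rfl
  exact not_isUnit_zero (M₀ := Matrix A A F) (by simpa [h] using hg.mul (W_unit ω e))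

theorem act_uniq (hg : IsUnit g) (hc : c ≠ 0) (h : c • (W ω e * g) = d • (W ω f * g)) : e = f ∧ c = d :=
  W_uniq hc (hg.mul_right_cancel (by simpa using h))

theorem act_cube (hg : IsUnit g) (h : g * W ω e = c • (W ω f * g)) : ∃ s, c = ch ω s := by
  have a1 : ∀ n : ℕ, g * W ω e ^ n = c ^ n • (W ω f ^ n * g) := fun n => by
    induction n with
    | zero => simp
    | succ n ih => rw [pow_succ, ← Matrix.mul_assoc, ih, smul_mul_assoc, Matrix.mul_assoc, h, mul_smul_comm, smul_smul,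
        ← Matrix.mul_assoc, ← pow_succ, ← pow_succ]
  have := a1 3
  rw [W_cube, W_cube, Matrix.mul_one, Matrix.one_mul] at this
  exact exists_ch ω (smul_cancel hg (this.symm.trans (one_smul _ _).symm))

theorem Act.uniq (hg : IsUnit g) (h : Act ω g φ) (H : g * W ω e = c • (W ω f * g)) : φ e = f := by
  obtain ⟨d, hd⟩ := h e
  exact (act_uniq hg (act_ne hg hd) (hd.symm.trans H)).1

theorem Act.add (hg : IsUnit g) (h : Act ω g φ) (e f : A × A) : φ (e + f) = φ e + φ f := by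
  obtain ⟨c, hc⟩ := h e
  obtain ⟨d, hd⟩ := h f
  refine h.uniq hg (c := ch ω (Bf A e f) * (c * d * ch ω (-Bf A (φ e) (φ f)))) ?_
  rw [W_add, mul_smul_comm, ← Matrix.mul_assoc, hc, smul_mul_assoc, Matrix.mul_assoc, hd, mul_smul_comm,
    ← Matrix.mul_assoc, W_mul]
  simp [smul_smul, mul_assoc]

theorem Act.iso (hg : IsUnit g) (h : Act ω g φ) (e f : A × A) : Bf A (φ e) (φ f) = Bf A e f := by
  obtain ⟨c, hc⟩ := h e
  obtain ⟨d, hd⟩ := h f
  have a1 : g * (W ω e * W ω f) = (c * d) • (W ω (φ e) * W ω (φ f) * g) := by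
    rw [← Matrix.mul_assoc, hc, smul_mul_assoc, Matrix.mul_assoc, hd]; simp [smul_smul, Matrix.mul_assoc]
  have a2 : g * (W ω f * W ω e) = (c * d) • (W ω (φ f) * W ω (φ e) * g) := by
    rw [← Matrix.mul_assoc, hd, smul_mul_assoc, Matrix.mul_assoc, hc]; simp [smul_smul, Matrix.mul_assoc, mul_comm]
  rw [W_comm, W_comm ω (φ e), mul_smul_comm, a2, smul_mul_assoc, smul_smul, smul_smul, mul_comm] at a1
  exact (ch_inj ω (mul_left_cancel₀ (mul_ne_zero (act_ne hg hc) (act_ne hg hd))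
    (smul_cancel (((W_unit ω _).mul (W_unit ω _)).mul hg) a1))).symm

theorem Nm.lin (h : Nm ω g) : ∃ φ : (A × A) ≃ₗ[Z3] (A × A), (∀ e f, Bf A (φ e) (φ f) = Bf A e f) ∧ Act ω g φ := by
  obtain ⟨hg, φ, h⟩ := h
  let ψ := (AddMonoidHom.mk' φ (h.add hg)).toZModLinearMap 3
  refine ⟨.ofBijective ψ (Finite.injective_iff_bijective.mp ((injective_iff_map_eq_zero _).mpr fun e he =>
    Bf_nd fun f => ?_)), h.iso hg, h⟩
  rw [← h.iso hg, show φ e = 0 from he]; simp

theorem unit_smul (hc : c ≠ 0) (hg : IsUnit g) : IsUnit (c • g) := by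
  obtain ⟨k, hk⟩ := hg.exists_right_inv
  exact .of_mul_eq_one (c⁻¹ • k) (by simp [smul_smul, hc, hk])

theorem Nm.smul (h : Nm ω g) (hc : c ≠ 0) : Nm ω (c • g) := ⟨unit_smul hc h.1, let ⟨_, h⟩ := h.2; ⟨_, h.smul c⟩⟩

theorem nm_W (e : A × A) : Nm ω (W ω e) := ⟨W_unit ω e, _, act_W e⟩

theorem Rz.nm (h : Rz ω g) : Nm ω g := by obtain ⟨e, c, hc, rfl⟩ := h; exact (nm_W e).smul hc

theorem Rz.act (h : Rz ω g) : Act ω g id := by obtain ⟨e, c, hc, rfl⟩ := h; exact (act_W e).smul c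

theorem mg_nm : MG (Nm ω : Matrix A A F → Prop) := by
  refine ⟨⟨isUnit_one, _, act_one⟩, fun ⟨a, _, b⟩ ⟨c, _, d⟩ => ⟨a.mul c, _, b.mul d⟩, fun h => ?_⟩
  obtain ⟨k, hk⟩ := h.1.exists_right_inv
  obtain ⟨φ, -, h2⟩ := h.lin
  exact ⟨k, ⟨.of_mul_eq_one _ (mul_eq_one_comm.mp hk), _, h2.of_inv hk φ.apply_symm_apply⟩, hk⟩

theorem rz_W (e : A × A) : Rz ω (W ω e) := ⟨e, 1, one_ne_zero, by simp⟩

theorem Rz.smul (h : Rz ω g) (hc : c ≠ 0) : Rz ω (c • g) := by
  obtain ⟨e, d, hd, rfl⟩ := h; exact ⟨e, c * d, mul_ne_zero hc hd, smul_smul _ _ _⟩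

theorem mg_rz : MG (Rz ω : Matrix A A F → Prop) := by
  refine ⟨by simpa using rz_W (ω := ω) (0 : A × A), ?_, ?_⟩
  · rintro _ _ ⟨e, c, hc, rfl⟩ ⟨f, d, hd, rfl⟩
    rw [smul_mul_smul_comm, W_mul]
    exact ((rz_W _).smul (ch_ne ω _)).smul (mul_ne_zero hc hd)
  · rintro _ ⟨e, c, hc, rfl⟩
    exact ⟨_, (rz_W (-e)).smul (inv_ne_zero hc), by simp [smul_smul, hc, W_mul_neg]⟩

/-- it suffices to know that conjugates of Weyl matrices are multiples of Weyl matrices -/
theorem nm_of_rz (H : g * k = 1) (h : ∀ e, Rz ω (g * W ω e * k)) : Nm ω g := by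
  choose φ c h1 h2 using h
  exact ⟨.of_mul_eq_one _ H, φ, fun e => ⟨c e, by
    rw [← smul_mul_assoc, ← h2, Matrix.mul_assoc, mul_eq_one_comm.mp H, Matrix.mul_one]⟩⟩

theorem Nm.conj (h : Nm ω g) (H : g * k = 1) {r : Matrix A A F} (hr : Rz ω r) : Rz ω (g * r * k) := by
  obtain ⟨e, c, hc, rfl⟩ := hr
  obtain ⟨hg, φ, h⟩ := h
  obtain ⟨d, hd⟩ := h e
  exact ⟨φ e, c * d, mul_ne_zero hc (act_ne hg hd), by
    rw [mul_smul_comm, hd, smul_smul, smul_mul_assoc, Matrix.mul_assoc, H, Matrix.mul_one]⟩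

end Cfsg.Agent.H12.T3
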