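import Mathlib
import Cfsg.Agent.H12.T3A
import Cfsg.Agent.H12.MaxS

/-!
Spectral projections of Weyl matrices and generation of the normaliser.
-/

set_option autoImplicit false
set_option linter.unusedSectionVars false

namespace Cfsg.Agent.H12.T3

open Matrix Dt
open scoped Kronecker

variable {F : Type*} [Field F] {A : Type} [AddCommGroup A] [Module Z3 A] [Fintype A] [DecidableEq A] [Dt A]
  (ω : F)

/-- spectral projections -/
def pj (x : A × A) (l : Z3) : Matrix A A F := (3 : F)⁻¹ • (1 + ch ω (-l) • W ω x + ch ω l • W ω (-x))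

/-- functions of a Weyl matrix -/
def fn (x : A × A) (a : Z3 → F) : Matrix A A F := ∑ l, a l • pj ω x l

/-- the generators of the normaliser -/
def hm (x : A × A) (i : Z3) : Matrix A A F := fn ω x fun l => ch ω (if l = i then 1 else 0)

variable [Om3 ω] (x e : A × A) (i j l : Z3) (a b : Z3 → F)

theorem W_pj : W ω x * pj ω x l = ch ω l • pj ω x l := by
  simp only [pj, mul_smul_comm, mul_add, W_sq, W_mul_neg, Matrix.mul_one, smul_add, smul_smul]
  rw [mul_left_comm, mul_left_comm (ch ω l), ← ch_add, ← ch_add, add_neg_cancel, add_self_z3, ch_zero, mul_comm (ch ω l),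
    mul_one]
  abel

theorem pj_neg : pj ω (-x) (-l) = pj ω x l := by simp only [pj, neg_neg]; abel_nf

theorem Wn_pj : W ω (-x) * pj ω x l = ch ω (-l) • pj ω x l := by rw [← pj_neg, W_pj]

theorem pj_mul : pj ω x i * pj ω x j = if i = j then pj ω x j else 0 := by
  rw [show pj ω x i * pj ω x j = ((3 : F)⁻¹ * (1 + ch ω (j - i) + ch ω (-(j - i)))) • pj ω x j by
    conv_lhs => rw [pj, smul_mul_assoc, add_mul, add_mul, smul_mul_assoc, smul_mul_assoc, W_pj, Wn_pj]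
    rw [smul_smul, smul_smul, ← ch_add, ← ch_add, Matrix.one_mul, mul_smul, add_smul, add_smul, one_smul]
    congr 5 <;> ring, ch_sum]
  by_cases h : i = j
  · simp [h, inv_mul_cancel₀ (om_three ω)]
  · simp [h, sub_eq_zero, Ne.symm h]

theorem fn_mul : fn ω x a * fn ω x b = fn ω x fun l => a l * b l := by
  simp only [fn, Finset.sum_mul, Finset.mul_sum, smul_mul_smul_comm, pj_mul, smul_ite, smul_zero]
  rw [Finset.sum_comm]; simp

theorem fn_ch (k : Z3) : fn ω x (fun l => ch ω (k * l)) = W ω (k • x) := by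
  have h := om_eq ω
  have h3 := om_three ω
  rcases z3c k with rfl | rfl | rfl <;>
  · simp only [fn, sum_z3, pj, show (2 : Z3) • x = -x by rw [two_smul, add_self_z3], one_smul, zero_smul, W_zero,
      show (-1 : Z3) = 2 from rfl, show (-2 : Z3) = 1 from rfl, show (2 * 2 : Z3) = 1 from rfl, neg_zero, zero_mul,
      one_mul, mul_one, mul_zero, ch_zero, ch_one, ch_two]
    match_scalars <;> field_simp <;> grind

theorem fn_one : fn ω x (fun _ => 1) = 1 := by simpa using fn_ch ω x 0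

theorem smul_fn (c : F) : c • fn ω x a = fn ω x fun l => c * a l := by simp [fn, Finset.smul_sum, smul_smul]

theorem fn_sub : fn ω x a - fn ω x b = fn ω x fun l => a l - b l := by
  simp [fn, sub_smul, Finset.sum_sub_distrib]

theorem fn_pj : fn ω x a * pj ω x l = a l • pj ω x l := by
  simp [fn, Finset.sum_mul, pj_mul]

theorem W_pj_comm : W ω e * pj ω x l = pj ω x (l - Bf A e x) * W ω e := by
  simp only [pj, mul_smul_comm, smul_mul_assoc, mul_add, add_mul, Matrix.mul_one, Matrix.one_mul, W_comm ω e,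
    smul_smul, ← ch_add, map_neg]
  congr 5 <;> ring

theorem W_fn : W ω e * fn ω x a = fn ω x (fun l => a (l + Bf A e x)) * W ω e := by
  simp only [fn, Finset.mul_sum, Finset.sum_mul, mul_smul_comm, smul_mul_assoc, W_pj_comm]
  rw [← Equiv.sum_comp (Equiv.addRight (Bf A e x))]; simp

theorem hm_eq : hm ω x i = 1 + (ω - 1) • pj ω x i := by
  rw [← fn_one ω x, hm, ← sub_eq_iff_eq_add', fn_sub, fn, Finset.sum_eq_single i (fun l _ h => by simp [h]) (by simp)]
  simp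

theorem hm_cube : hm ω x i ^ 3 = 1 := by
  rw [pow_three, hm, fn_mul, fn_mul, ← fn_one ω x]
  congr; ext l; rw [← pow_three, ch_cube]

theorem hm_unit : IsUnit (hm ω x i) := .of_mul_eq_one _ (by rw [← hm_cube ω x i, pow_succ'])

theorem act_hm : Act ω (hm ω x i) fun e => e + Bf A x e • x := fun e => by
  obtain ⟨k, hk⟩ := (by decide : ∀ s i : Z3, ∃ k, ∀ l : Z3, (if l + -s = i then 1 else 0) =
    k + (-s * l + if l = i then 1 else 0)) (Bf A e x) i
  have a1 := W_fn ω x e fun l => ch ω (if l + -Bf A e x = i then 1 else 0)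
  simp only [add_neg_cancel_right] at a1
  refine ⟨ch ω k * ch ω (-Bf A e (Bf A x e • x)), ?_⟩
  rw [hm, ← a1, mul_comm, mul_smul, ← smul_comm, ← smul_mul_assoc, ← W_mul, Matrix.mul_assoc, Bf_skew e x, ← fn_ch, fn_mul,
    ← mul_smul_comm, smul_fn]
  simp only [hk, ch_add]

theorem nm_hm : Nm ω (hm ω x i) := ⟨hm_unit ω x i, _, act_hm ω x i⟩

theorem W_eq_hm : W ω x = hm ω x 1 * hm ω x 2 ^ 2 := by
  rw [pow_two, hm, hm, fn_mul, fn_mul, ← one_smul Z3 x, ← fn_ch, one_smul]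
  congr; ext l
  rw [← ch_add, ← ch_add]; congr 1; revert l; decide

theorem trace_pj {x : A × A} (hx : x ≠ 0) : (pj ω x l).trace = (3 : F)⁻¹ * Fintype.card A := by
  simp [pj, trace_W hx, trace_W (neg_ne_zero.mpr hx)]

variable {ω x e i j l} {P : Matrix A A F → Prop} {g k : Matrix A A F} {y : A × A}

theorem conj_pj {s : Z3} (hg : IsUnit g) (h : g * W ω x = ch ω s • (W ω y * g)) (l : Z3) :
    g * pj ω x l = pj ω y (l - s) * g := by
  have : g * W ω (-x) = ch ω (-s) • (W ω (-y) * g) := by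
    rw [← W_sq, ← W_sq, ← Matrix.mul_assoc, h, smul_mul_assoc, Matrix.mul_assoc, h, mul_smul_comm, smul_smul, ← ch_add,
      add_self_z3, Matrix.mul_assoc]
  simp only [pj, mul_smul_comm, smul_mul_assoc, mul_add, add_mul, Matrix.mul_one, Matrix.one_mul, h, this,
    smul_smul, ← ch_add]
  congr 5 <;> ring

theorem exists_act (h : MG P) (hh : ∀ x i, P (hm ω x i)) (φ : UG (σ := RingHom.id Z3) (Bf A)) :
    ∃ n, P n ∧ Act ω n φ.1 := by
  have := Module.Finite.of_finite (R := Z3) (M := A × A)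
  induction ((Bf_sd (A := A)).TG_eq_top rfl ▸ Subgroup.mem_top φ : φ ∈ TG (Bf A)) using Subgroup.closure_induction with
  | one => exact ⟨1, h.one, act_one⟩
  | mem x hx =>
    obtain ⟨v, c, rfl⟩ := hx
    have a1 := fun e => tv_apply Bf_sd (Bf_self v) (c := c) rfl e
    rcases z3c c with rfl | rfl | rfl
    · exact ⟨1, h.one, act_one.congr fun e => by simp [a1]⟩
    · exact ⟨_, hh v 0, (act_hm ω v 0).congr fun e => by simp [a1]⟩
    · exact ⟨_, h.mul (hh v 0) (hh v 0), ((act_hm ω v 0).mul (act_hm ω v 0)).congr fun e => by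
        simp [a1, two_mul, add_smul, add_assoc]⟩
  | mul x y _ _ h1 h2 =>
    obtain ⟨n, n1, n2⟩ := h1
    obtain ⟨m, m1, m2⟩ := h2
    exact ⟨n * m, h.mul n1 m1, n2.mul m2⟩
  | inv x _ h1 =>
    obtain ⟨n, n1, n2⟩ := h1
    obtain ⟨m, m1, m2⟩ := h.inv n1
    exact ⟨m, m1, n2.of_inv m2 fun e => UG_apply_inv _ _⟩

theorem mem_of_nm (h : MG P) (hz : ∀ c : F, c ≠ 0 → P (c • 1)) (hh : ∀ x i, P (hm ω x i)) (hg : Nm ω g) : P g := by
  obtain ⟨φ, h1, h2⟩ := hg.lin
  obtain ⟨n, n1, n2⟩ := exists_act h hh ⟨φ, h1⟩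
  obtain ⟨m, m1, m2⟩ := h.inv n1
  obtain ⟨e, c, hc, he⟩ := rz_of_fix ((h.unit m1).mul hg.1)
    (((n2.of_inv m2 φ.apply_symm_apply).mul h2).congr φ.symm_apply_apply)
  refine h.of_mul m1 ?_
  rw [he, W_eq_hm, ← Matrix.one_mul (_ * _), ← smul_mul_assoc]
  exact h.mul (hz c hc) (h.mul (hh _ _) (h.pow (hh _ _) _))

theorem exists_nm_iso (φ : (A × A) →ₗ[Z3] (A × A)) (h : ∀ e f, Bf A (φ e) (φ f) = Bf A e f) :
    ∃ n : Matrix A A F, IsUnit n ∧ Act ω n φ := by
  obtain ⟨n, n1, n2⟩ := exists_act mg_nm (nm_hm ω) ⟨.ofBijective φ (Finite.injective_iff_bijective.mp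
    ((injective_iff_map_eq_zero _).mpr fun e he => Bf_nd fun f => by rw [← h, he]; simp)), h⟩
  exact ⟨n, n1.1, n2⟩

theorem exists_nm_map (hx : x ≠ 0) (hy : y ≠ 0) : ∃ n : Matrix A A F, Nm ω n ∧ n * W ω x = W ω y * n := by
  have := Module.Finite.of_finite (R := Z3) (M := A × A)
  obtain ⟨φ, -, h⟩ := Bf_sd.witt_SUG (ι := Unit) (e := fun _ => x) (f := fun _ => y)
    (linearIndependent_unique_iff.mpr hx) (linearIndependent_unique_iff.mpr hy) (by simp) (.inl rfl)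
  obtain ⟨n, n1, n2⟩ := exists_act mg_nm (nm_hm ω) φ
  obtain ⟨c, hc⟩ := n2 x
  obtain ⟨s, rfl⟩ := act_cube n1.1 hc
  obtain ⟨f, hf⟩ : ∃ f, Bf A x f ≠ 0 := by by_contra! H; exact hx (Bf_nd H)
  refine ⟨n * W ω ((s * Bf A x f) • f), mg_nm.mul n1 (nm_W _), ?_⟩
  rw [Matrix.mul_assoc, W_comm, mul_smul_comm, ← Matrix.mul_assoc, hc, h (), smul_mul_assoc, smul_smul, ← ch_add,
    Matrix.mul_assoc, map_smul, LinearMap.smul_apply, Bf_skew x f,
    (by decide : ∀ s t : Z3, t ≠ 0 → (s * t) • -t + s = 0) _ _ hf, ch_zero, one_smul]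

theorem z3_ind {E : Type*} [AddCommGroup E] [Module Z3 E] {p : E → Prop} (h : ∀ x y, p x → p y → p (x + y)) {x : E}
    (hx : p x) (n : Z3) : p (n • x) := by
  rcases z3c n with rfl | rfl | rfl
  · simpa [add_self_z3] using h _ _ (h _ _ hx hx) hx
  · simpa
  · simpa [two_smul] using h _ _ hx hx

theorem rz_add (H : g * k = 1) (x y : A × A) (h1 : Rz ω (g * W ω x * k)) (h2 : Rz ω (g * W ω y * k)) :
    Rz ω (g * W ω (x + y) * k) := by
  convert (mg_rz.mul h1 h2).smul (ch_ne ω (Bf A x y)) using 1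
  simp [W_add, Matrix.mul_assoc, ← Matrix.mul_assoc k, mul_eq_one_comm.mp H]

theorem act_mo {f : A → A} {q : A → Z3} (φ : A × A → A × A) (h1 : ∀ e j, f (j + e.1) = f j + (φ e).1)
    (h2 : ∀ e : A × A, ∃ k, ∀ j, q (j + e.1) + dot e.2 j = k + dot (φ e).2 (f j) + q j) :
    Act ω (mo f fun j => ch ω (q j)) φ := fun e => by
  obtain ⟨k, hk⟩ := h2 e
  refine ⟨ch ω (k + 2 * dot e.2 e.1 - 2 * dot (φ e).2 (φ e).1), ?_⟩
  simp only [W, mo_mul, smul_mo, ← ch_add]
  exact mo_congr (h1 e) fun j => congrArg _ (by linear_combination hk j)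

theorem mo_unit {f : A → A} {d : A → F} (hf : Function.Injective f) (hd : ∀ j, d j ≠ 0) : IsUnit (mo f d) := by
  obtain ⟨g, hg⟩ := hf.hasLeftInverse
  exact .of_mul_eq_one_right (mo g fun j => (d (g j))⁻¹) (by rw [mo_mul]; exact mo_one hg fun j => by simp [hg j, hd])

instance instDtZ3 : Dt Z3 := ⟨LinearMap.mul Z3 Z3, fun a h => by simpa using h 1, fun a h => by simpa using h 1, 1, rfl⟩

/-- the index set in dimension nine -/
abbrev Z9 := Z3 × Z3

instance instDtZ9 : Dt Z9 where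
  dot := LinearMap.mk₂ Z3 (fun c a => c.1 * a.1 + c.2 * a.2) (by intros; simp; ring) (by intros; simp; ring)
    (by intros; simp; ring) (by intros; simp; ring)
  sep a h := Prod.ext (by simpa using h (1, 0)) (by simpa using h (0, 1))
  sep' a h := Prod.ext (by simpa using h (1, 0)) (by simpa using h (0, 1))
  card := ⟨2, rfl⟩

@[simp] theorem dot3 (c a : Z3) : dot c a = c * a := rfl
@[simp] theorem dot9 (c a : Z9) : dot c a = c.1 * a.1 + c.2 * a.2 := rfl

theorem Bf3 (e f : Z3 × Z3) : Bf Z3 e f = e.2 * f.1 - f.2 * e.1 := rfl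
theorem Bf9 (e f : Z9 × Z9) : Bf Z9 e f = e.2.1 * f.1.1 + e.2.2 * f.1.2 - (f.2.1 * e.1.1 + f.2.2 * e.1.2) := rfl

/-- combining two Weyl indices -/
def cb (u v : Z3 × Z3) : Z9 × Z9 := ((u.1, v.1), (u.2, v.2))

theorem W_cb (u v : Z3 × Z3) : W ω (cb u v) = W ω u ⊗ₖ W ω v := by
  ext ⟨i, j⟩ ⟨k, l⟩
  simp only [W, cb, mo_apply, kroneckerMap_apply, Prod.ext_iff, Prod.fst_add, Prod.snd_add, dot3, dot9, ite_and,
    ite_mul, mul_ite, mul_zero, zero_mul, ← ch_add]
  split_ifs <;> first | rfl | (congr 1; ring)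

theorem exists_cb (e : Z9 × Z9) : ∃ u v, e = cb u v := ⟨(e.1.1, e.2.1), (e.1.2, e.2.2), rfl⟩

theorem Bf_cb (u v u' v' : Z3 × Z3) : Bf Z9 (cb u v) (cb u' v') = Bf Z3 u u' + Bf Z3 v v' := by
  simp only [Bf9, Bf3, cb]; ring

theorem cb_add (u v u' v' : Z3 × Z3) : cb u v + cb u' v' = cb (u + u') (v + v') := rfl
theorem cb_inj {u v u' v' : Z3 × Z3} : cb u v = cb u' v' ↔ u = u' ∧ v = v' := by simp [cb, Prod.ext_iff]; tauto
theorem cb_zero : cb 0 0 = 0 := rfl

theorem Nm.kron {g k : Matrix Z3 Z3 F} (hg : Nm ω g) (hk : Nm ω k) : Nm ω (g ⊗ₖ k) := by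
  obtain ⟨g1, φ, g2⟩ := hg
  obtain ⟨k1, ψ, k2⟩ := hk
  obtain ⟨g', hg'⟩ := g1.exists_right_inv
  obtain ⟨k', hk'⟩ := k1.exists_right_inv
  refine ⟨.of_mul_eq_one (g' ⊗ₖ k') (by rw [← mul_kronecker_mul, hg', hk', one_kronecker_one]),
    fun e => cb (φ (e.1.1, e.2.1)) (ψ (e.1.2, e.2.2)), fun e => ?_⟩
  obtain ⟨u, v, rfl⟩ := exists_cb e
  obtain ⟨c, hc⟩ := g2 u
  obtain ⟨d, hd⟩ := k2 v
  exact ⟨c * d, by
    rw [W_cb, W_cb, ← mul_kronecker_mul, hc, hd, smul_kronecker, kronecker_smul, smul_smul, mul_kronecker_mul]; rfl⟩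

theorem nm3_of_gen {g k : Matrix Z3 Z3 F} (H : g * k = 1) (h1 : Rz ω (g * W ω (1, 0) * k))
    (h2 : Rz ω (g * W ω (0, 1) * k)) : Nm ω g := nm_of_rz H fun e => by
  rw [(by decide : ∀ e : Z3 × Z3, e = e.1 • (1, 0) + e.2 • (0, 1)) e]
  exact rz_add H _ _ (z3_ind (p := fun e => Rz ω (g * W ω e * k)) (rz_add H) h1 e.1)
    (z3_ind (p := fun e => Rz ω (g * W ω e * k)) (rz_add H) h2 e.2)

end Cfsg.Agent.H12.T3
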