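import Mathlib
import Cfsg.Agent.H12.T3B
import Cfsg.Agent.H12.DicksonSL

/-!
Two reflections of order three.
-/

set_option autoImplicit false
set_option linter.unusedSectionVars false

namespace Cfsg.Agent.H12.T3

open Matrix
open scoped MatrixGroups

variable {F : Type*} [Field F] {ω : F} [Om3 ω]

theorem pg_eq {A : Type*} [Fintype A] [DecidableEq A] {g k : GL A F} :
    ProjGenLinGroup.mk g = ProjGenLinGroup.mk k ↔ ∃ c : F, c ≠ 0 ∧ (g : Matrix A A F) = c • k := by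
  rw [eq_comm, ProjGenLinGroup.mk_eq_mk_iff]
  refine ⟨fun ⟨u, h⟩ => ⟨u, u.ne_zero, by ext; simp [← h, mul_comm]⟩, fun ⟨c, hc, h⟩ => ⟨.mk0 c hc, ?_⟩⟩
  ext; simp [h, mul_comm]

theorem pgl2_orders [Finite F] (p : ℕ) [Fact p.Prime] [CharP F p] (Y : Subgroup PGL(2, F))
    (h : ∀ x ∈ Y, x ^ p = 1 → x = 1) (h3 : p ≠ 3) {a b : PGL(2, F)} (ha : a ∈ Y) (hb : b ∈ Y) (a3 : a ^ 3 = 1)
    (b3 : b ^ 3 = 1) : (a * b) ^ 2 = 1 ∨ (a * b) ^ 3 = 1 ∨ (a * b) ^ 5 = 1 := by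
  have h2 : ¬ p ∣ Nat.card Y := fun H => by
    obtain ⟨g, hg⟩ := exists_prime_orderOf_dvd_card' (G := Y) p H
    have := h g g.2 (by rw [← hg, ← Subgroup.coe_pow, pow_orderOf_eq_one]; rfl)
    rw [show g = 1 from Subtype.ext this, orderOf_one] at hg
    exact (Fact.out : p.Prime).ne_one hg.symm
  have key : ∀ {G : Type} [Group G], Nonempty (Y ≃* G) → (∀ a b : G, a ^ 3 = 1 → b ^ 3 = 1 →
      (a * b) ^ 2 = 1 ∨ (a * b) ^ 3 = 1 ∨ (a * b) ^ 5 = 1) → (a * b) ^ 2 = 1 ∨ (a * b) ^ 3 = 1 ∨ (a * b) ^ 5 = 1 :=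
    fun ⟨φ⟩ H => by
      have := H (φ ⟨a, ha⟩) (φ ⟨b, hb⟩)
      simp only [← map_mul, ← map_pow, EmbeddingLike.map_eq_one_iff, Subtype.ext_iff] at this
      exact this a3 b3
  have k5 : ∀ n, (∀ a : Equiv.Perm (Fin n), a.sign = 1 → a ^ 2 = 1 ∨ a ^ 3 = 1 ∨ a ^ 5 = 1) →
      ∀ a b : alternatingGroup (Fin n), a ^ 3 = 1 → b ^ 3 = 1 → (a * b) ^ 2 = 1 ∨ (a * b) ^ 3 = 1 ∨ (a * b) ^ 5 = 1 :=
    fun n H a b _ _ => by simpa only [Subtype.ext_iff, Subgroup.coe_pow, Subgroup.coe_one] using H (a * b).1 (a * b).2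
  have cm : Commute a b → (a * b) ^ 2 = 1 ∨ (a * b) ^ 3 = 1 ∨ (a * b) ^ 5 = 1 := fun H =>
    .inr (.inl (by rw [H.mul_pow, a3, b3, one_mul]))
  rcases dickson_pgl2 p Y with ⟨x, -, a1⟩ | ⟨a1, -⟩ | ⟨c, s, a1, -⟩ | ⟨a1, ⟨-, a2 | a2 | a2⟩ | ⟨a2, -⟩⟩ | ⟨E, k, -, -, a1⟩
  · obtain ⟨⟨g, hg, h4⟩, h5⟩ := Subgroup.ne_bot_iff_exists_ne_one.1 a1
    exact absurd (Subtype.ext (h g hg ((mem_unip_iff p).1 h4).2)) h5
  · exact cm (congrArg Subtype.val (IsCyclic.isMulCommutative.is_comm.comm (⟨a, ha⟩ : Y) ⟨b, hb⟩))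
  · have z : ∀ x ∈ Y, x ^ 3 = 1 → x ∈ Subgroup.zpowers c := fun x hx x3 => (a1.mem_zpowers_or hx).elim id fun e => by
      rw [pow_three, e, mul_one] at x3; simp [x3]
    obtain ⟨m, rfl⟩ := z a ha a3
    obtain ⟨n, rfl⟩ := z b hb b3
    exact cm (zpow_mul_comm _ _ _)
  · exact key (a1.equiv_alt4 a2) (k5 4 (by decide +kernel))
  · exact key (a1.equiv_perm4 a2) (by decide +kernel)
  · exact key (a1.equiv_alt5 a2) (k5 5 (by decide +kernel))
  · exact absurd a2 h3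
  · exact absurd ((char_dvd_natCard p).trans (card_dvd_card_PSL2.trans (card_subPSL_dvd a1))) h2

theorem ch2 (g : Matrix (Fin 2) (Fin 2) F) : g * g = g.trace • g - g.det • 1 := by
  ext i j; fin_cases i <;> fin_cases j <;> simp [trace_fin_two, det_fin_two, mul_apply] <;> ring

theorem sq_zero_of_nil {g : Matrix (Fin 2) (Fin 2) F} {n : ℕ} (h : g ^ n = 0) : g * g = 0 := by
  have a1 : g.det = 0 := by
    rcases n with _ | n
    · simp at h
    · exact pow_eq_zero_iff n.succ_ne_zero |>.mp (by rw [← det_pow, h]; simp)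
  rw [ch2, a1, (isNilpotent_trace_of_isNilpotent ⟨n, h⟩).eq_zero]; simp

theorem trace_of_pow {g : Matrix (Fin 2) (Fin 2) F} (h1 : g.det = 1) (h2 : ¬ (g 0 1 = 0 ∧ g 1 0 = 0)) :
    (∀ c : F, g ≠ c • 1) ∧ (∀ c : F, g ^ 2 = c • 1 → g.trace = 0) ∧ (∀ c : F, g ^ 3 = c • 1 → g.trace ^ 2 = 1) ∧
      ∀ c : F, g ^ 5 = c • 1 → g.trace ^ 4 - 3 * g.trace ^ 2 + 1 = 0 := by
  have key : ∀ s t c : F, s • g - t • 1 = c • 1 → s = 0 := fun s t c h => by
    by_contra e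
    exact h2 ⟨by simpa [e] using congrArg (· 0 1) h, by simpa [e] using congrArg (· 1 0) h⟩
  have a2 : g ^ 2 = g.trace • g - (1 : F) • 1 := by rw [pow_two, ch2, h1]
  have st : ∀ (n : ℕ) (s t : F), g ^ n = s • g - t • 1 → g ^ (n + 1) = (s * g.trace - t) • g - s • 1 := fun n s t h => by
    rw [pow_succ, h, sub_mul, smul_mul_assoc, ← pow_two, a2]; simp; module
  have a3 := st _ _ _ a2
  refine ⟨fun c h => one_ne_zero (key 1 0 c (by simpa)), fun c h => key _ _ _ (a2 ▸ h), fun c h => ?_, fun c h => ?_⟩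
  · linear_combination key _ _ _ (a3 ▸ h)
  · linear_combination key _ _ _ (st _ _ _ (st _ _ _ a3) ▸ h)

theorem dick2 [Finite F] {K : Matrix (Fin 2) (Fin 2) F → Prop} (h : MG K) (h2 : (2 : F) ≠ 0)
    (NT : ∀ g, K g → (g - 1) * (g - 1) = 0 → g = 1) {α β : F} (hA : K !![ω, (ω - 1) * α; 0, 1])
    (hB : K !![1, 0; (ω - 1) * β, ω]) : (α = 0 ∧ β = 0) ∨ 3 * (α * β) = 1 ∨ 3 * (α * β) = 2 ∨
      ((3 * (α * β)) ^ 2 - 3 * (3 * (α * β)) + 1 = 0 ∧ (5 : F) ≠ 0) := by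
  have := Fintype.ofFinite F
  obtain ⟨p, hp⟩ := CharP.exists F
  have : Fact p.Prime := ⟨CharP.char_is_prime F p⟩
  have e := om_eq ω
  have e1 := sub_ne_zero.mpr (om_ne_one ω)
  have e2 := sub_ne_zero.mpr (om_sq_ne_one ω)
  have e0 := om_ne_zero ω
  have a1 : ∀ x ∈ h.sub.map ProjGenLinGroup.mk, x ^ p = 1 → x = 1 := by
    rintro _ ⟨g, hg, rfl⟩ H
    rw [← map_pow, ← map_one ProjGenLinGroup.mk, pg_eq] at H
    obtain ⟨c, hc, H⟩ := H
    have b1 : (g.1 ^ (Fintype.card F - 1) - 1) ^ p = 0 := by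
      rw [sub_pow_char_of_commute _ (Commute.one_right _), ← pow_mul, mul_comm, pow_mul, ← Units.val_pow_eq_pow_val, H]
      simp [smul_pow, FiniteField.pow_card_sub_one_eq_one c hc]
    have b2 : g ^ (Fintype.card F - 1) = 1 := Units.ext (NT _ (h.pow hg _) (sq_zero_of_nil b1))
    have b3 : ProjGenLinGroup.mk g ^ p = 1 := by
      rw [← map_pow, ← map_one ProjGenLinGroup.mk, pg_eq]; exact ⟨c, hc, H⟩
    refine (pow_eq_one_iff_of_coprime (m := p) (n := Fintype.card F - 1) ?_).mp ⟨b3, by rw [← map_pow, b2, map_one]⟩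
    exact Nat.Coprime.coprime_dvd_left (char_dvd_card p) ((Nat.coprime_self_sub_right Fintype.card_pos).2 (by simp))
  have key : ∀ {g k : Matrix (Fin 2) (Fin 2) F} {c : F}, K g → K k → g ^ 3 = 1 → k ^ 3 = 1 → (c • (g * k)).det = 1 →
      ¬ ((c • (g * k)) 0 1 = 0 ∧ (c • (g * k)) 1 0 = 0) → ∀ t, (c • (g * k)).trace = t →
      t = 0 ∨ t ^ 2 = 1 ∨ (t ^ 4 - 3 * t ^ 2 + 1 = 0 ∧ (5 : F) ≠ 0) := fun {g k c} hg hk g3 k3 hd hn t ht => by
    obtain ⟨g, rfl⟩ := h.unit hg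
    obtain ⟨k, rfl⟩ := h.unit hk
    obtain ⟨b1, b2, b3, b4⟩ := trace_of_pow hd hn
    have b5 : ∀ n : ℕ, (ProjGenLinGroup.mk g * ProjGenLinGroup.mk k) ^ n = 1 → ∃ d : F, (c • (g.1 * k.1)) ^ n = d • 1 :=
      fun n H => by
        rw [← map_mul, ← map_pow, ← map_one ProjGenLinGroup.mk, pg_eq] at H
        obtain ⟨d, -, H⟩ := H
        exact ⟨c ^ n * d, by rw [smul_pow, mul_smul]; exact congrArg _ H⟩
    rcases pgl2_orders p _ a1 (by rintro rfl; exact om_three ω (by exact_mod_cast CharP.cast_eq_zero F 3))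
      ⟨g, hg, rfl⟩ ⟨k, hk, rfl⟩ (by rw [← map_pow, show g ^ 3 = 1 from Units.ext g3, map_one])
      (by rw [← map_pow, show k ^ 3 = 1 from Units.ext k3, map_one]) with H | H | H
    · exact .inl (ht ▸ (b5 _ H).elim b2)
    · exact .inr (.inl (ht ▸ (b5 _ H).elim b3))
    refine .inr (.inr ⟨ht ▸ (b5 _ H).elim b4, fun h5 => ?_⟩)
    obtain rfl : p = 5 := (Nat.prime_dvd_prime_iff_eq Fact.out (by norm_num)).mp
      ((CharP.cast_eq_zero_iff F p 5).mp (by exact_mod_cast h5))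
    obtain ⟨d, hd⟩ := b5 1 (by rw [pow_one]; exact a1 _ (mul_mem ⟨g, hg, rfl⟩ ⟨k, hk, rfl⟩) H)
    exact b1 d (by simpa using hd)
  have A3 : !![ω, (ω - 1) * α; 0, 1] ^ 3 = 1 := by
    ext i j; fin_cases i <;> fin_cases j <;> simp [pow_three] <;> grind
  have B3 : !![1, 0; (ω - 1) * β, ω] ^ 3 = 1 := by
    ext i j; fin_cases i <;> fin_cases j <;> simp [pow_three] <;> grind
  by_cases H : α = 0 ∧ β = 0
  · exact .inl H
  have c1 := key (c := ω ^ 2) hA hB A3 B3 (by simp [det_fin_two]; grind) (by simpa [e0, e1] using H)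
    (2 - 3 * (α * β)) (by simp [trace_fin_two]; grind)
  have c2 := key (c := 1) hA (h.mul hB hB) A3 (by rw [← pow_two, ← pow_mul, mul_comm 2, pow_mul, B3, one_pow])
    (by simp [det_fin_two]; grind) (fun ⟨d1, d2⟩ => H (by simp [e0, e1] at d1 d2; grind))
    (3 * (α * β) - 1) (by simp [trace_fin_two]; grind)
  have h3 := om_three ω
  generalize 3 * (α * β) = μ at *
  refine .inr ?_
  by_contra! H'
  obtain ⟨m1, m2, m3⟩ := H'
  have f1 : ∀ t : F, t ^ 2 = 1 → t = 1 ∨ t = -1 := fun t ht => mul_self_eq_one_iff.mp (by rw [← ht, pow_two])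
  have f2 : ∀ t : F, t ^ 4 - 3 * t ^ 2 + 1 = 0 → t ^ 2 - t - 1 = 0 ∨ t ^ 2 + t - 1 = 0 := fun t ht =>
    mul_eq_zero.mp (by linear_combination ht)
  rcases c1 with c1 | c1 | ⟨c1, c5⟩ <;> rcases c2 with c2 | c2 | ⟨c2, c6⟩ <;> grind

section
variable {n : Type*} [Fintype n] [DecidableEq n] {H : Matrix n n F → Prop} {u v a b : n → F}

theorem two_refl_aux (h : MG H) (NT : ∀ g, H g → (g - 1) * (g - 1) = 0 → g = 1)
    (hu : H (1 + (ω - 1) • vecMulVec u a)) (hv : H (1 + (ω - 1) • vecMulVec v b)) (h1 : a ⬝ᵥ u = 1) (h2 : b ⬝ᵥ v = 1)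
    (h3 : a ⬝ᵥ v = 1) (h4 : b ⬝ᵥ u = 1) : vecMulVec v b = vecMulVec u a := by
  have e := om_eq ω
  have e1 := sub_ne_zero.mpr (om_ne_one ω)
  have m : ∀ x y z w : n → F, vecMulVec x y * vecMulVec z w = (y ⬝ᵥ z) • vecMulVec x w := fun x y z w => by
    rw [vecMulVec_mul_vecMulVec]; ext; simp
  have a1 : ((1 + (ω - 1) • vecMulVec u a) * (1 + (ω - 1) • vecMulVec v b)) ^ 3 - 1 =
      (3 * (ω - ω ^ 2)) • vecMulVec (u - v) (a - b) := by
    simp only [pow_three, mul_add, add_mul, mul_smul_comm, smul_mul_assoc, Matrix.mul_one, Matrix.one_mul, m, h1, h2,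
      h3, h4, sub_vecMulVec, vecMulVec_sub]
    match_scalars <;> grind
  have a2 := NT _ (h.pow (h.mul hu hv) 3) (by rw [a1]; simp [m, h1, h2, h3, h4])
  rw [← sub_eq_zero, a1, smul_eq_zero, vecMulVec_eq_zero] at a2
  have a3 : (1 + (ω - 1) • vecMulVec u a) * (1 + (ω - 1) • vecMulVec v b) ^ 2 - 1 =
      (ω - 1) • (vecMulVec u a - vecMulVec v b) + 3 • vecMulVec (u - v) b := by
    simp only [pow_two, mul_add, add_mul, mul_smul_comm, smul_mul_assoc, Matrix.mul_one, Matrix.one_mul, m, h1, h2,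
      h3, h4, sub_vecMulVec, vecMulVec_sub]
    match_scalars <;> grind
  have a4 := NT _ (h.mul hu (h.pow hv 2))
  rw [← sub_eq_zero (b := 1), a3] at a4
  rcases a2 with a2 | a2 | a2
  · exact absurd a2 (mul_ne_zero (om_three ω) (sub_ne_zero.mpr (om_sq_ne ω).symm))
  · obtain rfl := sub_eq_zero.mp a2
    simp only [sub_self, zero_vecMulVec, smul_zero, add_zero] at a4
    simpa [e1, sub_eq_zero, eq_comm] using a4 (by simp [mul_sub, sub_mul, m, h1, h2])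
  · obtain rfl := sub_eq_zero.mp a2
    rw [← sub_vecMulVec, ← Nat.cast_smul_eq_nsmul F, ← add_smul] at a4
    have := a4 (by simp [m, h1, h2])
    rw [smul_eq_zero, sub_vecMulVec, sub_eq_zero] at this
    exact (this.resolve_left fun e3 => om_three ω (by push_cast at e3; grind)).symm

theorem two_refl [Finite F] (h : MG H) (h2 : (2 : F) ≠ 0) (NT : ∀ g, H g → (g - 1) * (g - 1) = 0 → g = 1)
    (hu : H (1 + (ω - 1) • vecMulVec u a)) (hv : H (1 + (ω - 1) • vecMulVec v b)) (h1 : a ⬝ᵥ u = 1) (h3 : b ⬝ᵥ v = 1)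
    {μ : F} (hμ : μ = 3 * (a ⬝ᵥ v * b ⬝ᵥ u)) : vecMulVec v b = vecMulVec u a ∨ (a ⬝ᵥ v = 0 ∧ b ⬝ᵥ u = 0) ∨ μ = 1 ∨ μ = 2 ∨
      (μ ^ 2 - 3 * μ + 1 = 0 ∧ (5 : F) ≠ 0) := by
  by_cases e : a ⬝ᵥ v * b ⬝ᵥ u = 1
  · have e' : vecMulVec ((b ⬝ᵥ u) • v) ((a ⬝ᵥ v) • b) = vecMulVec v b := by
      ext i j; simp only [vecMulVec_apply, Pi.smul_apply, smul_eq_mul]; linear_combination v i * b j * e
    exact .inl (e' ▸ two_refl_aux h NT hu (e' ▸ hv) h1 (by simp [h3]; grind) (by simp; grind) (by simpa))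
  let U : Matrix n (Fin 2) F := of fun i => ![u i, v i]
  let Φ : Matrix (Fin 2) n F := of ![a, b]
  have a1 : Φ * U = !![1, a ⬝ᵥ v; b ⬝ᵥ u, 1] := by
    ext i j; fin_cases i <;> fin_cases j <;> simp [U, Φ, mul_apply] <;> first | exact h1 | exact h3 | rfl
  obtain ⟨Γ, a2⟩ : ∃ Γ : Matrix (Fin 2) (Fin 2) F, Γ * (Φ * U) = 1 := ((isUnit_iff_isUnit_det _).mpr (by
    rw [a1, det_fin_two_of]; exact (sub_ne_zero.mpr (by simpa [eq_comm] using e)).isUnit)).exists_left_inv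
  have a3 := mul_eq_one_comm.mp a2
  let ρ : Matrix (Fin 2) (Fin 2) F → Matrix n n F := fun g => 1 + U * (g - 1) * Γ * Φ
  have a4 : ∀ X Y : Matrix (Fin 2) (Fin 2) F, U * X * Γ * Φ * (U * Y * Γ * Φ) = U * (X * Y) * Γ * Φ := fun X Y => by
    calc _ = U * X * (Γ * (Φ * U)) * Y * Γ * Φ := by simp only [Matrix.mul_assoc]
      _ = _ := by simp [a2, Matrix.mul_assoc]
  have a5 : ∀ g k, ρ g * ρ k = ρ (g * k) := fun g k => by
    simp only [ρ]
    rw [show g * k - 1 = (k - 1) + ((g - 1) + (g - 1) * (k - 1)) by noncomm_ring, add_mul, mul_add, mul_add, a4]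
    simp only [Matrix.mul_add, Matrix.add_mul, Matrix.mul_one, Matrix.one_mul, add_assoc]
  have a6 : ρ 1 = 1 := by simp [ρ]
  have a7 : ∀ X : Matrix (Fin 2) (Fin 2) F, ρ (1 + X * (Φ * U)) = 1 + U * X * Φ := fun X => by
    simp only [ρ, add_sub_cancel_left, Matrix.mul_assoc, ← Matrix.mul_assoc Γ]
    rw [← Matrix.mul_assoc U Γ, ← Matrix.mul_assoc Φ, ← Matrix.mul_assoc Φ, a3, Matrix.one_mul]
  refine .inr (hμ ▸ dick2 (ω := ω) (K := fun g => IsUnit g ∧ H (ρ g)) ⟨⟨isUnit_one, a6 ▸ h.one⟩, fun b1 b2 =>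
    ⟨b1.1.mul b2.1, a5 _ _ ▸ h.mul b1.2 b2.2⟩, fun {g} b1 => ?_⟩ h2 (fun g b1 b2 => ?_) ⟨?_, ?_⟩ ⟨?_, ?_⟩)
  · obtain ⟨k, hk⟩ := b1.1.exists_right_inv
    exact ⟨k, ⟨.of_mul_eq_one_right _ hk, h.inv' b1.2 (by rw [a5, hk, a6])⟩, hk⟩
  · have := NT _ b1.2 (by simp [ρ, a4, b2])
    replace this := congrArg (fun X => Γ * Φ * (X - 1) * U) this
    simp only [ρ, add_sub_cancel_left, sub_self, Matrix.mul_zero, Matrix.zero_mul, Matrix.mul_assoc, a2] at this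
    rwa [← Matrix.mul_assoc Φ, ← Matrix.mul_assoc Γ, a2, Matrix.mul_one, Matrix.one_mul, sub_eq_zero] at this
  · exact (isUnit_iff_isUnit_det _).mpr (by simpa using om_ne_zero ω)
  · convert hu using 1
    convert a7 !![ω - 1, 0; 0, 0] using 2
    · rw [a1]; ext i j; fin_cases i <;> fin_cases j <;> simp
    · ext i j; simp [U, Φ, mul_apply, vecMulVec_apply]; ring
  · exact (isUnit_iff_isUnit_det _).mpr (by simpa using om_ne_zero ω)
  · convert hv using 1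
    convert a7 !![0, 0; 0, ω - 1] using 2
    · rw [a1]; ext i j; fin_cases i <;> fin_cases j <;> simp
    · ext i j; simp [U, Φ, mul_apply, vecMulVec_apply]; ring

end

end Cfsg.Agent.H12.T3
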