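import Mathlib
import Cfsg.Agent.H12.T3C

/-!
Overgroups of the Hessian group without transvections.
-/

set_option autoImplicit false
set_option linter.unusedSectionVars false

namespace Cfsg.Agent.H12.T3

open Matrix

variable {F : Type*} [Field F] {ω : F}

/-- vectors indexed by `Z3` -/
def v3 (a b c : F) : Z3 → F := fun j => if j = 0 then a else if j = 1 then b else c

@[simp] theorem v3_0 (a b c : F) : v3 a b c 0 = a := rfl
@[simp] theorem v3_1 (a b c : F) : v3 a b c 1 = b := rfl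
@[simp] theorem v3_2 (a b c : F) : v3 a b c 2 = c := rfl

theorem dot_z3 (f g : Z3 → F) : f ⬝ᵥ g = f 0 * g 0 + f 1 * g 1 + f 2 * g 2 := sum_z3 _

/-- the four directions -/
def xs : Option Z3 → Z3 × Z3
  | none => (0, 1)
  | some c => (1, c)

/-- the twelve states -/
def su (ω : F) : Option Z3 → Z3 → Z3 → F
  | none, i => Pi.single i 1
  | some c, i => v3 1 (ch ω c ^ 2 * ch ω i ^ 2) (ch ω c ^ 2 * ch ω i)

/-- the dual states -/
def sa (ω : F) : Option Z3 → Z3 → Z3 → F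
  | none, i => Pi.single i 1
  | some c, i => (3 : F)⁻¹ • v3 1 (ch ω c * ch ω i) (ch ω c * ch ω i ^ 2)

theorem xs_ne (y : Option Z3) : xs y ≠ 0 := by revert y; decide

theorem xs_inj {y y' : Option Z3} (h : Bf Z3 (xs y) (xs y') = 0) : y = y' := by rw [Bf3] at h; revert y y'; decide

variable [Om3 ω]

theorem ch_neg (a : Z3) : ch ω (-a) = ch ω a ^ 2 := by rw [← add_self_z3, ch_add, pow_two]

theorem ch_two_mul (a : Z3) : ch ω (2 * a) = ch ω a ^ 2 := by rw [two_mul, ch_add, pow_two]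

theorem pj_xs (y : Option Z3) (i : Z3) : pj ω (xs y) i = vecMulVec (su ω y i) (sa ω y i) := by
  have h := om_eq ω
  have h3 := om_three ω
  ext j k
  rcases y with _ | c
  · simp only [pj, W, xs, su, sa, vecMulVec_apply, Matrix.smul_apply, Matrix.add_apply, mo_apply, one_apply,
      Pi.single_apply, Prod.neg_mk, dot3, neg_zero, add_zero, mul_zero, one_mul, smul_eq_mul]
    by_cases e : j = k
    · simp only [e, if_true, ← ch_add]
      rw [show i + -1 * k = -(-i + k) by ring, ch_sum]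
      by_cases e' : k = i
      · simp [e', h3]
      · simp [e', neg_add_eq_zero, Ne.symm e']
    · by_cases e1 : k = i
      · simp [e, ← e1]
      · simp [e, e1]
  have := ch_cube ω c
  have := ch_cube ω i
  rcases z3c j with rfl | rfl | rfl <;> rcases z3c k with rfl | rfl | rfl <;>
    simp +decide [pj, W, xs, su, sa, vecMulVec_apply, mo_apply, one_apply, ch_add, ch_neg, ch_two_mul, mul_comm c 2, h3] <;>
    grind

theorem sa_su (y : Option Z3) (i : Z3) : sa ω y i ⬝ᵥ su ω y i = 1 := by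
  rw [dotProduct_comm, ← trace_vecMulVec, ← pj_xs, trace_pj ω i (xs_ne y)]
  simpa using inv_mul_cancel₀ (om_three ω)

omit [Om3 ω] in
theorem triple (h2 : (2 : F) ≠ 0) (h3 : (3 : F) ≠ 0) {α β : Z3 → F} (s : ∑ i, 3 * (α i * β i) = 3)
    (H : ∀ i, (α i = 0 ∧ β i = 0) ∨ 3 * (α i * β i) = 1 ∨ 3 * (α i * β i) = 2 ∨
      ((3 * (α i * β i)) ^ 2 - 3 * (3 * (α i * β i)) + 1 = 0 ∧ (5 : F) ≠ 0)) {Q : F} (hQ : Q = ∑ i, (3 * (α i * β i)) ^ 2) :
    (α 0 * α 1 * α 2 ≠ 0 ∧ Q = 3) ∨ (α 0 * α 1 * α 2 = 0 ∧ (Q = 5 ∨ (Q = 7 ∧ (5 : F) ≠ 0))) := by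
  have H' : ∀ i, ∃ μ, 3 * (α i * β i) = μ ∧ ((α i = 0 ∧ μ = 0) ∨ (α i ≠ 0 ∧ (μ = 1 ∨ μ = 2 ∨
      (μ ^ 2 - 3 * μ + 1 = 0 ∧ (5 : F) ≠ 0)))) := fun i => ⟨_, rfl, by
    by_cases e : α i = 0
    · exact .inl ⟨e, by simp [e]⟩
    · exact .inr ⟨e, (H i).resolve_left fun e' => e e'.1⟩⟩
  obtain ⟨μ0, a0, b0⟩ := H' 0
  obtain ⟨μ1, a1, b1⟩ := H' 1
  obtain ⟨μ2, a2, b2⟩ := H' 2
  rw [sum_z3, a0, a1, a2] at s hQ
  have c0 := H 0
  have c1 := H 1
  have c2 := H 2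
  rw [a0] at c0; rw [a1] at c1; rw [a2] at c2
  clear H H' a0 a1 a2
  rcases b0 with ⟨b0, rfl⟩ | ⟨b0, rfl | rfl | ⟨d0, _⟩⟩ <;> rcases b1 with ⟨b1, rfl⟩ | ⟨b1, rfl | rfl | ⟨d1, _⟩⟩ <;>
    rcases b2 with ⟨b2, rfl⟩ | ⟨b2, rfl | rfl | ⟨d2, _⟩⟩ <;> simp only [ne_eq, mul_eq_zero, *] <;> grind

theorem no_refl (h2 : (2 : F) ≠ 0) {v b : Z3 → F} (hb : b ⬝ᵥ v = 1)
    (H : ∀ y i, (sa ω y i ⬝ᵥ v = 0 ∧ b ⬝ᵥ su ω y i = 0) ∨ 3 * (sa ω y i ⬝ᵥ v * b ⬝ᵥ su ω y i) = 1 ∨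
      3 * (sa ω y i ⬝ᵥ v * b ⬝ᵥ su ω y i) = 2 ∨ ((3 * (sa ω y i ⬝ᵥ v * b ⬝ᵥ su ω y i)) ^ 2 -
        3 * (3 * (sa ω y i ⬝ᵥ v * b ⬝ᵥ su ω y i)) + 1 = 0 ∧ (5 : F) ≠ 0)) : False := by
  have h := om_eq ω
  have h3 := om_three ω
  have a1 : ∀ y, ∑ i, 3 * (sa ω y i ⬝ᵥ v * b ⬝ᵥ su ω y i) = 3 := fun y => by
    have := congrArg (fun X => b ⬝ᵥ X *ᵥ v) (fn_one ω (xs y))
    simp only [fn, one_smul, pj_xs, sum_mulVec, dotProduct_sum, vecMulVec_mulVec, one_mulVec, hb] at this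
    rw [← Finset.mul_sum, show ∑ i, _ = (1 : F) from Eq.trans (by simp) this, mul_one]
  have t := fun y => triple h2 h3 (a1 y) (H y) rfl
  have m : ∀ c i, 3 * (sa ω (some c) i ⬝ᵥ v * b ⬝ᵥ su ω (some c) i) = (v 0 + ch ω c * ch ω i * v 1 +
      ch ω c * ch ω i ^ 2 * v 2) * (b 0 + b 1 * (ch ω c ^ 2 * ch ω i ^ 2) + b 2 * (ch ω c ^ 2 * ch ω i)) := fun c i => by
    simp [sa, su, dot_z3]; field_simp
  have a2 : ∑ i, (3 * (sa ω none i ⬝ᵥ v * b ⬝ᵥ su ω none i)) ^ 2 + ∑ i, (3 * (sa ω (some 0) i ⬝ᵥ v * b ⬝ᵥ su ω (some 0) i)) ^ 2 +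
      ∑ i, (3 * (sa ω (some 1) i ⬝ᵥ v * b ⬝ᵥ su ω (some 1) i)) ^ 2 +
      ∑ i, (3 * (sa ω (some 2) i ⬝ᵥ v * b ⬝ᵥ su ω (some 2) i)) ^ 2 = 18 := by
    rw [dot_z3] at hb
    have q : ∀ c, ∑ i, (3 * (sa ω (some c) i ⬝ᵥ v * b ⬝ᵥ su ω (some c) i)) ^ 2 = 3 * (1 + 2 * ((ch ω c * v 1 * b 0 +
        v 2 * b 1 + ch ω c ^ 2 * v 0 * b 2) * (ch ω c * v 2 * b 0 + ch ω c ^ 2 * v 0 * b 1 + v 1 * b 2))) := fun c => by
      have m' : ∀ i, 3 * (sa ω (some c) i ⬝ᵥ v * b ⬝ᵥ su ω (some c) i) = 1 + ch ω i * (ch ω c * v 1 * b 0 +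
        v 2 * b 1 + ch ω c ^ 2 * v 0 * b 2) + ch ω i ^ 2 * (ch ω c * v 2 * b 0 + ch ω c ^ 2 * v 0 * b 1 + v 1 * b 2) :=
        fun i => by have := ch_cube ω c; have := ch_cube ω i; rw [m]; grind
      simp only [m', sum_z3, ch_zero, ch_one, ch_two]
      generalize ch ω c * v 1 * b 0 + v 2 * b 1 + ch ω c ^ 2 * v 0 * b 2 = B
      generalize ch ω c * v 2 * b 0 + ch ω c ^ 2 * v 0 * b 1 + v 1 * b 2 = C
      clear * - h; grind
    simp only [q, ch_zero, ch_one, ch_two]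
    simp only [sa, su, single_dotProduct, dotProduct_single, sum_z3]
    clear * - h hb; grind
  have a3 : ∀ c, sa ω (some c) 0 ⬝ᵥ v * sa ω (some c) 1 ⬝ᵥ v * sa ω (some c) 2 ⬝ᵥ v = 0 ↔
      v 0 ^ 3 + v 1 ^ 3 + v 2 ^ 3 = 3 * ch ω c ^ 2 * (v 0 * v 1 * v 2) := fun c => by
    have := ch_cube ω c
    rw [← mul_right_inj' (pow_ne_zero 3 h3), mul_zero, ← sub_eq_zero (a := _ + _)]
    refine Eq.congr_left ?_
    simp [sa, dot_z3]; field_simp; grind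
  have t0 := t none
  have t1 := t (some 0)
  have t2 := t (some 1)
  have t3 := t (some 2)
  simp only [ne_eq, a3, ch_zero, ch_one, ch_two] at t1 t2 t3
  generalize ∑ i, (3 * (sa ω _ i ⬝ᵥ v * b ⬝ᵥ su ω _ i)) ^ 2 = Q0 at t0 a2
  generalize ∑ i, (3 * (sa ω (some 0) i ⬝ᵥ v * b ⬝ᵥ su ω _ i)) ^ 2 = Q1 at t1 a2
  generalize ∑ i, (3 * (sa ω (some 1) i ⬝ᵥ v * b ⬝ᵥ su ω _ i)) ^ 2 = Q2 at t2 a2
  generalize ∑ i, (3 * (sa ω (some 2) i ⬝ᵥ v * b ⬝ᵥ su ω _ i)) ^ 2 = Q3 at t3 a2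
  simp only [sa, single_dotProduct, one_mul] at t0
  generalize v 0 * v 1 * v 2 = T at *
  generalize v 0 ^ 3 + v 1 ^ 3 + v 2 ^ 3 = S at *
  clear H a1 t m a3 hb
  have h4 : (4 : F) ≠ 0 := by convert mul_ne_zero h2 h2 using 1; norm_num
  have h6 : (6 : F) ≠ 0 := by convert mul_ne_zero h2 h3 using 1; norm_num
  have h8 : (8 : F) ≠ 0 := by convert mul_ne_zero h2 h4 using 1; norm_num
  by_cases hT : T = 0
  · by_cases hS : S = 0 <;> simp only [hT, hS, ne_eq, mul_zero, not_true, not_false_iff, false_and, true_and, false_or,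
      or_false] at t0 t1 t2 t3
    · rcases t0 with rfl | ⟨rfl, t0⟩ <;> rcases t1 with rfl | ⟨rfl, t1⟩ <;> rcases t2 with rfl | ⟨rfl, t2⟩ <;>
        rcases t3 with rfl | ⟨rfl, t3⟩ <;>
      first
      | exact h2 (by linear_combination a2) | exact h4 (by linear_combination a2) | exact h6 (by linear_combination a2)
      | exact h8 (by linear_combination a2) | exact mul_ne_zero h2 t0 (by linear_combination a2)
    · subst t1 t2 t3
      rcases t0 with rfl | ⟨rfl, t0⟩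
      exacts [h4 (by linear_combination -a2), h2 (by linear_combination -a2)]
  have e0 := mul_ne_zero h3 hT
  have e1 := mul_ne_zero e0 (sub_ne_zero.mpr (om_sq_ne_one ω))
  have e2 := mul_ne_zero e0 (sub_ne_zero.mpr (om_ne_one ω))
  have e3 := mul_ne_zero e0 (sub_ne_zero.mpr (om_sq_ne ω))
  obtain rfl := (t0.resolve_right fun e => hT e.1).2
  rcases t1 with ⟨t1, rfl⟩ | ⟨t1, u1⟩ <;> rcases t2 with ⟨t2, rfl⟩ | ⟨t2, u2⟩ <;> rcases t3 with ⟨t3, rfl⟩ | ⟨t3, u3⟩ <;>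
  first
  | exact h6 (by linear_combination -a2)
  | exact e1 (by linear_combination t1 - t2)
  | exact e2 (by linear_combination t1 - t3 - 3 * T * ω * (ω - 1) * h)
  | exact e3 (by linear_combination t3 - t2 + 3 * T * ω * (ω - 1) * h)
  | (casesm* _ ∨ _, _ ∧ _ <;> subst_vars <;>
      first | exact h4 (by linear_combination -a2) | exact h2 (by linear_combination -a2))

section
variable {A : Type} [AddCommGroup A] [Module Z3 A] [Fintype A] [DecidableEq A] [Dt A] {x y : A × A} {i j : Z3}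

theorem pj_ne (hx : x ≠ 0) : pj ω x i ≠ 0 := fun e => by
  have := trace_pj ω i hx
  rw [e, trace_zero, eq_comm, mul_eq_zero] at this
  exact this.elim (inv_ne_zero (om_three ω)) (card_ne ω)

theorem pj_W (x : A × A) (i : Z3) : pj ω x i * W ω x = ch ω i • pj ω x i := by rw [← W_pj, W_pj_comm]; simp

theorem pj_orth (hx : x ≠ 0) (h : pj ω x i * pj ω y j = 0) : Bf A x y = 0 := by
  by_contra H
  have a1 : ∀ j, pj ω x i * pj ω y j = 0 → pj ω x i * pj ω y (j - Bf A x y) = 0 := fun j h => by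
    apply (W_unit ω x).mul_right_cancel
    rw [Matrix.mul_assoc, ← W_pj_comm, ← Matrix.mul_assoc, pj_W, smul_mul_assoc, h]; simp
  have a2 : ∀ l, pj ω x i * pj ω y l = 0 := fun l => by
    rcases (by decide : ∀ s l j : Z3, s ≠ 0 → l = j ∨ l = j - s ∨ l = j - s - s) _ l j H with rfl | rfl | rfl
    exacts [h, a1 _ h, a1 _ (a1 _ h)]
  refine pj_ne (ω := ω) (i := i) hx ?_
  rw [← Matrix.mul_one (pj ω x i), ← fn_one ω y, fn, Finset.mul_sum]; simp [a2]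

end

variable {H : Matrix Z3 Z3 F → Prop} {g k : Matrix Z3 Z3 F}

/-- all reflections of order three in the group are among the twelve standard ones -/
def Tw (ω : F) (H : Matrix Z3 Z3 F → Prop) : Prop :=
  ∀ v b, b ⬝ᵥ v = 1 → H (1 + (ω - 1) • vecMulVec v b) → ∃ y i, vecMulVec v b = pj ω (xs y) i

theorem tw_of_nt [Finite F] (h : MG H) (hN : ∀ g, Nm ω g → H g) (h2 : (2 : F) ≠ 0)
    (NT : ∀ g, H g → (g - 1) * (g - 1) = 0 → g = 1) : Tw ω H := fun v b hb hv => by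
  by_contra! e
  exact no_refl (ω := ω) h2 hb fun y i => (two_refl h h2 NT (by rw [← pj_xs, ← hm_eq]; exact hN _ (nm_hm ω _ _)) hv
    (sa_su y i) hb rfl).resolve_left (pj_xs (ω := ω) y i ▸ e y i)

theorem Tw.nm (T : Tw ω H) (h : MG H) (hN : ∀ g, Nm ω g → H g) (hg : H g) : Nm ω g := by
  obtain ⟨k, h1, h2, h3⟩ := h.inv2 hg
  suffices ∀ y, Rz ω (g * W ω (xs y) * k) from nm3_of_gen h2 (this (some 0)) (this none)
  intro y
  have a1 : ∀ i, ∃ y' j, g * pj ω (xs y) i * k = pj ω (xs y') j := fun i => by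
    have e : g * pj ω (xs y) i * k = vecMulVec (g *ᵥ su ω y i) (sa ω y i ᵥ* k) := by
      rw [pj_xs, mul_vecMulVec, vecMulVec_mul]
    refine e ▸ T _ _ (by rw [← dotProduct_mulVec, mulVec_mulVec, h3, one_mulVec, sa_su]) ?_
    convert h.mul (h.mul hg (hN _ (nm_hm ω (xs y) i))) h1 using 1
    simp [← e, hm_eq, mul_add, add_mul, h2]
  choose y' j a1 using a1
  have a2 : ∀ i l, i ≠ l → pj ω (xs (y' i)) (j i) * pj ω (xs (y' l)) (j l) = 0 := fun i l e => by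
    rw [← a1, ← a1]
    simp [Matrix.mul_assoc, ← Matrix.mul_assoc k, h3, ← Matrix.mul_assoc (pj ω _ _), pj_mul, e]
  have a3 : ∀ i, y' i = y' 0 := fun i => by
    by_cases e : i = 0
    · rw [e]
    · exact xs_inj (pj_orth (xs_ne _) (a2 i 0 e))
  have a4 : Function.Injective j := fun i l e => by
    by_contra e'
    exact pj_ne (xs_ne _) (by simpa [a3 i, a3 l, e, pj_mul] using a2 i l e')
  obtain ⟨ε, s, e⟩ := (by decide : ∀ j : Z3 → Z3, Function.Injective j → ∃ ε s, ∀ i, i = s + ε * j i) j a4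
  refine ⟨ε • xs (y' 0), ch ω s, ch_ne ω s, ?_⟩
  rw [← one_smul Z3 (xs y), ← fn_ch, ← fn_ch, smul_fn, fn, fn, Finset.mul_sum, Finset.sum_mul]
  exact Fintype.sum_bijective j (Finite.injective_iff_bijective.mp a4) _ _ fun i => by
    rw [mul_smul_comm, smul_mul_assoc, a1, a3, ← ch_add, ← e i, one_mul]

end Cfsg.Agent.H12.T3
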