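import Mathlib
import Cfsg.Agent.H11.Syl
import Cfsg.Agent.H1.Generation

/-!
Two abstract group-theoretic lemmas.
-/

set_option autoImplicit false

namespace Cfsg.Agent.H12.T3

open Subgroup H11

variable {G : Type*} [Group G] [Finite G] {M N E J A : Subgroup G} {t z h : G}

theorem dih_normal (hNM : N ≤ M) (tN : t ∈ N) (t2 : t * t = 1) (hC : ∀ g ∈ M, g * t = t * g → g ∈ N)
    (hI : ∀ s ∈ N, s * s = 1 → s = 1 ∨ (∀ e ∈ E, s * e * s⁻¹ = e⁻¹) ∨ ∃ n ∈ N, s = n * t * n⁻¹)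
    (hD : ∀ g ∈ M, ¬ ∀ e ∈ E, g * t * g⁻¹ * e * (g * t * g⁻¹)⁻¹ = e⁻¹) (zN : z ∈ N) (z2 : z * z = 1) (z1 : z ≠ 1)
    (zI : ∀ e ∈ E, z * e * z⁻¹ = e⁻¹) (hE : ∀ s ∈ N, (∀ e ∈ E, s * e * s⁻¹ = e) → s ∈ E) (e3 : ∀ e ∈ E, e ^ 3 = 1)
    {g : G} (hg : g ∈ M) {e : G} (he : e ∈ E) (EN : E ≤ N) : g * e * g⁻¹ ∈ E := by
  have ti : t⁻¹ = t := inv_eq_of_mul_eq_one_right t2
  have a0 : ∀ g ∈ M, g * z * g⁻¹ ∈ N → ∀ e ∈ E, g * z * g⁻¹ * e * (g * z * g⁻¹)⁻¹ = e⁻¹ := fun g hg H => by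
    rcases hI _ H (by rw [conj_mul, z2]; simp) with H | H | ⟨n, hn, H⟩
    · exact absurd (by simpa using H) z1
    · exact H
    · exact absurd (by rwa [show g⁻¹ * n * t * (g⁻¹ * n)⁻¹ = z by
        rw [show z = g⁻¹ * (g * z * g⁻¹) * g by group, H]; group]) (hD _ (mul_mem (inv_mem hg) (hNM hn)))
  have a1 : ∀ s ∈ N, ∀ s' ∈ N, (∀ e ∈ E, s * e * s⁻¹ = e⁻¹) → (∀ e ∈ E, s' * e * s'⁻¹ = e⁻¹) → s * s' ∈ E :=
    fun s hs s' hs' H H' => hE _ (mul_mem hs hs') fun e he => by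
      rw [show s * s' * e * (s * s')⁻¹ = s * (s' * e * s'⁻¹) * s⁻¹ by group, H' e he, H _ (inv_mem he), inv_inv]
  have a2 : ∀ u ∈ M, t * u * t = u⁻¹ → u * u ∈ N → u ∈ N := fun u hu H H' => by
    have b1 : u * t * u⁻¹ = u * u * t := by rw [← H, ← mul_assoc, ← mul_assoc, mul_assoc u t t, t2, mul_one]
    rcases hI _ (b1 ▸ mul_mem H' tN : u * t * u⁻¹ ∈ N) (by rw [conj_mul, t2]; simp) with b2 | b2 | ⟨n, hn, b2⟩
    · exact hC u hu (by simp [show t = 1 by simpa using b2])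
    · exact absurd b2 (hD u hu)
    · simpa using mul_mem hn (hC (n⁻¹ * u) (mul_mem (inv_mem (hNM hn)) hu) (by
        rw [show n⁻¹ * u * t = n⁻¹ * (u * t * u⁻¹) * u by group, b2]; group))
  have a3 : ∀ g ∈ M, g * z * g⁻¹ ∈ N := fun g hg => by
    have y2 : g * z * g⁻¹ * (g * z * g⁻¹) = 1 := by rw [conj_mul, z2]; simp
    have yM : g * z * g⁻¹ ∈ M := mul_mem (mul_mem hg (hNM zN)) (inv_mem hg)
    obtain ⟨k, m, y', -, -, b3, b4, j, b5⟩ := exists_conj_two_part t2 y2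
    set y := g * z * g⁻¹ with hy
    have rM : t * y ∈ M := mul_mem (hNM tN) yM
    have c0 : t * (t * y) * t = (t * y)⁻¹ := by
      rw [← mul_assoc, t2, one_mul, mul_inv_rev, ti, inv_eq_of_mul_eq_one_right y2]
    have c1 : ∀ n : ℕ, t * (t * y) ^ n * t = ((t * y) ^ n)⁻¹ := fun n => by
      have := conj_pow (i := n) (a := t) (b := t * y)
      rw [ti] at this
      rw [← this, c0, inv_pow]
    have c2 : ∀ i ≤ k, (t * y') ^ 2 ^ (k - i) ∈ N := fun i => by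
      induction i with
      | zero => intro; rw [Nat.sub_zero, ← b4, pow_orderOf_eq_one]; exact one_mem _
      | succ i ih =>
        intro hi
        refine a2 _ (pow_mem (b3 ▸ pow_mem rM _) _) (by rw [b3, ← pow_mul, c1]) ?_
        rw [← pow_two, ← pow_mul, ← pow_succ, show k - (i + 1) + 1 = k - i by omega]
        exact ih (by omega)
    have c3 : y' ∈ N := by simpa [← mul_assoc, t2] using mul_mem tN (c2 k le_rfl)
    have c4 : y' = ((t * y) ^ j)⁻¹ * g * z * (((t * y) ^ j)⁻¹ * g)⁻¹ := by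
      rw [show ((t * y) ^ j)⁻¹ * g * z * (((t * y) ^ j)⁻¹ * g)⁻¹ = ((t * y) ^ j)⁻¹ * (g * z * g⁻¹) * (t * y) ^ j by group,
        ← hy, eq_comm, mul_assoc, inv_mul_eq_iff_eq_mul, ← eq_mul_inv_iff_mul_eq, b5]
    have c5 := a0 _ (mul_mem (inv_mem (pow_mem rM j)) hg) (c4 ▸ c3)
    rw [← c4] at c5
    rcases k with _ | k
    · obtain rfl : y' = t := by rw [← ti, eq_inv_iff_mul_eq_one, ← mul_eq_one_comm, ← orderOf_eq_one_iff, b4]; rfl
      exact absurd (by simpa using c5) (hD 1 (one_mem _))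
    obtain ⟨s, hs⟩ : ∃ s, s = (t * y') ^ 2 ^ k := ⟨_, rfl⟩
    have s1 : s ∈ N := by simpa [hs] using c2 1 (by omega)
    have s2 : s * s = 1 := by rw [hs, ← pow_two, ← pow_mul, ← pow_succ, ← b4, pow_orderOf_eq_one]
    have s3 : Commute s (t * y) := by rw [hs, b3, ← pow_mul]; exact Commute.pow_self _ _
    have s4 : Commute s t := by
      have := c1 (m * 2 ^ k)
      rw [pow_mul, ← b3, ← hs, inv_eq_of_mul_eq_one_right s2] at this
      calc s * t = t * s * t * t := by rw [this]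
        _ = t * s := by rw [mul_assoc, t2, mul_one]
    have s5 : Commute s y := by simpa [← mul_assoc, t2] using s4.mul_right s3
    rcases hI s s1 s2 with d | d | ⟨n, hn, d⟩
    · have := orderOf_dvd_of_pow_eq_one (hs.symm.trans d)
      rw [b4, Nat.pow_dvd_pow_iff_le_right (by omega)] at this
      omega
    · have d1 : Commute s y' := by simpa only [← mul_assoc, t2, one_mul] using s4.mul_right (show Commute s (t * y') from b3 ▸ s3.pow_right m)
      have d2 := e3 _ (a1 s s1 y' c3 d c5)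
      have d3 : y' * y' = 1 := by rw [c4, conj_mul, z2]; simp
      rw [d1.mul_pow, pow_three, pow_three, s2, d3, mul_one, mul_one] at d2
      rw [← b5, eq_inv_of_mul_eq_one_right d2, inv_eq_of_mul_eq_one_right s2, ← (s3.pow_right j).eq, mul_inv_cancel_right]
      exact s1
    · have := hC (n⁻¹ * y * n) (mul_mem (mul_mem (inv_mem (hNM hn)) yM) (hNM hn)) (by
        rw [show t = n⁻¹ * s * n by rw [d]; group, show n⁻¹ * y * n * (n⁻¹ * s * n) = n⁻¹ * (y * s) * n by group,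
          ← s5.eq]; group)
      simpa [mul_assoc] using mul_mem (mul_mem hn this) (inv_mem hn)
  have a4 := mul_mem hg (hNM (EN he))
  convert a1 _ (a3 g hg) _ (a3 _ a4) (a0 g hg (a3 g hg)) (a0 _ a4 (a3 _ a4)) using 1
  rw [show g * z * g⁻¹ * (g * e * z * (g * e)⁻¹) = g * (z * e * z⁻¹ * (z * z) * e⁻¹) * g⁻¹ by group, zI e he, z2,
    mul_one, ← mul_inv_rev, inv_eq_of_mul_eq_one_right (show e * e * e = 1 by rw [← e3 e he, pow_three'])]

theorem burn (hC : ∀ e ∈ E, e ≠ 1 → ∀ g ∈ M, g * e = e * g → g ∈ N)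
    (hcl : ∀ e ∈ E, ∀ g ∈ M, g * e * g⁻¹ ∈ N → g * e * g⁻¹ ∈ E) (hn : ∀ g ∈ M, (∀ e ∈ E, g * e * g⁻¹ ∈ E) → g ∈ N)
    (Ec : ∀ e ∈ E, ∀ f ∈ E, e * f = f * e) (EN : E ≤ N) (NM : N ≤ M) (JM : J ≤ M) (AE : A ≤ E) (hA : ¬ IsCyclic A)
    (A3 : IsPGroup 3 A) (AJ : A ≤ normalizer (J : Set G)) (hJ : h ∈ J) (hN : h ∈ N) (h3 : h ^ 3 = 1)
    (Ah : ∀ a ∈ A, a * h = h * a) (I1 : ∀ k ∈ J, k * h * k⁻¹ = h⁻¹ → h = 1)
    (H2 : ∀ q ∈ J, q ∈ N → q * h = h * q → q * q ∈ zpowers h) : J ≤ N := by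
  have : Fact (Nat.Prime 3) := ⟨by norm_num⟩
  have z3 : IsPGroup 3 (zpowers h) := by
    rintro ⟨_, n, rfl⟩
    refine ⟨1, Subtype.ext ?_⟩
    show (h ^ n) ^ 3 ^ 1 = 1
    rw [pow_one, ← zpow_natCast, ← zpow_mul, mul_comm, zpow_mul, zpow_natCast, h3, one_zpow]
  have a0 : ∀ k ∈ J, k ∈ normalizer (zpowers h : Set G) → k * h = h * k := fun k hk H => by
    obtain ⟨n, hn⟩ := conj_mem_of_mem_normalizer H (mem_zpowers h)
    have e : h ^ n = h ^ (n % 3) := by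
      conv_lhs => rw [← Int.emod_add_mul_ediv n 3, zpow_add, zpow_mul, zpow_ofNat, h3, one_zpow, mul_one]
    simp only [e] at hn
    rcases (by omega : n % 3 = 0 ∨ n % 3 = 1 ∨ n % 3 = 2) with e' | e' | e' <;> rw [e'] at hn
    · simp [show h = 1 by simpa using hn.symm]
    · exact mul_inv_eq_iff_eq_mul.mp (by simpa using hn.symm)
    · simp [I1 k hk (hn.symm.trans (eq_inv_of_mul_eq_one_left (by rw [← h3, zpow_ofNat, ← pow_succ])))]
  obtain ⟨⟨a, ha⟩, a1⟩ := ne_bot_iff_exists_ne_one.mp (show A ≠ ⊥ by rintro rfl; exact hA inferInstance)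
  replace a1 : a ≠ 1 := fun e => a1 (Subtype.ext e)
  obtain ⟨P, p1, p2⟩ := exists_isSylIn_le (H := A ⊔ J) (A3.to_sup_of_normal_right' z3 fun a ha =>
    centralizer_le_normalizer _ (by
      rintro _ ⟨n, rfl⟩; exact (Commute.zpow_left (Ah a ha).symm n).eq))
    (sup_le_sup_left (zpowers_le.mpr hJ) _)
  have pM := p1.le.trans (sup_le (AE.trans (EN.trans NM)) JM)
  have p3 : P ≤ N := by
    by_contra e
    obtain ⟨d, d1, d2, d3⟩ := exists_mem_normalizer_of_lt p1.pg (inf_lt_left.mpr e)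
    have d4 := hcl a (AE ha) d (pM d1) (conj_mem_of_mem_normalizer d3 ⟨p2 (mem_sup_left ha), EN (AE ha)⟩).2
    exact d2 ⟨d1, hn d (pM d1) fun f hf => hcl f hf d (pM d1) (hC _ d4 (by simpa using a1) _
      (mul_mem (mul_mem (pM d1) (NM (EN hf))) (inv_mem (pM d1))) (by rw [conj_mul, conj_mul, Ec f hf a (AE ha)]))⟩
  have p4 := p1.inf_of_normalized le_sup_right (sup_le AJ le_normalizer)
  have p5 : zpowers h = P ⊓ J := by
    by_contra e
    obtain ⟨d, d1, d2, d3⟩ := exists_mem_normalizer_of_lt p4.pg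
      (lt_of_le_of_ne (le_inf (le_sup_right.trans p2) (zpowers_le.mpr hJ)) e)
    obtain ⟨k, hk⟩ := p4.pg ⟨d, d1⟩
    obtain ⟨m, hm⟩ : Odd (3 ^ k) := Odd.pow (by decide)
    replace hk : d ^ (2 * m + 1) = 1 := by rw [← hm]; exact congrArg Subtype.val hk
    rw [pow_succ, pow_mul, pow_two] at hk
    exact d2 (eq_inv_of_mul_eq_one_right hk ▸ inv_mem (pow_mem (H2 d d1.2 (p3 d1.1) (a0 d d1.2 d3)) m))
  obtain ⟨S, hS⟩ := (p5 ▸ p4).exists_sylow
  have mS : ∀ x : J, x ∈ (S : Subgroup J) ↔ x.1 ∈ zpowers h := fun x => by rw [hS, mem_subgroupOf]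
  have hP : normalizer (S : Set J) ≤ centralizer (S : Set J) := fun k hk => by
    have := a0 k k.2 (mem_normalizer_of_forall fun x hx => (mS _).mp
      (conj_mem_of_mem_normalizer (H := (S : Subgroup J)) hk ((mS ⟨x, zpowers_le.mpr hJ hx⟩).mpr hx)))
    rintro ⟨x, hx⟩ h1
    obtain ⟨n, rfl⟩ := (mS _).mp h1
    exact Subtype.ext (Commute.zpow_left this.symm n).eq
  have k1 := MonoidHom.not_dvd_card_ker_transferSylow S hP
  have : IsMulCommutative A := ⟨⟨fun a b => Subtype.ext (Ec _ (AE a.2) _ (AE b.2))⟩⟩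
  have k2 : (MonoidHom.transferSylow S hP).ker.map J.subtype ≤ N := by
    refine H1.le_of_forall_centralizer_singleton_le hA (fun a ha => mem_normalizer_of_forall ?_) ?_
      fun a ha a1 x hx => hC a (AE ha) a1 x (JM (map_subtype_le _ hx.1)) (mem_centralizer_singleton_iff.mp hx.2)
    · rintro _ ⟨x, hx, rfl⟩
      refine ⟨⟨_, conj_mem_of_mem_normalizer (AJ ha) x.2⟩, ?_, rfl⟩
      obtain ⟨k, hk⟩ := S.2 (MonoidHom.transferSylow S hP ⟨_, conj_mem_of_mem_normalizer (AJ ha) x.2⟩)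
      refine (pow_eq_one_iff_of_coprime (((Nat.Prime.coprime_iff_not_dvd Fact.out).mpr k1).pow_left k)).mp ⟨hk, ?_⟩
      rw [← map_pow, show _ ^ _ = (1 : J) from Subtype.ext ?_, map_one]
      have := congrArg (fun y => y.1.1) (pow_card_eq_one' (x := (⟨x, hx⟩ : (MonoidHom.transferSylow S hP).ker)))
      simp only [Subgroup.coe_pow, OneMemClass.coe_one] at this ⊢
      rw [conj_pow, this]; simp
    · obtain ⟨k, hk⟩ := A3.exists_card_eq
      rw [hk, card_map_subtype]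
      exact ((Nat.Prime.coprime_iff_not_dvd Fact.out).mpr k1).pow_left k
  intro j hj
  obtain ⟨⟨x, y⟩, e, -⟩ := (MonoidHom.ker_transferSylow_isComplement' S hP).existsUnique ⟨j, hj⟩
  rw [← show (x.1 * y.1 : J).1 = j from congrArg Subtype.val e]
  exact mul_mem (k2 ⟨x, x.2, rfl⟩) (zpowers_le.mpr hN ((mS _).mp y.2))

end Cfsg.Agent.H12.T3
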