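import Mathlib
import Cfsg.Agent.H12.T3D
import Cfsg.Agent.H12.MaxT

/-!
Weak closure of the Weyl group and block diagonal matrices.
-/

set_option autoImplicit false
set_option linter.unusedSectionVars false

namespace Cfsg.Agent.H12.T3

open Matrix Dt Module
open scoped Kronecker

variable {F : Type*} [Field F] {ω : F} [Om3 ω]

section
variable {A : Type} [AddCommGroup A] [Module Z3 A] [Fintype A] [DecidableEq A] [Dt A] {g k y : Matrix A A F}
  {φ : A × A → A × A} {x b e : A × A} {P : Matrix A A F → Prop} {c : F}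

theorem diag_cube {d : A → F} (h : Nm ω (mo id d)) (j : A) : d j ^ 3 = d 0 ^ 3 := by
  obtain ⟨hu, φ, h⟩ := h
  obtain ⟨c, hc⟩ := h (j, 0)
  obtain ⟨s, rfl⟩ := act_cube hu hc
  have d0 : d j ≠ 0 := fun e => by
    obtain ⟨k, hk⟩ := hu.exists_left_inv
    simpa [mul_mo, e] using congrArg (· j j) hk
  have := congrArg (· j 0) hc
  simp only [W, mo_mul, smul_mo, mo_apply, id, zero_add, if_true, map_zero, LinearMap.zero_apply, mul_zero, add_zero,
    ch_zero, mul_one] at this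
  split_ifs at this
  · rw [this, mul_pow, mul_pow, ch_cube, ch_cube, one_mul, one_mul]
  · exact absurd this d0

theorem exists_sep {U : Submodule Z3 (A × A)} (ha : x ∉ U) : ∃ b, Bf A b x = 1 ∧ ∀ w ∈ U, Bf A b w = 0 := by
  obtain ⟨φ, h1, h2⟩ := exists_dual_one ha
  have := Module.Finite.of_finite (R := Z3) (M := A × A)
  obtain ⟨b, rfl⟩ := (LinearMap.injective_iff_surjective_of_finrank_eq_finrank (f := Bf A)
    Subspace.dual_finrank_eq.symm).mp ((injective_iff_map_eq_zero _).mpr fun a ha => Bf_nd fun b => by simp [ha]) φ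
  exact ⟨b, h1, h2⟩

theorem exists_anti (hy : Nm ω y) (ht : y.trace = 0) : ∃ b s, s ≠ 0 ∧ y * W ω b = ch ω s • (W ω b * y) := by
  obtain ⟨φ, h1, h2⟩ := hy.lin
  obtain ⟨a, ha⟩ := exists_tr (ω := ω) (g := y) (by rintro rfl; exact not_isUnit_zero hy.1)
  by_cases H : a ∈ LinearMap.range (LinearMap.id - φ.toLinearMap)
  · obtain ⟨f, rfl⟩ := H
    obtain ⟨c, hc⟩ := h2 (-f)
    have := congrArg (fun X => (W ω f * X).trace) hc
    simp only [mul_smul_comm, ← Matrix.mul_assoc] at this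
    rw [trace_mul_cycle, W_neg_mul, Matrix.one_mul, ht, W_mul, smul_mul_assoc, smul_smul, trace_smul, eq_comm, smul_eq_zero,
      map_neg, ← sub_eq_add_neg] at this
    exact absurd (this.resolve_left (mul_ne_zero (act_ne hy.1 hc) (ch_ne ω _))) ha
  obtain ⟨b, b1, b2⟩ := exists_sep H
  have b3 : φ b = b := sub_eq_zero.mp (Bf_nd fun f => by
    obtain ⟨f, rfl⟩ := φ.surjective f
    have := b2 _ ⟨f, rfl⟩
    simp only [LinearMap.sub_apply, LinearMap.id_apply, map_sub, LinearEquiv.coe_coe] at this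
    simpa [h1] using this)
  obtain ⟨c, hc⟩ := h2 b
  obtain ⟨s, rfl⟩ := act_cube hy.1 hc
  rw [b3] at hc
  refine ⟨b, s, ?_, hc⟩
  rintro rfl
  rw [ch_zero, one_smul] at hc
  have a1 : W ω b * (W ω a * y) * W ω (-b) = ω • (W ω a * y) := by
    rw [← Matrix.mul_assoc, W_comm, b1, ch_one, smul_mul_assoc, smul_mul_assoc, Matrix.mul_assoc (W ω a), ← hc]
    simp [Matrix.mul_assoc, W_mul_neg]
  have := congrArg trace a1
  rw [trace_mul_cycle, ← Matrix.mul_assoc, W_neg_mul, Matrix.one_mul, trace_smul] at this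
  exact om_ne_one ω (mul_right_cancel₀ ha (this.symm.trans (one_mul _).symm))

theorem exists_comm (h4 : 4 ≤ finrank Z3 (A × A)) (hy : Nm ω y) (h3 : y ^ 3 = 1) {s : Z3} (hs : s ≠ 0)
    (hb : y * W ω b = ch ω s • (W ω b * y)) : ∃ e, e ≠ 0 ∧ y * W ω e = W ω e * y := by
  have := Module.Finite.of_finite (R := Z3) (M := A × A)
  obtain ⟨φ, h1, h2⟩ := hy.lin
  have a1 : ∀ e, φ (φ (φ e)) = e := fun e => Act.uniq (φ := fun e => φ (φ (φ e))) (hy.1.mul (hy.1.mul hy.1))
    (h2.mul (h2.mul h2)) (c := 1) (by simp [← pow_three, h3])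
  let ψ := φ.toLinearMap - LinearMap.id
  obtain ⟨e, e1, e2⟩ : ∃ e, ψ e = 0 ∧ e ∉ Z3 ∙ b := by
    by_contra! H
    have b0 : finrank Z3 (LinearMap.ker ψ) ≤ 1 :=
      (Submodule.finrank_mono (t := Z3 ∙ b) H).trans ((finrank_span_le_card _).trans (by simp))
    have b1 : ∀ K : Submodule Z3 (A × A), finrank Z3 K ≤ finrank Z3 (K.map ψ) + 1 := fun K => by
      rw [← (ψ.domRestrict K).finrank_range_add_finrank_ker, LinearMap.range_domRestrict, LinearMap.ker_domRestrict,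
        ← Submodule.finrank_map_subtype_eq, Submodule.map_comap_subtype]
      exact Nat.add_le_add_left ((Submodule.finrank_mono inf_le_right).trans b0) _
    have b2 : (((⊤ : Submodule Z3 (A × A)).map ψ).map ψ).map ψ = ⊥ := eq_bot_iff.mpr (by
      rintro _ ⟨_, ⟨_, ⟨e, -, rfl⟩, rfl⟩, rfl⟩
      simp only [ψ, LinearMap.sub_apply, LinearMap.id_apply, map_sub, LinearEquiv.coe_coe, a1, Submodule.mem_bot]
      calc _ = (1 + 1 + 1 : Z3) • (φ e - φ (φ e)) := by simp only [add_smul, one_smul]; abel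
        _ = 0 := by rw [show (1 + 1 + 1 : Z3) = 0 from rfl, zero_smul])
    have c1 := b1 ⊤
    have c2 := b1 (Submodule.map ψ ⊤)
    have c3 := b1 (Submodule.map ψ (Submodule.map ψ ⊤))
    rw [b2, finrank_bot] at c3
    rw [finrank_top] at c1
    omega
  obtain ⟨c, hc⟩ := h2 e
  obtain ⟨r, rfl⟩ := act_cube hy.1 hc
  rw [show φ e = e from sub_eq_zero.mp e1] at hc
  have a2 : ∀ n : Z3, y * W ω (n • b) = ch ω (n * s) • (W ω (n • b) * y) := fun n => by
    rcases z3c n with rfl | rfl | rfl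
    · simp
    · simpa
    · rw [two_smul, add_self_z3, ← W_sq, ← Matrix.mul_assoc, hb, smul_mul_assoc, Matrix.mul_assoc, hb, mul_smul_comm,
        smul_smul, two_mul, ch_add, Matrix.mul_assoc]
  refine ⟨e + (-(r * s)) • b, fun H => e2 (eq_neg_of_add_eq_zero_left H ▸ neg_mem
    (Submodule.smul_mem _ _ (Submodule.mem_span_singleton_self b))), ?_⟩
  rw [W_add, mul_smul_comm, ← Matrix.mul_assoc, hc, smul_mul_assoc, Matrix.mul_assoc, a2, mul_smul_comm, smul_smul (ch ω r),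
    ← ch_add, (by decide : ∀ r s : Z3, s ≠ 0 → r + -(r * s) * s = 0) r s hs]
  simp [Matrix.mul_assoc]

theorem rz_of_pj (h3 : y * y * y = 1) {s : Z3} (hs : s ≠ 0) (hb : y * W ω b = ch ω s • (W ω b * y))
    (H : Nm ω (1 + (ω - 1) • (3 : F)⁻¹ • (1 + y + y * y))) : Rz ω y := by
  have e := om_eq ω
  have e3 := om_three ω
  have h3' : y * (y * y) = 1 := by rw [← Matrix.mul_assoc, h3]
  have hb' : y * y * W ω b = (ch ω s * ch ω s) • (W ω b * (y * y)) := by
    rw [Matrix.mul_assoc, hb, mul_smul_comm, ← Matrix.mul_assoc, hb, smul_mul_assoc, smul_smul, Matrix.mul_assoc]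
  obtain ⟨k, hk⟩ := H.1.exists_right_inv
  have a1 := mg_rz.mul (rz_W (-b)) (H.conj hk (rz_W b))
  have a2 : ∀ {r : Matrix A A F} {c : F}, (1 + (ω - 1) • (3 : F)⁻¹ • (1 + (ch ω s) • y + (ch ω s * ch ω s) • (y * y))) =
      c • (r * (1 + (ω - 1) • (3 : F)⁻¹ • (1 + y + y * y))) → c ≠ 0 → Rz ω r := fun {r c} h hc => by
    have a3 : W ω (-b) * ((1 + (ω - 1) • (3 : F)⁻¹ • (1 + y + y * y)) * W ω b) =
        1 + (ω - 1) • (3 : F)⁻¹ • (1 + (ch ω s) • y + (ch ω s * ch ω s) • (y * y)) := by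
      simp only [add_mul, smul_mul_assoc, Matrix.one_mul, hb, hb']
      simp only [mul_add, mul_smul_comm, ← Matrix.mul_assoc (W ω (-b)), W_neg_mul, Matrix.one_mul]
    rw [← Matrix.mul_assoc, a3, h, smul_mul_assoc, Matrix.mul_assoc, hk, Matrix.mul_one] at a1
    simpa [smul_smul, hc] using a1.smul (inv_ne_zero hc)
  rcases z3c s with rfl | rfl | rfl
  · exact absurd rfl hs
  · refine a2 (c := ω ^ 2) ?_ (pow_ne_zero _ (om_ne_zero ω))
    simp only [mul_add, mul_smul_comm, Matrix.mul_one, h3', ch_one]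
    match_scalars <;> field_simp <;> grind
  · refine mg_rz.inv' (a2 (r := y * y) (c := ω ^ 2) ?_ (pow_ne_zero _ (om_ne_zero ω))) h3
    simp only [mul_add, mul_smul_comm, Matrix.mul_one, h3, ← Matrix.mul_assoc (y * y), Matrix.one_mul, ch_two]
    match_scalars <;> field_simp <;> grind

theorem rz_of_nm (h4 : 4 ≤ finrank Z3 (A × A)) (h : MG P) (hN : ∀ g, Nm ω g → P g)
    (hC : ∀ x, x ≠ 0 → ∀ g, P g → g * W ω x = W ω x * g → Nm ω g) (hg : P g) (hk : g * k = 1)
    (H : Nm ω (g * W ω x * k)) : Rz ω (g * W ω x * k) := by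
  have hk' := mul_eq_one_comm.mp hk
  by_cases hx : x = 0
  · simpa [hx, hk] using mg_rz.one
  have m : ∀ a b : Matrix A A F, g * a * k * (g * b * k) = g * (a * b) * k := fun a b => by
    simp [Matrix.mul_assoc, ← Matrix.mul_assoc k, hk']
  have a1 : g * W ω x * k * (g * W ω x * k) * (g * W ω x * k) = 1 := by
    rw [m, m, W_sq, W_neg_mul, Matrix.mul_one, hk]
  obtain ⟨b, s, hs, hb⟩ := exists_anti H (by rw [trace_mul_cycle, hk', Matrix.one_mul, trace_W hx])
  obtain ⟨e, e1, e2⟩ := exists_comm h4 H (by rw [pow_three', a1]) hs hb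
  refine rz_of_pj a1 hs hb (hC e e1 _ ?_ ?_)
  · convert h.mul (h.mul hg (hN _ (nm_hm ω x 0))) (h.inv' hg hk) using 1
    simp [hm_eq, pj, m, W_sq, mul_add, add_mul, hk]
  · generalize g * W ω x * k = y at *
    simp [mul_add, add_mul, Matrix.mul_assoc, e2, ← Matrix.mul_assoc y (W ω e)]

theorem nm_of_comm (h : MG P) (hN : ∀ g, Nm ω g → P g) (hb : b ≠ 0)
    (hC : ∀ g, P g → g * W ω b = W ω b * g → Nm ω g) (hx : x ≠ 0) (hg : P g) (H : g * W ω x = c • (W ω x * g)) :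
    Nm ω g := by
  obtain ⟨s, rfl⟩ := act_cube (h.unit hg) H
  obtain ⟨f, hf⟩ : ∃ f, Bf A x f ≠ 0 := by by_contra! H; exact hx (Bf_nd H)
  obtain ⟨n, n1, n2⟩ := exists_nm_map (ω := ω) hb hx
  obtain ⟨m, m1, m2, m3⟩ := mg_nm.inv2 n1
  have a1 : g * W ω ((s * Bf A x f) • f) * W ω x = W ω x * (g * W ω ((s * Bf A x f) • f)) := by
    rw [Matrix.mul_assoc, W_comm, mul_smul_comm, ← Matrix.mul_assoc, H, smul_mul_assoc, smul_smul, ← ch_add,
      Matrix.mul_assoc, map_smul, LinearMap.smul_apply, Bf_skew x f,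
      (by decide : ∀ s t : Z3, t ≠ 0 → (s * t) • -t + s = 0) _ _ hf, ch_zero, one_smul]
  refine mg_nm.of_mul' (nm_W _) (mg_nm.of_mul m1 (mg_nm.of_mul' n1 (hC _ (h.mul (h.mul (hN _ m1)
    (h.mul hg (hN _ (nm_W ((s * Bf A x f) • f))))) (hN _ n1)) ?_)))
  have a2 : W ω b * m = m * W ω x := by
    rw [← Matrix.one_mul (W ω b), ← m3, Matrix.mul_assoc m, n2]; simp [Matrix.mul_assoc, m2]
  rw [Matrix.mul_assoc, n2, ← Matrix.mul_assoc, Matrix.mul_assoc m, a1, ← Matrix.mul_assoc, ← a2]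
  simp only [Matrix.mul_assoc]

theorem nm_mo {f : A → A} {q : A → Z3} (hf : Function.Injective f) (h : ∀ e : A × A, ∃ e' : A × A, ∃ k, ∀ j,
    f (j + e.1) = f j + e'.1 ∧ q (j + e.1) + dot e.2 j = k + dot e'.2 (f j) + q j) :
    Nm ω (mo f fun j => ch ω (q j)) := by
  choose φ k h using h
  exact ⟨mo_unit hf fun j => ch_ne ω _, φ, act_mo φ (fun e j => (h e j).1) fun e => ⟨k e, fun j => (h e j).2⟩⟩

end

/-- block diagonal matrices -/
def bd (a b c : Matrix Z3 Z3 F) : Matrix Z9 Z9 F :=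
  blockDiagonal fun l => if l = 0 then a else if l = 1 then b else c

section
variable (a b c a' b' c' : Matrix Z3 Z3 F)
omit [Om3 ω]

theorem bd_apply (i j : Z9) : bd a b c i j =
    if i.2 = j.2 then (if i.2 = 0 then a else if i.2 = 1 then b else c) i.1 j.1 else 0 := rfl

theorem bd_mul : bd a b c * bd a' b' c' = bd (a * a') (b * b') (c * c') := by
  rw [bd, bd, ← blockDiagonal_mul, bd]; congr; ext1 l; split_ifs <;> rfl

theorem bd_kron : bd a a a = a ⊗ₖ (1 : Matrix Z3 Z3 F) := by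
  ext i j; simp [bd_apply, one_apply]

@[simp] theorem bd_one : bd (1 : Matrix Z3 Z3 F) 1 1 = 1 := by rw [bd_kron, one_kronecker_one]

theorem smul_bd (r : F) : r • bd a b c = bd (r • a) (r • b) (r • c) := by
  ext i j; simp only [bd_apply, Matrix.smul_apply]; split_ifs <;> simp

variable {a b c a' b' c'} in
theorem bd_inj (h : bd a b c = bd a' b' c') : a = a' ∧ b = b' ∧ c = c' :=
  ⟨ext fun i j => congrArg (· (i, 0) (j, 0)) h, ext fun i j => congrArg (· (i, 1) (j, 1)) h,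
    ext fun i j => congrArg (· (i, 2) (j, 2)) h⟩

theorem bd_mo (f g k : Z3 → Z3) (d e r : Z3 → F) : bd (mo f d) (mo g e) (mo k r) =
    mo (fun j => ((if j.2 = 0 then f else if j.2 = 1 then g else k) j.1, j.2))
      fun j => (if j.2 = 0 then d else if j.2 = 1 then e else r) j.1 := by
  ext ⟨i, l⟩ ⟨j, m⟩
  simp only [bd_apply, mo_apply, Prod.ext_iff]
  by_cases h : l = m
  · subst h; split_ifs <;> simp_all [mo_apply]
  · simp [h]

end

theorem one_mo {A : Type*} [Fintype A] [DecidableEq A] : (1 : Matrix A A F) = mo id fun _ => 1 :=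
  (mo_one (fun _ => rfl) fun _ => rfl).symm

theorem W_cb0 (u : Z3 × Z3) : W ω (cb u 0) = bd (W ω u) (W ω u) (W ω u) := by rw [W_cb, W_zero, bd_kron]

theorem Nm.bd {n : Matrix Z3 Z3 F} (h : Nm ω n) : Nm ω (bd n n n) := by rw [bd_kron]; exact h.kron mg_nm.one

/-- the distinguished Weyl index -/
def y0 : Z9 × Z9 := ((0, 0), (0, 1))

theorem W_y0 : W ω y0 = mo id fun j => ch ω j.2 := mo_congr (by simp [y0]) (by simp [y0])

theorem exists_bd {g : Matrix Z9 Z9 F} (h : g * W ω y0 = W ω y0 * g) : ∃ a b c, g = bd a b c := by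
  refine ⟨of fun i j => g (i, 0) (j, 0), of fun i j => g (i, 1) (j, 1), of fun i j => g (i, 2) (j, 2), ?_⟩
  ext ⟨i, l⟩ ⟨j, m⟩
  by_cases e : l = m
  · subst e; rcases z3c l with rfl | rfl | rfl <;> rfl
  have := congrArg (· (id (i, l)) (j, m)) h
  simp only [W_y0] at this
  rw [mul_mo, mo_mul_apply Function.injective_id] at this
  rw [bd_apply, if_neg e]
  by_contra H
  exact e (ch_inj ω (mul_left_cancel₀ H (this.trans (mul_comm _ _)))).symm

theorem bd_shift (a b c : Matrix Z3 Z3 F) : W ω (cb 0 (-1, 0)) * bd a b c * W ω (cb 0 (1, 0)) = bd b c a := by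
  ext ⟨i, l⟩ ⟨j, m⟩
  obtain ⟨l, rfl⟩ := (Equiv.addRight (-1 : Z3)).surjective l
  have := mo_mul_apply (F := F) (add_left_injective ((0, -1) : Z9)) (fun _ => 1) (bd a b c) (i, l) (j, m + 1)
  rw [W, W, mul_mo]
  simp only [cb, Prod.mk_add_mk, add_zero, dot9, Prod.fst_zero, Prod.snd_zero, zero_mul, mul_zero, ch_zero, mul_one,
    Equiv.coe_addRight] at this ⊢
  rw [this, one_mul]
  rcases z3c l with rfl | rfl | rfl <;> rcases z3c m with rfl | rfl | rfl <;> rfl

theorem nm_ctl (w : Z3 × Z3) : Nm ω (bd 1 (W ω w) (W ω (-w))) := by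
  rw [← W_zero ω, W, W, W, bd_mo]
  convert nm_mo (ω := ω) (f := fun j : Z9 => (j.1 + j.2 * w.1, j.2)) (q := fun j => j.2 * w.2 * j.1 + 2 * j.2 ^ 2 * w.2 * w.1)
    (fun i j h => by simp only [Prod.ext_iff] at h ⊢; exact ⟨by linear_combination h.1 - w.1 * h.2, h.2⟩)
    (fun e => ⟨((e.1.1 + e.1.2 * w.1, e.1.2), (e.2.1 + e.1.2 * w.2, w.2 * e.1.1 + 4 * e.1.2 * w.2 * w.1 + e.2.2 -
      (e.2.1 + e.1.2 * w.2) * w.1)), e.1.2 * w.2 * e.1.1 + 2 * e.1.2 ^ 2 * w.2 * w.1, fun j =>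
      ⟨by simp; ring, by simp; ring⟩⟩) using 1
  refine mo_congr (by revert w; decide) fun j => ?_
  · have : ∀ (p q : Prop) [Decidable p] [Decidable q] (a b c : Z3 → Z3), (if p then fun i => ch ω (a i) else if q then
        fun i => ch ω (b i) else fun i => ch ω (c i)) j.1 = ch ω ((if p then a else if q then b else c) j.1) := by
      intros; split_ifs <;> rfl
    rw [this]; congr 1; simp only [dot3]; clear this; revert w j; decide

theorem nm_sc (a : Z3 → Z3) : Nm ω (mo id fun j : Z9 => ch ω (a j.2)) :=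
  nm_mo Function.injective_id fun e => by
    obtain ⟨k, m, h⟩ := (by decide : ∀ (a : Z3 → Z3) (v : Z3), ∃ k m, ∀ l, a (l + v) = k + m * l + a l) a e.1.2
    exact ⟨(e.1, (e.2.1, e.2.2 + m)), k, fun j => ⟨rfl, by simp [h]; ring⟩⟩

theorem nm_sc' (r s t : Z3) : Nm ω (bd (ch ω r • 1) (ch ω s • 1) (ch ω t • 1)) := by
  convert nm_sc (ω := ω) fun l => if l = 0 then r else if l = 1 then s else t using 1
  simp only [one_mo, smul_mo, bd_mo]
  exact mo_congr (fun j => by simp) fun j => by split_ifs <;> simp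

theorem nm_swap : Nm ω (mo Prod.swap fun _ : Z9 => (1 : F)) := by
  simpa using nm_mo (ω := ω) (f := Prod.swap) (q := fun _ : Z9 => 0) Prod.swap_injective fun e =>
    ⟨(e.1.swap, e.2.swap), 0, fun j => ⟨rfl, by simp [add_comm]⟩⟩

end Cfsg.Agent.H12.T3
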