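import Mathlib
import Cfsg.Agent.H12.T3F

/-!
The centraliser of a Weyl matrix in an overgroup of the normaliser.
-/

set_option autoImplicit false
set_option linter.unusedSectionVars false

namespace Cfsg.Agent.H12.T3

open Matrix Dt

variable {F : Type*} [Field F] {ω : F} [Om3 ω]

theorem fn_diag {A : Type} [AddCommGroup A] [Module Z3 A] [Fintype A] [DecidableEq A] [Dt A] (c : A) (a : Z3 → F) :
    fn ω (0, c) a = mo id fun j => a (dot c j) := by
  have : ∀ l, pj ω (0, c) l = mo id fun j => if l = dot c j then 1 else 0 := fun l => by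
    ext i j
    simp only [pj, W, Matrix.smul_apply, Matrix.add_apply, mo_apply, one_apply, Prod.neg_mk, neg_zero, add_zero, map_zero,
      mul_zero, smul_eq_mul, id, map_neg, LinearMap.neg_apply]
    split_ifs with e e'
    · simp [← ch_add, e']; field_simp [om_three ω]; norm_num
    · rw [← ch_add, ← ch_add, show l + -dot c j = -(-l + dot c j) by ring, ch_sum, if_neg (by rwa [neg_add_eq_zero])]
      simp
    · simp
  ext i j
  simp only [fn, this, Matrix.sum_apply, Matrix.smul_apply, mo_apply]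
  split_ifs <;> simp

theorem comm_sq : (hm ω ((1, 0) : Z3 × Z3) 0 ^ 2 * hm ω (0, 1) 0 * hm ω (1, 0) 0 * hm ω (0, 1) 0 ^ 2) ^ 2 =
    mo Neg.neg fun _ => -1 := by
  have e := om_eq ω
  have e3 := om_three ω
  have m : ∀ x y z w : Z3 → F, vecMulVec x y * vecMulVec z w = (y ⬝ᵥ z) • vecMulVec x w := fun x y z w => by
    rw [vecMulVec_mul_vecMulVec]; ext; simp
  have h1 := sa_su (ω := ω) (some 0) 0
  have h2 := sa_su (ω := ω) none 0
  have h3 : sa ω (some 0) 0 ⬝ᵥ su ω none 0 = 3⁻¹ := by simp [sa, su]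
  have h4 : sa ω none 0 ⬝ᵥ su ω (some 0) 0 = 1 := by simp [sa, su]
  have a0 : (mo Neg.neg fun _ => -1 : Matrix Z3 Z3 F) = 1 + (-3 : F) • vecMulVec (su ω (some 0) 0) (sa ω (some 0) 0) +
      vecMulVec (su ω (some 0) 0) (sa ω none 0) + (3 : F) • vecMulVec (su ω none 0) (sa ω (some 0) 0) +
      (-3 : F) • vecMulVec (su ω none 0) (sa ω none 0) := by
    ext i j
    rcases z3c i with rfl | rfl | rfl <;> rcases z3c j with rfl | rfl | rfl <;>
      simp +decide [mo_apply, one_apply, vecMulVec_apply, sa, su, e3] <;> norm_num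
  rw [a0, hm_eq, hm_eq, show pj ω ((1, 0) : Z3 × Z3) 0 = _ from pj_xs (some 0) 0,
    show pj ω ((0, 1) : Z3 × Z3) 0 = _ from pj_xs none 0]
  generalize su ω (some 0) 0 = u, sa ω (some 0) 0 = a, su ω none 0 = v, sa ω none 0 = b at *
  have a1 : (1 + (ω - 1) • vecMulVec u a) ^ 2 * (1 + (ω - 1) • vecMulVec v b) * (1 + (ω - 1) • vecMulVec u a) *
      (1 + (ω - 1) • vecMulVec v b) ^ 2 = 1 + (ω - 1) • vecMulVec u a + (-ω) • vecMulVec u b +
        (-3 * ω) • vecMulVec v a + (ω - 1) • vecMulVec v b := by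
    simp only [pow_two, mul_add, add_mul, mul_smul_comm, smul_mul_assoc, Matrix.mul_one, Matrix.one_mul, m, h1, h2, h3, h4]
    match_scalars <;> field_simp <;> grind
  rw [a1]
  simp only [pow_two, mul_add, add_mul, mul_smul_comm, smul_mul_assoc, Matrix.mul_one, Matrix.one_mul, m, h1, h2, h3, h4]
  match_scalars <;> field_simp <;> grind

/-- the involution with three-dimensional commutator space -/
def tt (F : Type*) [Field F] : Matrix Z9 Z9 F := mo (fun j => (j.1, -j.2)) fun _ => 1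

/-- restriction to the commutator space -/
def res (g : Matrix Z9 Z9 F) : Matrix Z3 Z3 F := of fun i j => g (i, 1) (j, 1) - g (i, 1) (j, 2)

/-- quasisimplicity -/
def QS (ω : F) (S : Matrix Z3 Z3 F → Prop) : Prop := ∀ K K' L : Matrix Z3 Z3 F → Prop, MG K → MG K' → MG L →
  (∀ s s' k, S s → s * s' = 1 → K k → K (s * k * s')) → (∀ s s' k, S s → s * s' = 1 → K' k → K' (s * k * s')) →
  K (W ω (1, 0)) → K' (W ω (1, 0)) → (∀ k l k' l', K k → K' l → k * k' = 1 → l * l' = 1 → L (k * l * k' * l')) →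
  ∀ s, S s → L s

/-- the type of the ambient group -/
structure TY (ω : F) (U S : Matrix Z3 Z3 F → Prop) (Λ : F → Prop) : Prop where
  base : ∀ H, MG H → (∀ g, Nm ω g → H g) → (∀ g, H g → U g) →
    (∀ g, H g → Nm ω g) ∨ ((∀ s, S s → H s) ∧ QS ω S ∧ ∃ μ, Λ μ ∧ μ ^ 3 ≠ 1)
  dg : ∀ μ, Λ μ → S (mo id (v3 μ μ⁻¹ 1))
  z : S (mo Neg.neg fun _ => -1)
  two : (2 : F) = 0 → ∀ μ, Λ μ → μ ^ 3 = 1

/-- generators of the monomial group -/
def Full (Λ : F → Prop) (P : Matrix Z9 Z9 F → Prop) : Prop :=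
  (∀ μ, Λ μ → P (bd (mo id (v3 μ μ⁻¹ 1)) 1 1)) ∧ P (bd (mo Neg.neg fun _ => -1) 1 1)

/-- the set-up -/
structure ST (ω : F) (U S : Matrix Z3 Z3 F → Prop) (Λ : F → Prop) (P : Matrix Z9 Z9 F → Prop) : Prop where
  ty : TY ω U S Λ
  mg : MG P
  nm : ∀ g, Nm ω g → P g
  u1 : ∀ a b c, P (bd a b c) → U a
  u2 : ∀ g, P g → g * tt F = tt F * g → U (res g)
  nf : ¬ Full Λ P

variable {U S : Matrix Z3 Z3 F → Prop} {Λ : F → Prop} {P : Matrix Z9 Z9 F → Prop} {a b c k l k' l' : Matrix Z3 Z3 F}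

theorem W_y0' : W ω y0 = bd 1 (ω • 1) (ω ^ 2 • 1) := by
  simp only [W_y0, one_mo, smul_mo, bd_mo]
  exact mo_congr (fun j => by simp) fun ⟨i, l⟩ => by rcases z3c l with rfl | rfl | rfl <;> simp +decide

theorem of_mo {f g : Z9 → Z9} {d e : Z9 → F} (H : P (mo f d)) (h1 : ∀ j, f j = g j) (h2 : ∀ j, d j = e j) :
    P (mo g e) := mo_congr h1 h2 ▸ H

namespace ST
variable (h : ST ω U S Λ P)
include h

theorem shift (H : P (bd a b c)) : P (bd b c a) :=
  bd_shift (ω := ω) a b c ▸ h.mg.mul (h.mg.mul (h.nm _ (nm_W _)) H) (h.nm _ (nm_W _))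

theorem mul {a' b' c' : Matrix Z3 Z3 F} (H : P (bd a b c)) (H' : P (bd a' b' c')) : P (bd (a * a') (b * b') (c * c')) :=
  bd_mul a b c a' b' c' ▸ h.mg.mul H H'

theorem inv (H : P (bd a b c)) : ∃ a' b' c', P (bd a' b' c') ∧ a * a' = 1 ∧ b * b' = 1 ∧ c * c' = 1 := by
  obtain ⟨g, g1, g2, g3⟩ := h.mg.inv2 H
  obtain ⟨a', b', c', rfl⟩ := exists_bd (ω := ω) (g := g) (by
    rw [← Matrix.one_mul (g * _), ← g3, Matrix.mul_assoc, ← Matrix.mul_assoc (bd a b c), g2, Matrix.one_mul,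
      ← Matrix.mul_one (g * _), ← g2, ← Matrix.mul_assoc, Matrix.mul_assoc g,
      show W ω y0 * bd a b c = bd a b c * W ω y0 by simp [W_y0', bd_mul], ← Matrix.mul_assoc, g3, Matrix.one_mul])
  exact ⟨a', b', c', g1, bd_inj (by rw [← bd_mul, g2, bd_one])⟩

theorem one : P (bd 1 1 1) := by simpa using h.mg.one

theorem mgL : MG fun a => P (bd a 1 1) := ⟨h.one, fun H H' => by simpa using h.mul H H', fun H => by
  obtain ⟨a', b', c', h1, h2, h3, h4⟩ := h.inv H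
  simp only [Matrix.one_mul] at h3 h4
  exact ⟨a', by rwa [h3, h4] at h1, h2⟩⟩

theorem comm (H : P (bd k 1 c)) (H' : P (bd l b 1)) (e : k * k' = 1) (e' : l * l' = 1) :
    P (bd (k * l * k' * l') 1 1) := by
  obtain ⟨k', _, c', h1, h2, h3, h4⟩ := h.inv H
  obtain ⟨l', b', _, h5, h6, h7, h8⟩ := h.inv H'
  obtain rfl := (IsUnit.of_mul_eq_one _ e).mul_left_cancel (e.trans h2.symm)
  obtain rfl := (IsUnit.of_mul_eq_one _ e').mul_left_cancel (e'.trans h6.symm)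
  simp only [Matrix.one_mul] at h3 h8
  subst h3 h8
  simpa [h4, h7] using h.mul (h.mul (h.mul H H') h1) h5

theorem blk (H : P (bd a b c)) : Nm ω a := by
  have m : MG fun a => ∃ b c, P (bd a b c) := ⟨⟨_, _, h.one⟩, fun ⟨_, _, H⟩ ⟨_, _, H'⟩ => ⟨_, _, h.mul H H'⟩,
    fun ⟨_, _, H⟩ => let ⟨_, _, _, h1, h2, _⟩ := h.inv H; ⟨_, ⟨_, _, h1⟩, h2⟩⟩
  rcases h.ty.base _ m (fun g hg => ⟨_, _, h.nm _ hg.bd⟩) fun g ⟨_, _, hg⟩ => h.u1 _ _ _ hg with H' | ⟨h1, h2, -⟩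
  · exact H' a ⟨b, c, H⟩
  have cj : ∀ s s', S s → s * s' = 1 → ∃ b c b' c', P (bd s b c) ∧ P (bd s' b' c') ∧ b * b' = 1 ∧ c * c' = 1 :=
    fun s s' hs e => by
      obtain ⟨b, c, H⟩ := h1 s hs
      obtain ⟨_, b', c', h1, h2, h3, h4⟩ := h.inv H
      obtain rfl := (IsUnit.of_mul_eq_one _ e).mul_left_cancel (e.trans h2.symm)
      exact ⟨b, c, b', c', H, h1, h3, h4⟩
  have := h2 (fun a => ∃ c, P (bd a 1 c)) (fun a => ∃ b, P (bd a b 1)) _
    ⟨⟨_, h.one⟩, fun ⟨_, H⟩ ⟨_, H'⟩ => ⟨_, by simpa using h.mul H H'⟩, fun ⟨_, H⟩ => by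
      obtain ⟨a', b', c', h1, h2, h3, -⟩ := h.inv H
      exact ⟨a', ⟨c', by rwa [← Matrix.one_mul b', h3] at h1⟩, h2⟩⟩
    ⟨⟨_, h.one⟩, fun ⟨_, H⟩ ⟨_, H'⟩ => ⟨_, by simpa using h.mul H H'⟩, fun ⟨_, H⟩ => by
      obtain ⟨a', b', c', h1, h2, -, h3⟩ := h.inv H
      exact ⟨a', ⟨b', by rwa [← Matrix.one_mul c', h3] at h1⟩, h2⟩⟩ h.mgL
    (fun s s' k hs e ⟨_, hk⟩ => by
      obtain ⟨b, c, b', c', a1, a2, a3, -⟩ := cj s s' hs e
      exact ⟨_, by simpa [a3] using h.mul (h.mul a1 hk) a2⟩)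
    (fun s s' k hs e ⟨_, hk⟩ => by
      obtain ⟨b, c, b', c', a1, a2, -, a3⟩ := cj s s' hs e
      exact ⟨_, by simpa [a3] using h.mul (h.mul a1 hk) a2⟩)
    ⟨_, by simpa using h.shift (h.shift (h.nm _ (nm_ctl (-(1, 0)))))⟩ ⟨_, h.shift (h.nm _ (nm_ctl (1, 0)))⟩
    fun k l k' l' ⟨_, hk⟩ ⟨_, hl⟩ => h.comm hk hl
  exact absurd ⟨fun μ hμ => this _ (h.ty.dg μ hμ), this _ h.ty.z⟩ h.nf

theorem conj {n : Matrix Z3 Z3 F} (hn : Nm ω n) (H : P (bd a b c)) {a' b' c' : Matrix Z3 Z3 F} (e1 : n * a = a' * n)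
    (e2 : n * b = b' * n) (e3 : n * c = c' * n) : P (bd a' b' c') :=
  h.mg.of_mul' (h.nm _ hn.bd) (by rw [bd_mul, ← e1, ← e2, ← e3]; exact h.mul (h.nm _ hn.bd) H)

theorem swap {f : Z9 → Z9} {d : Z9 → F} (H : P (mo f d)) : P (mo (fun j => (f j.swap).swap) fun j => d j.swap) := by
  simpa [mo_mul] using h.mg.mul (h.mg.mul (h.nm _ nm_swap) H) (h.nm _ nm_swap)

theorem not_bad {v : Z3 × Z3} {s : Z3} (H : P (bd (ch ω s • W ω v) 1 1)) : v = 0 := by
  by_contra hv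
  have a0 : P (bd (W ω v) 1 1) := by
    simpa [smul_smul, mul_comm (ch ω s), ch_neg_mul] using h.mul (h.nm _ (nm_sc' (-s) 0 0)) H
  have a1 : ∀ w, P (bd (W ω w) 1 1) := fun w => by
    by_cases hw : w = 0
    · simpa [hw] using h.mg.one
    obtain ⟨n, n1, n2⟩ := exists_nm_map (ω := ω) hv hw
    exact h.conj n1 a0 n2 (by simp) (by simp)
  have a2 : P (bd 1 (hm ω (0, 1) 0) (hm ω (0, 1) 0 ^ 2)) := by
    have := a1 (0, 1)
    simp only [W, one_mo, bd_mo] at this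
    simp only [hm, pow_two, fn_diag, mo_mul, one_mo, bd_mo]
    refine of_mo (h.swap this) (by decide) fun ⟨i, l⟩ => ?_
    rcases z3c i with rfl | rfl | rfl <;> rcases z3c l with rfl | rfl | rfl <;> simp +decide [pow_two]
  obtain ⟨n, n1, n2⟩ := exists_nm_map (ω := ω) (x := ((0, 1) : Z3 × Z3)) (y := (1, 0)) (by decide) (by decide)
  have n3 : n * hm ω (0, 1) 0 = hm ω (1, 0) 0 * n := by
    simp [hm_eq, mul_add, add_mul, conj_pj (s := 0) n1.1 (by simpa using n2)]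
  have a3 := h.conj n1 a2 (a' := 1) (by simp) n3 (c' := hm ω (1, 0) 0 ^ 2) (by
    rw [pow_two, ← Matrix.mul_assoc, n3, Matrix.mul_assoc, n3, pow_two, Matrix.mul_assoc])
  have a4 := h.mgL.pow (h.comm (h.shift (h.shift a3)) (h.shift a2) (k' := hm ω (1, 0) 0) (l' := hm ω (0, 1) 0 ^ 2)
    (by rw [← pow_succ, hm_cube]) (by rw [← pow_succ', hm_cube])) 2
  rw [comm_sq] at a4
  by_cases h2 : (2 : F) = 0
  · refine h.nf ⟨fun μ hμ => ?_, a4⟩
    obtain ⟨k, rfl⟩ := exists_ch ω (h.ty.two h2 μ hμ)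
    convert h.mul (h.nm _ (nm_sc' k 0 0)) (a1 (0, k)) using 2
    · rw [smul_mul_assoc, Matrix.one_mul, W, smul_mo, inv_eq_of_mul_eq_one_left (ch_neg_mul ω k)]
      refine mo_congr (by simp) fun j => ?_
      rcases z3c j with rfl | rfl | rfl <;> simp [← ch_add, add_self_z3]
      rw [(by decide : ∀ k : Z3, k + k * 2 = 0), ch_zero]
    all_goals simp
  have a4' : P (mo (fun j => if j.2 = 0 then (-j.1, 0) else j) fun j => if j.2 = 0 then -1 else 1) := by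
    simp only [one_mo, bd_mo] at a4
    refine of_mo a4 (by decide) fun ⟨i, l⟩ => ?_
    rcases z3c l with rfl | rfl | rfl <;> simp +decide
  have a5 : P (mo (fun j => if j.1 = 1 then (1, 1 - j.2) else j) fun j => if j.1 = 1 then -1 else 1) := by
    have := h.mg.mul (h.mg.mul (h.nm _ (nm_W ((1, 2), 0))) (h.swap a4')) (h.nm _ (nm_W (-((1, 2), 0))))
    simp only [W, mo_mul] at this
    refine of_mo this (by decide) fun ⟨i, l⟩ => ?_
    rcases z3c i with rfl | rfl | rfl <;> simp +decide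
  have a6 : P (bd (mo id (v3 (-1) 1 1)) 1 (mo id (v3 1 (-1) 1))) := by
    have := h.mg.mul a4' a5
    rw [mo_mul] at this
    have := h.mg.mul (h.mg.mul this this) this
    rw [mo_mul, mo_mul] at this
    simp only [one_mo, bd_mo]
    refine of_mo this (by decide) fun ⟨i, l⟩ => ?_
    rcases z3c i with rfl | rfl | rfl <;> rcases z3c l with rfl | rfl | rfl <;> simp +decide
  have := diag_cube (h.blk a6) 1
  simp only [v3_0, v3_1] at this
  exact h2 (by linear_combination this)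

theorem rz_blk (H : P (bd a 1 c)) : Rz ω a := by
  obtain ⟨a1, φ, a2⟩ := h.blk H
  obtain ⟨a', ha⟩ := a1.exists_right_inv
  refine rz_of_fix a1 (a2.congr fun w => ?_)
  obtain ⟨r, hr⟩ := a2 w
  obtain ⟨s, rfl⟩ := act_cube a1 hr
  have := h.comm H (h.shift (h.nm _ (nm_ctl w))) ha (W_mul_neg ω w)
  rw [hr, smul_mul_assoc, Matrix.mul_assoc _ a, ha, Matrix.mul_one, smul_mul_assoc, W_mul, smul_smul, ← ch_add] at this
  exact add_neg_eq_zero.mp (h.not_bad this)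

theorem rz_blk' (H : P (bd a b 1)) : Rz ω a := by
  obtain ⟨a1, φ, a2⟩ := h.blk H
  obtain ⟨a', ha⟩ := a1.exists_right_inv
  refine rz_of_fix a1 (a2.congr fun w => ?_)
  obtain ⟨r, hr⟩ := a2 w
  obtain ⟨s, rfl⟩ := act_cube a1 hr
  have := h.comm (h.shift (h.shift (h.nm _ (nm_ctl w)))) H (W_neg_mul ω w) ha
  rw [Matrix.mul_assoc _ a, hr, mul_smul_comm, smul_mul_assoc, Matrix.mul_assoc, Matrix.mul_assoc, ha, Matrix.mul_one,
    W_mul, smul_smul, ← ch_add] at this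
  exact (neg_add_eq_zero.mp (h.not_bad this)).symm

theorem cent0 (H : P (bd a b c)) : Nm ω (bd a b c) := by
  obtain ⟨n, n1, n2⟩ := mg_nm.inv (h.blk (h.shift (h.shift H)))
  refine mg_nm.of_mul' n1.bd ?_
  have a1 := h.mul H (h.nm _ n1.bd)
  rw [bd_mul]
  rw [n2] at a1 ⊢
  obtain ⟨u, α, h1, e1⟩ := h.rz_blk' a1
  obtain ⟨v, β, h2, e2⟩ := h.rz_blk (h.shift a1)
  have c1 : Nm ω (bd (W ω v) (W ω (-v)) 1) := by
    rw [← bd_shift (ω := ω)]; exact mg_nm.mul (mg_nm.mul (nm_W _) (nm_ctl v)) (nm_W _)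
  refine mg_nm.of_mul' c1 ?_
  have a2 := h.mul a1 (h.nm _ c1)
  rw [bd_mul]
  simp only [e1, e2, smul_mul_assoc, W_mul, smul_smul, add_neg_cancel, W_zero, Matrix.mul_one] at a2 ⊢
  generalize u + v = w, β * ch ω _ = β' at *
  have h3 : α * ch ω (-Bf Z3 u v) ≠ 0 := mul_ne_zero h1 (ch_ne ω _)
  generalize α * ch ω _ = α' at *
  obtain rfl : w = 0 := by
    by_contra hw
    obtain ⟨x, hx⟩ : ∃ x, Bf Z3 w x ≠ 0 := by by_contra! H; exact hw (Bf_nd H)
    obtain ⟨r, hr⟩ := act_hm ω x 0 w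
    obtain ⟨s, rfl⟩ := act_cube (hm_unit ω x 0) hr
    have a3 := h.conj (nm_hm ω x 0) a2 (a' := α' • ch ω s • W ω (w + Bf Z3 x w • x)) (by simp [hr]) (b' := β' • 1)
      (by simp) (c' := 1) (by simp)
    obtain ⟨a', b', c', d1, d2, d3, d4⟩ := h.inv a2
    have a4 := h.mul a3 d1
    obtain rfl : a' = α'⁻¹ • W ω (-w) := (unit_smul h3 (W_unit ω w)).mul_left_cancel (by
      simp [d2, smul_smul, h3, W_mul_neg])
    rw [d3, d4, smul_mul_smul_comm, mul_inv_cancel₀ h3, one_smul, smul_mul_assoc, W_mul, smul_smul, ← ch_add] at a4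
    have := h.not_bad a4
    rw [add_neg_cancel_comm, smul_eq_zero, Bf_skew, neg_eq_zero] at this
    rcases this with e | rfl
    exacts [hx e, hx (by simp)]
  have a3 : P (bd (mo id (v3 α' β' 1)) (mo id (v3 α' β' 1)) (mo id (v3 α' β' 1))) := by
    simp only [W_zero, one_mo, smul_mo, bd_mo] at a2 ⊢
    refine of_mo (h.swap a2) (by decide) fun ⟨i, l⟩ => ?_
    rcases z3c i with rfl | rfl | rfl <;> simp +decide
  have b1 := diag_cube (h.blk a3) 1
  have b2 := diag_cube (h.blk a3) 2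
  simp only [v3_0, v3_1, v3_2, one_pow] at b1 b2
  obtain ⟨r, rfl⟩ := exists_ch ω b2.symm
  obtain ⟨s, rfl⟩ := exists_ch ω (b1.trans b2.symm)
  simpa using nm_sc' (ω := ω) r s 0

theorem cent {x : Z9 × Z9} (hx : x ≠ 0) {g : Matrix Z9 Z9 F} {r : F} (hg : P g) (H : g * W ω x = r • (W ω x * g)) :
    Nm ω g :=
  nm_of_comm h.mg h.nm (b := y0) (by decide) (fun g hg H => by
    obtain ⟨a, b, c, rfl⟩ := exists_bd H; exact h.cent0 hg) hx hg H

theorem cl {x : Z9 × Z9} {g k : Matrix Z9 Z9 F} (hg : P g) (hk : g * k = 1) (H : Nm ω (g * W ω x * k)) :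
    Rz ω (g * W ω x * k) :=
  rz_of_nm (by simp) h.mg h.nm (fun x hx g hg H => h.cent hx hg (r := 1) (by simpa)) hg hk H

end ST

end Cfsg.Agent.H12.T3
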