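import Mathlib
import Cfsg.Agent.H12.T3E
import Cfsg.Agent.H12.T3G

/-!
The centraliser of an involution in an overgroup of the normaliser.
-/

set_option autoImplicit false
set_option linter.unusedSectionVars false

namespace Cfsg.Agent.H12.T3

open Matrix Dt
open scoped MatrixGroups

variable {F : Type*} [Field F] {ω : F} [Om3 ω]

section
variable {A : Type*} [Fintype A] [DecidableEq A] {g k r : Matrix A A F} {P : Matrix A A F → Prop}

open Classical in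
/-- the image of a matrix in the projective group -/
noncomputable def pg (g : Matrix A A F) : PGL(A, F) := if h : IsUnit g then ProjGenLinGroup.mk h.unit else 1

theorem pg_val (g : GL A F) : pg g.1 = ProjGenLinGroup.mk g := by rw [pg, dif_pos g.isUnit, IsUnit.unit_of_val_units]

theorem pg_mul (hg : IsUnit g) (hk : IsUnit k) : pg g * pg k = pg (g * k) := by
  obtain ⟨g, rfl⟩ := hg
  obtain ⟨k, rfl⟩ := hk
  rw [← Units.val_mul, pg_val, pg_val, pg_val, map_mul]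

theorem pg_one : pg (1 : Matrix A A F) = 1 := pg_val 1

theorem pg_iff (hg : IsUnit g) (hk : IsUnit k) : pg g = pg k ↔ ∃ c : F, c ≠ 0 ∧ g = c • k := by
  obtain ⟨g, rfl⟩ := hg
  obtain ⟨k, rfl⟩ := hk
  rw [pg_val, pg_val, pg_eq]

theorem pg_inv (h : g * k = 1) : (pg g)⁻¹ = pg k :=
  inv_eq_of_mul_eq_one_right (by rw [pg_mul (.of_mul_eq_one _ h) (.of_mul_eq_one_right _ h), h, pg_one])

theorem pg_conj (h : g * k = 1) (hr : IsUnit r) : pg g * pg r * (pg g)⁻¹ = pg (g * r * k) := by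
  rw [pg_inv h, pg_mul (.of_mul_eq_one _ h) hr, pg_mul ((IsUnit.of_mul_eq_one _ h).mul hr) (.of_mul_eq_one_right _ h)]

theorem pg_pow (hg : IsUnit g) (n : ℕ) : pg g ^ n = pg (g ^ n) := by
  obtain ⟨g, rfl⟩ := hg
  rw [← Units.val_pow_eq_pow_val, pg_val, pg_val, map_pow]

theorem pg_comm (hg : IsUnit g) (hk : IsUnit k) : pg g * pg k = pg k * pg g ↔ ∃ c : F, c ≠ 0 ∧ g * k = c • (k * g) := by
  rw [pg_mul hg hk, pg_mul hk hg, pg_iff (hg.mul hk) (hk.mul hg)]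

/-- the image of a group of matrices in the projective group -/
def MG.bar (h : MG P) : Subgroup PGL(A, F) where
  carrier := {x | ∃ g, P g ∧ pg g = x}
  one_mem' := ⟨1, h.one, pg_one⟩
  mul_mem' := by
    rintro _ _ ⟨g, hg, rfl⟩ ⟨k, hk, rfl⟩; exact ⟨_, h.mul hg hk, (pg_mul (h.unit hg) (h.unit hk)).symm⟩
  inv_mem' := by
    rintro _ ⟨g, hg, rfl⟩
    obtain ⟨k, h1, h2⟩ := h.inv hg
    exact ⟨k, h1, (pg_inv h2).symm⟩

theorem MG.of_bar (h : MG P) (hs : ∀ c : F, c ≠ 0 → P (c • 1)) (hg : IsUnit g) (H : pg g ∈ h.bar) : P g := by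
  obtain ⟨k, h1, h2⟩ := H
  obtain ⟨c, hc, rfl⟩ := (pg_iff hg (h.unit h1)).mp h2.symm
  simpa using h.mul (hs c hc) h1

theorem MG.bar_mono {Q : Matrix A A F → Prop} (h : MG P) (h' : MG Q) (H : ∀ g, P g → Q g) : h.bar ≤ h'.bar :=
  fun _ ⟨g, h1, h2⟩ => ⟨g, H g h1, h2⟩

end

section
variable {A : Type} [AddCommGroup A] [Module Z3 A] [Fintype A] [DecidableEq A] [Dt A] {g : Matrix A A F} {c : F}
  {x y : A × A} {i j : Z3}

theorem pg_smul (hc : c ≠ 0) (hg : IsUnit g) : pg (c • g) = pg g := (pg_iff (unit_smul hc hg) hg).mpr ⟨c, hc, rfl⟩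

theorem mem_E {e : PGL(A, F)} : e ∈ (mg_rz (ω := ω)).bar ↔ ∃ x, pg (W ω x) = e := by
  refine ⟨?_, fun ⟨x, h⟩ => ⟨_, rz_W x, h⟩⟩
  rintro ⟨_, ⟨x, c, hc, rfl⟩, rfl⟩
  exact ⟨x, (pg_smul hc (W_unit ω x)).symm⟩

theorem rz_of_bar (hg : IsUnit g) (H : pg g ∈ (mg_rz (ω := ω)).bar) : Rz ω g :=
  mg_rz.of_bar (fun _ hc => mg_rz.one.smul hc) hg H

theorem nm_of_bar (hg : IsUnit g) (H : pg g ∈ (mg_nm (ω := ω)).bar) : Nm ω g :=
  mg_nm.of_bar (fun _ hc => mg_nm.one.smul hc) hg H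

theorem pj_eq (hx : x ≠ 0) (h : pj ω x i = pj ω y j) : (x = y ∧ i = j) ∨ (x = -y ∧ i = -j) := by
  have a0 : ∀ {i j}, pj ω x i = pj ω x j → i = j := fun {i j} h => by
    by_contra e
    exact pj_ne hx (by simpa [e, pj_mul] using congrArg (· * pj ω x j) h.symm)
  by_cases e : x = y
  · exact .inl ⟨e, a0 (by rwa [← e] at h)⟩
  by_cases e' : x = -y
  · exact .inr ⟨e', a0 (by rw [h, e', pj_neg])⟩
  have := congrArg (fun X => (W ω (-x) * X).trace) h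
  simp only [Wn_pj, trace_smul, trace_pj ω i hx] at this
  simp [pj, mul_add, W_mul, trace_W (neg_ne_zero.mpr hx), trace_W (show -x + y ≠ 0 by rwa [ne_eq, neg_add_eq_zero]),
    trace_W (show -x + -y ≠ 0 by rwa [ne_eq, neg_add_eq_zero]), ch_ne, om_three ω, card_ne ω] at this

end

variable {g k : Matrix Z9 Z9 F} {a b c : Matrix Z3 Z3 F}

theorem tt_sq : tt F * tt F = 1 := by rw [tt, mo_mul]; exact mo_one (by simp) (by simp)

theorem tt_unit : IsUnit (tt F) := .of_mul_eq_one _ tt_sq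

/-- the action of the involution -/
def ta (e : Z9 × Z9) : Z9 × Z9 := ((e.1.1, -e.1.2), (e.2.1, -e.2.2))

theorem tt_W (e : Z9 × Z9) : tt F * W ω e = W ω (ta e) * tt F := by
  simp only [tt, W, mo_mul]
  exact mo_congr (fun j => by simp [ta, add_comm]) fun j => by simp [ta]

theorem act_tt : Act ω (tt F) ta := fun e => ⟨1, by simp [tt_W]⟩

theorem nm_tt : Nm ω (tt F) := ⟨tt_unit, _, act_tt⟩

theorem comm_tt : g * tt F = tt F * g ↔ ∀ i j : Z9, g i (j.1, -j.2) = g (i.1, -i.2) j := by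
  have : ∀ i j : Z9, (tt F * g) i j = g (i.1, -i.2) j := fun i j => by
    simpa [tt] using mo_mul_apply (F := F) (f := fun j : Z9 => (j.1, -j.2)) (by decide) (fun _ => 1) g (i.1, -i.2) j
  simp only [← Matrix.ext_iff, this]
  simp [tt, mul_mo]

theorem res_mul (h : k * tt F = tt F * k) : res (g * k) = res g * res k := by
  ext i j
  have a0 := fun m => comm_tt.mp h (m, 0) (j, 1)
  have a1 := fun m => comm_tt.mp h (m, 1) (j, 1)
  have a2 := fun m => comm_tt.mp h (m, 2) (j, 1)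
  simp only [show (-1 : Z3) = 2 from rfl, show (-2 : Z3) = 1 from rfl, neg_zero] at a0 a1 a2
  simp only [res, of_apply, mul_apply, Fintype.sum_prod_type, ← Finset.sum_sub_distrib]
  exact Finset.sum_congr rfl fun m _ => by simp only [sum_z3, a0, a1, a2]; ring

theorem res_bd : res (bd a b c) = b := by ext i j; simp +decide [res, bd_apply]

theorem res_one : res (1 : Matrix Z9 Z9 F) = 1 := by rw [← bd_one, res_bd]

theorem res_smul (r : F) : res (r • g) = r • res g := by ext; simp [res, mul_sub]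

theorem bd_tt : bd a b b * tt F = tt F * bd a b b := comm_tt.mpr fun ⟨i, l⟩ ⟨j, m⟩ => by
  rcases z3c l with rfl | rfl | rfl <;> rcases z3c m with rfl | rfl | rfl <;> simp +decide [bd_apply]

theorem comm_mul {M : Type*} [Monoid M] {g k t : M} (h : g * t = t * g) (h' : k * t = t * k) : g * k * t = t * (g * k) :=
  (Commute.mul_left h h').eq

theorem comm_inv {M : Type*} [Monoid M] {g k t : M} (h : g * t = t * g) (e : g * k = 1) (e' : k * g = 1) :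
    k * t = t * k := by
  rw [← mul_one (k * t), ← e, ← mul_assoc, mul_assoc k, ← h, ← mul_assoc, e', one_mul]

theorem cb_of_comm {e : Z9 × Z9} {r : F} (hr : r ≠ 0) (h : r • W ω e * tt F = tt F * r • W ω e) : ∃ u, e = cb u 0 := by
  rw [mul_smul_comm, tt_W, smul_mul_assoc] at h
  exact (by decide : ∀ e, e = ta e → ∃ u, e = cb u 0) e (act_uniq tt_unit hr h).1

theorem res_act (hg : Nm ω g) (h : g * tt F = tt F * g) (u : Z3 × Z3) : ∃ u', ∃ r : F,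
    g * W ω (cb u 0) = r • (W ω (cb u' 0) * g) ∧ res g * W ω u = r • (W ω u' * res g) := by
  obtain ⟨k, -, k1, k2⟩ := mg_nm.inv2 hg
  obtain ⟨e, r, hr, he⟩ := hg.conj k1 (rz_W (cb u 0))
  obtain ⟨u', rfl⟩ := cb_of_comm hr (he ▸ comm_mul (comm_mul h (by rw [W_cb0, bd_tt])) (comm_inv h k1 k2))
  have : g * W ω (cb u 0) = r • (W ω (cb u' 0) * g) := by
    rw [← smul_mul_assoc, ← he, Matrix.mul_assoc, k2, Matrix.mul_one]
  refine ⟨u', r, this, ?_⟩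
  simpa [W_cb0, res_mul bd_tt, res_mul h, res_smul, res_bd] using congrArg res this

theorem res_inv (h : g * tt F = tt F * g) (e : g * k = 1) : res g * res k = 1 := by
  rw [← res_mul (comm_inv h e (mul_eq_one_comm.mp e)), e, res_one]

theorem Nm.res (hg : Nm ω g) (h : g * tt F = tt F * g) : Nm ω (res g) := by
  obtain ⟨k, -, k1⟩ := mg_nm.inv hg
  choose φ r _ h2 using res_act hg h
  exact ⟨.of_mul_eq_one _ (res_inv h k1), φ, fun u => ⟨r u, h2 u⟩⟩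

theorem hm_y0 : hm ω y0 0 = bd (ω • 1) 1 1 := by
  rw [hm, show y0 = (0, (0, 1)) from rfl, fn_diag]
  simp only [one_mo, smul_mo, bd_mo]
  exact mo_congr (by simp) fun ⟨i, l⟩ => by rcases z3c l with rfl | rfl | rfl <;> simp +decide

theorem sq_mem (hq : Nm ω g) (h : g * tt F = tt F * g) {d : F} (hd : res g = d • 1) (H : g * hm ω y0 0 = hm ω y0 0 * g) :
    ∃ (n : ℕ) (r : F), r ≠ 0 ∧ g * g = r • hm ω y0 0 ^ n := by
  obtain ⟨φ, -, h2⟩ := hq.lin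
  obtain ⟨s, hs⟩ := h2 y0
  obtain ⟨s, rfl⟩ := act_cube hq.1 hs
  have a1 : g * pj ω y0 0 = pj ω y0 0 * g := by
    simpa [hm_eq, mul_add, add_mul, smul_right_inj (sub_ne_zero.mpr (om_ne_one ω))] using H
  have a2 : g * g * W ω y0 = W ω y0 * (g * g) := by
    rcases pj_eq (by decide) (hq.1.mul_right_cancel (a1.symm.trans (conj_pj hq.1 hs 0))) with ⟨e, e'⟩ | ⟨e, e'⟩
    · rw [← e, show s = 0 by simpa using e', ch_zero, one_smul] at hs
      exact comm_mul hs hs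
    · rw [neg_eq_iff_eq_neg.mpr e |>.symm, show s = 0 by simpa using e'.symm, ch_zero, one_smul] at hs
      rw [Matrix.mul_assoc, hs, ← W_sq, ← Matrix.mul_assoc, ← Matrix.mul_assoc, hs, Matrix.mul_assoc _ g, hs, ← Matrix.mul_assoc,
        W_sq, neg_neg, Matrix.mul_assoc]
  obtain ⟨a, b, c, e⟩ := exists_bd a2
  obtain ⟨k, -, k1⟩ := mg_nm.inv hq
  have d0 : d ≠ 0 := by rintro rfl; simpa [hd] using res_inv h k1
  have a3 : ∀ u, a * W ω u = W ω u * a ∧ b * W ω u = W ω u * b ∧ c * W ω u = W ω u * c := fun u => by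
    obtain ⟨u', r, b1, b2⟩ := res_act hq h u
    rw [hd, smul_mul_assoc, mul_smul_comm, smul_smul, Matrix.one_mul, Matrix.mul_one] at b2
    obtain ⟨rfl, b3⟩ := W_uniq d0 b2
    rw [← mul_right_cancel₀ d0 ((one_mul _).trans b3), one_smul] at b1
    exact bd_inj (by rw [← bd_mul, ← bd_mul, ← e, ← W_cb0]; exact comm_mul b1 b1)
  rw [scalar_of_comm fun u => (a3 u).1, scalar_of_comm fun u => (a3 u).2.1, scalar_of_comm fun u => (a3 u).2.2] at e
  have a4 : c 0 0 = b 0 0 := by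
    have := comm_tt.mp (e ▸ comm_mul h h) (0, 2) (0, 1)
    simp +decide [bd_apply] at this
    exact this
  generalize a 0 0 = α, b 0 0 = β, c 0 0 = γ at *
  subst a4
  have a5 : bd (α • 1) (γ • 1) (γ • 1) = mo id fun j : Z9 => if j.2 = 0 then α else γ := by
    simp only [one_mo, smul_mo, bd_mo]
    exact mo_congr (by simp) fun ⟨i, l⟩ => by rcases z3c l with rfl | rfl | rfl <;> simp +decide
  have a6 := diag_cube (a5 ▸ e ▸ mg_nm.mul hq hq) (0, 1)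
  have c0 : γ ≠ 0 := by
    rintro rfl
    have := congrArg res e
    simp [res_mul h, res_bd, hd, d0] at this
  obtain ⟨s, hs⟩ := exists_ch ω (c := α / γ) (by simp at a6; rw [div_pow, ← a6, div_self (pow_ne_zero _ c0)])
  refine ⟨s.val, γ, c0, ?_⟩
  have : ∀ n : ℕ, bd (F := F) (ω • 1) 1 1 ^ n = bd (ω ^ n • 1) 1 1 := fun n => by
    induction n with
    | zero => simp
    | succ n ih => simp [pow_succ, ih, bd_mul, smul_smul, mul_comm]
  rw [e, hm_y0, this, smul_bd, smul_smul, show ω ^ s.val = α / γ from hs.symm, mul_div_cancel₀ _ c0]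

variable {U S : Matrix Z3 Z3 F → Prop} {Λ : F → Prop} {P : Matrix Z9 Z9 F → Prop}

namespace ST
variable (h : ST ω U S Λ P)
include h

theorem barC : ∀ e ∈ (mg_rz (ω := ω)).bar, e ≠ 1 → ∀ g ∈ h.mg.bar, g * e = e * g → g ∈ (mg_nm (ω := ω)).bar := by
  rintro e he h1 _ ⟨g, hg, rfl⟩ H
  obtain ⟨x, rfl⟩ := mem_E.mp he
  obtain ⟨r, -, hr⟩ := (pg_comm (h.mg.unit hg) (W_unit ω x)).mp H
  exact ⟨g, h.cent (by rintro rfl; exact h1 (by simp [pg_one])) hg hr, rfl⟩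

theorem nm_of_J [Finite F] (hg : P g) (h1 : g * tt F = tt F * g) {d : F} (h2 : res g = d • 1) : Nm ω g := by
  have mJ : MG fun g => P g ∧ g * tt F = tt F * g ∧ ∃ d : F, res g = d • 1 := by
    refine ⟨⟨h.mg.one, by simp, 1, by simp [res_one]⟩, fun ⟨a1, a2, d, a3⟩ ⟨b1, b2, e, b3⟩ =>
      ⟨h.mg.mul a1 b1, comm_mul a2 b2, e * d, by simp [res_mul b2, a3, b3, smul_smul]⟩, fun ⟨a1, a2, d, a3⟩ => ?_⟩
    obtain ⟨k, k1, k2, k3⟩ := h.mg.inv2 a1
    have := res_inv a2 k2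
    rw [a3, smul_mul_assoc, Matrix.one_mul] at this
    exact ⟨k, ⟨k1, comm_inv a2 k2 k3, d⁻¹, (eq_inv_smul_iff₀ (by rintro rfl; simp at this)).mpr this⟩, k2⟩
  have mA : MG fun g : Matrix Z9 Z9 F => ∃ u, ∃ r : F, r ≠ 0 ∧ g = r • W ω (cb u 0) := by
    refine ⟨⟨0, 1, one_ne_zero, by simp [cb_zero]⟩, ?_, ?_⟩
    · rintro _ _ ⟨u, r, hr, rfl⟩ ⟨v, s, hs, rfl⟩
      exact ⟨u + v, _, mul_ne_zero (mul_ne_zero hr hs) (ch_ne ω _), by
        rw [smul_mul_smul_comm, W_mul, smul_smul, cb_add, add_zero]⟩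
    · rintro _ ⟨u, r, hr, rfl⟩
      exact ⟨_, ⟨-u, _, inv_ne_zero hr, rfl⟩, by simp [W_cb0, bd_mul, W_mul_neg, smul_smul, hr]⟩
  have eA : ∀ {a}, a ∈ mA.bar → ∃ u, pg (W ω (cb u 0)) = a := by
    rintro _ ⟨_, ⟨u, r, hr, rfl⟩, rfl⟩; exact ⟨u, (pg_smul hr (W_unit ω _)).symm⟩
  have hu := hm_unit ω y0 0
  have r1 : res (hm ω y0 0) = 1 := by rw [hm_y0, res_bd]
  have r2 : hm ω y0 0 * tt F = tt F * hm ω y0 0 := by rw [hm_y0, bd_tt]
  refine nm_of_bar (h.mg.unit hg) (burn (M := h.mg.bar) (E := (mg_rz (ω := ω)).bar) (J := mJ.bar) (A := mA.bar)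
    (h := pg (hm ω y0 0)) h.barC ?_ ?_ ?_ (mg_rz.bar_mono _ fun _ => Rz.nm) (mg_nm.bar_mono _ h.nm)
    (mJ.bar_mono _ fun _ H => H.1) (mA.bar_mono _ fun _ ⟨u, H⟩ => ⟨_, H⟩) ?_ ?_ ?_
    ⟨_, ⟨h.nm _ (nm_hm ω _ _), r2, 1, by simp [r1]⟩, rfl⟩ ⟨_, nm_hm ω _ _, rfl⟩ (by rw [pg_pow hu, hm_cube, pg_one])
    ?_ ?_ ?_ ⟨g, ⟨hg, h1, d, h2⟩, rfl⟩)
  · rintro e he _ ⟨g, hg, rfl⟩ H
    obtain ⟨x, rfl⟩ := mem_E.mp he
    obtain ⟨k, k1, k2⟩ := h.mg.inv hg
    rw [pg_conj k2 (W_unit ω x)] at H ⊢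
    exact ⟨_, h.cl hg k2 (nm_of_bar (((h.mg.unit hg).mul (W_unit ω x)).mul (h.mg.unit k1)) H), rfl⟩
  · rintro _ ⟨g, hg, rfl⟩ H
    obtain ⟨k, k1, k2⟩ := h.mg.inv hg
    exact ⟨g, nm_of_rz k2 fun x => rz_of_bar (((h.mg.unit hg).mul (W_unit ω x)).mul (h.mg.unit k1))
      (pg_conj k2 (W_unit ω x) ▸ H _ (mem_E.mpr ⟨x, rfl⟩)), rfl⟩
  · intro e he f hf
    obtain ⟨x, rfl⟩ := mem_E.mp he
    obtain ⟨y, rfl⟩ := mem_E.mp hf
    exact (pg_comm (W_unit ω x) (W_unit ω y)).mpr ⟨_, ch_ne ω _, W_comm ω x y⟩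
  · rintro ⟨⟨a, ha⟩, H⟩
    obtain ⟨u, rfl⟩ := eA ha
    have a1 : ∀ v, ∃ n : Z3, v = n • u := fun v => by
      obtain ⟨n, hn⟩ := ((mem_powers_iff_mem_zpowers).mpr (H ⟨_, _, ⟨v, 1, one_ne_zero, rfl⟩, rfl⟩))
      have a2 : W ω (cb u 0) ^ n = W ω (cb ((n : Z3) • u) 0) := by
        clear hn
        induction n with
        | zero => simp [cb_zero]
        | succ n ih => simp [pow_succ, ih, W_mul, Bf_cb, cb_add, add_smul]
      replace hn := congrArg Subtype.val hn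
      simp only [Subgroup.coe_pow, pg_pow (W_unit ω _), a2, one_smul] at hn
      obtain ⟨r, -, hr⟩ := (pg_iff (W_unit ω _) (W_unit ω _)).mp hn
      exact ⟨n, (cb_inj.mp (W_uniq one_ne_zero ((one_smul _ _).trans hr)).1).1.symm⟩
    clear H ha; revert u; decide
  · rintro ⟨a, ha⟩
    obtain ⟨u, rfl⟩ := eA ha
    exact ⟨1, Subtype.ext (by simp [pg_pow (W_unit ω _), W_cube, pg_one])⟩
  · intro a ha
    obtain ⟨u, rfl⟩ := eA ha
    refine H11.mem_normalizer_of_forall ?_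
    rintro _ ⟨g, ⟨g1, g2, d, g3⟩, rfl⟩
    have e : W ω (cb u 0) * W ω (cb (-u) 0) = 1 := by simp [W_cb0, bd_mul, W_mul_neg]
    refine ⟨_, ⟨h.mg.mul (h.mg.mul (h.nm _ (nm_W _)) g1) (h.nm _ (nm_W _)), ?_, d, ?_⟩, (pg_conj e (h.mg.unit g1)).symm⟩
    · exact comm_mul (comm_mul (by rw [W_cb0, bd_tt]) g2) (by rw [W_cb0, bd_tt])
    · simp [W_cb0, res_mul bd_tt, res_mul g2, res_bd, g3, W_mul_neg]
  · intro a ha
    obtain ⟨u, rfl⟩ := eA ha
    exact (pg_comm (W_unit ω _) hu).mpr ⟨1, one_ne_zero, by simp [W_cb0, hm_y0, bd_mul]⟩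
  · rintro _ ⟨k, ⟨k1, k2, d, k3⟩, rfl⟩ H
    obtain ⟨k', k4, k5, k6⟩ := h.mg.inv2 k1
    rw [pg_conj k5 hu, pg_inv (k := hm ω y0 0 ^ 2) (by rw [← pow_succ', hm_cube]),
      pg_iff (((h.mg.unit k1).mul hu).mul (h.mg.unit k4)) (hu.pow 2)] at H
    obtain ⟨r, -, H⟩ := H
    have a1 := congrArg res H
    rw [res_mul (comm_inv k2 k5 k6), res_mul r2, r1, Matrix.mul_one, res_inv k2 k5, pow_two, res_smul, res_mul r2, r1] at a1
    obtain rfl : 1 = r := by simpa using congrArg (· 0 0) a1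
    have a2 : (hm ω y0 0 - 1) * (hm ω y0 0 - ω • 1) = 0 := by
      rw [← fn_one ω y0, hm, smul_fn, fn_sub, fn_sub, fn_mul, fn]
      exact Finset.sum_eq_zero fun l _ => by split_ifs <;> simp
    have a3 : (hm ω y0 0 ^ 2 - 1) * (hm ω y0 0 ^ 2 - ω • 1) = k * ((hm ω y0 0 - 1) * (hm ω y0 0 - ω • 1)) * k' := by
      rw [← one_smul F (_ ^ 2), ← H]
      simp [mul_sub, sub_mul, Matrix.mul_assoc, ← Matrix.mul_assoc k', k5, k6]
    rw [a2, ← fn_one ω y0, pow_two, hm, fn_mul, smul_fn, fn_sub, fn_sub, fn_mul] at a3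
    have a4 := congrArg (· * pj ω y0 0) a3
    simp only [fn_pj, Matrix.mul_zero, Matrix.zero_mul, smul_eq_zero, pj_ne (show y0 ≠ 0 by decide), if_true, ch_one,
      or_false, mul_eq_zero, sub_eq_zero, mul_one, ← pow_two] at a4
    exact (a4.elim (om_sq_ne_one ω) (om_sq_ne ω)).elim
  · rintro _ ⟨q, ⟨q1, q2, d, q3⟩, rfl⟩ hq H
    obtain ⟨r, -, H⟩ := (pg_comm (h.mg.unit q1) hu).mp H
    obtain ⟨k', k4, k5⟩ := h.mg.inv q1
    have a1 := congrArg (res · * res k') H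
    simp only [res_mul r2, res_mul q2, r1, res_smul, Matrix.mul_one, Matrix.one_mul, smul_mul_assoc, res_inv q2 k5] at a1
    obtain rfl : 1 = r := by simpa using congrArg (· 0 0) a1
    obtain ⟨n, r, hr, e⟩ := sq_mem (nm_of_bar (h.mg.unit q1) hq) q2 q3 (by simpa using H)
    rw [pg_mul (h.mg.unit q1) (h.mg.unit q1), e, pg_smul hr (hu.pow n), ← pg_pow hu]
    exact pow_mem (Subgroup.mem_zpowers _) n

theorem cent_tt [Finite F] (hg : P g) (h1 : g * tt F = tt F * g) : Nm ω g := by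
  have m : MG fun a => ∃ g, P g ∧ g * tt F = tt F * g ∧ res g = a := by
    refine ⟨⟨1, h.mg.one, by simp, res_one⟩, ?_, ?_⟩
    · rintro _ _ ⟨g, g1, g2, rfl⟩ ⟨k, k1, k2, rfl⟩
      exact ⟨_, h.mg.mul g1 k1, comm_mul g2 k2, res_mul k2⟩
    · rintro _ ⟨g, g1, g2, rfl⟩
      obtain ⟨k, k1, k2, k3⟩ := h.mg.inv2 g1
      exact ⟨_, ⟨k, k1, comm_inv g2 k2 k3, rfl⟩, res_inv g2 k2⟩
  rcases h.ty.base _ m (fun n hn => ⟨_, h.nm _ hn.bd, bd_tt, res_bd⟩) (by rintro _ ⟨g, g1, g2, rfl⟩; exact h.u2 g g1 g2)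
    with H | ⟨a1, -, μ, a2, a3⟩
  · obtain ⟨n, n1, n2⟩ := mg_nm.inv (H _ ⟨g, hg, h1, rfl⟩)
    exact mg_nm.of_mul' n1.bd (h.nm_of_J (h.mg.mul hg (h.nm _ n1.bd)) (comm_mul h1 bd_tt) (d := 1) (by
      simp [res_mul bd_tt, res_bd, n2]))
  obtain ⟨k, k1, k2, k3⟩ := a1 _ (h.ty.dg μ a2)
  obtain ⟨k', k4, k5, k6⟩ := h.mg.inv2 k1
  have t1 := comm_inv k2 k5 k6
  have t2 : ∀ u, W ω (cb u 0) * tt F = tt F * W ω (cb u 0) := fun u => by rw [W_cb0, bd_tt]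
  have b0 : res (k * W ω (cb (0, 1) 0) * k') = W ω (0, 1) := by
    rw [res_mul t1, res_mul (t2 _), W_cb0, res_bd, show res k * W ω (0, 1) = W ω (0, 1) * res k by
      simp [k3, W, mo_mul, mul_comm], Matrix.mul_assoc, res_inv k2 k5, Matrix.mul_one]
  obtain ⟨e, r, hr, he⟩ := h.cl k1 k5 (x := cb (0, 1) 0) (mg_nm.of_mul' (nm_W (cb (-(0, 1)) 0)) (h.nm_of_J
    (h.mg.mul (h.mg.mul (h.mg.mul k1 (h.nm _ (nm_W _))) k4) (h.nm _ (nm_W _)))
    (comm_mul (comm_mul (comm_mul k2 (t2 _)) t1) (t2 _)) (d := 1) (by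
      rw [res_mul (t2 _), b0, W_cb0, res_bd, W_mul_neg, one_smul])))
  obtain ⟨u, rfl⟩ := cb_of_comm hr (he ▸ comm_mul (comm_mul k2 (t2 _)) t1)
  rw [he, res_smul, W_cb0, res_bd] at b0
  obtain ⟨rfl, rfl⟩ := W_uniq hr (b0.trans (one_smul _ _).symm)
  have b1 := (h.cent (x := cb (0, 1) 0) (r := 1) (by decide) k1 (by
    rw [← smul_mul_assoc, ← he, Matrix.mul_assoc, k6, Matrix.mul_one])).res k2
  rw [k3] at b1
  exact absurd (by simpa only [v3_0, v3_2, one_pow] using (diag_cube b1 2).symm) a3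

end ST

end Cfsg.Agent.H12.T3
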