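import Mathlib
import Cfsg.Agent.H12.T3H

/-!
Overgroups of the normaliser of an extraspecial group of order `3 ^ 5`.
-/

set_option autoImplicit false
set_option linter.unusedSectionVars false

namespace Cfsg.Agent.H12.T3

open Matrix Dt
open scoped MatrixGroups

variable {F : Type*} [Field F] {ω : F} [Om3 ω] {g k s : Matrix Z9 Z9 F}

/-- the involution inverting the Weyl group -/
def zz (F : Type*) [Field F] : Matrix Z9 Z9 F := mo Neg.neg fun _ => 1

theorem zz_sq : zz F * zz F = 1 := by rw [zz, mo_mul]; exact mo_one (by simp) (by simp)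

theorem zz_unit : IsUnit (zz F) := .of_mul_eq_one _ zz_sq

theorem zz_W (e : Z9 × Z9) : zz F * W ω e = W ω (-e) * zz F := by
  simp only [zz, W, mo_mul]
  exact mo_congr (fun j => by simp [add_comm]) fun j => by simp [add_comm]

theorem act_zz : Act ω (zz F) Neg.neg := fun e => ⟨1, by simp [zz_W]⟩

theorem inv_iff (hs : Nm ω s) : (∀ e ∈ (mg_rz (ω := ω)).bar, pg s * e * (pg s)⁻¹ = e⁻¹) ↔ Act ω s Neg.neg := by
  obtain ⟨k, k1, k2, k3⟩ := mg_nm.inv2 hs
  have : ∀ e, pg s * pg (W ω e) * (pg s)⁻¹ = (pg (W ω e))⁻¹ ↔ ∃ c : F, s * W ω e = c • (W ω (-e) * s) := fun e => by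
    rw [mul_inv_eq_iff_eq_mul, pg_inv (W_mul_neg ω e), pg_mul hs.1 (W_unit ω e), pg_mul (W_unit ω _) hs.1,
      pg_iff (hs.1.mul (W_unit ω e)) ((W_unit ω _).mul hs.1)]
    exact ⟨fun ⟨c, _, h⟩ => ⟨c, h⟩, fun ⟨c, h⟩ => ⟨c, act_ne hs.1 h, h⟩⟩
  refine ⟨fun h e => (this e).mp (h _ (mem_E.mpr ⟨e, rfl⟩)), fun h e he => ?_⟩
  obtain ⟨e, rfl⟩ := mem_E.mp he
  exact (this e).mpr (h e)

theorem not_act_neg (hk : g * k = 1) : ¬ Act ω (g * tt F * k) Neg.neg := fun h => by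
  have u : IsUnit (g * tt F * k) := ((IsUnit.of_mul_eq_one _ hk).mul tt_unit).mul (.of_mul_eq_one_right _ hk)
  obtain ⟨e, c, -, he⟩ := rz_of_fix (u.mul zz_unit) ((h.mul act_zz).congr neg_neg)
  let X : Matrix Z9 Z3 F := of fun i m => if i.1 = m then v3 0 1 (-1) i.2 else 0
  let Y : Matrix Z3 Z9 F := of fun m j => if m = j.1 then v3 0 (-1) 1 j.2 else 0
  have a1 : tt F - 1 = X * Y := by
    ext ⟨i, l⟩ ⟨j, m⟩
    by_cases e : i = j <;> rcases z3c l with rfl | rfl | rfl <;> rcases z3c m with rfl | rfl | rfl <;>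
      simp +decide [X, Y, tt, mul_apply, mo_apply, one_apply, e]
  have a2 : c • zz F - 1 = (W ω e * g * X) * (Y * k * W ω (-e)) := by
    have : g * tt F * k = c • W ω e * zz F := by rw [← he, Matrix.mul_assoc _ (zz F), zz_sq, Matrix.mul_one]
    calc _ = W ω e * (g * tt F * k - 1) * W ω (-e) := by
          rw [this, mul_sub, sub_mul, Matrix.mul_one, W_mul_neg, smul_mul_assoc, mul_smul_comm, smul_mul_assoc,
            Matrix.mul_assoc, Matrix.mul_assoc, zz_W (ω := ω), neg_neg, ← Matrix.mul_assoc, ← Matrix.mul_assoc, W_sq,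
            W_neg_mul, Matrix.one_mul]
      _ = W ω e * (g * (tt F - 1) * k) * W ω (-e) := by rw [mul_sub g, sub_mul, Matrix.mul_one, hk]
      _ = _ := by simp only [a1, Matrix.mul_assoc]
  let r : Fin 4 → Z9 := ![(1, 0), (0, 1), (1, 1), (1, 2)]
  have a3 : (c • zz F - 1).submatrix r r = -1 := by
    ext i j
    have b1 : r i ≠ -r j := by revert i j; decide
    have b2 : r i = r j ↔ i = j := by revert i j; decide
    simp [zz, mo_apply, one_apply, b1, b2]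
  have a4 := rank_submatrix_le (c • zz F - 1) r r
  rw [a3, rank_of_isUnit (-1 : Matrix (Fin 4) (Fin 4) F) isUnit_one.neg, a2] at a4
  exact absurd (a4.trans ((rank_mul_le_left _ _).trans (rank_le_card_width _))) (by decide)

theorem exists_frame {φ : (Z9 × Z9) ≃ₗ[Z3] (Z9 × Z9)} (h1 : ∀ e f, Bf Z9 (φ e) (φ f) = Bf Z9 e f) (h2 : ∀ e, φ (φ e) = e)
    {x y : Z9 × Z9} (hx : φ x ≠ -x) (hy : φ y ≠ y) : ∃ ψ : (Z9 × Z9) →ₗ[Z3] (Z9 × Z9),
      (∀ e f, Bf Z9 (ψ e) (ψ f) = Bf Z9 e f) ∧ ∀ e, φ (ψ e) = ψ (ta e) := by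
  have key : ∀ ε : Z3, ε * ε = 1 → ∀ x, x + ε • φ x ≠ 0 → ∃ e f, φ e = ε • e ∧ φ f = ε • f ∧ Bf Z9 f e = 1 :=
    fun ε hε x hx => by
      have a0 : ∀ x, φ (x + ε • φ x) = ε • (x + ε • φ x) := fun x => by simp [h2, smul_smul, hε, add_comm]
      obtain ⟨f, hf⟩ : ∃ f, Bf Z9 (x + ε • φ x) f ≠ 0 := by by_contra! H; exact hx (Bf_nd H)
      refine ⟨_, Bf Z9 (x + ε • φ x) f • (f + ε • φ f), a0 x, by rw [map_smul, a0, smul_comm], ?_⟩
      have a1 : Bf Z9 (φ f) (x + ε • φ x) = ε * Bf Z9 f (x + ε • φ x) := by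
        rw [← h1, h2, a0, map_smul, smul_eq_mul]
      rw [map_smul, LinearMap.smul_apply, map_add (Bf Z9) f, map_smul, LinearMap.add_apply, LinearMap.smul_apply, a1,
        Bf_skew _ f]
      generalize Bf Z9 (x + ε • φ x) f = t at hf
      exact (by decide : ∀ ε t : Z3, ε * ε = 1 → t ≠ 0 → t • (-t + ε • (ε * -t)) = 1) ε t hε hf
  obtain ⟨e1, f1, a1, a2, a3⟩ := key 1 rfl x fun e => hx (by simpa using eq_neg_of_add_eq_zero_right e)
  obtain ⟨e2, f2, b1, b2, b3⟩ := key (-1) rfl y fun e => hy (by simpa using eq_neg_of_add_eq_zero_right e)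
  simp only [one_smul, neg_smul] at a1 a2 b1 b2
  have o : ∀ u v, φ u = u → φ v = -v → Bf Z9 u v = 0 ∧ Bf Z9 v u = 0 := fun u v hu hv => by
    have := h1 u v
    rw [hu, hv, map_neg] at this
    rw [Bf_skew u v, (by decide : ∀ t : Z3, -t = t → t = 0) _ this]; simp
  refine ⟨(AddMonoidHom.mk' (fun e : Z9 × Z9 => e.1.1 • e1 + e.1.2 • e2 + e.2.1 • f1 + e.2.2 • f2) fun e f => by
    simp only [Prod.fst_add, Prod.snd_add, add_smul]; abel).toZModLinearMap 3, fun e f => ?_, fun e => ?_⟩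
  · simp only [AddMonoidHom.coe_toZModLinearMap, AddMonoidHom.mk'_apply, map_add, map_smul, LinearMap.add_apply,
      LinearMap.smul_apply, Bf_self, a3, b3, Bf_skew f1 e1, Bf_skew f2 e2, o _ _ a1 b1, o _ _ a1 b2, o _ _ a2 b1,
      o _ _ a2 b2, smul_eq_mul]
    rw [Bf9]; ring
  · simp [ta, a1, a2, b1, b2]

theorem invol_cases (hs : Nm ω s) {c : F} (h : s * s = c • 1) :
    pg s = 1 ∨ Act ω s Neg.neg ∨ ∃ n, Nm ω n ∧ pg s = pg n * pg (tt F) * (pg n)⁻¹ := by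
  obtain ⟨φ, h1, h2⟩ := hs.lin
  have c0 : c ≠ 0 := by rintro rfl; simpa [h] using hs.1.mul hs.1
  have a0 : ∀ e, φ (φ e) = e := fun e => Act.uniq (φ := fun e => φ (φ e)) (hs.1.mul hs.1) (h2.mul h2) (c := 1) (by simp [h])
  by_cases hy : ∀ y, φ y = y
  · obtain ⟨e, r, hr, rfl⟩ := rz_of_fix hs.1 (h2.congr hy)
    rw [smul_mul_smul_comm, W_sq] at h
    rw [neg_eq_zero.mp (W_scalar (mul_ne_zero hr hr) h), pg_smul hr (W_unit ω _), W_zero, pg_one]
    exact .inl rfl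
  by_cases hx : ∀ x, φ x = -x
  · exact .inr (.inl (h2.congr hx))
  push Not at hx hy
  obtain ⟨ψ, a1, a2⟩ := exists_frame h1 a0 hx.choose_spec hy.choose_spec
  obtain ⟨n, n1, n2⟩ := exists_nm_iso (ω := ω) ψ a1
  obtain ⟨m, m1, m2, m3⟩ := mg_nm.inv2 ⟨n1, _, n2⟩
  obtain ⟨χ, a3⟩ := m1.2
  have a4 : ∀ e, χ (ψ e) = e := fun e => Act.uniq (φ := fun e => χ (ψ e)) (m1.1.mul n1) (a3.mul n2) (c := 1) (by simp [m3])
  obtain ⟨e, r, hr, he⟩ := rz_of_fix (((m1.1.mul hs.1).mul n1).mul tt_unit) ((((a3.mul h2).mul n2).mul act_tt).congr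
    fun e => by rw [a2, a4]; simp [ta])
  have a5 : m * s * n = r • W ω e * tt F := by rw [← he, Matrix.mul_assoc _ (tt F), tt_sq, Matrix.mul_one]
  have a6 : ta e = -e := by
    have : m * s * n * (m * s * n) = c • 1 := by
      calc _ = m * (s * (n * m) * s) * n := by simp only [Matrix.mul_assoc]
        _ = _ := by simp [m2, h, m3]
    rw [a5, smul_mul_assoc, smul_mul_smul_comm, Matrix.mul_assoc, ← Matrix.mul_assoc (tt F), tt_W, Matrix.mul_assoc, tt_sq,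
      Matrix.mul_one, W_mul, smul_smul] at this
    exact eq_neg_of_add_eq_zero_right (W_scalar (mul_ne_zero (mul_ne_zero hr hr) (ch_ne ω _)) this)
  refine .inr (.inr ⟨n * W ω (-e), mg_nm.mul ⟨n1, _, n2⟩ (nm_W _), ?_⟩)
  rw [pg_conj (k := W ω e * m) (by rw [Matrix.mul_assoc, ← Matrix.mul_assoc _ (W ω e), W_neg_mul, Matrix.one_mul, m2])
    tt_unit, ← pg_smul hr (((n1.mul (W_unit ω _)).mul tt_unit).mul ((W_unit ω _).mul m1.1))]
  congr 1
  calc s = n * (m * s * n) * m := by simp [Matrix.mul_assoc, ← Matrix.mul_assoc n, m2]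
    _ = _ := by
      rw [a5, Matrix.mul_assoc _ (tt F), ← Matrix.mul_assoc (tt F), tt_W, a6, ← neg_neg e, ← W_sq, neg_neg]
      simp [Matrix.mul_assoc]

variable {U S : Matrix Z3 Z3 F → Prop} {Λ : F → Prop} {P : Matrix Z9 Z9 F → Prop}

theorem ST.nm_all [Finite F] (h : ST ω U S Λ P) (hg : P g) : Nm ω g := by
  obtain ⟨k, k1, k2⟩ := h.mg.inv hg
  have nz : Nm ω (zz F) := ⟨zz_unit, _, act_zz⟩
  refine nm_of_rz k2 fun x => rz_of_bar (((h.mg.unit hg).mul (W_unit ω x)).mul (h.mg.unit k1)) ?_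
  rw [← pg_conj k2 (W_unit ω x)]
  refine dih_normal (M := h.mg.bar) (N := (mg_nm (ω := ω)).bar) (t := pg (tt F)) (z := pg (zz F))
    (mg_nm.bar_mono _ h.nm) ⟨_, nm_tt, rfl⟩ (by rw [pg_mul tt_unit tt_unit, tt_sq, pg_one]) ?_ ?_ ?_ ⟨_, nz, rfl⟩
    (by rw [pg_mul zz_unit zz_unit, zz_sq, pg_one]) (fun e => ?_) ((inv_iff nz).mpr act_zz) ?_ (fun e he => ?_)
    ⟨g, hg, rfl⟩ (mem_E.mpr ⟨x, rfl⟩) (mg_rz.bar_mono _ fun _ => Rz.nm)
  · rintro _ ⟨g, hg, rfl⟩ H
    obtain ⟨c, c0, H⟩ := (pg_comm (h.mg.unit hg) tt_unit).mp H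
    obtain ⟨k, k1, k2, k3⟩ := h.mg.inv2 hg
    have a1 := congrArg (fun X => (X * k).trace) H
    have a2 : (tt F).trace = 3 := by
      simp +decide only [tt, trace, diag, mo_apply, Fintype.sum_prod_type, sum_z3, if_true, if_false]; norm_num
    simp only [smul_mul_assoc, trace_smul, Matrix.mul_assoc (tt F), k2, Matrix.mul_one] at a1
    rw [trace_mul_cycle, k3, Matrix.one_mul, a2] at a1
    rw [← mul_right_cancel₀ (om_three ω) ((one_mul _).trans a1), one_smul] at H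
    exact ⟨g, h.cent_tt hg H, rfl⟩
  · rintro _ ⟨s, hs, rfl⟩ H
    rw [pg_mul hs.1 hs.1, ← pg_one, pg_iff (hs.1.mul hs.1) isUnit_one] at H
    obtain ⟨c, -, H⟩ := H
    exact (invol_cases hs H).imp id (Or.imp (inv_iff hs).mpr fun ⟨n, h1, h2⟩ => ⟨_, ⟨n, h1, rfl⟩, h2⟩)
  · rintro _ ⟨g, hg, rfl⟩ H
    obtain ⟨k, k1, k2⟩ := h.mg.inv hg
    have u := ((h.mg.unit hg).mul tt_unit).mul (h.mg.unit k1)
    obtain ⟨l, hl⟩ := u.exists_right_inv
    rw [pg_conj k2 tt_unit] at H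
    exact not_act_neg k2 ((inv_iff (nm_of_rz hl fun e => rz_of_bar ((u.mul (W_unit ω e)).mul (.of_mul_eq_one_right _ hl)) (by
      rw [← pg_conj hl (W_unit ω e), H _ (mem_E.mpr ⟨e, rfl⟩)]; exact inv_mem (mem_E.mpr ⟨e, rfl⟩)))).mp H)
  · rw [← pg_one, pg_iff zz_unit isUnit_one] at e
    obtain ⟨c, -, e⟩ := e
    simpa +decide [zz, mo_apply] using congrArg (· (1, 0) (2, 0)) e
  · rintro _ ⟨s, hs, rfl⟩ H
    refine ⟨s, rz_of_fix hs.1 fun e => ?_, rfl⟩
    obtain ⟨c, -, hc⟩ := (pg_comm hs.1 (W_unit ω e)).mp (mul_inv_eq_iff_eq_mul.mp (H _ (mem_E.mpr ⟨e, rfl⟩)))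
    exact ⟨c, hc⟩
  · obtain ⟨e, rfl⟩ := mem_E.mp he
    rw [pg_pow (W_unit ω e), W_cube, pg_one]

/-- affine maps -/
def af (b u j : Z9) : Z9 := (b.1 + j.1 * u.1 - j.2 * u.2, b.2 + j.1 * u.2 + j.2 * u.1)

theorem nm_af (b : Z9) {u : Z9} (hu : u ≠ 0) : Nm ω (mo (af b u) fun _ => (1 : F)) := by
  have a1 : (u.1 ^ 2 + u.2 ^ 2) ^ 2 = 1 := by revert u; decide
  simpa using nm_mo (ω := ω) (f := af b u) (q := fun _ => 0) (by revert b u; decide) fun e =>
    ⟨(af 0 u e.1, (u.1 ^ 2 + u.2 ^ 2) • af 0 u e.2), -dot ((u.1 ^ 2 + u.2 ^ 2) • af 0 u e.2) b, fun j =>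
      ⟨by simp [af]; constructor <;> ring, by simp [af]; linear_combination (-e.2.1 * j.1 - e.2.2 * j.2) * a1⟩⟩

theorem det_mo_id {A : Type*} [Fintype A] [DecidableEq A] (d : A → F) : (mo id d).det = ∏ i, d i := by
  rw [← det_diagonal]; congr; ext i j; simp only [mo_apply, diagonal_apply, id]; split_ifs with e <;> simp [e]

theorem det_bd (a b c : Matrix Z3 Z3 F) : (bd a b c).det = a.det * b.det * c.det := by
  rw [bd, det_blockDiagonal]; exact Fin.prod_univ_three _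

theorem det3 (a : Matrix Z3 Z3 F) : a.det = a 0 0 * a 1 1 * a 2 2 - a 0 0 * a 1 2 * a 2 1 - a 0 1 * a 1 0 * a 2 2 +
    a 0 1 * a 1 2 * a 2 0 + a 0 2 * a 1 0 * a 2 1 - a 0 2 * a 1 1 * a 2 0 := det_fin_three a

theorem det_z3 : (mo Neg.neg fun _ => -1 : Matrix Z3 Z3 F).det = 1 := by rw [det3]; simp +decide [mo_apply]

theorem Full.mon (H : Full Λ P) (h : MG P) (hN : ∀ g, Nm ω g → P g) (l0 : ∀ a, Λ a → a ≠ 0) (l1 : Λ (-1))
    (l2 : ∀ a b, Λ a → Λ b → Λ (a * b)) (l3 : ∀ a, Λ a → Λ a⁻¹) (π : Equiv.Perm Z9) {d : Z9 → F} (hd : ∀ j, Λ (d j))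
    (e : (mo π d).det = 1) : P (mo π d) := by
  have l4 : Λ 1 := by simpa using l2 _ _ l1 l1
  have cj : ∀ {b u : Z9} {X Y : Matrix Z9 Z9 F}, u ≠ 0 → P X → mo (af b u) (fun _ => 1) * X = Y * mo (af b u) (fun _ => 1) →
      P Y ∧ Y.det = X.det := fun {b u X Y} hu hX e => ⟨h.of_mul' (hN _ (nm_af b hu)) (e ▸ h.mul (hN _ (nm_af b hu)) hX), by
    have := congrArg det e
    rw [det_mul, det_mul, mul_comm] at this
    exact (mul_right_cancel₀ ((isUnit_iff_isUnit_det _).mp (nm_af (ω := ω) b hu).1).ne_zero this).symm⟩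
  have a1 : ∀ b, b ≠ 0 → ∀ μ, Λ μ → P (mo id fun j => if j = b then μ else if j = 0 then μ⁻¹ else 1) := fun b hb μ hμ => by
    refine (cj (b := b) (u := -b) (by simpa) (H.1 μ hμ) ?_).1
    simp only [one_mo, bd_mo, mo_mul]
    refine mo_congr (by simp) fun ⟨i, l⟩ => ?_
    have c1 : af b (-b) (i, l) = b ↔ (i, l) = (0, 0) := by revert b i l; decide
    have c2 : af b (-b) (i, l) = 0 ↔ (i, l) = (1, 0) := by revert b i l; decide
    simp only [c1, c2]
    rcases z3c i with rfl | rfl | rfl <;> rcases z3c l with rfl | rfl | rfl <;> simp +decide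
  have a2 : ∀ d : Z9 → F, (∀ j, Λ (d j)) → ∏ j, d j = 1 → P (mo id d) := fun d hd e => by
    have : ∀ s : Finset Z9, 0 ∉ s → P (mo id fun j => if j ∈ s then d j else if j = 0 then (∏ i ∈ s, d i)⁻¹ else 1) :=
      fun s => by
        induction s using Finset.induction_on with
        | empty => simpa [← one_mo] using h.one
        | insert b s hb ih =>
          intro h0
          rw [Finset.mem_insert, not_or] at h0
          have := h.mul (ih h0.2) (a1 b (Ne.symm h0.1) _ (hd b))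
          rw [mo_mul] at this
          refine of_mo this (fun _ => rfl) fun j => ?_
          by_cases e1 : j = b
          · simp [e1, hb, Ne.symm h0.1]
          by_cases e2 : j = 0
          · simp [e2, hb, h0.1, h0.2]
          · simp [e1, e2]
    refine of_mo (this (Finset.univ.erase 0) (by simp)) (fun _ => rfl) fun j => ?_
    by_cases e1 : j = 0
    · rw [← Finset.mul_prod_erase _ _ (Finset.mem_univ 0)] at e
      simp [e1, eq_inv_of_mul_eq_one_left e]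
    · simp [e1]
  obtain ⟨d0, b1, b2, b3⟩ : ∃ d0 : Z9 → F, (∀ j, Λ (d0 j)) ∧ P (mo π d0) ∧ (mo π d0).det = 1 := by
    clear e
    induction π using Equiv.Perm.swap_induction_on with
    | one => exact ⟨fun _ => 1, fun _ => l4, by simpa [← one_mo] using h.one, by simp [← one_mo]⟩
    | swap_mul π b c hbc ih =>
      obtain ⟨d0, b1, b2, b3⟩ := ih
      obtain ⟨f, hf⟩ := (show Function.Injective (af (b - (c - b)) (c - b)) by revert b c; decide).hasLeftInverse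
      obtain ⟨c1, c2⟩ := cj (b := b - (c - b)) (Y := mo (Equiv.swap b c) fun j => if (f j).2 = 0 then -1 else 1)
        (sub_ne_zero.mpr hbc.symm) H.2 (by
          simp only [one_mo, bd_mo, mo_mul]
          refine mo_congr (by clear hf; revert b c; decide) fun ⟨i, l⟩ => ?_
          rw [hf]; rcases z3c l with rfl | rfl | rfl <;> simp +decide)
      have c4 := mo_mul (Equiv.swap b c) π (fun j => if (f j).2 = 0 then -1 else 1) d0
      refine ⟨_, fun j => l2 _ _ (by split_ifs <;> assumption) (b1 j), c4 ▸ h.mul c1 b2, ?_⟩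
      have c3 : (bd (mo Neg.neg fun _ => -1) 1 1 : Matrix Z9 Z9 F).det = 1 := by
        simp [det_bd, det_z3]
      exact c4 ▸ (by rw [det_mul, c2, c3, b3, one_mul])
  have a3 : mo π d = mo π d0 * mo id fun j => (d0 j)⁻¹ * d j := by
    rw [mo_mul]; exact mo_congr (fun _ => rfl) fun j => by simp [l0 _ (b1 j)]
  rw [a3, det_mul, b3, one_mul, det_mo_id] at e
  exact a3 ▸ h.mul b2 (a2 _ (fun j => l2 _ _ (l3 _ (b1 j)) (hd j)) e)

end Cfsg.Agent.H12.T3
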