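import Mathlib
import Cfsg.Agent.H12.MaxU
import Cfsg.Agent.H12.SubC

/-!
Irreducible groups in dimension three containing a full group of transvections.
-/

set_option autoImplicit false

namespace Cfsg.Agent.H12.T3

open Module

variable {F V : Type*} [Field F] [AddCommGroup V] [Module F V] [FiniteDimensional F V]

theorem span3 (h3 : finrank F V = 3) {v x w : V} {φ ψ : Dual F V} (a1 : φ v = 0) (a2 : φ w = 0) (a3 : φ x ≠ 0)
    (a4 : ψ w = 0) (a5 : ψ v ≠ 0) (a6 : w ≠ 0) (y : V) : ∃ a b c : F, y = a • v + b • x + c • w := by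
  have : LinearIndependent F ![v, x, w] := Fintype.linearIndependent_iff.mpr fun g hg => by
    simp only [Fin.sum_univ_three, Matrix.cons_val] at hg
    have b1 : g 1 = 0 := by simpa [a1, a2, a3] using congrArg φ hg
    have b0 : g 0 = 0 := by simpa [b1, a4, a5] using congrArg ψ hg
    have b2 : g 2 = 0 := by simpa [b0, b1, a6] using hg
    intro i; fin_cases i <;> assumption
  obtain ⟨c, hc⟩ := (Submodule.mem_span_range_iff_exists_fun F).mp
    ((this.span_eq_top_of_card_eq_finrank' (by simp [h3])).ge (Submodule.mem_top (x := y)))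
  exact ⟨c 0, c 1, c 2, by simp [← hc, Fin.sum_univ_three]⟩

theorem sl_of_tr (h3 : finrank F V = 3) {M : Subgroup (V ≃ₗ[F] V)} (hs : ∀ v φ (c : F), TR M v φ → TR M v (c • φ))
    (irr : ∀ W : Submodule F V, (∀ g ∈ M, ∀ w ∈ W, g w ∈ W) → W = ⊥ ∨ W = ⊤) {v : V} {φ : Dual F V} (h : TR M v φ)
    (v0 : v ≠ 0) (φ0 : φ ≠ 0) : SLV F V ≤ M := by
  by_contra H
  have hs' : ∀ {v φ} {c : F}, c ≠ 0 → TR M v (c • φ) → TR M v φ := fun {v φ c} hc h => by
    simpa [smul_smul, hc] using hs _ _ c⁻¹ h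
  have nP : ∀ w ∈ PS M, w = 0 := fun w hw =>
    (irr _ fun g hg _ h => map_mem_PS h hg).elim (fun e => by simpa [e] using hw) fun e => absurd (SLV_le_of_PS e) H
  have nQ : ∀ η ∈ QS M, η = 0 := fun η hη => by
    rcases irr (QS M).dualCoannihilator fun g hg w hw => (Submodule.mem_dualCoannihilator _).mpr fun φ h =>
      (Submodule.mem_dualCoannihilator _).mp hw _ (map_mem_QS h hg) with e | e
    · exact absurd (SLV_le_of_QS (by rw [← Subspace.dualCoannihilator_dualAnnihilator_eq (W := QS M), e]; simp)) H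
    · exact LinearMap.ext fun x => (Submodule.mem_dualCoannihilator _).mp (e.ge (Submodule.mem_top (x := x))) η hη
  have sym : ∀ {v w φ ψ}, TR M v φ → TR M w ψ → φ ≠ 0 → w ≠ 0 → φ w = 0 → ψ v = 0 := fun {v w φ ψ} h h' φ0 w0 e => by
    by_contra e'
    obtain ⟨x, hx⟩ := DFunLike.ne_iff.mp φ0
    refine w0 (nP w fun χ hχ => ?_)
    convert (hs _ _ ((χ x - χ v / ψ v * ψ x) / φ x) (hs' e' (h.comm' h' e))).add_right (hs _ _ (χ v / ψ v) h') using 1
    ext y
    obtain ⟨a, b, c, rfl⟩ := span3 h3 h.1 e hx h'.1 e' w0 y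
    simp only [LinearMap.zero_apply] at hx
    simp [h.1, h'.1, e, hχ]; field_simp; ring
  have ex : ∀ U : Submodule F V, U ≠ ⊤ → ∃ w ψ, TR M w ψ ∧ ψ ≠ 0 ∧ w ∉ U := fun U hU => by
    by_contra! e
    rcases irr (Submodule.span F {w | ∃ ψ, TR M w ψ ∧ ψ ≠ 0}) fun g hg w hw => Submodule.span_induction
      (p := fun w _ => g w ∈ Submodule.span F {w | ∃ ψ, TR M w ψ ∧ ψ ≠ 0}) (fun w hw => by
        obtain ⟨ψ, h1, h2⟩ := hw
        exact Submodule.subset_span ⟨_, h1.conj' hg, fun e => h2 (by ext x; simpa using LinearMap.congr_fun e (g x))⟩) (by simp) (fun _ _ _ _ h1 h2 => by simpa using add_mem h1 h2)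
      (fun c _ _ h1 => by simpa using Submodule.smul_mem _ c h1) hw with e' | e'
    · exact v0 (e'.le (Submodule.subset_span ⟨φ, h, φ0⟩))
    · exact hU (top_le_iff.mp (e'.ge.trans (Submodule.span_le.mpr fun w ⟨ψ, h1, h2⟩ => e w ψ h1 h2)))
  obtain ⟨w, ψ, w1, w2, w3⟩ := ex (LinearMap.ker φ) (by simpa)
  replace w3 : φ w ≠ 0 := w3
  have w4 : ψ v ≠ 0 := fun e => w3 (sym w1 h w2 v0 e)
  obtain ⟨x, χ, x1, x2, x3⟩ := ex (Submodule.span F {v, w}) fun e => by
    have := finrank_span_pair_le (F := F) v w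
    rw [e, finrank_top] at this; omega
  obtain ⟨y, η, y1, y2, y3, y4, y5⟩ : ∃ y η, TR M y η ∧ y ≠ 0 ∧ η ≠ 0 ∧ y ∈ Submodule.span F {v, w} ∧ χ y = 0 := by
    by_cases e : χ v = 0
    · exact ⟨v, φ, h, v0, φ0, Submodule.subset_span (by simp), e⟩
    refine ⟨_, _, (hs _ _ (-χ w / (φ w * χ v)) h).conj_tr w1, fun e' => w3 (by simpa [h.1] using congrArg φ e'),
      fun e' => w4 (by simpa [h.1] using LinearMap.congr_fun e' v), add_mem (Submodule.subset_span (by simp))
        (Submodule.smul_mem _ _ (Submodule.subset_span (by simp))), ?_⟩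
    simp; field_simp; ring
  have y6 := sym x1 y1 x2 y2 y5
  obtain ⟨z, hz⟩ := DFunLike.ne_iff.mp y3
  obtain ⟨θ, t1, t2⟩ := exists_dual_one x3
  have sp := span3 h3 y6 y1.1 hz (t2 y y4) (by simp [t1]) y2
  simp only [LinearMap.zero_apply] at hz
  have a1 : χ = (χ z / η z) • η := LinearMap.ext fun s => by
    obtain ⟨a, b, c, rfl⟩ := sp s
    simp [x1.1, y5, y6, y1.1]; field_simp
  have a2 : TR M x η := hs' (c := χ z / η z) (fun e => x2 (by rw [a1, e, zero_smul])) (a1 ▸ x1)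
  refine y3 (nQ η fun s hs'' => ?_)
  obtain ⟨a, b, c, rfl⟩ := sp s
  obtain rfl : b = 0 := by simpa [y6, y1.1, hz] using hs''
  simpa using (hs _ _ a a2).smul_of_right.add_left (hs _ _ c y1).smul_of_right

variable {σ : F →+* F} {B : V →ₛₗ[σ] V →ₗ[F] F} {M : Subgroup (UG B)} {e f u : V}

omit [FiniteDimensional F V] in
theorem am_of_is (D : SD B) (h : SP B e f) (he : IS M e) (hf : IS M f) {a : F} (hx : IS M (f + a • e + u))
    (h1 : B e u = 0) (h2 : B f u = 0) : AM M e (u + u) := by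
  have a0 : Adm B e u a := ⟨h.ee, h1, by
    have := hx.1
    simp [h.ee, h.ff, h.ef, h.fe D, h1, h2, D.comm0 h1, D.comm0 h2] at this
    linear_combination -this⟩
  have a1 : (rho B e u a).1 f = f + a • e + u := by simp [rho_apply D a0, h.ef, D.comm0 h2]; abel
  have a2 := mul_mem (mul_mem (hf.2 1) (he.2 2)) (hf.2 1)
  have a3 : rho B e u a * (tv B f 1 * tv B e 2 * tv B f 1) * (rho B e u a)⁻¹ ∈ M := by
    rw [← conj_mul, ← conj_mul, conj_tv D, conj_tv D, a1, rho_apply_self D]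
    exact mul_mem (mul_mem (hx.2 1) (he.2 2)) (hx.2 1)
  have a4 : (tv B f 1 * tv B e 2 * tv B f 1).1 e = (-1 : F) • e := by
    simp [UG_mul_apply, tv_apply D h.ff (map_one σ), tv_apply D h.ee (map_ofNat σ 2), h.ee, h.ff, h.ef, h.fe D]
    module
  have a5 : (tv B f 1 * tv B e 2 * tv B f 1).1 u = u := by
    simp [UG_mul_apply, tv_apply_of_perp D _ h1, tv_apply_of_perp D _ h2]
  have a6 := mul_mem a3 (inv_mem a2)
  rw [mul_assoc, mul_assoc, ← mul_assoc _ _ (_)⁻¹, rho_inv D a0, conj_rho D, a4, map_neg, a5, rho_smul D (a0.neg D)] at a6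
  simp only [map_neg, map_one, smul_neg, neg_smul, one_smul, neg_neg, mul_neg, mul_one] at a6
  have a7 : Adm B e u (-σ a) := ⟨a0.ee, a0.eu, by simpa using (a0.neg D).cc⟩
  exact ⟨_, a0.add D a7, rho_mul D a0 a7 ▸ a6⟩

theorem su_of_is [Finite F] (h3 : finrank F V = 3) (D : SD B) (hσ : σ ≠ RingHom.id F) (h2 : (2 : F) ≠ 0)
    (hf : ∀ c, σ c = c → ∃ n : ℕ, c = n) (irr : ∀ W : Submodule F V, (∀ g ∈ M, ∀ w ∈ W, g.1 w ∈ W) → W = ⊥ ∨ W = ⊤)
    (he : IS M e) (e0 : e ≠ 0) : SUG B ≤ M := by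
  have ex : ∀ U : Submodule F V, U ≠ ⊤ → ∃ w, IS M w ∧ w ∉ U := fun U hU => by
    by_contra! H
    rcases irr (Submodule.span F {w | IS M w}) fun g hg w hw => Submodule.span_induction
      (p := fun w _ => g.1 w ∈ _) (fun w h1 => Submodule.subset_span (IS.map D h1 hg)) (by simp)
      (fun _ _ _ _ h1 h2 => by simpa using add_mem h1 h2)
      (fun c _ _ h1 => by simpa using Submodule.smul_mem _ c h1) hw with e' | e'
    · exact e0 (e'.le (Submodule.subset_span he))
    · exact hU (top_le_iff.mp (e'.ge.trans (Submodule.span_le.mpr H)))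
  obtain ⟨f, f1, f2⟩ := ex _ (D.sperp_ne_top e0)
  rw [mem_sperp_singleton] at f2
  replace f1 := f1.smul D (B e f)⁻¹
  have h : SP B e ((B e f)⁻¹ • f) := ⟨he.1, f1.1, by simp [f2]⟩
  generalize (B e f)⁻¹ • f = f at f1 h
  obtain ⟨x, x1, x2⟩ := ex (Submodule.span F {e, f}) fun H => by
    have := finrank_span_pair_le (F := F) e f
    rw [H, finrank_top] at this; omega
  have d1 := h.finrank_spp D
  obtain ⟨w, w0, hw⟩ := finrank_eq_one_iff'.mp (show finrank F (spp B e f) = 1 by omega)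
  have dec : ∀ y, ∃ c : F, y = B e y • f + -B f y • e + c • w.1 := fun y => by
    obtain ⟨c, hc⟩ := hw ⟨_, h.proj_mem D y⟩
    exact ⟨c, by rw [show c • w.1 = _ from congrArg Subtype.val hc]; module⟩
  have ww : B w w ≠ 0 := fun H => w0 ((h.sd D).sep w fun y => by obtain ⟨c, rfl⟩ := hw y; simp [H])
  have w1 := spp_left w
  have w2 := spp_right w
  have key : ∀ x, IS M x → x ∉ Submodule.span F {e, f} → ∃ a c : F, c ≠ 0 ∧ IS M (f + a • e + c • w.1) := fun x x1 x2 => by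
    obtain ⟨c, hc⟩ := dec x
    have c0 : c ≠ 0 := by
      rintro rfl
      exact x2 (hc ▸ Submodule.mem_span_pair.mpr ⟨-B f x, B e x, by module⟩)
    have c1 : B e x ≠ 0 := fun H => by
      have := x1.1
      rw [hc, H] at this
      simp [h.ee, w1, D.comm0 w1, c0, ww] at this
    refine ⟨(B e x)⁻¹ * -B f x, (B e x)⁻¹ * c, by simp [c0, c1], ?_⟩
    convert x1.smul D (B e x)⁻¹ using 1
    conv_rhs => rw [congrArg ((B e x)⁻¹ • ·) hc]
    simp [smul_smul, c1]
  obtain ⟨a, c, c0, y1⟩ := key x x1 x2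
  have a0 : σ a ≠ a := fun H => by
    have := y1.1
    simp [h.ee, h.ff, h.ef, h.fe D, w1, w2, D.comm0 w1, D.comm0 w2, H, c0, ww] at this
  have a1 : 1 - a ≠ 0 := fun H => a0 (by rw [← sub_eq_zero.mp H, map_one])
  have y2 : IS M (f + ((1 - a)⁻¹ * a) • e + ((1 - a)⁻¹ * c) • w.1) := by
    convert (y1.map D (f1.2 1)).smul D (1 - a)⁻¹ using 1
    simp only [tv_apply D h.ff (map_one σ), map_add, map_smul, h.ff, h.fe D, w2]
    match_scalars <;> field_simp <;> ring
  have b1 := am_of_is D h he f1 y1 (by simp [w1]) (by simp [w2])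
  have b2 := am_of_is D h he f1 y2 (by simp [w1]) (by simp [w2])
  have nat : ∀ {u} (n : ℕ), AM M e u → AM M e ((n : F) • u) := fun n H => by
    induction n with
    | zero => simpa using AM.zero D he.1
    | succ n ih => simpa [add_smul] using ih.add D H
  have a2 : (1 - a)⁻¹ - σ (1 - a)⁻¹ ≠ 0 := fun H => a0 (by
    rw [sub_eq_zero, map_inv₀, inv_inj, map_sub, map_one, sub_right_inj] at H; exact H.symm)
  have b3 : ∀ d : F, AM M e (d • w.1) := fun d => by
    obtain ⟨n, hn⟩ := hf ((d / (2 * c) - σ (d / (2 * c))) / ((1 - a)⁻¹ - σ (1 - a)⁻¹)) (by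
      rw [map_div₀, map_sub, map_sub, D.invol, D.invol, ← neg_div_neg_eq, neg_sub, neg_sub])
    rw [div_eq_iff a2] at hn
    obtain ⟨m, hm⟩ := hf (d / (2 * c) - n * (1 - a)⁻¹) (by rw [map_sub, map_mul, map_natCast]; linear_combination -hn)
    convert (nat m b1).add D (nat n b2) using 1
    rw [← hm]; match_scalars; field_simp; ring
  have c2 : ES M e := ES.of_AM D he fun u hu => by
    obtain ⟨d, hd⟩ := dec u
    rw [hd, hu, zero_smul, zero_add]
    exact (AM.self_smul D h.ee _).add D (b3 d)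
  exact D.SUG_le_of_ES₂ D.ns c2 (c2.map D (f1.2 1)) (by simp [tv_apply D h.ff (map_one σ), h.ee, h.ef, h.fe D])

end Cfsg.Agent.H12.T3
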