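import Mathlib
import Cfsg.Agent.H12.T3I
import Cfsg.Agent.H12.T3J
import Cfsg.Agent.H12.Lin
import Cfsg.Agent.H12.UfA

/-!
The three-dimensional base cases: linear and unitary groups.
-/

set_option autoImplicit false

namespace Cfsg.Agent.H12.T3

open Module Matrix

section
variable {F V : Type*} [Field F] [AddCommGroup V] [Module F V] {A : Type*} [Fintype A] [DecidableEq A]

/-- the matrix of an automorphism -/
noncomputable def tm (b : Basis A F V) (g : V ≃ₗ[F] V) : Matrix A A F := LinearMap.toMatrix b b (g : V →ₗ[F] V)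

variable (b : Basis A F V) (g k : V ≃ₗ[F] V)

theorem tm_mul : tm b (g * k) = tm b g * tm b k := LinearMap.toMatrix_mul b (g : V →ₗ[F] V) k
theorem tm_one : tm b 1 = 1 := LinearMap.toMatrix_id b
theorem tm_inv : tm b g * tm b g⁻¹ = 1 := by rw [← tm_mul, mul_inv_cancel, tm_one]
theorem tm_det : (tm b g).det = LinearMap.det (g : V →ₗ[F] V) := LinearMap.det_toMatrix b _
theorem tm_apply (i j : A) : tm b g i j = b.repr (g (b j)) i := LinearMap.toMatrix_apply b b _ i j
theorem tm_vec (x : V) : tm b g *ᵥ b.repr x = b.repr (g x) := LinearMap.toMatrix_mulVec_repr b b _ x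
theorem tm_unit : IsUnit (tm b g) := IsUnit.of_mul_eq_one _ (tm_inv b g)

variable {b g k}
theorem tm_inj (h : tm b g = tm b k) : g = k :=
  LinearEquiv.toLinearMap_injective ((LinearMap.toMatrix b b).injective h)

theorem exists_tm (b : Basis A F V) {s : Matrix A A F} (hs : IsUnit s) : ∃ g, tm b g = s := by
  obtain ⟨u, rfl⟩ := hs
  exact ⟨toLinOfInv b b u.mul_inv u.inv_mul, LinearMap.toMatrix_toLin b b _⟩

theorem tm_smul {c : F} (h : ∀ x, g x = c • k x) : tm b g = c • tm b k := by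
  ext i j; simp [tm_apply, h]

theorem of_tm_smul {c : F} (h : tm b g = c • tm b k) (x : V) : g x = c • k x :=
  b.repr.injective (DFunLike.coe_injective (by simp [← tm_vec, h, smul_mulVec]))

/-- the automorphisms whose matrix lies in a matrix group -/
def MG.le {P : Matrix A A F → Prop} (h : MG P) (b : Basis A F V) : Subgroup (V ≃ₗ[F] V) where
  carrier := {g | P (tm b g)}
  one_mem' := show P _ from (tm_one b).symm ▸ h.one
  mul_mem' {g k} hg hk := show P _ from (tm_mul b g k).symm ▸ h.mul hg hk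
  inv_mem' {g} hg := h.inv' hg (tm_inv b g)

theorem mg_tm (b : Basis A F V) (M : Subgroup (V ≃ₗ[F] V)) : MG fun a => ∃ g ∈ M, tm b g = a :=
  ⟨⟨1, one_mem _, tm_one b⟩, by
    rintro _ _ ⟨g, hg, rfl⟩ ⟨k, hk, rfl⟩; exact ⟨_, mul_mem hg hk, tm_mul b g k⟩, by
    rintro _ ⟨g, hg, rfl⟩; exact ⟨_, ⟨_, inv_mem hg, rfl⟩, tm_inv b g⟩⟩

theorem rank1 [FiniteDimensional F V] (h3 : finrank F V = 3) (h : (tm b g - 1) * (tm b g - 1) = 0) (h0 : tm b g ≠ 1) :
    ∃ v, ∃ φ : Dual F V, v ≠ 0 ∧ φ ≠ 0 ∧ φ v = 0 ∧ ∀ x, g x = x + φ x • v := by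
  set N : V →ₗ[F] V := (g : V →ₗ[F] V) - 1 with hN
  have e : tm b g - 1 = LinearMap.toMatrix b b N := by rw [hN, map_sub, LinearMap.toMatrix_one]; rfl
  rw [e, ← LinearMap.toMatrix_mul, map_eq_zero_iff _ (LinearEquiv.injective _)] at h
  have a1 := N.finrank_range_add_finrank_ker
  have a2 := Submodule.finrank_mono (LinearMap.range_le_ker_iff.mpr h)
  obtain ⟨⟨v, hv⟩, a3⟩ := finrank_le_one_iff.mp (show finrank F (LinearMap.range N) ≤ 1 by omega)
  have a4 : ∀ x, ∃ c : F, N x = c • v := fun x => (a3 ⟨_, x, rfl⟩).imp fun c hc => (congrArg Subtype.val hc).symm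
  have N0 : N ≠ 0 := fun e' => h0 (by rwa [e', map_zero, sub_eq_zero] at e)
  have v0 : v ≠ 0 := fun e' => N0 (LinearMap.ext fun x => by obtain ⟨c, hc⟩ := a4 x; simp [hc, e'])
  obtain ⟨ψ, hψ, -⟩ := exists_dual_one (W := (⊥ : Submodule F V)) v0
  have a5 : ∀ x, N x = ψ (N x) • v := fun x => by obtain ⟨c, hc⟩ := a4 x; simp [hc, hψ]
  obtain ⟨y, rfl⟩ := hv
  refine ⟨N y, ψ ∘ₗ N, v0, fun e' => N0 (LinearMap.ext fun x => ?_), ?_, fun x => ?_⟩
  · rw [a5, show ψ (N x) = 0 from LinearMap.congr_fun e' x]; simp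
  · simp [show N (N y) = 0 from LinearMap.congr_fun h y]
  · rw [LinearMap.comp_apply, ← a5]; simp [hN]

variable {σ : F →+* F} {B : V →ₛₗ[σ] V →ₗ[F] F} {κ : F}

theorem exists_tv [FiniteDimensional F V] (D : SD B) {g : UG B} {v : V} {φ : Dual F V} (v0 : v ≠ 0) (φ0 : φ ≠ 0)
    (h0 : φ v = 0) (h : ∀ x, g.1 x = x + φ x • v) : B v v = 0 ∧ ∃ c, σ c = c ∧ c ≠ 0 ∧ g = tv B v c := by
  obtain ⟨y, hy⟩ := DFunLike.ne_iff.mp φ0
  have a1 : B v v = 0 := by simpa [h, h0, show φ y ≠ 0 from hy] using UG_map g v y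
  have a2 : ∀ x y, φ y * B x v + σ (φ x) * B v y = 0 := fun x y => by
    have := UG_map g x y
    simp only [h, map_add, LinearMap.add_apply, LinearMap.map_smulₛₗ, LinearMap.smul_apply, smul_eq_mul, a1,
      RingHom.id_apply] at this
    linear_combination this
  obtain ⟨x, hx⟩ := D.exists_ne v0
  have hx' := D.ne0 hx
  have a3 : ∀ y, φ y = -σ (φ x) / B x v * B v y := fun y => by field_simp; linear_combination a2 x y
  generalize -σ (φ x) / B x v = c at a3
  have a4 : σ c = c := by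
    have := a2 x x
    rw [a3, map_mul, D.σ_map] at this
    exact mul_right_cancel₀ (mul_ne_zero hx hx') (by linear_combination -this)
  exact ⟨a1, c, a4, by rintro rfl; exact hy (by simp [a3]), UG_ext fun x => by rw [h, tv_apply D a1 a4, a3]⟩

/-- unitary similarities, in matrix form -/
def Un (σ : F →+* F) (c : F) (g : Matrix A A F) : Prop := (g.map σ)ᵀ * g = c • 1

theorem un_iff (h : OB B b κ) {c : F} : Un σ c (tm b g) ↔ ∀ x y, B (g x) (g y) = c * B x y := by
  have e : ∀ i j, B (g (b i)) (g (b j)) = κ * (((tm b g).map σ)ᵀ * tm b g) i j := fun i j => by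
    simp [h.sum, tm_apply, mul_apply]
  refine ⟨fun H x y => ?_, fun H => ?_⟩
  · have : (B.comp (g : V →ₗ[F] V)).compl₂ (g : V →ₗ[F] V) = c • B := b.ext fun i => b.ext fun j => by
      simp [e, show _ * _ = _ from H, h.map, one_apply, mul_comm]
    exact LinearMap.congr_fun₂ this x y
  · ext i j
    exact mul_left_cancel₀ h.ne (by rw [← e, H, h.map]; simp [one_apply, mul_comm])

theorem un_mem (h : OB B b κ) : Un σ 1 (tm b g) ↔ g ∈ UG B := by simp [un_iff h]; rfl

theorem Un.mul {c d : F} {g k : Matrix A A F} (h : Un σ c g) (h' : Un σ d k) : Un σ (c * d) (g * k) := by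
  rw [Un, Matrix.map_mul, transpose_mul, Matrix.mul_assoc, ← Matrix.mul_assoc _ g, h, smul_mul, Matrix.one_mul,
    Matrix.mul_smul, h', smul_smul]

theorem Un.smul {c : F} {g : Matrix A A F} (h : Un σ c g) (d : F) : Un σ (σ d * d * c) (d • g) := by
  rw [Un, show (d • g).map σ = σ d • g.map σ from by ext; simp, transpose_smul, smul_mul, Matrix.mul_smul, h,
    smul_smul, smul_smul]

theorem un_mo {π : A → A} (hπ : Function.Injective π) {d : A → F} : Un σ 1 (mo π d) ↔ ∀ j, σ (d j) * d j = 1 := by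
  have e : ∀ i j, (((mo π d).map σ)ᵀ * mo π d) i j = if i = j then σ (d j) * d j else 0 := fun i j => by
    rw [mul_mo]; simp only [transpose_apply, map_apply, mo_apply, hπ.eq_iff, eq_comm (a := j)]
    split_ifs with h <;> simp [h]
  refine ⟨fun H j => by simpa [e] using congrFun₂ H j j, fun H => ?_⟩
  ext i j; simp [e, H, one_apply]

end

variable {F : Type*} [Field F] {ω : F} [Om3 ω] {V : Type*} [AddCommGroup V] [Module F V] {b : Basis Z3 F V}

theorem irr3 (U : Submodule F V) (h : ∀ e g, tm b g = W ω e → ∀ w ∈ U, g w ∈ U) : U = ⊥ ∨ U = ⊤ := by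
  refine or_iff_not_imp_left.mpr fun h0 => ?_
  obtain ⟨w, hw, w0⟩ := (Submodule.ne_bot_iff U).mp h0
  obtain ⟨i, hi⟩ := DFunLike.ne_iff.mp ((map_ne_zero_iff _ b.repr.injective).mpr w0)
  obtain ⟨x, hx⟩ := exists_tm b (W_unit ω ((1, 0) : Z3 × Z3))
  obtain ⟨z, hz⟩ := exists_tm b (W_unit ω ((0, 1) : Z3 × Z3))
  have x1 : ∀ j, x (b j) = b (j + 1) := fun j => b.repr.injective (Finsupp.ext fun l => by
    simp [← tm_apply, hx, W, mo_apply, Finsupp.single_apply, eq_comm])
  have z1 : ∀ w j, b.repr (z w) j = ch ω j * b.repr w j := fun w j => by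
    rw [← tm_vec, hz]; simp [W, mo_apply, mulVec, dotProduct]
  have a1 : b i ∈ U := by
    have := add_mem (add_mem hw (U.smul_mem (ch ω (-i)) (h _ _ hz _ hw)))
      (U.smul_mem (ch ω i) (h _ _ hz _ (h _ _ hz _ hw)))
    rwa [show _ + _ + _ = (3 * b.repr w i) • b i from b.repr.injective (Finsupp.ext fun l => by
      have := ch_sum ω (l - i)
      simp only [map_add, map_smul, Finsupp.add_apply, Finsupp.smul_apply, z1, smul_eq_mul, Basis.repr_self,
        Finsupp.single_apply, ← mul_assoc, ← ch_add]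
      rw [show -i + l = l - i by ring, show i + (l + l) = -(l - i) by
        rcases z3c i with rfl | rfl | rfl <;> rcases z3c l with rfl | rfl | rfl <;> rfl]
      by_cases e : i = l
      · subst e; simp; ring
      · rw [if_neg (sub_ne_zero.mpr (Ne.symm e))] at this
        rw [if_neg e]; linear_combination b.repr w l * this), U.smul_mem_iff (mul_ne_zero (om_three ω) hi)] at this
  have a2 := x1 i ▸ h _ _ hx _ a1
  have a3 := x1 _ ▸ h _ _ hx _ a2
  refine top_le_iff.mp (b.span_eq.ge.trans (Submodule.span_le.mpr ?_))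
  rintro _ ⟨j, rfl⟩
  have : j = i ∨ j = i + 1 ∨ j = i + 1 + 1 := by
    rcases z3c i with rfl | rfl | rfl <;> rcases z3c j with rfl | rfl | rfl <;> decide
  rcases this with rfl | rfl | rfl <;> assumption

theorem qs_of {G : Type*} [Group G] (f : G →* Matrix Z3 Z3 F) {S : Matrix Z3 Z3 F → Prop} (hS : ∀ s, S s ↔ ∃ g, f g = s)
    (hc : commutator G = ⊤) {w : G} (hw : f w = W ω (1, 0)) (hn : ∀ N : Subgroup G, N.Normal → w ∈ N → N = ⊤) :
    QS ω S := fun K K' L h1 h2 h3 n1 n2 w1 w2 H s hs => by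
  have e : ∀ g, f g * f g⁻¹ = 1 := fun g => by rw [← map_mul, mul_inv_cancel, map_one]
  let sb : ∀ {K : Matrix Z3 Z3 F → Prop}, MG K → Subgroup G := fun {K} h =>
    { carrier := {g | K (f g)}
      one_mem' := show K _ from (map_one f).symm ▸ h.one
      mul_mem' := fun {g k} hg hk => show K _ from (map_mul f g k).symm ▸ h.mul hg hk
      inv_mem' := fun {g} hg => h.inv' hg (e g) }
  have a : ∀ {K : Matrix Z3 Z3 F → Prop} (h : MG K), (∀ s s' k, S s → s * s' = 1 → K k → K (s * k * s')) →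
      K (W ω (1, 0)) → ∀ g, K (f g) := fun {K} h n w1 g => (hn (sb h) ⟨fun k hk g => show K _ by
    rw [map_mul, map_mul]; exact n _ _ _ ((hS _).mpr ⟨g, rfl⟩) (e g) hk⟩ (hw.symm ▸ w1 : K (f w))).ge trivial
  obtain ⟨g, rfl⟩ := (hS s).mp hs
  exact (show commutator G ≤ sb h3 from Subgroup.commutator_le.mpr fun x _ y _ => show L _ by
    rw [commutatorElement_def, map_mul, map_mul, map_mul]
    exact H _ _ _ _ (a h1 n1 w1 x) (a h2 n2 w2 y) (e x) (e y)) (hc.ge trivial)

theorem det_W3 : (W ω ((1, 0) : Z3 × Z3)).det = 1 := by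
  rw [det3]; simp +decide [W, mo_apply]

theorem det_dg {μ : F} (h : μ ≠ 0) : (mo id (v3 μ μ⁻¹ 1)).det = 1 := by
  rw [det3]; simp +decide [mo_apply, h]

theorem normal_top {G : Type*} [Group G] (hc : commutator G = ⊤) [IsSimpleGroup (G ⧸ Subgroup.center G)]
    {N : Subgroup G} (hN : N.Normal) {w : G} (hw : w ∈ N) (h : w ∉ Subgroup.center G) : N = ⊤ := by
  rcases (hN.map _ (QuotientGroup.mk'_surjective (Subgroup.center G))).eq_bot_or_eq_top with e | e
  · exact absurd ((QuotientGroup.eq_one_iff w).mp (e.le ⟨w, hw, rfl⟩)) h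
  refine top_le_iff.mp (hc.ge.trans (Subgroup.commutator_le.mpr fun x _ y _ => ?_))
  obtain ⟨n, hn, e1⟩ := e.ge (Subgroup.mem_top (x : G ⧸ Subgroup.center G))
  have := Subgroup.mem_center_iff.mp (QuotientGroup.eq.mp e1)
  rw [show x = n * (n⁻¹ * x) by group, commutatorElement_def, mul_assoc n, ← this y, show n * (y * (n⁻¹ * x)) *
    (n * (n⁻¹ * x))⁻¹ * y⁻¹ = n * (y * n⁻¹ * y⁻¹) by group]
  exact mul_mem hn (hN.conj_mem _ (inv_mem hn) y)

theorem ty_SL [Finite F] (h2 : (2 : F) ≠ 0) (hf : ∀ c : F, ∃ n : ℕ, c = n) :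
    TY ω (fun _ => True) (fun s => s.det = 1) (· ≠ 0) := by
  refine ⟨fun H h hN _ => ?_, fun μ h => det_dg h, det_z3, fun e => absurd e h2⟩
  by_cases NT : ∀ g, H g → (g - 1) * (g - 1) = 0 → g = 1
  · exact Or.inl fun g hg => (tw_of_nt h hN h2 NT).nm h hN hg
  push Not at NT
  obtain ⟨g, g1, g2, g3⟩ := NT
  let b := Pi.basisFun F Z3
  obtain ⟨g, rfl⟩ := exists_tm b (h.unit g1)
  have h3 : finrank F (Z3 → F) = 3 := by simp
  obtain ⟨v, φ, v0, φ0, a1, a2⟩ := rank1 h3 g2 g3
  have := sl_of_tr h3 (M := h.le b) (fun v φ c H => by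
    obtain ⟨n, rfl⟩ := hf c
    induction n with
    | zero => simpa using TR.zero_right v
    | succ n ih => simpa [add_smul] using ih.add_right H)
    (fun U hU => irr3 (ω := ω) (b := b) U fun e g hg => hU g (show H _ from hg ▸ hN _ (nm_W e))) ⟨a1, g, g1, a2⟩ v0 φ0
  refine Or.inr ⟨fun s hs => ?_, ?_, -1, by simp, fun e => h2 (by linear_combination -e)⟩
  · obtain ⟨s, rfl⟩ := exists_tm b ((isUnit_iff_isUnit_det s).mpr (by simp [hs]))
    exact this (mem_SLV.mpr (tm_det b s ▸ hs))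
  · have := PSL_simple_of_three_le (F := F) (ι := Z3) (by simp)
    refine qs_of SpecialLinearGroup.coeMonoidHom (fun s => ⟨fun h => ⟨⟨s, h⟩, rfl⟩, fun ⟨g, e⟩ => e ▸ g.2⟩)
      (commutator_SL_eq_top (by simp)) (w := ⟨_, det_W3⟩) rfl fun N hN hw =>
      normal_top (commutator_SL_eq_top (by simp)) hN hw fun e => ?_
    obtain ⟨r, -, hr⟩ := Matrix.SpecialLinearGroup.mem_center_iff.mp e
    simpa [W, mo_apply] using congrFun₂ hr 1 0

end Cfsg.Agent.H12.T3
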