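import Mathlib
import Cfsg.Agent.H12.T3K

/-!
The three-dimensional base case for unitary groups.
-/

set_option autoImplicit false

namespace Cfsg.Agent.H12.T3

open Module Matrix

variable {F : Type*} [Field F] {ω : F} [Om3 ω] {σ : F →+* F}

/-- the standard skew-hermitian form -/
def sB (σ : F →+* F) (κ : F) : (Z3 → F) →ₛₗ[σ] (Z3 → F) →ₗ[F] F :=
  LinearMap.mk₂'ₛₗ σ (RingHom.id F) (fun x y => κ * ∑ i, σ (x i) * y i) (by intros; simp [sum_z3]; ring)
    (by intros; simp [sum_z3]; ring) (by intros; simp [sum_z3]; ring) (by intros; simp [sum_z3]; ring)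

theorem ob_sB (h1 : ∀ a, σ (σ a) = a) (hσ : σ ≠ RingHom.id F) (h2 : (2 : F) ≠ 0) {κ : F} (k0 : κ ≠ 0) (k1 : σ κ = -κ) :
    OB (sB σ κ) (Pi.basisFun F Z3) κ := by
  have a : ∀ x y, sB σ κ y x = -σ (sB σ κ x y) := fun x y => by simp only [sB, LinearMap.mk₂'ₛₗ_apply, sum_z3, map_add, map_mul, h1, k1]; ring
  refine ⟨⟨h1, a, fun x h => funext fun i => ?_, fun x => ⟨sB σ κ x x / 2, ?_⟩⟩, k0, fun i j => ?_, hσ⟩
  · simpa [sB, k0, Pi.single_apply] using h (Pi.single i 1)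
  · rw [map_div₀, map_ofNat, ← neg_neg (σ _), ← a]; field_simp; ring
  · simp [sB, Pi.single_apply, eq_comm]

/-- the matrix of an automorphism, as a homomorphism -/
noncomputable def tmH {V A : Type*} [AddCommGroup V] [Module F V] [Fintype A] [DecidableEq A] (b : Basis A F V) :
    (V ≃ₗ[F] V) →* Matrix A A F := ⟨⟨tm b, tm_one b⟩, tm_mul b⟩

theorem ch_norm (hω : σ ω = ω ^ 2) (k : Z3) : σ (ch ω k) * ch ω k = 1 := by
  rw [ch, map_pow, hω, ← mul_pow, ← pow_succ, om_cube, one_pow]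

theorem un_W {A : Type} [AddCommGroup A] [Module Z3 A] [Fintype A] [DecidableEq A] [Dt A] (hω : σ ω = ω ^ 2)
    (e : A × A) : Un σ 1 (W ω e) := (un_mo (add_left_injective _)).mpr fun _ => ch_norm hω _

theorem base_odd [Finite F] (h1 : ∀ a, σ (σ a) = a) (hσ : σ ≠ RingHom.id F) (h2 : (2 : F) ≠ 0)
    (hf : ∀ c, σ c = c → ∃ n : ℕ, c = n) (hω : σ ω = ω ^ 2) {H : Matrix Z3 Z3 F → Prop} (h : MG H)
    (hN : ∀ g, Nm ω g → H g) (hU : ∀ g, H g → ∃ c, Un σ c g) : (∀ g, H g → Nm ω g) ∨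
      ((∀ s, s.det = 1 ∧ Un σ 1 s → H s) ∧ QS ω fun s => s.det = 1 ∧ Un σ 1 s) := by
  by_cases NT : ∀ g, H g → (g - 1) * (g - 1) = 0 → g = 1
  · exact Or.inl fun g hg => (tw_of_nt h hN h2 NT).nm h hN hg
  push Not at NT
  obtain ⟨g, g1, g2, g3⟩ := NT
  obtain ⟨κ, k0, k1⟩ := exists_skew hσ h1
  have O := ob_sB h1 hσ h2 k0 k1
  have D := O.sd
  generalize Pi.basisFun F Z3 = b at O
  obtain ⟨c, hc⟩ := hU g g1
  obtain rfl : c = 1 := by
    have a1 : g.trace = 3 := by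
      have := (isNilpotent_trace_of_isNilpotent ⟨2, (pow_two _).trans g2⟩).eq_zero
      rw [trace_sub, trace_one] at this
      simpa [sub_eq_zero] using this
    have a2 : (g.map σ)ᵀ = c • (2 • 1 - g) := by
      have := congrArg (· * (2 • 1 - g)) hc
      simpa only [Matrix.mul_assoc, show g * (2 • 1 - g) = 1 by rw [eq_comm, ← sub_eq_zero, ← g2]; noncomm_ring,
        smul_mul, Matrix.one_mul, Matrix.mul_one] using this
    have := congrArg trace a2
    rw [trace_transpose, ← AddMonoidHom.map_trace, trace_smul, trace_sub, trace_smul, trace_one, a1] at this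
    exact mul_left_cancel₀ (om_three ω) (by simp [map_ofNat] at this; linear_combination -this)
  obtain ⟨g, rfl⟩ := exists_tm b (h.unit g1)
  have h3 : finrank F (Z3 → F) = 3 := by simp
  obtain ⟨v, φ, v0, φ0, a1, a2⟩ := rank1 h3 g2 g3
  obtain ⟨a3, c, c1, c2, c3⟩ := exists_tv D (g := ⟨g, (un_mem O).mp hc⟩) v0 φ0 a1 a2
  have := su_of_is h3 D hσ h2 hf (M := (h.le b).subgroupOf _) (fun U hU => irr3 (ω := ω) (b := b) U fun e g hg =>
    hU ⟨g, (un_mem O).mp (hg ▸ un_W hω e)⟩ (show H (tm b g) from hg ▸ hN _ (nm_W e))) (IS.of_fix a3 fun d hd => by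
      obtain ⟨n, hn⟩ := hf (d / c) (by rw [map_div₀, hd, c1])
      rw [show d = n * c by rw [← hn]; field_simp]
      clear hn
      induction n with
      | zero => simp [tv_zero D]
      | succ n ih =>
        rw [Nat.cast_succ, add_mul, one_mul, ← tv_mul D a3 (by simp [c1]) c1]
        exact mul_mem ih (c3 ▸ g1)) v0
  have hT : TH (sB σ κ) := Or.inl ⟨-1, by simp, by simp, fun e => h2 (by linear_combination -e)⟩
  have hS : ∀ s, s.det = 1 ∧ Un σ 1 s ↔ ∃ g : SUG (sB σ κ), tm b g.1.1 = s := fun s => ⟨fun ⟨s1, s2⟩ => by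
    obtain ⟨s, rfl⟩ := exists_tm b ((isUnit_iff_isUnit_det s).mpr (by simp [s1]))
    exact ⟨⟨⟨s, (un_mem O).mp s2⟩, mem_SUG.mpr (tm_det b s ▸ s1)⟩, rfl⟩, by
    rintro ⟨g, rfl⟩; exact ⟨(tm_det b _).trans (mem_SUG.mp g.2), (un_mem O).mpr g.1.2⟩⟩
  refine Or.inr ⟨fun s hs => ?_, ?_⟩
  · obtain ⟨s, rfl⟩ := (hS s).mp hs
    exact this s.2
  · obtain ⟨w, hw⟩ := (hS _).mp ⟨det_W3 (ω := ω), un_W hω _⟩
    have hc := D.commutator_SUG_of_ne D.ns hT hσ h3.ge
    refine qs_of ((tmH b).comp ((UG _).subtype.comp (SUG _).subtype)) hS hc hw fun N hN hw' => top_le_iff.mp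
      (hc.ge.trans (D.commutator_le_of_normal D.ns (by omega) (D.TG_eq_SUG D.ns hT) fun e => ?_))
    obtain ⟨r, hr⟩ := (D.mem_center_SUG_iff D.ns (by omega)).mp (e hw')
    simpa [hw, tm_one, W, mo_apply] using congrFun₂ (tm_smul (b := b) (k := 1) hr) 1 0

theorem four_of_two (h1 : ∀ a, σ (σ a) = a) (h2 : (2 : F) = 0) (hf : ∀ c, σ c = c → ∃ n : ℕ, c = n) :
    (∀ c, σ c = c → c = 0 ∨ c = 1) ∧ ∀ x, x ≠ 0 → σ x = x ^ 2 ∧ x ^ 3 = 1 := by
  have a : ∀ c, σ c = c → c = 0 ∨ c = 1 := fun c hc => by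
    obtain ⟨n, rfl⟩ := hf c hc
    rw [← Nat.div_add_mod n 2]
    rcases Nat.mod_two_eq_zero_or_one n with e | e <;> simp [e, h2]
  refine ⟨a, fun x hx => ?_⟩
  have a1 := (a (σ x * x) (by simp [h1, mul_comm])).resolve_left (by simp [hx])
  have a2 := a (σ x + x) (by simp [h1, add_comm])
  generalize σ x = y at a1 a2
  rcases a2 with e | e <;> grind

theorem tw_two (h1 : ∀ a, σ (σ a) = a) (h2 : (2 : F) = 0) (hf : ∀ c, σ c = c → ∃ n : ℕ, c = n)
    {H : Matrix Z3 Z3 F → Prop} (hU : ∀ g, H g → ∃ c, Un σ c g) : Tw ω H := fun v b hb hg => by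
  obtain ⟨a1, a2⟩ := four_of_two h1 h2 hf
  obtain ⟨c, hc⟩ := hU _ hg
  have hω := (a2 ω (om_ne_zero ω)).1
  have sq : ∀ x, σ x = x ^ 2 := fun x => by
    by_cases hx : x = 0
    · simp [hx]
    · exact (a2 x hx).1
  set π := vecMulVec v b with hπ
  have p : π * π = π := by rw [hπ, vecMulVec_mul_vecMulVec, hb, one_smul]
  have e1 : (1 + (ω - 1) • π) * (1 + (ω ^ 2 - 1) • π) = 1 := by
    simp only [mul_add, add_mul, mul_one, one_mul, smul_mul, Matrix.mul_smul, p, smul_smul]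
    match_scalars
    · rfl
    · linear_combination om_cube ω
  have e2 : 1 + (ω ^ 2 - 1) • (π.map σ)ᵀ = c • (1 + (ω ^ 2 - 1) • π) := by
    have := congrArg (· * (1 + (ω ^ 2 - 1) • π)) hc
    simp only [Matrix.mul_assoc, e1, Matrix.mul_one, smul_mul, Matrix.one_mul] at this
    rw [← this]
    ext i j; simp [one_apply, hω, eq_comm, apply_ite σ]
  obtain rfl : c = 1 := by
    rcases a1 c (by
      have := congrFun₂ hc 0 0
      simp only [mul_apply, transpose_apply, map_apply, Matrix.smul_apply, one_apply_eq, smul_eq_mul, mul_one] at this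
      rw [← this]; simp only [map_sum, map_mul, h1, mul_comm]) with rfl | rfl
    · have := congrArg trace e2
      rw [trace_add, trace_smul, trace_transpose, ← AddMonoidHom.map_trace, hπ, trace_vecMulVec, dotProduct_comm, hb] at this
      exact absurd (pow_eq_zero_iff two_ne_zero |>.mp (by simp at this; linear_combination this - h2)) (om_ne_zero ω)
    · rfl
  have e3 : ∀ i j, (v j * b i) ^ 2 = v i * b j := fun i j => by
    have := congrFun₂ e2 i j
    simp only [one_mul, Matrix.add_apply, Matrix.smul_apply, add_right_inj, smul_eq_mul,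
      mul_right_inj' (sub_ne_zero.mpr (om_sq_ne_one ω))] at this
    rw [← sq]; exact this
  have e4 : ∀ j, (v j = 0 ∧ b j = 0) ∨ ∃ k, v j = ch ω k ∧ b j = ch ω (-k) := fun j => by
    obtain ⟨i, -, hi⟩ := Finset.exists_ne_zero_of_sum_ne_zero (hb.trans_ne one_ne_zero)
    by_cases e : v j = 0
    · exact Or.inl ⟨e, by simpa [e, right_ne_zero_of_mul hi] using e3 i j⟩
    obtain ⟨k, hk⟩ := exists_ch ω (a2 _ e).2
    have : b j ≠ 0 := fun e' => by simpa [e, e', left_ne_zero_of_mul hi] using e3 i j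
    refine Or.inr ⟨k, hk, mul_left_cancel₀ e ?_⟩
    rw [mul_left_cancel₀ (mul_ne_zero e this) ((pow_two _).symm.trans ((e3 j j).trans (mul_one _).symm)), hk,
      mul_comm, ch_neg_mul]
  simp only [pj_xs, hπ]
  rw [dot_z3] at hb
  have s : ∀ j k, v j = ch ω k → b j = ch ω (-k) → (∀ i, i ≠ j → v i = 0 ∧ b i = 0) →
      ∃ y i, vecMulVec v b = vecMulVec (su ω y i) (sa ω y i) := fun j k c1 c2 c3 => ⟨none, j, by
    ext i l
    by_cases e : i = j <;> by_cases e' : l = j <;>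
      simp [vecMulVec_apply, su, sa, Pi.single_apply, e, e', c1, c2, c3, mul_comm (ch ω k), ch_neg_mul]⟩
  have o : (1 : F) + 1 ≠ 1 := by simp
  rcases e4 0 with ⟨x0, y0⟩ | ⟨k0, x0, y0⟩ <;> rcases e4 1 with ⟨x1, y1⟩ | ⟨k1, x1, y1⟩ <;>
    rcases e4 2 with ⟨x2, y2⟩ | ⟨k2, x2, y2⟩ <;> simp only [x0, x1, x2, y0, y1, y2, ch_neg_mul, mul_zero, zero_add,
      add_zero, zero_ne_one, o] at hb
  · exact s 2 _ x2 y2 fun i hi => by rcases z3c i with rfl | rfl | rfl <;> simp_all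
  · exact s 1 _ x1 y1 fun i hi => by rcases z3c i with rfl | rfl | rfl <;> simp_all
  · exact s 0 _ x0 y0 fun i hi => by rcases z3c i with rfl | rfl | rfl <;> simp_all
  · refine ⟨some (k0 + k1 + k2), k1 - k2, ?_⟩
    ext i l
    rcases z3c i with rfl | rfl | rfl <;> rcases z3c l with rfl | rfl | rfl <;>
      simp only [vecMulVec_apply, su, sa, show (3 : F)⁻¹ = 1 by rw [inv_eq_one]; linear_combination h2, one_smul, v3_0,
        v3_1, v3_2, x0, x1, x2, y0, y1, y2, pow_two, ← ch_add, mul_one, one_mul, add_neg_cancel, ch_zero] <;>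
      ((try rw [← ch_zero ω]); congr 1; clear * -; revert k0 k1 k2; decide)

theorem ty_SU [Finite F] (h1 : ∀ a, σ (σ a) = a) (hσ : σ ≠ RingHom.id F) (hf : ∀ c, σ c = c → ∃ n : ℕ, c = n)
    (hω : σ ω = ω ^ 2) : TY ω (fun g => ∃ c, Un σ c g) (fun s => s.det = 1 ∧ Un σ 1 s) fun a => σ a * a = 1 := by
  refine ⟨fun H h hN hU => ?_, fun μ h => ⟨det_dg (right_ne_zero_of_mul_eq_one h), (un_mo fun _ _ => id).mpr fun j => ?_⟩,
    ⟨det_z3, (un_mo neg_injective).mpr (by simp)⟩,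
    fun e μ h => ((four_of_two h1 e hf).2 μ (right_ne_zero_of_mul_eq_one h)).2⟩
  · by_cases h2 : (2 : F) = 0
    · exact Or.inl fun g hg => (tw_two h1 h2 hf hU).nm h hN hg
    · exact (base_odd h1 hσ h2 hf hω h hN hU).imp_right fun H =>
        ⟨H.1, H.2, -1, by simp, fun e => h2 (by linear_combination -e)⟩
  · rcases z3c j with rfl | rfl | rfl <;> simp [h, ← mul_inv]

omit [Om3 ω]

theorem Un.of_bd {r : F} {a b c : Matrix Z3 Z3 F} (h : Un σ r (bd a b c)) : Un σ r a := by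
  rw [Un, show ((bd a b c).map σ)ᵀ = bd (a.map σ)ᵀ (b.map σ)ᵀ (c.map σ)ᵀ from by
    ext i j; simp only [transpose_apply, map_apply, bd_apply, eq_comm (a := j.2)]
    split_ifs with e <;> simp_all, bd_mul, ← bd_one, smul_bd] at h
  exact (bd_inj h).1

theorem Un.res {r : F} {g : Matrix Z9 Z9 F} (h : Un σ r g) (e : g * tt F = tt F * g) : Un σ r (res g) := by
  rw [Un, show ((T3.res g).map σ)ᵀ = T3.res (g.map σ)ᵀ from by
    ext i j; simp [T3.res, show g (j, 1) (i, 2) = g (j, 2) (i, 1) from comm_tt.mp e (j, 1) (i, 1)], ← res_mul e, h,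
    res_smul, res_one]

end Cfsg.Agent.H12.T3
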