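import Mathlib
import Cfsg.Agent.H12.T3L
import Cfsg.Agent.H12.PxM

/-!
An absolutely irreducible extraspecial 3-group in dimension nine has the standard matrix form.
-/

set_option autoImplicit false

namespace Cfsg.Agent.H12.T3

open Module Matrix
open scoped commutatorElement

theorem comm_center {G : Type*} [Group G] [Finite G] (h : IsPGroup 3 G)
    (hs : ∀ A : Subgroup G, A.Characteristic → IsMulCommutative A → IsCyclic A) (g k : G) :
    ⁅g, k⁆ ∈ Subgroup.center G := by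
  have := Fact.mk Nat.prime_three
  obtain ⟨E, C, h1, h2, h3, h4⟩ := S3762.result h hs
  have hC : IsCyclic C := h4.elim id fun h => absurd h.1 (by decide)
  have cen : ∀ z, (∀ e ∈ E, e * z = z * e) → (∀ c ∈ C, c * z = z * c) → z ∈ Subgroup.center G := fun z a1 a2 =>
    Subgroup.mem_center_iff.mpr fun g => Subgroup.mem_centralizer_singleton_iff.mp (h2.ge.trans (sup_le
      (fun e he => Subgroup.mem_centralizer_singleton_iff.mpr (a1 e he))
      fun e he => Subgroup.mem_centralizer_singleton_iff.mpr (a2 e he)) (Subgroup.mem_top g))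
  have c1 : C ≤ Subgroup.center G := fun z hz => cen z (fun e he => h1 e he z hz) fun c hc =>
    congrArg Subtype.val (hC.commGroup.mul_comm ⟨c, hc⟩ ⟨z, hz⟩)
  have d : ∀ g, ∃ e ∈ E, ∃ z ∈ Subgroup.center G, e * z = g := fun g =>
    Subgroup.mem_sup_of_normal_right.mp ((sup_le_sup_left c1 E).trans' h2.ge trivial : g ∈ E ⊔ Subgroup.center G)
  obtain ⟨e, he, z, hz, rfl⟩ := d g
  obtain ⟨f, hf, w, hw, rfl⟩ := d k
  rw [show ⁅e * z, f * w⁆ = ⁅e, f⁆ by
    rw [commutatorElement_def, commutatorElement_def, mul_assoc e z, ← Subgroup.mem_center_iff.mp hz (f * w),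
      show e * (f * w * z) * (e * z)⁻¹ * (f * w)⁻¹ = e * f * (w * e⁻¹) * w⁻¹ * f⁻¹ by group,
      ← Subgroup.mem_center_iff.mp hw]; group]
  rcases h3 with rfl | ⟨⟨-, -, a2⟩, -⟩
  · simp [Subgroup.mem_bot.mp he]
  · have : ⁅(⟨e, he⟩ : E), (⟨f, hf⟩ : E)⁆ ∈ Subgroup.center E :=
      a2 ▸ Subgroup.commutator_mem_commutator trivial trivial
    exact cen _ (fun x hx => congrArg Subtype.val (Subgroup.mem_center_iff.mp this ⟨x, hx⟩))
      fun c hc => (h1 _ (⁅(⟨e, he⟩ : E), (⟨f, hf⟩ : E)⁆).2 c hc).symm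

variable {F V : Type*} [Field F] [AddCommGroup V] [Module F V] {ω : F} [Om3 ω] {R : Subgroup (V ≃ₗ[F] V)}
  {g k x y : V ≃ₗ[F] V} {s u : Z3}

/-- commutation up to a cube root of unity -/
def Cm (ω : F) (u : Z3) (g k : V ≃ₗ[F] V) : Prop := ∀ v, g (k v) = ch ω u • k (g v)

omit [Om3 ω] in
theorem Cm.refl (g : V ≃ₗ[F] V) : Cm ω 0 g g := fun v => by simp

theorem Cm.symm (h : Cm ω u g k) : Cm ω (-u) k g := fun v => by rw [h, smul_smul, ch_neg_mul, one_smul]

theorem Cm.symm0 (h : Cm ω 0 g k) : Cm ω 0 k g := neg_zero (G := Z3) ▸ h.symm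

theorem Cm.mul (h : Cm ω u g k) (h' : Cm ω s g x) : Cm ω (u + s) g (k * x) := fun v => by
  rw [LinearEquiv.mul_apply, h, h', map_smul, smul_smul, ← ch_add, LinearEquiv.mul_apply]

theorem Cm.pow (h : Cm ω u g k) (n : ℕ) : Cm ω (n * u) g (k ^ n) := by
  induction n with
  | zero => intro v; simp
  | succ n ih => rw [pow_succ, Nat.cast_succ, add_mul, one_mul]; exact ih.mul h

theorem Cm.uniq [Nontrivial V] (h : Cm ω u g k) (h' : Cm ω s g k) : u = s := by
  obtain ⟨v, hv⟩ := exists_ne (0 : V)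
  exact ch_inj ω (smul_left_injective F (show k (g v) ≠ 0 by simpa) ((h v).symm.trans (h' v)))

theorem Cm.fix (h : Cm ω u y x) (hu : u ≠ 0) (h' : Cm ω s y g) : ∃ n : ℕ, Cm ω 0 y (g * x ^ n) :=
  ⟨(-s * u).val, by
    have := h'.mul (h.pow (-s * u).val)
    rwa [ZMod.natCast_zmod_val, show s + -s * u * u = 0 by clear * - hu; revert s u; decide] at this⟩

theorem Cm.one (h : Cm ω u y x) (hu : u ≠ 0) : ∃ n : ℕ, Cm ω 1 y (x ^ n) :=
  ⟨u.val, by
    have := h.pow u.val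
    rwa [ZMod.natCast_zmod_val, show u * u = 1 by clear * - hu; revert u; decide] at this⟩

theorem exists_fix (p : Submodule F V) (h0 : p ≠ ⊥) (hx : ∀ v ∈ p, x v ∈ p) (hy : ∀ v ∈ p, y v ∈ p) (h : Cm ω 1 y x)
    (h3 : y ^ 3 = 1) : ∃ v ∈ p, v ≠ 0 ∧ y v = v := by
  obtain ⟨w, hw, w0⟩ := (Submodule.ne_bot_iff p).mp h0
  have e : ∀ v, y (y (y v)) = v := LinearEquiv.congr_fun h3
  by_contra! H
  have a : ∀ w ∈ p, w + y w + y (y w) = 0 := fun w hw => by_contra fun c =>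
    H _ (add_mem (add_mem hw (hy _ hw)) (hy _ (hy _ hw))) c (by simp only [map_add, e]; abel)
  have a0 := a w hw
  have a1 := a _ (hx _ hw)
  have a2 := a _ (hx _ (hx _ hw))
  simp only [h _, map_smul, ← map_add, ch_one] at a1 a2
  simp only [← map_smul, ← map_add, EmbeddingLike.map_eq_zero_iff] at a1 a2
  simp only [map_smul, map_add] at a1 a2
  refine w0 ((smul_eq_zero_iff_right (om_three ω)).mp ?_)
  have := om_eq ω
  linear_combination (norm := module) a0 + a1 + a2 - this • y w - (ω ^ 2 - ω + 1) • this • y (y w)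

theorem proj_eig {ι : Type*} [Fintype ι] {b : ι → V} {f : ι → Z3} (h : ∀ a, y (b a) = ch ω (f a) • b a) {c : ι → F}
    (H : ∑ a, c a • b a = 0) (l : Z3) : ∑ a, (if f a = l then c a else 0) • b a = 0 := by
  have h1 := congrArg y H
  have h2 := congrArg y h1
  simp only [map_sum, map_smul, h, map_zero] at h1 h2
  refine (smul_eq_zero_iff_right (om_three ω)).mp ?_
  rw [show (0 : V) = 0 + ch ω (-l) • 0 + ch ω l • 0 by simp]
  nth_rw 1 [← H, ← h1, ← h2]
  simp only [Finset.smul_sum, ← Finset.sum_add_distrib, smul_smul, ← add_smul]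
  refine Finset.sum_congr rfl fun a _ => congrArg (· • b a) ?_
  have := ch_sum ω (f a - l)
  rw [show -(f a - l) = l + (f a + f a) by generalize f a = r; clear * -; revert r l; decide, sub_eq_neg_add, ch_add, ch_add,
    ch_add] at this
  by_cases e : f a = l
  · rw [if_pos (by simp [e])] at this; rw [if_pos e]; linear_combination -c a * this
  · rw [if_neg (by rwa [neg_add_eq_zero, eq_comm])] at this; rw [if_neg e]; linear_combination -c a * this

theorem pw_succ (h3 : x ^ 3 = 1) (i : Z3) (v : V) : x ((x ^ i.val) v) = (x ^ (i + 1).val) v := by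
  rw [← LinearEquiv.mul_apply, ← pow_succ', ZMod.val_add, ← pow_eq_pow_mod _ h3]; rfl

theorem Cm.eig (h : Cm ω u y x) {v : V} (hv : y v = ch ω s • v) (i : Z3) :
    y ((x ^ i.val) v) = ch ω (i * u + s) • (x ^ i.val) v := by
  rw [h.pow, hv, map_smul, smul_smul, ← ch_add, ZMod.natCast_zmod_val]

theorem tm_mo {A : Type*} [Fintype A] [DecidableEq A] {b : Basis A F V} {f : A → A} {d : A → F} :
    tm b g = mo f d ↔ ∀ j, g (b j) = d j • b (f j) :=
  ⟨fun h j => b.repr.injective (Finsupp.ext fun i => by simp [← tm_apply, h, mo_apply, Finsupp.single_apply, eq_comm]),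
    fun h => by ext i j; simp [tm_apply, h, mo_apply, Finsupp.single_apply, eq_comm]⟩

/-- the abstract hypotheses -/
structure A3 (ω : F) (R : Subgroup (V ≃ₗ[F] V)) : Prop where
  irr : ∀ U : Submodule F V, (∀ g ∈ R, ∀ w ∈ U, g w ∈ U) → U = ⊥ ∨ U = ⊤
  sch : ∀ g ∈ R, (∀ k ∈ R, Cm ω 0 g k) → ∃ c : F, ∀ v, g v = c • v
  comm : ∀ g ∈ R, ∀ k ∈ R, ∃ s, Cm ω s g k
  cube : ∀ g ∈ R, g ^ 3 = 1
  z : ∃ g ∈ R, ∀ v, g v = ω • v

/-- the standard form -/
structure MD (ω : F) (R : Subgroup (V ≃ₗ[F] V)) (b : Basis Z9 F V) : Prop where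
  of : ∀ g ∈ R, ∃ k e, tm b g = ch ω k • W ω e
  ex : ∀ e k, ∃ g ∈ R, tm b g = ch ω k • W ω e

theorem A3.pair (h : A3 ω R) {S : Subgroup (V ≃ₗ[F] V)} (hS : S ≤ R) (H : ¬ ∀ g ∈ S, ∀ k ∈ S, Cm ω 0 g k) :
    ∃ x ∈ S, ∃ y ∈ S, Cm ω 1 y x := by
  push Not at H
  obtain ⟨g, hg, k, hk, H⟩ := H
  obtain ⟨s, hs⟩ := h.comm g (hS hg) k (hS hk)
  obtain ⟨n, hn⟩ := hs.one (by rintro rfl; exact H hs)
  exact ⟨_, pow_mem hk n, g, hg, hn⟩

theorem A3.small [FiniteDimensional F V] (h : A3 ω R) (h9 : finrank F V = 9) {v : V} (v0 : v ≠ 0) (h3 : x ^ 3 = 1)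
    (H : ∀ g ∈ R, ∀ i : Z3, g ((x ^ i.val) v) ∈ Submodule.span F (Set.range fun i : Z3 => (x ^ i.val) v)) : False := by
  rcases h.irr (Submodule.span F (Set.range fun i : Z3 => (x ^ i.val) v)) fun g hg w hw =>
    (Submodule.span_le (p := (Submodule.span F _).comap (g : V →ₗ[F] V))).mpr
    (by rintro _ ⟨i, rfl⟩; exact H g hg i) hw with e | e
  · exact v0 (e.le (Submodule.subset_span ⟨0, rfl⟩))
  · have := finrank_range_le_card (R := F) fun i : Z3 => (x ^ i.val) v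
    rw [Set.finrank, e, finrank_top, h9] at this
    simp at this

theorem A3.exists_MD [FiniteDimensional F V] (h : A3 ω R) (h9 : finrank F V = 9) : ∃ b, MD ω R b := by
  have : Nontrivial V := Module.nontrivial_of_finrank_pos (R := F) (by omega)
  obtain ⟨x, hx, y, hy, c1⟩ := h.pair le_rfl fun H => by
    obtain ⟨v, v0⟩ := exists_ne (0 : V)
    refine h.small h9 v0 (one_pow 3) fun g hg i => ?_
    obtain ⟨c, hc⟩ := h.sch g hg (H g hg)
    exact hc _ ▸ Submodule.smul_mem _ c (Submodule.subset_span ⟨i, rfl⟩)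
  let S : Subgroup (V ≃ₗ[F] V) := R ⊓ Subgroup.centralizer {x, y}
  have hS : ∀ {g}, g ∈ S ↔ g ∈ R ∧ Cm ω 0 x g ∧ Cm ω 0 y g := by
    simp only [S, Subgroup.mem_inf, Subgroup.mem_centralizer_iff, Set.mem_insert_iff, Set.mem_singleton_iff,
      forall_eq_or_imp, forall_eq]
    simp [Cm, LinearEquiv.ext_iff]
  obtain ⟨x', hx', y', hy', c2⟩ := h.pair (S := S) inf_le_left fun H => by
    have d : ∀ g ∈ R, ∃ m n : ℕ, g * x ^ m * y ^ n ∈ S := fun g hg => by
      obtain ⟨s, hs⟩ := h.comm y hy g hg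
      obtain ⟨m, hm⟩ := c1.fix one_ne_zero hs
      obtain ⟨s, hs⟩ := h.comm x hx _ (mul_mem hg (pow_mem hx m))
      obtain ⟨n, hn⟩ := c1.symm.fix (by decide) hs
      exact ⟨m, n, hS.mpr ⟨mul_mem (mul_mem hg (pow_mem hx m)) (pow_mem hy n), hn,
        by simpa using hm.mul ((Cm.refl y).pow n)⟩⟩
    obtain ⟨v, -, v0, hv⟩ := exists_fix ⊤ top_ne_bot (by simp) (by simp) c1 (h.cube y hy)
    refine h.small h9 v0 (h.cube x hx) fun g hg i => ?_
    obtain ⟨m, n, e⟩ := d _ (inv_mem hg)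
    obtain ⟨c, hc⟩ := h.sch _ e.1 fun k hk => by
      obtain ⟨s, hs⟩ := h.comm _ e.1 k hk
      obtain ⟨m', n', e'⟩ := d k hk
      have := (H _ e _ e').uniq ((hs.mul ((hS.mp e).2.1.symm0.pow m')).mul ((hS.mp e).2.2.symm0.pow n'))
      simp only [mul_zero, add_zero] at this
      exact this ▸ hs
    have a1 : ∀ w, c • g w = (x ^ m) ((y ^ n) w) := fun w => by rw [← map_smul, ← hc]; simp
    have c0 : c ≠ 0 := by rintro rfl; exact v0 (by simpa using hc v)
    rw [← Submodule.smul_mem_iff _ c0, a1]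
    have st : ∀ (g : V ≃ₗ[F] V) (U : Submodule F V), (∀ w ∈ U, g w ∈ U) → ∀ (n : ℕ), ∀ w ∈ U, (g ^ n) w ∈ U :=
      fun g U H n => by
        induction n with
        | zero => exact fun _ => id
        | succ n ih => exact fun w hw => by rw [pow_succ]; exact ih _ (H _ hw)
    refine st _ _ (fun w hw => ?_) _ _ (st _ _ (fun w hw => ?_) _ _ (Submodule.subset_span ⟨i, rfl⟩))
    · exact (Submodule.span_le (p := (Submodule.span F _).comap (x : V →ₗ[F] V))).mpr (by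
        rintro _ ⟨i, rfl⟩; exact Submodule.subset_span ⟨i + 1, (pw_succ (h.cube x hx) i v).symm⟩) hw
    · exact (Submodule.span_le (p := (Submodule.span F _).comap (y : V →ₗ[F] V))).mpr (by
        rintro _ ⟨i, rfl⟩
        rw [SetLike.mem_coe, Submodule.mem_comap, LinearEquiv.coe_coe, c1.eig (s := 0) (by simpa using hv) i]
        exact Submodule.smul_mem _ _ (Submodule.subset_span ⟨i, rfl⟩)) hw
  obtain ⟨hx', d1, d2⟩ := hS.mp hx'
  obtain ⟨hy', d3, d4⟩ := hS.mp hy'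
  obtain ⟨w, -, w0, hw⟩ := exists_fix ⊤ top_ne_bot (by simp) (by simp) c2 (h.cube _ hy')
  obtain ⟨v, v1, v0, v2⟩ := exists_fix (fx y') (fun e => w0 (e.le (mem_fx.mpr hw)))
    (fun v hv => by simp [mem_fx, d3.symm0 _, mem_fx.mp hv]) (fun v hv => by simp [mem_fx, d4.symm0 _, mem_fx.mp hv])
    c1 (h.cube _ hy)
  let f : Z9 → V := fun j => (x ^ j.1.val) ((x' ^ j.2.val) v)
  have e1 : ∀ j, y (f j) = ch ω j.1 • f j := fun j => by
    simpa using c1.eig (d2.eig (s := 0) (by simpa using v2) j.2) j.1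
  have e2 : ∀ j, y' (f j) = ch ω j.2 • f j := fun j => by
    simpa using d3.symm0.eig (c2.eig (s := 0) (by simpa using mem_fx.mp v1) j.2) j.1
  have li : LinearIndependent F f := Fintype.linearIndependent_iff.mpr fun c hc j => by
    have := proj_eig e2 (proj_eig e1 hc j.1) j.2
    rw [Finset.sum_eq_single j (fun i _ e => by
      split_ifs with a1 a2 <;> first | exact absurd (Prod.ext a2 a1) e | simp) (by simp)] at this
    simpa [f, v0] using this
  let b := basisOfLinearIndependentOfCardEqFinrank li (by simp [h9])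
  have hb : ∀ j, b j = f j := congrFun (coe_basisOfLinearIndependentOfCardEqFinrank li _)
  obtain ⟨z, hz, z1⟩ := h.z
  have ex : ∀ e k, ∃ g ∈ R, tm b g = ch ω k • W ω e := by
    let p : Z9 × Z9 → Prop := fun e => ∃ k, ∃ g ∈ R, tm b g = ch ω k • W ω e
    have p1 : ∀ e e', p e → p e' → p (e + e') := fun e e' ⟨k, g, g1, g2⟩ ⟨k', g', g3, g4⟩ =>
      ⟨k + k' + -Bf _ e e', _, mul_mem g1 g3, by
        rw [tm_mul, g2, g4, smul_mul, Matrix.mul_smul, W_mul, smul_smul, smul_smul, ← ch_add, ← ch_add]⟩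
    have q : ∀ e g, g ∈ R → (∀ j, g (f j) = ch ω (Dt.dot e.2 j + 2 * Dt.dot e.2 e.1) • f (j + e.1)) → p e :=
      fun e g hg H => ⟨0, g, hg, by simpa [W, tm_mo, hb] using H⟩
    intro e k
    obtain ⟨l, g, g1, g2⟩ : p e := by
      rw [show e = e.1.1 • ((1, 0), 0) + e.1.2 • ((0, 1), 0) + e.2.1 • (0, (1, 0)) + e.2.2 • (0, (0, 1)) by simp]
      refine p1 _ _ (p1 _ _ (p1 _ _ (z3_ind p1 (q _ x hx fun j => ?_) _) (z3_ind p1 (q _ x' hx' fun j => ?_) _))
        (z3_ind p1 (q _ y hy fun j => ?_) _)) (z3_ind p1 (q _ y' hy' fun j => ?_) _)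
      · simpa [f] using pw_succ (h.cube x hx) _ _
      · simp [f, (d1.symm0.pow _) _, pw_succ (h.cube x' hx')]
      · simpa using e1 j
      · simpa using e2 j
    refine ⟨z ^ (k - l).val * g, mul_mem (pow_mem hz _) g1, ?_⟩
    rw [tm_mul, g2, show tm b (z ^ _) = tm b z ^ _ from map_pow (tmH b) _ _, tm_smul (k := 1) z1, tm_one, smul_pow,
      one_pow, smul_mul, Matrix.one_mul, smul_smul, ← ch, ← ch_add, sub_add_cancel]
  refine ⟨b, fun g hg => ?_, ex⟩
  obtain ⟨e, c, -, hc⟩ := rz_of_fix (ω := ω) (tm_unit b g) fun e => by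
    obtain ⟨k, k1, k2⟩ := ex e 0
    obtain ⟨s, hs⟩ := h.comm g hg k k1
    rw [ch_zero, one_smul] at k2
    exact ⟨_, by rw [id, ← k2, ← tm_mul, ← tm_mul]; exact tm_smul hs⟩
  obtain ⟨k, rfl⟩ := exists_ch ω (smul_cancel isUnit_one (c := c ^ 3) (d := 1) (by
    rw [← W_cube ω e, ← smul_pow, ← hc, W_cube, one_smul, ← tm_one b, ← h.cube g hg]; exact (map_pow (tmH b) _ _).symm))
  exact ⟨k, e, hc⟩

variable {b : Basis Z9 F V}

theorem MD.conj (h : MD ω R b) (hg : Nm ω (tm b g)) (hk : k ∈ R) : g * k * g⁻¹ ∈ R := by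
  obtain ⟨l, e, a1⟩ := h.of k hk
  obtain ⟨f, c, -, hc⟩ := hg.conj (tm_inv b g) (a1 ▸ (rz_W e).smul (ch_ne ω l))
  rw [← tm_mul, ← tm_mul] at hc
  obtain ⟨s, rfl⟩ := exists_ch ω (smul_cancel isUnit_one (c := c ^ 3) (d := 1) (by
    rw [← W_cube ω f, ← smul_pow, ← hc, W_cube, one_smul, ← show tm b _ = tm b _ ^ 3 from map_pow (tmH b) _ _, conj_pow,
      tm_mul, tm_mul, show tm b _ = tm b _ ^ 3 from map_pow (tmH b) _ _, a1, smul_pow, ch_cube, W_cube, one_smul,
      Matrix.mul_one, tm_inv]))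
  obtain ⟨r, r1, r2⟩ := h.ex f s
  exact tm_inj (r2.trans hc.symm) ▸ r1

theorem MD.norm (h : MD ω R b) : g ∈ Subgroup.normalizer (R : Set (V ≃ₗ[F] V)) ↔ Nm ω (tm b g) := by
  refine ⟨fun H => nm_of_rz (tm_inv b g) fun e => ?_, fun H => Subgroup.mem_normalizer_iff.mpr fun k =>
    ⟨h.conj H, fun hk => by simpa [mul_assoc] using h.conj (mg_nm.inv' H (tm_inv b g)) hk⟩⟩
  obtain ⟨k, k1, k2⟩ := h.ex e 0
  obtain ⟨l, f, a⟩ := h.of _ ((Subgroup.mem_normalizer_iff.mp H k).mp k1)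
  rw [ch_zero, one_smul] at k2
  rw [← k2, ← tm_mul, ← tm_mul, a]
  exact (rz_W f).smul (ch_ne ω l)

theorem MD.ob {σ : F →+* F} {B : V →ₛₗ[σ] V →ₗ[F] F} (h : MD ω R b) (D : SD B) (hσ : σ ≠ RingHom.id F)
    (hω : σ ω = ω ^ 2) (hR : R ≤ UG B) : OB B b (B (b 0) (b 0)) := by
  have a : ∀ (e : Z9 × Z9) i j, B (b i) (b j) = ch ω (Dt.dot e.2 (j - i)) * B (b (i + e.1)) (b (j + e.1)) := fun e i j => by
    obtain ⟨g, g1, g2⟩ := h.ex e 0
    rw [ch_zero, one_smul, W, tm_mo] at g2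
    rw [← hR g1, g2, g2, LinearMap.map_smulₛₗ₂, map_smul, smul_eq_mul, smul_eq_mul, ← mul_assoc,
      eq_inv_of_mul_eq_one_left (ch_norm hω _), ← eq_inv_of_mul_eq_one_left (ch_neg_mul ω _), ← ch_add, map_sub]
    congr 2; ring
  have a1 : ∀ i j, B (b i) (b j) = if i = j then B (b 0) (b 0) else 0 := fun i j => by
    split_ifs with e
    · simpa [e] using a (-i, 0) i i
    · by_contra e'
      refine e (sub_eq_zero.mp (Dt.sep _ fun c => ch_eq_one ω (mul_right_cancel₀ e' ?_))).symm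
      simpa using (a (0, c) i j).symm
  refine ⟨D, fun e => b.ne_zero 0 (D.sep _ fun y => ?_), a1, hσ⟩
  rw [show B (b 0) = 0 from b.ext fun j => by rw [a1, e]; simp]; rfl

theorem sim_iso [Nontrivial V] {σ : F →+* F} {B : V →ₛₗ[σ] V →ₗ[F] F} (D : SD B) (hω : σ ω = ω ^ 2) (h : Sim B g)
    (h3 : g ^ 3 = 1) : g ∈ UG B := by
  obtain ⟨c, c0, hc⟩ := h
  obtain ⟨x, hx⟩ := exists_ne (0 : V)
  obtain ⟨y, hy⟩ := D.exists_ne hx
  have e : ∀ v, g (g (g v)) = v := LinearEquiv.congr_fun h3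
  obtain ⟨k, rfl⟩ := exists_ch ω (mul_right_cancel₀ hy (show c ^ 3 * B x y = 1 * B x y by
    rw [one_mul]; nth_rw 2 [← e x, ← e y]; rw [hc, hc, hc]; ring))
  have a : σ (ch ω k) = ch ω k := mul_right_cancel₀ (D.ne0 hy) (by
    have := D.σ_map (g x) (g y)
    rw [hc, hc, map_mul, D.σ_map] at this
    linear_combination -this)
  have a1 := ch_norm hω k
  rw [a, ← ch_add] at a1
  obtain rfl : k = 0 := by have := ch_eq_one ω a1; clear * - this; revert k; decide
  exact fun x y => by simpa using hc x y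

end Cfsg.Agent.H12.T3
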