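import Mathlib
import Cfsg.Agent.H12.UfD
import Cfsg.Agent.H12.DecD

/-!
Overgroups of the unitary monomial group in odd characteristic, and maximality of frame stabilisers.
-/

set_option autoImplicit false

namespace Cfsg.Agent.H12

open Module

variable {F V : Type*} [Field F] [AddCommGroup V] [Module F V] {σ : F →+* F}
  {B : V →ₛₗ[σ] V →ₗ[F] F} {M : Subgroup (UG B)} {ι : Type*} [Fintype ι] [DecidableEq ι]
  {b : Basis ι F V} {κ : F}

set_option synthInstance.maxSize 2000 in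
theorem s6_aux : ∀ a4 a5 : Fin 6, (a4 = 0 ∧ a5 = 1 ∨ a4 = 1 ∧ a5 = 0) → ∀ a0 a1 a2 a3 : Fin 6,
    let f := ![a0, a1, a2, a3, a4, a5]; (∀ x, f (f (f x)) = x) →
    ∀ b4 b5 : Fin 6, (b4 = 0 ∧ b5 = 2 ∨ b4 = 2 ∧ b5 = 0) → ∀ b0 b1 b2 b3 : Fin 6,
    let g := ![b0, b1, b2, b3, b4, b5]; (∀ x, g (g (g x)) = x) → (∀ x, f (g (g (f (g (g (f (g (g x)))))))) = x) →
    ∀ c4 c5 : Fin 6, (c4 = 0 ∧ c5 = 3 ∨ c4 = 3 ∧ c5 = 0) → ∀ c0 c1 c2 c3 : Fin 6,
    let k := ![c0, c1, c2, c3, c4, c5]; (∀ x, k (k (k x)) = x) → (∀ x, f (k (k (f (k (k (f (k (k x)))))))) = x) →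
    ¬ ∀ x, g (k (k (g (k (k (g (k (k x)))))))) = x := by
  decide +kernel

theorem s6 {f : Fin 3 → Equiv.Perm (Fin 6)} (h1 : ∀ i, f i ^ 3 = 1) (h2 : ∀ i j, (f i * (f j)⁻¹) ^ 3 = 1)
    (h3 : ∀ i x, x = 4 ∨ x = 5 → f i x = 0 ∨ f i x = ![1, 2, 3] i) : False := by
  have a1 : ∀ i, ![f i 0, f i 1, f i 2, f i 3, f i 4, f i 5] = f i := fun i => by ext x; fin_cases x <;> rfl
  have a2 : ∀ i x, f i (f i (f i x)) = x := fun i x => by simpa [pow_succ] using congrArg (· x) (h1 i)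
  have a3 : ∀ i j x, f i (f j (f j (f i (f j (f j (f i (f j (f j x)))))))) = x := fun i j x => by
    have := h2 i j
    rw [show (f j)⁻¹ = f j * f j from inv_eq_of_mul_eq_one_left (by rw [← h1 j, pow_succ, sq])] at this
    simpa [pow_succ] using congrArg (· x) this
  have a4 : ∀ i, f i 4 = 0 ∧ f i 5 = ![1, 2, 3] i ∨ f i 4 = ![1, 2, 3] i ∧ f i 5 = 0 := fun i => by
    have := (f i).injective.ne (show (4 : Fin 6) ≠ 5 by decide)
    have := h3 i 4 (Or.inl rfl); have := h3 i 5 (Or.inr rfl)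
    grind
  have := s6_aux _ _ (a4 0) (f 0 0) (f 0 1) (f 0 2) (f 0 3) (by simpa only [a1] using a2 0) _ _ (a4 1)
    (f 1 0) (f 1 1) (f 1 2) (f 1 3) (by simpa only [a1] using a2 1) (by simpa only [a1] using a3 0 1) _ _ (a4 2)
    (f 2 0) (f 2 1) (f 2 2) (f 2 3) (by simpa only [a1] using a2 2) (by simpa only [a1] using a3 0 2)
  exact this (by simpa only [a1] using a3 1 2)

theorem cube_or_five (hn : Fintype.card ι = 6) {π : Equiv.Perm ι} {m : ℕ} (h : π ^ (2 * m + 1) = 1) :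
    π ^ 3 = 1 ∨ ∃ a i, [a, π a, π (π a), π (π (π a)), π (π (π (π a))), i].Nodup ∧ π (π (π (π (π a)))) = a := by
  by_contra! H
  refine H.1 (Equiv.ext fun a => ?_)
  have a1 : Function.minimalPeriod π a ∣ 2 * m + 1 := Function.IsPeriodicPt.minimalPeriod_dvd (by
    rw [Function.IsPeriodicPt, Function.IsFixedPt, ← Equiv.Perm.coe_pow, h]; rfl)
  have a2 := Function.minimalPeriod_le_card (f := π) (x := a)
  have a3 := Function.isPeriodicPt_minimalPeriod π a
  have a4 := Function.iterate_injOn_Iio_minimalPeriod (f := π) (x := a)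
  have a5 : Function.minimalPeriod π a % 2 = 1 := Nat.odd_iff.mp (Odd.of_dvd_nat (odd_two_mul_add_one m) a1)
  obtain e | e | e : Function.minimalPeriod π a = 1 ∨ Function.minimalPeriod π a = 3 ∨
    Function.minimalPeriod π a = 5 := by omega
  · rw [e] at a3; simp [pow_succ, show π a = a from a3]
  · rw [e] at a3; exact a3
  rw [e] at a3 a4
  obtain ⟨i, -, hi⟩ := Finset.exists_mem_notMem_of_card_lt_card (t := Finset.univ)
    (s := {a, π a, π (π a), π (π (π a)), π (π (π (π a)))}) (Finset.card_le_five.trans_lt (by simp [hn]))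
  refine (H.2 a i ?_ a3).elim
  have b : ∀ {j k}, j < 5 → k < 5 → j ≠ k → π^[j] a ≠ π^[k] a := fun h1 h2 h3 e => h3 (a4 h1 h2 e)
  have := @b 0 1; have := @b 0 2; have := @b 0 3; have := @b 0 4
  simp_all [eq_comm (a := i)]

theorem pow_succ_mul_aux {G : Type*} [Group G] (s a : G) (m : ℕ) :
    (s * a) ^ (2 * m + 1) * s = (s * a) ^ m * s * a * ((s * a) ^ m * s) := by
  rw [mul_assoc _ s, ← pow_succ, ← mul_assoc, ← pow_add]; congr 2; ring

omit [Fintype ι] [DecidableEq ι] in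
theorem MPe.mon {x : V ≃ₗ[F] V} {π : Equiv.Perm ι} (h : MPe b x π) : Mon b x := fun i =>
  ⟨π i, (h i).imp fun _ => And.right⟩

omit [Fintype ι] in
theorem MPe.ne {x : V ≃ₗ[F] V} {π : Equiv.Perm ι} (h : MPe b x π) {i : ι} (hi : i ≠ π i) : x (b i) ≠ b i := fun e => by
  obtain ⟨c, -, hc⟩ := h i
  exact hi (eq_of_smul_basis (b := b) one_ne_zero (by rw [one_smul, ← hc, e]))

theorem MPe.four {x : V ≃ₗ[F] V} {π : Equiv.Perm ι} (h : MPe b x π) {U : Submodule F V} (h1 : finrank F U ≤ 2)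
    (h2 : ∀ v, x v - v ∈ U) {i j k l : ι} (H : i ≠ j ∧ i ≠ k ∧ i ≠ l ∧ j ≠ k ∧ j ≠ l ∧ k ≠ l)
    (h3 : ∀ r ∈ ({k, l} : Finset ι), π r ∈ ({i, j} : Finset ι)) {m : ℕ} (h4 : π ^ (2 * m + 1) = 1) : False := by
  have b9 : ∀ r ∈ ({k, l} : Finset ι), π (π r) ∈ ({k, l} : Finset ι) := fun r hr => by
    by_contra e'
    have d1 := h3 k (by simp); have d2 := h3 l (by simp); have d3 := h3 r hr
    have d4 := π.injective.ne_iff (x := π r) (y := r)
    have := h.tri h2 [k, l, π r] (fun x hx => h.ne (by grind)) (by grind)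
    simp at this; omega
  have c1 : ∀ n : ℕ, (π ^ (2 * n)) k ∈ ({k, l} : Finset ι) := fun n => by
    induction' n with n ih
    · simp
    · rw [mul_add, mul_one, add_comm, pow_add, sq]; exact b9 _ ih
  have := h3 _ (c1 m)
  rw [← Equiv.Perm.mul_apply, ← pow_succ', h4] at this
  simp [H.2.1.symm, H.2.2.2.1.symm] at this

theorem MPe.cube {x : V ≃ₗ[F] V} {π : Equiv.Perm ι} (h : MPe b x π) (hn : Fintype.card ι = 6) {m : ℕ}
    (h4 : π ^ (2 * m + 1) = 1) (h1 : ∃ U : Submodule F V, finrank F U ≤ 4 ∧ ∀ v, x v - v ∈ U)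
    (h2 : ∀ i, x (b i) = b i → ∃ U : Submodule F V, finrank F U ≤ 2 ∧ ∀ v, x v - v ∈ U) : π ^ 3 = 1 := by
  refine (cube_or_five hn h4).resolve_right fun ⟨a, i, b4, b5⟩ => ?_
  obtain ⟨U, b6, b7⟩ := h1
  simp only [List.nodup_cons, List.mem_cons, List.not_mem_nil, or_false, not_or] at b4
  by_cases e' : ∃ i, x (b i) = b i
  · obtain ⟨U', d1, d2⟩ := e'.elim h2
    have := h.tri d2 [a, π a, π (π a)] (fun x hx => h.ne (by grind)) (by simp; grind)
    simp at this; omega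
  · have d4 := fun y => π.injective.ne_iff (x := y) (y := i)
    have d5 := d4 a; have d6 := d4 (π a); have d7 := d4 (π (π a)); have d8 := d4 (π (π (π (π a))))
    have := h.tri b7 [a, π a, π (π a), π (π (π a)), i] (fun x _ e => e' ⟨x, e⟩) (by simp; grind)
    simp at this; omega

/-- The sign vector of a set of indices. -/
def sgn (F : Type*) [Field F] (S : Finset ι) (i : ι) : F := if i ∈ S then -1 else 1

omit [Fintype ι] in
theorem sgn_mul (S T : Finset ι) : sgn F S * sgn F T = sgn F (symmDiff S T) := by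
  ext i; by_cases a : i ∈ S <;> by_cases a' : i ∈ T <;> simp [sgn, a, a', Finset.mem_symmDiff]

omit [Fintype ι] [DecidableEq ι] in
theorem Dg.mul {g k : UG B} {s t : ι → F} (h : Dg b g s) (h' : Dg b k t) : Dg b (g * k) (s * t) := fun x i => by
  simp [h _ i, h' _ i, mul_assoc]

omit [Fintype ι] in
theorem Dg.apply {g : UG B} {s : ι → F} (h : Dg b g s) (i : ι) : g.1 (b i) = s i • b i :=
  b.ext_elem fun j => by rw [h]; by_cases e : j = i <;> simp [e]

omit [Fintype ι] in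
theorem Dg.mon {g : UG B} {s : ι → F} (h : Dg b g s) : Mon b g.1 := fun i => ⟨i, s i, h.apply i⟩

omit [Fintype ι] [DecidableEq ι] in
theorem Dg.ext {g k : UG B} {s : ι → F} (h : Dg b g s) (h' : Dg b k s) : g = k :=
  UG_ext fun x => b.ext_elem fun i => by rw [h, h']

theorem Dg.conj {g k : UG B} {s : ι → F} (h : Dg b g s) {π : Equiv.Perm ι} (hk : MPe b k.1 π) :
    Dg b (k * g * k⁻¹) fun i => s (π⁻¹ i) := fun x i => by
  refine LinearMap.congr_fun (b.ext (f₁ := b.coord i ∘ₗ (k * g * k⁻¹).1.toLinearMap)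
    (f₂ := s (π⁻¹ i) • b.coord i) fun j => ?_) x
  obtain ⟨c, c0, hc⟩ := hk.inv j
  obtain ⟨d, -, hd⟩ := hk (π⁻¹ j)
  have a1 : k.1.symm (b j) = c • b (π⁻¹ j) := hc
  have a2 : c • k.1 (b (π⁻¹ j)) = b j := by rw [← map_smul, ← a1, k.1.apply_symm_apply]
  simp only [LinearMap.comp_apply, LinearEquiv.coe_coe, UG_mul_apply, show (k⁻¹).1 (b j) = _ from a1, map_smul,
    h.apply, smul_comm c, a2]
  by_cases e : i = j <;> simp [e]

/-- Conjugates in `M` of the diagonal involutions of rank two. -/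
def CA (M : Subgroup (UG B)) (b : Basis ι F V) (c : UG B) : Prop :=
  ∃ k ∈ M, ∃ a ∈ M, ∃ P : Finset ι, P.card = 2 ∧ Dg b a (sgn F P) ∧ c = k * a * k⁻¹

omit [Fintype ι] in
theorem CA.mem {c : UG B} (h : CA M b c) : c ∈ M := by
  obtain ⟨k, a1, a, a2, -, -, -, rfl⟩ := h
  exact mul_mem (mul_mem a1 a2) (inv_mem a1)

omit [Fintype ι] in
theorem CA.conj {c k : UG B} (h : CA M b c) (hk : k ∈ M) : CA M b (k * c * k⁻¹) := by
  obtain ⟨k', a1, a, a2, P, a3, a4, rfl⟩ := h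
  exact ⟨k * k', mul_mem hk a1, a, a2, P, a3, a4, by group⟩

omit [Fintype ι] in
theorem CA.sq {c : UG B} (h : CA M b c) : c * c = 1 := by
  obtain ⟨k, -, a, -, P, -, a4, rfl⟩ := h
  have : a * a = 1 := (a4.mul a4).ext fun x i => by rw [sgn_mul]; simp [sgn]
  rw [show k * a * k⁻¹ * (k * a * k⁻¹) = k * (a * a) * k⁻¹ by group, this]; group

omit [Fintype ι] in
theorem CA.pow {a s : UG B} (h : CA M b a) (h' : CA M b s) (n : ℕ) : CA M b ((a * s) ^ n * a) := by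
  have a1 := inv_eq_of_mul_eq_one_right h.sq
  have a2 := inv_eq_of_mul_eq_one_right h'.sq
  induction' n using Nat.twoStepInduction with n ih _
  · simpa
  · simpa [a1] using h'.conj h.mem
  · convert ih.conj (mul_mem h.mem h'.mem) using 1
    have : a * (a * s)⁻¹ = a * s * a := by rw [mul_inv_rev, a1, a2, mul_assoc]
    rw [mul_assoc (a * s), mul_assoc _ a, this, pow_succ', pow_succ]; simp only [mul_assoc]

theorem CA.rank (h : OB B b κ) (h2 : (2 : F) ≠ 0) {c : UG B} (H : CA M b c) : ∃ U : Submodule F V, finrank F U ≤ 2 ∧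
    (∀ v, c.1 v - v ∈ U) ∧ (∀ v, c.1 v = -v → v ∈ U) ∧ ∀ y ∈ U, y ≠ 0 → ∃ u ∈ U, B y u ≠ 0 := by
  obtain ⟨k, -, a, -, P, a3, a4, rfl⟩ := H
  have a1 : ∀ v, v ∈ Submodule.span F ((fun i => k.1 (b i)) '' P) ↔ ∀ i ∉ P, b.repr (k.1.symm v) i = 0 := fun v => by
    rw [← Set.image_image k.1 b, Submodule.span_image_linearEquiv, Submodule.mem_map_equiv, b.mem_span_image]
    exact ⟨fun H i hi => by by_contra e; exact hi (H (Finsupp.mem_support_iff.mpr e)),
      fun H i hi => by by_contra e; exact Finsupp.mem_support_iff.mp hi (H i e)⟩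
  refine ⟨_, a3 ▸ finrank_span_image_le _ P, fun v => (a1 _).mpr fun i hi => by simp [a4 _ i, sgn, hi],
    fun v hv => (a1 _).mpr fun i hi => ?_, fun y hy h0 => ?_⟩
  · have := congrArg (fun x => b.repr (k.1.symm x) i) hv
    simp [a4 _ i, sgn, hi] at this
    exact mul_left_cancel₀ h2 (by linear_combination this)
  · obtain ⟨i, hi⟩ : ∃ i, b.repr (k.1.symm y) i ≠ 0 := by
      by_contra! e; exact h0 (k.1.symm.map_eq_zero_iff.mp (b.ext_elem (by simpa using e)))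
    exact ⟨k.1 (b i), Submodule.subset_span ⟨i, by by_contra e; exact hi ((a1 y).mp hy i e), rfl⟩, by
      simpa [UG_map_right, h.right, h.ne] using hi⟩

namespace OB
variable (h : OB B b κ) (hM : ∀ g ∈ SUG B, Mon b g.1 → g ∈ M)
  (NF : ∀ g ∈ M, ∀ (i j : ι) (c : F), g.1 (b i) = c • b j → Mon b g.1) [Finite F]
  (hn : 7 ≤ Fintype.card ι ∨ 6 ≤ Fintype.card ι ∧ 3 ≤ q0 σ) (h2 : (2 : F) ≠ 0)
include h hM NF hn h2

theorem nf_sgn {k z : UG B} (hk : k ∈ M) {S : Finset ι} (hz : Dg b z (sgn F S)) (h3 : 2 ≤ S.card)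
    (h4 : 2 * S.card < Fintype.card ι) (H : Mon b (k⁻¹ * z * k).1) : Mon b k.1 :=
  h.nf_conj hM NF hn hk hz (fun i hi => by simp [sgn, hi])
    (fun i hi e => h2 (by simp only [sgn, hi, if_true] at e; linear_combination -e)) h3 h4 H

theorem ca_dg {c : UG B} (H : CA M b c) (H' : Mon b c.1) : ∃ P : Finset ι, P.card = 2 ∧ Dg b c (sgn F P) := by
  obtain ⟨k, a1, a, -, P, a3, a4, rfl⟩ := H
  obtain ⟨π, hπ⟩ := (h.nf_sgn hM NF hn h2 (inv_mem a1) a4 a3.ge (by omega) (by simpa using H')).mp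
  refine ⟨P.map (π⁻¹).toEmbedding, by simpa, ?_⟩
  convert a4.conj (k := k) (by simpa using hπ.inv) using 2 with i
  simp [sgn, Finset.mem_map_equiv, Equiv.Perm.inv_def]

theorem ca_odd {c a : UG B} (H : CA M b c) (H' : ¬ Mon b c.1) (Ha : CA M b a) (Ha' : Mon b a.1) :
    ∃ m, (c * a) ^ (2 * m + 1) = 1 := by
  haveI := Module.Finite.of_basis b
  have := finite_UG (B := B)
  refine (dih H.sq Ha.sq).resolve_right fun ⟨m, e1, _, e3, e4⟩ => ?_
  have key : ∀ z ∈ M, ∀ a, CA M b a → Mon b a.1 → Commute z a → CA M b (z * a) →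
      ∃ S : Finset ι, S.card ≤ 4 ∧ Dg b z (sgn F S) := fun z hz a h1 h3 h4 h5 => by
    obtain ⟨P, b1, b2⟩ := h.ca_dg hM NF hn h2 h1 h3
    obtain ⟨Q, b3, b4⟩ := h.ca_dg hM NF hn h2 h5 ((h.nf_sgn hM NF hn h2 hz b2 b1.ge (by omega) (by
      rwa [mul_assoc, ← h4.eq, inv_mul_cancel_left])).mul h3)
    refine ⟨_, (Finset.card_le_card Finset.symmDiff_subset_union).trans ((Finset.card_union_le Q P).trans
      (by omega)), ?_⟩
    simpa [mul_assoc, h1.sq, sgn_mul] using b4.mul b2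
  set z := (c * a) ^ (m + 1) with hz
  have a1 : z ∈ M := pow_mem (mul_mem H.mem Ha.mem) _
  obtain ⟨S, b1, b2⟩ := key z a1 a Ha Ha' e4 (by simpa [hz, pow_succ, mul_assoc, Ha.sq] using H.pow Ha m)
  have a2 := H.pow Ha (m + 1)
  obtain ⟨k, c1, a', c2, P, c3, c4, rfl⟩ := H
  obtain ⟨T, -, b4⟩ := key (k⁻¹ * z * k) (mul_mem (mul_mem (inv_mem c1) a1) c1) a'
    ⟨1, one_mem _, a', c2, P, c3, c4, by simp⟩ c4.mon (by
      have := e3.eq
      rw [Commute, SemiconjBy, show k⁻¹ * z * k * a' = k⁻¹ * (z * (k * a' * k⁻¹)) * k by group, this]; group)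
    (by convert a2.conj (inv_mem c1) using 1; rw [← hz]; group)
  obtain ⟨i, hi⟩ : T.Nonempty := Finset.nonempty_iff_ne_empty.mpr fun e => e1 (by
    have := b4.ext (k := 1) fun x i => by simp [e, sgn]
    rw [show z = k * (k⁻¹ * z * k) * k⁻¹ by group, this]; group)
  have d1 : ∀ p ∈ Sᶜ, b.repr (k.1 (b i)) p = 0 := fun p hp => by
    have := congrArg (fun x => b.repr (k.1 x) p) (b4.apply i)
    simp [b2 _ p, sgn, hi, Finset.mem_compl.mp hp] at this
    exact mul_left_cancel₀ h2 (by linear_combination this)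
  obtain ⟨p, hp, r, hr, hpr⟩ := Finset.one_lt_card.mp (show 1 < Sᶜ.card by rw [Finset.card_compl]; omega)
  have d2 := h.nf_two hM NF hn c1 hpr (d1 p hp) (d1 r hr)
  exact H' ((d2.mul c4.mon).mul d2.inv)

theorem ca_odd' (hn' : 9 ≤ Fintype.card ι ∨ Fintype.card ι = 6) {c c' : UG B} (H : CA M b c) (H' : ¬ Mon b c.1)
    (Hc : CA M b c') (h0 : c ≠ c') (h1 : Mon b (c * c').1) : ∃ m, (c * c') ^ (2 * m + 1) = 1 := by
  obtain ⟨k, c1, a, c2, P, c3, c4, rfl⟩ := Hc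
  have a1 := H.conj (inv_mem c1)
  rw [inv_inv] at a1
  have a2 : c * (k * a * k⁻¹) = k⁻¹⁻¹ * (k⁻¹ * c * k * a) * k⁻¹ := by group
  by_cases e : Mon b (k⁻¹ * c * k).1
  · obtain ⟨Q, b1, b2⟩ := h.ca_dg hM NF hn h2 a1 e
    have b3 := b2.mul c4
    rw [sgn_mul] at b3
    have b4 : (symmDiff Q P).card = 2 ∨ (symmDiff Q P).card = 4 := by
      have d1 := Finset.card_sdiff_add_card_inter Q P
      have d2 := Finset.card_sdiff_add_card_inter P Q
      have d3 : (Q ∩ P).card ≠ 2 := fun e' => h0 (by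
        obtain rfl := Finset.eq_of_subset_of_card_le (Finset.inter_eq_left.mp
          (Finset.eq_of_subset_of_card_le (Finset.inter_subset_left (s₂ := P)) (b1.trans e'.symm).le)) (c3.trans b1.symm).le
        rw [← b2.ext c4]; group)
      rw [Finset.inter_comm] at d2
      rw [symmDiff_def, Finset.sup_eq_union, Finset.card_union_of_disjoint disjoint_sdiff_sdiff]; omega
    refine (H' ?_).elim
    have b5 : Mon b (k⁻¹).1 := by
      by_cases e' : 2 * (symmDiff Q P).card < Fintype.card ι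
      · exact h.nf_sgn hM NF hn h2 (inv_mem c1) b3 (by omega) e' (a2 ▸ h1)
      obtain ⟨z, -, d1, -⟩ := h.exists_mono 1 (c := sgn F (symmDiff Q P)ᶜ) fun i => by
        simp only [sgn]; split_ifs <;> simp
      refine h.nf_sgn hM NF hn h2 (inv_mem c1) (z := z) d1 (by rw [Finset.card_compl]; omega)
        (by rw [Finset.card_compl]; omega) fun i => ?_
      obtain ⟨j, t, ht⟩ := h1 i
      refine ⟨j, -t, ?_⟩
      have : ∀ x, z.1 x = -(k⁻¹ * c * k * a).1 x := fun x => b.ext_elem fun l => by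
        rw [map_neg, Finsupp.neg_apply, b3]
        refine (d1 x l).trans ?_
        generalize symmDiff Q P = S
        by_cases e : l ∈ S <;> simp [sgn, e]
      rw [neg_smul, ← ht, a2]; simp [this]
    rw [show c = k⁻¹⁻¹ * (k⁻¹ * c * k) * k⁻¹ by group]
    exact (b5.inv.mul e).mul b5
  obtain ⟨m, hm⟩ := h.ca_odd hM NF hn h2 a1 e ⟨1, one_mem _, a, c2, P, c3, c4, by simp⟩ c4.mon
  exact ⟨m, by rw [a2, inv_inv, conj_pow, hm]; simp⟩

omit hM hn in
theorem ca_rank {c c' : UG B} (H : CA M b c) (H' : ¬ Mon b c.1) (Hc : CA M b c') :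
    (∃ U : Submodule F V, finrank F U ≤ 4 ∧ ∀ v, (c * c').1 v - v ∈ U) ∧
    ∀ i, (c * c').1 (b i) = b i → ∃ U : Submodule F V, finrank F U ≤ 2 ∧ ∀ v, (c * c').1 v - v ∈ U := by
  haveI := Module.Finite.of_basis b
  obtain ⟨U, a1, a2, a3, a4⟩ := H.rank h h2
  obtain ⟨U', b1, b2, b3, -⟩ := Hc.rank h h2
  have c1 : ∀ v, (c * c').1 v - v ∈ U ⊔ U' := fun v => by
    simpa using Submodule.add_mem_sup (a2 (c'.1 v)) (b2 v)
  have c2 := Submodule.finrank_sup_add_finrank_inf_eq U U'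
  refine ⟨⟨_, by omega, c1⟩, fun i hi => ?_⟩
  have d1 : ∀ v, c.1 (c.1 v) = v := fun v => congrArg (fun g : UG B => g.1 v) H.sq
  have d2 : ∀ v, c'.1 (c'.1 v) = v := fun v => congrArg (fun g : UG B => g.1 v) Hc.sq
  have d3 : c'.1 (b i) = c.1 (b i) := by simpa [d1] using congrArg c.1 hi
  have d4 : c.1 (b i) - b i ≠ 0 := fun e => H' (NF _ H.mem i i 1 (by simpa [sub_eq_zero] using e))
  have d5 : (c * c').1 (c.1 (b i) - b i) = c.1 (b i) - b i := by
    rw [UG_mul_apply, ← d3, map_sub, d2, map_sub, d3, d1]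
  have d6 : 0 < finrank F (U ⊓ U' :) := finrank_pos_iff.mpr ⟨⟨_, a2 _, d3 ▸ b2 _⟩, 0, fun e => d4 (congrArg Subtype.val e)⟩
  obtain ⟨u, e1, e2⟩ := a4 _ (a2 _) d4
  refine ⟨(U ⊔ U') ⊓ LinearMap.ker (B (c.1 (b i) - b i)), ?_, fun v => ⟨c1 v, ?_⟩⟩
  · have := Submodule.finrank_lt_finrank_of_lt (lt_of_le_of_ne (inf_le_left (a := U ⊔ U')
      (b := LinearMap.ker (B (c.1 (b i) - b i)))) fun e => e2 (e.ge (Submodule.mem_sup_left e1)).2)
    omega
  · rw [SetLike.mem_coe, LinearMap.mem_ker, map_sub]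
    nth_rw 1 [← d5]
    rw [UG_map, sub_self]

theorem mon_odd (hn' : 9 ≤ Fintype.card ι ∨ Fintype.card ι = 6) {g : UG B} (hg : g ∈ M) : Mon b g.1 := by
  by_contra hg'
  have a0 : ∀ P : Finset ι, P.card = 2 → ∃ a ∈ M, Dg b a (sgn F P) := fun P hP =>
    h.diag_mem hM (fun i => by simp only [sgn]; split_ifs <;> simp) (by simp [sgn, Finset.prod_ite, hP])
  obtain ⟨P₀, -, p0⟩ := Finset.exists_subset_card_eq (s := (Finset.univ : Finset ι)) (n := 2) (by simp; omega)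
  obtain ⟨a₀, a1, a2⟩ := a0 P₀ p0
  have a3 : CA M b (g⁻¹ * a₀ * g) := ⟨g⁻¹, inv_mem hg, a₀, a1, P₀, p0, a2, by simp⟩
  have a4 : ¬ Mon b (g⁻¹ * a₀ * g).1 := fun e => hg' (h.nf_sgn hM NF hn h2 hg a2 p0.ge (by omega) e)
  generalize g⁻¹ * a₀ * g = s at a3 a4
  have a5 : ∀ P : Finset ι, ∃ a c, P.card = 2 → Dg b a (sgn F P) ∧ CA M b c ∧ ¬ Mon b c.1 ∧ c * a * c = s :=
    fun P => by
      by_cases hP : P.card = 2
      · obtain ⟨a, b1, b2⟩ := a0 P hP
        have b3 : CA M b a := ⟨1, one_mem _, a, b1, P, hP, b2, by simp⟩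
        obtain ⟨m, hm⟩ := h.ca_odd hM NF hn h2 a3 a4 b3 b2.mon
        have b4 := a3.pow b3 m
        have b5 : (s * a) ^ m * s * a * ((s * a) ^ m * s) = s := by
          rw [← pow_succ_mul_aux, hm, one_mul]
        exact ⟨a, _, fun _ => ⟨b2, b4, fun e => a4 (b5 ▸ (e.mul b2.mon).mul e), b5⟩⟩
      · exact ⟨1, 1, fun e => (hP e).elim⟩
  choose a c hc using a5
  have a6 : ∀ P Q : Finset ι, P.card = 2 → Q.card = 2 → ∃ π, MPe b (c P * c Q).1 π ∧ ∀ i ∈ Q, π i ∈ P :=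
    fun P Q hP hQ => by
      obtain ⟨b1, b2, -, b4⟩ := hc P hP
      obtain ⟨d1, d2, -, d4⟩ := hc Q hQ
      have e1 : a P * (c P * c Q) = c P * c Q * a Q := by
        have f1 : a P * c P = c P * s := by rw [← b4, ← mul_assoc, ← mul_assoc, b2.sq, one_mul]
        have f2 : c Q * a Q = s * c Q := by rw [← d4, mul_assoc, d2.sq, mul_one]
        rw [← mul_assoc, f1, mul_assoc, mul_assoc, f2]
      obtain ⟨π, hπ⟩ := (h.nf_sgn hM NF hn h2 (mul_mem b2.mem d2.mem) b1 hP.ge (by omega) (by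
        rw [mul_assoc, e1, inv_mul_cancel_left]; exact d1.mon)).mp
      refine ⟨π, hπ, fun i hi => ?_⟩
      obtain ⟨t, t0, ht⟩ := hπ i
      have := congrArg (fun g : UG B => b.repr (g.1 (b i)) (π i)) e1
      simp only [UG_mul_apply _ (a Q), UG_mul_apply (a P), d1.apply, map_smul, ht, b1.apply] at this
      by_contra e
      simp [sgn, hi, e] at this
      exact mul_ne_zero h2 t0 (by linear_combination this)
  have a7 : ∀ P Q : Finset ι, P.card = 2 → Q.card = 2 → ∀ π, MPe b (c P * c Q).1 π → ∃ m, π ^ (2 * m + 1) = 1 :=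
    fun P Q hP hQ π hπ => by
      by_cases e : c P = c Q
      · exact ⟨0, hπ.pow_eq (by rw [e, (hc Q hQ).2.1.sq]; rfl)⟩
      · exact (h.ca_odd' hM NF hn h2 hn' (hc P hP).2.1 (hc P hP).2.2.1 (hc Q hQ).2.1 e
          hπ.mon).imp fun m hm => hπ.pow_eq (by rw [← Subgroup.coe_pow, hm]; rfl)
  have a8 := fun (P Q : Finset ι) (hP : P.card = 2) (hQ : Q.card = 2) =>
    h.ca_rank NF h2 (hc P hP).2.1 (hc P hP).2.2.1 (hc Q hQ).2.1
  rcases hn' with e | e
  · obtain ⟨i, j, k, l, ⟨hij, hik, hil, hjk, hjl, hkl⟩, -⟩ := exists_four (fun _ : ι => ()) (by omega)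
    have hP := Finset.card_pair hij
    have hQ := Finset.card_pair hkl
    obtain ⟨π, b1, b2⟩ := a6 _ _ hP hQ
    obtain ⟨m, b3⟩ := a7 _ _ hP hQ π b1
    obtain ⟨⟨U, b4, b5⟩, b6⟩ := a8 _ _ hP hQ
    obtain ⟨U', b7, b8⟩ := (b1.mon.exists_fix b5 (by omega)).elim b6
    exact b1.four b7 b8 ⟨hij, hik, hil, hjk, hjl, hkl⟩ b2 b3
  have a9 : ∀ P Q : Finset ι, P.card = 2 → Q.card = 2 → ∀ π, MPe b (c P * c Q).1 π → π ^ 3 = 1 :=
    fun P Q hP hQ π hπ => by
      obtain ⟨m, b3⟩ := a7 _ _ hP hQ π hπ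
      exact hπ.cube e b3 (a8 _ _ hP hQ).1 (a8 _ _ hP hQ).2
  let φ := (Fintype.equivFinOfCardEq e).symm
  have hP : ∀ i : Fin 3, ({φ 0, φ (![1, 2, 3] i)} : Finset ι).card = 2 := fun i =>
    Finset.card_pair (φ.injective.ne (by fin_cases i <;> decide))
  have hQ : ({φ 4, φ 5} : Finset ι).card = 2 := Finset.card_pair (φ.injective.ne (by decide))
  choose π b1 b2 using fun i => a6 _ _ (hP i) hQ
  refine s6 (f := fun i => φ.symm.permCongrHom (π i)) (fun i => by rw [← map_pow, a9 _ _ (hP i) hQ _ (b1 i), map_one])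
    (fun i j => ?_) fun i x hx => ?_
  · rw [← map_inv, ← map_mul, ← map_pow, a9 _ _ (hP i) (hP j) _ (by
      convert (b1 i).mul (b1 j).inv using 1
      rw [← Subgroup.coe_inv, ← Subgroup.coe_mul, mul_inv_rev, inv_eq_of_mul_eq_one_right (hc _ (hP j)).2.1.sq]
      congr 1; group), map_one]
  · simpa [Equiv.symm_apply_eq] using b2 i (φ x) (by simpa using hx)

omit NF hn h2 in
theorem SUG_le (hn' : 9 ≤ Fintype.card ι ∨ Fintype.card ι = 6 ∧ 3 ≤ q0 σ) {g : UG B} (hg : g ∈ M)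
    (hg' : ¬ Mon b g.1) : SUG B ≤ M := by
  by_contra H
  have NF : ∀ g ∈ M, ∀ (i j : ι) (c : F), g.1 (b i) = c • b j → Mon b g.1 := fun g hg i j c e => by
    by_contra e'; exact H (h.le_of_fix hM (by omega) hg e' e)
  by_cases h2 : (2 : F) = 0
  · exact hg' (h.mon_even hM NF (by omega) h2 hg)
  · exact hg' (h.mon_odd hM NF (by omega) h2 (by omega) hg)

omit hM NF hn h2 in
theorem exists_not_mon (hn : 3 ≤ Fintype.card ι) : ∃ g ∈ SUG B, ¬ Mon b g.1 := by
  obtain ⟨i, j, l, hij, hil, hjl⟩ := Fintype.two_lt_card_iff.mp hn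
  obtain ⟨c, hc⟩ := h.sd.ns.resolve_left h.hσ (-1) (by simp)
  obtain ⟨d, hd⟩ := exists_adm h.sd (e := b i + c • b j) (u := b l)
    (by simp [h.map, hij, hij.symm]; linear_combination κ * hc) (by simp [h.map, hil, hjl])
  refine ⟨_, rho_mem_SUG h.sd (b i + c • b j) (b l) d, fun e => ?_⟩
  obtain ⟨m, t, ht⟩ := e l
  rw [rho_apply h.sd hd] at ht
  exact ne_smul_basis hil (by simp [h.map, hil, hjl, hij, h.ne]) (by simp [h.map, hil, hjl, hil.symm, hjl.symm]) _ _ ht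

end OB

open Geo in
theorem max_su_frame {F : Type*} [Field F] [Fintype F] {n q : ℕ} (hF : Fintype.card F = q ^ 2)
    (hn : 9 ≤ n ∨ n = 6 ∧ 3 ≤ q) {t : ℕ} {D : Fin t → Submodule F (Fin n → F)}
    (hD : IsNondegenerateMDecomposition (hermForm n F q) 1 D) : IsMaximalIn (GU n F q ⊓ specialLinear (Fin n) F)
      (decompositionStabilizer D ⊓ (GU n F q ⊓ specialLinear (Fin n) F)) := by
  obtain ⟨a, hf⟩ := exists_tvF_su hF (n := n) (by omega)
  obtain ⟨b, hb⟩ := exists_basis_of_dec hD.decomp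
  have D' := sd_tB hf
  have a1 := od_of_decomp hf hD
  have a0 : t = n := by simpa using (finrank_eq_card_basis b).symm
  subst a0
  have a2 : ∀ i, tB hf (b i) (b i) ≠ 0 := fun i e => b.ne_zero i (Submodule.disjoint_def.mp (a1.nd i) _
    (hb i ▸ Submodule.mem_span_singleton_self _) (hb i ▸ mem_sperp_singleton.mpr e))
  let i₀ : Fin t := ⟨0, by omega⟩
  choose c hc using fun i => D'.ns.resolve_left (frobq_ne_id hF) (tB hf (b i₀) (b i₀) / tB hf (b i) (b i))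
    (D'.σ_div_self (D'.σ_map _ _) (D'.σ_map _ _))
  have c0 : ∀ i, c i ≠ 0 := fun i e => div_ne_zero (a2 i₀) (a2 i) (by simp [← hc, e])
  let b' := b.unitsSMul fun i => Units.mk0 (c i) (c0 i)
  have b1 : ∀ i, b' i = c i • b i := fun i => b.unitsSMul_apply i
  have hb' : ∀ i, D i = F ∙ b' i := fun i => by
    rw [b1, Submodule.span_singleton_smul_eq (c0 i).isUnit, hb]
  have h : OB (tB hf) b' (tB hf (b i₀) (b i₀)) := ⟨D', a2 _, fun i j => by
    split_ifs with e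
    · simp only [e, b1, LinearMap.map_smulₛₗ, LinearMap.smul_apply, map_smul, smul_eq_mul]
      rw [← mul_assoc, mul_comm (c j), hc, div_mul_cancel₀ _ (a2 j)]
    · exact a1.orth i j e (hb' j ▸ Submodule.mem_span_singleton_self _) _
        (hb' i ▸ Submodule.mem_span_singleton_self _), frobq_ne_id hF⟩
  refine isMaximalIn_iso hf (Mon b') (fun g => (perm_iff_mapsTo hD.decomp (glEq _ F g)).trans (mapsTo_iff_mon hb' _))
    (fun e => ?_) fun M hM _ g hg hg' => h.SUG_le hM (by simpa [q0_frobq] using hn) hg hg'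
  obtain ⟨g, g1, g2⟩ := h.exists_not_mon (by simp; omega)
  exact g2 (glEq_toGL g ▸ (mapsTo_iff_mon hb' _).mp ((perm_iff_mapsTo hD.decomp _).mp
    (e (map_SUG hf ▸ Subgroup.mem_map_of_mem _ g1))))

end Cfsg.Agent.H12
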