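import Mathlib
import Cfsg.Agent.H12.T3M
import Cfsg.Agent.H12.DecC
import Cfsg.Agent.H12.UfE

/-!
Normalisers of extraspecial 3-groups in dimension nine are maximal.
-/

set_option autoImplicit false

namespace Cfsg.Agent.H12.T3

open Module Matrix Cfsg.Geo

variable {F : Type*} [Field F]

section
variable {ω : F} [Om3 ω] {σ : F →+* F}

theorem det_hm (x : Z9 × Z9) (i : Z3) : (hm ω x i).det = 1 := by
  have a : ∀ c : Z9, c.1 = 0 → (hm ω (0, c) i).det = 1 := fun c hc => by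
    rw [hm, fn_diag, det_mo_id, Fintype.prod_prod_type]
    simp [hc, ← Finset.prod_pow, ch_cube]
  by_cases hx : x = 0
  · exact hx ▸ a 0 rfl
  obtain ⟨n, n1, n2⟩ := exists_nm_map (ω := ω) (y := (0, (0, 1))) hx (by decide)
  have := conj_pj (s := 0) n1.1 (by simpa using n2) i
  refine mul_left_cancel₀ ((isUnit_iff_isUnit_det n).mp n1.1).ne_zero ?_
  rw [← det_mul, show n * hm ω x i = hm ω (0, (0, 1)) i * n by simp [hm_eq, mul_add, add_mul, this], det_mul, a _ rfl,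
    one_mul, mul_one]

theorem un_hm (hω : σ ω = ω ^ 2) (x : Z9 × Z9) (i : Z3) : Un σ 1 (hm ω x i) := by
  have a : ∀ (e : Z9 × Z9) k l, σ (W ω e l k) = W ω (-e) k l := fun e => congrFun₂ (show ((W ω e).map σ)ᵀ = _ by
    rw [← Matrix.mul_one _ᵀ, ← W_mul_neg ω e, ← Matrix.mul_assoc, un_W hω e, one_smul, Matrix.one_mul])
  have b : ∀ k, σ (ch ω k) = ch ω (-k) := fun k => mul_right_cancel₀ (ch_ne ω k) (by rw [ch_norm hω, ch_neg_mul])
  rw [Un, show ((hm ω x i).map σ)ᵀ = 1 + (ω ^ 2 - 1) • pj ω x i by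
    ext k l; simp [hm_eq, pj, a, b, hω, one_apply, apply_ite σ, eq_comm, map_ofNat, add_right_comm], hm_eq]
  simp only [mul_add, add_mul, mul_one, one_mul, smul_mul, Matrix.mul_smul, pj_mul, if_true, smul_smul]
  match_scalars
  · simp
  · linear_combination om_cube ω

theorem hm_ne (f : Z9 → Z9) (d : Z9 → F) : hm ω (((1, 0), 0) : Z9 × Z9) 0 ≠ mo f d := fun e => by
  have a1 := congrFun₂ e (1, 0) 0
  have a2 := congrFun₂ e (2, 0) 0
  have h1 := sub_ne_zero.mpr (om_ne_one ω)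
  have h3 := om_three ω
  simp +decide only [hm_eq, pj, W, mo_apply, Matrix.add_apply, Matrix.smul_apply, one_apply] at a1 a2
  by_cases e : (1, 0) = f 0
  · simp +decide [← e, h1, h3] at a2
  · simp [e, h1, h3] at a1

theorem key [Finite F] {U S : Matrix Z3 Z3 F → Prop} {Λ : F → Prop} {P : Matrix Z9 Z9 F → Prop} (ty : TY ω U S Λ)
    (h : MG P) (hN : ∀ g, Nm ω g → P g) (u1 : ∀ a b c, P (bd a b c) → U a)
    (u2 : ∀ g, P g → g * tt F = tt F * g → U (res g)) (l0 : ∀ a, Λ a → a ≠ 0) (l1 : Λ (-1))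
    (l2 : ∀ a b, Λ a → Λ b → Λ (a * b)) (l3 : ∀ a, Λ a → Λ a⁻¹) {g : Matrix Z9 Z9 F} (hg : P g) (H : ¬ Nm ω g)
    (π : Equiv.Perm Z9) {d : Z9 → F} (hd : ∀ j, Λ (d j)) (e : (mo π d).det = 1) : P (mo π d) :=
  Full.mon (by_contra fun nf => H (ST.nm_all ⟨ty, h, hN, u1, u2, nf⟩ hg)) h hN l0 l1 l2 l3 π hd e

variable {V : Type*} [AddCommGroup V] [Module F V] {b : Basis Z9 F V} {M : Subgroup (V ≃ₗ[F] V)}

theorem nm_mz (hM : ∀ x i g, tm b g = hm ω x i → g ∈ M) {a : Matrix Z9 Z9 F} (h : Nm ω a) :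
    ∃ g ∈ M ⊔ (zs V).range, tm b g = a :=
  mem_of_nm (mg_tm b _) (fun c hc => ⟨zs V (Units.mk0 c hc), Subgroup.mem_sup_right ⟨_, rfl⟩,
    (tm_smul (k := 1) fun _ => rfl).trans (by rw [tm_one]; rfl)⟩) (fun x i => by
      obtain ⟨g, hg⟩ := exists_tm b (hm_unit ω x i)
      exact ⟨g, Subgroup.mem_sup_left (hM x i g hg), hg⟩) h

theorem exists_not_mon (hM : ∀ x i g, tm b g = hm ω x i → g ∈ M) : ∃ g ∈ M, ¬ Mon b g := by
  obtain ⟨g, hg⟩ := exists_tm b (hm_unit ω (((1, 0), 0) : Z9 × Z9) 0)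
  refine ⟨g, hM _ _ g hg, fun H => ?_⟩
  choose f d h using H
  exact hm_ne f d (hg ▸ tm_mo.mpr h)

end

theorem nat_of_pow {p : ℕ} [Fact p.Prime] [CharP F p] {c : F} (h : c ^ p = c) : ∃ n : ℕ, c = n := by
  rw [← Subfield.mem_bot_iff_pow_eq_self F p, ← ZMod.fieldRange_castHom_eq_bot p] at h
  obtain ⟨n, rfl⟩ := h
  exact ⟨n.val, by simp⟩

variable {ι : Type} [Fintype ι] [DecidableEq ι] [Fintype F] {R : Subgroup (GL ι F)}

theorem a3_of_geo [Nonempty ι] (hR : IsSymplecticTypeGroup 3 R) (h : ActsAbsolutelyIrreducibly (matrixSet R))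
    (hZ : Nat.card (Subgroup.center R) = 3) : ∃ ω : F, ∃ _ : Om3 ω, A3 ω (glR R) := by
  have c3 : ∀ g : R, glEq ι F g ^ 3 = 1 := fun g => by
    simpa [hR.exponent_eq] using congrArg (fun x : R => glEq ι F x) (Monoid.pow_exponent_eq_one g)
  have z3 : ∀ {z : R} {c}, glEq ι F z = zs (ι → F) c → (c : F) ^ 3 = 1 := fun {z c} hc => by
    have := c3 z
    rw [hc, ← map_pow, ← map_one (zs _)] at this
    exact congrArg Units.val (zs_inj this)
  have : Nontrivial (Subgroup.center R) := Finite.one_lt_card_iff_nontrivial.mp (by omega)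
  obtain ⟨z, hz⟩ := exists_ne (1 : Subgroup.center R)
  obtain ⟨c, hc⟩ := zs_of_center h z.2
  have c1 : (c : F) - 1 ≠ 0 := fun e => hz (Subtype.ext (Subtype.ext ((glEq ι F).injective (by
    simp [hc, show c = 1 from Units.ext (sub_eq_zero.mp e)]))))
  have c2 := z3 hc
  have : Om3 (c : F) := ⟨mul_left_cancel₀ c1 (by linear_combination c2),
    fun e => pow_ne_zero 3 c1 (by linear_combination c2 + (c - c ^ 2 : F) * e)⟩
  refine ⟨c, this, fun W hW => h.1 W ?_, ?_, ?_, ?_, _, ⟨_, z.1.2, rfl⟩, fun v => LinearEquiv.congr_fun hc v⟩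
  · rintro _ ⟨g, hg, rfl⟩ _ ⟨w, hw, rfl⟩
    exact hW _ ⟨g, hg, rfl⟩ w hw
  · rintro _ ⟨g, hg, rfl⟩ H
    obtain ⟨d, hd⟩ := zs_of_center h (z := ⟨g, hg⟩) (Subgroup.mem_center_iff.mpr fun k => Subtype.ext
      ((glEq ι F).injective (by
        simp only [Subgroup.coe_mul, map_mul]
        exact LinearEquiv.ext fun v => by simpa using (H _ ⟨k, k.2, rfl⟩ v).symm)))
    exact ⟨d, LinearEquiv.congr_fun hd⟩
  · rintro _ ⟨g, hg, rfl⟩ _ ⟨k, hk, rfl⟩
    obtain ⟨d, hd⟩ := zs_of_center h (comm_center hR.pGroup hR.cyclic_of_characteristic ⟨g, hg⟩ ⟨k, hk⟩)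
    obtain ⟨s, hs⟩ := exists_ch (c : F) (z3 hd)
    refine ⟨s, fun v => ?_⟩
    simpa [commutatorElement_def, hs] using LinearEquiv.congr_fun hd (glEq ι F k (glEq ι F g v))
  · rintro _ ⟨g, hg, rfl⟩
    exact c3 ⟨g, hg⟩

theorem max_SL_c6 (hR : IsSymplecticTypeGroup 3 R) (h : ActsAbsolutelyIrreducibly (matrixSet R))
    (hZ : Nat.card (Subgroup.center R) = 3) (hp : (Fintype.card F).Prime) (h3 : Fintype.card F % 3 = 1)
    (h9 : Fintype.card ι = 9) : IsMaximalIn (specialLinear ι F) (subgroupNormalizer R ⊓ specialLinear ι F) := by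
  have := Fintype.card_pos_iff.mp (show 0 < Fintype.card ι by omega)
  obtain ⟨ω, _, a1⟩ := a3_of_geo hR h hZ
  obtain ⟨b, a2⟩ := a1.exists_MD (by simpa)
  have := Fact.mk hp
  have := charP_of_card_eq_prime (R := F) rfl
  have h2 := hp.two_le
  have h4 : Fintype.card F ≠ 4 := fun e => by rw [e] at hp; exact absurd hp (by decide)
  refine isMaximalIn_SL (fun g => Nm ω (tm b g)) (fun g => norm_glEq.trans a2.norm)
    (H18.SL_not_le_normalizer (by omega) hR.pGroup (by exact_mod_cast om_three ω) (H18.irr_of_absIrr h))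
    fun M m1 _ g hg H => SLV_le_of_mz ?_
  have a3 : ∀ x i g, tm b g = hm ω x i → g ∈ M := fun x i g e =>
    m1 g (mem_SLV.mpr (by rw [← tm_det b, e, det_hm])) (e ▸ nm_hm ω x i)
  obtain ⟨k, k1, k2⟩ := exists_not_mon a3
  refine SLV_le_of_not_mon (fun s s1 s2 => ?_) (by rw [Nat.card_eq_fintype_card]; omega) (by simp)
    (Subgroup.mem_sup_left k1) k2
  obtain ⟨π, s3⟩ := s2.mp
  choose d d1 d2 using s3
  have e := tm_mo.mpr d2
  obtain ⟨t, t1, t2⟩ := key (ty_SL (H18.two_ne_zero_iff_odd.mpr (hp.odd_of_ne_two (by omega)))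
    fun c => nat_of_pow (FiniteField.pow_card c)) (mg_tm b _) (fun _ => nm_mz a3) (fun _ _ _ _ => trivial)
    (fun _ _ _ => trivial) (fun _ => id) (by simp) (fun _ _ => mul_ne_zero) (fun _ => inv_ne_zero)
    ⟨g, Subgroup.mem_sup_left hg, rfl⟩ H π d1 (by rw [← e, tm_det, mem_SLV.mp s1])
  exact tm_inj (t2.trans e.symm) ▸ t1

theorem max_SU_c6 {p : ℕ} (hF : Fintype.card F = p ^ 2) {R : Subgroup (GL (Fin 9) F)}
    (hR : IsSymplecticTypeGroup 3 R) (h : ActsAbsolutelyIrreducibly (matrixSet R))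
    (hU : R ≤ similarityGroup (hermForm 9 F p)) (hZ : Nat.card (Subgroup.center R) = 3) (hp : p.Prime) (h3 : p % 3 = 2) :
    IsMaximalIn (GU 9 F p ⊓ specialLinear _ F) (subgroupNormalizer R ⊓ (GU 9 F p ⊓ specialLinear _ F)) := by
  obtain ⟨ω, _, a1⟩ := a3_of_geo hR h hZ
  obtain ⟨b, a2⟩ := a1.exists_MD (by simp)
  have := Fact.mk hp
  have := charP_of_card_eq_prime_pow hF
  have hω : frobq hF ω = ω ^ 2 := by
    rw [frobq_apply, ← Nat.div_add_mod p 3, h3, pow_add, pow_mul, om_cube, one_pow, one_mul]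
  obtain ⟨a, hf⟩ := exists_tvF_su hF (by omega : 2 ≤ 9)
  have D := sd_tB hf
  have O := a2.ob D (frobq_ne_id hF) hω (by
    rintro _ ⟨g, hg, rfl⟩
    exact sim_iso D hω ((sim_iff hf g).mp (hU hg)) (a1.cube _ ⟨g, hg, rfl⟩))
  refine isMaximalIn_iso hf (fun g => Nm ω (tm b g)) (fun g => norm_glEq.trans a2.norm)
    ((has_SU hf).not_le_normalizer Nat.prime_three hR.pGroup h (Or.inr (by simp))) fun M m1 _ g hg H => ?_
  have a3 : ∀ x i g, tm b g = hm ω x i → g ∈ M.map (UG _).subtype := fun x i g e =>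
    ⟨⟨g, (un_mem O).mp (e ▸ un_hm hω x i)⟩, m1 _ (mem_SUG.mpr (by rw [← tm_det b, e, det_hm]))
      (show Nm ω (tm b g) from e ▸ nm_hm ω x i), rfl⟩
  obtain ⟨_, ⟨k, k1, rfl⟩, k2⟩ := exists_not_mon a3
  have u : ∀ a, (∃ g ∈ M.map (UG _).subtype ⊔ (zs _).range, tm b g = a) → ∃ c, Un (frobq hF) c a := by
    rintro _ ⟨g, hg, rfl⟩
    obtain ⟨_, ⟨g, -, rfl⟩, _, ⟨c, rfl⟩, rfl⟩ := Subgroup.mem_sup_of_normal_right.mp hg
    exact ⟨_, by rw [tm_smul (k := g.1) (c := c) fun x => by simp]; exact ((un_mem O).mpr g.2).smul c⟩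
  have b2 := O.SUG_le (M := (M.map (UG _).subtype ⊔ (zs _).range).subgroupOf _) (fun s s1 s2 => ?_)
    (Or.inl (by simp)) (g := k) (Subgroup.mem_sup_left ⟨k, k1, rfl⟩) k2
  · intro g hg
    refine (show _ ≤ M.comap (SUG _).subtype from ?_) ((D.commutator_SUG_of_ne (ns_of_finite D.invol)
      (Or.inr (Or.inr (by simp))) (frobq_ne_id hF) (by simp)).ge (Subgroup.mem_top ⟨g, hg⟩))
    refine Subgroup.commutator_le.mpr fun x _ y _ => ?_
    obtain ⟨k, k1, k2⟩ := comm_mem_of_mz (b2 x.2) (b2 y.2)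
    exact (congrArg (· ∈ M) (Subtype.ext k2 : k = (x * y * x⁻¹ * y⁻¹ : SUG _).1)).mp k1
  obtain ⟨π, s3⟩ := s2.mp
  choose d d1 d2 using s3
  have e := tm_mo.mpr d2
  obtain ⟨t, t1, t2⟩ := key (ty_SU D.invol (frobq_ne_id hF) (fun c => nat_of_pow) hω) (mg_tm b _) (fun _ => nm_mz a3)
    (fun _ _ _ H => (u _ H).imp fun _ => Un.of_bd) (fun _ H e => (u _ H).imp fun _ H => H.res e)
    (fun _ => right_ne_zero_of_mul_eq_one) (by simp)
    (fun x y h1 h2 => by rw [map_mul, mul_mul_mul_comm, h1, h2, one_mul])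
    (fun x h => by rw [map_inv₀, ← mul_inv, h, inv_one]) ⟨g.1, Subgroup.mem_sup_left ⟨g, hg, rfl⟩, rfl⟩ H π
    ((un_mo π.injective).mp (e ▸ (un_mem O).mpr s.2)) (by rw [← e, tm_det, mem_SUG.mp s1])
  exact show s.1 ∈ _ from tm_inj (t2.trans e.symm) ▸ t1

end Cfsg.Agent.H12.T3
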