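import Mathlib
import Cfsg.Agent.H12.TfI

/-!
Tensor products of a symplectic space and a four-dimensional orthogonal space of minus type.
-/

set_option autoImplicit false

namespace Cfsg.Agent.H12

open Module Polynomial

variable {F V : Type*} [Field F] [AddCommGroup V] [Module F V]
  {U W : Type*} [AddCommGroup U] [Module F U] [AddCommGroup W] [Module F W] {τ : U →ₗ[F] W →ₗ[F] V}
  {B : V →ₛₗ[RingHom.id F] V →ₗ[F] F} {M : Subgroup (UG B)}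
  {B₁ : U →ₛₗ[RingHom.id F] U →ₗ[F] F} {β : W →ₗ[F] W →ₗ[F] F}

/-- four-dimensional of minus type -/
def MN (β : W →ₗ[F] W →ₗ[F] F) : Prop :=
  finrank F W = 4 ∧ ∀ x y, β x x = 0 → β y y = 0 → β x y = 0 → x ≠ 0 → y ∈ F ∙ x

namespace TF

variable (h : TF B B₁ β τ) {e : U} {k : UG B} [FiniteDimensional F U] [FiniteDimensional F W]
  [Finite F] (hM : ∀ g : UG B, TN τ g.1 → g ∈ M) (H : ¬ SUG B ≤ M) (h3 : 3 ≤ finrank F W)
  (hq : (∃ c : F, c ≠ 0 ∧ c * c ≠ 1) ∨ 4 ≤ finrank F W) (hd : MN β)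
include h hM H h3 hq hd

theorem tn_of_conj4 {e : U} (he : e ≠ 0) {g : UG B} (hg : g ∈ M)
    (h1 : TN τ (g * h.tL (tv B₁ e 1) * g⁻¹).1) : TN τ g.1 := by
  have E := h.sy
  obtain ⟨f, hf⟩ := h.exists_one he
  let N : End F V := g.1.toLinearMap ∘ₗ τ e ∘ₗ h.cu e ∘ₗ g.1.symm.toLinearMap
  have hN : ∀ z, N z = g.1 (τ e (h.cu e (g.1.symm z))) := fun _ => rfl
  obtain ⟨a, b, h1⟩ := h1
  have a1 : ∀ u w, N (τ u w) = τ (a u) (b w) - τ u w := fun u w => by simp [← h1, h.tL_tv, hN]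
  have a2 : ∀ z, N (N z) = 0 := fun z => by simp [hN, h.alt₁]
  haveI : Nontrivial W := Module.nontrivial_of_finrank_pos (R := F) (by omega)
  have a3 : N ≠ 0 := fun e' => by
    obtain ⟨w, hw⟩ := exists_ne (0 : W)
    exact UG_ne_zero g (ten_ne_zero h.ten he hw) (by
      simpa [hN, hf] using LinearMap.congr_fun e' (g.1 (τ f w)))
  rcases scalar_or_scalar h.ten E.two (a := a) (b := b) (fun x w => by
    have := a2 (τ x w)
    rw [a1, map_sub, a1, a1] at this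
    linear_combination (norm := module) this) with ⟨c, hc⟩ | ⟨c, hc⟩
  swap
  · obtain ⟨u, hu⟩ : ∃ u, c • a u - u ≠ 0 := by
      by_contra! e'
      exact a3 (ten_ext h.ten fun u w => by simpa [a1, hc] using congrArg (τ · w) (e' u))
    obtain ⟨k, hk⟩ := h.sd₁.witt_one he hu (by simp only [h.alt₁])
    have := h.tn_of_stab hM H h3 hq he (mul_mem (inv_mem hg) (hM _ (h.tn_tL k))) fun w =>
      ⟨_, UG_inv_apply_eq ((hN (τ u w)).symm.trans (by simp [a1, hc, hk]))⟩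
    simpa using (h.tn_tL k).mul (this.inv h.ten)
  exfalso
  let ν : End F W := c • b - 1
  have b1 : ∀ u w, N (τ u w) = τ u (ν w) := fun u w => by simp [a1, hc, ν]
  clear_value ν
  have b2 : ∀ z z', B (N z) z' = -B z (N z') := fun z z' => by
    rw [h.skew z, neg_neg, hN, hN, UG_map_left, UG_map_left, h.B_cu, h.B_cu, E.symm]; rfl
  have b3 : ∀ w w', β (ν w) w' = -β w (ν w') := fun w w' => by
    simpa [b1, h.map, hf] using b2 (τ e w) (τ f w')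
  have b4 : ∀ w, ν (ν w) = 0 := fun w => ten_right_inj h.ten he (by simpa [b1] using a2 (τ e w))
  have b5 : ∀ w w', β (ν w) (ν w') = 0 := fun w w' => by simp [b3, b4]
  obtain ⟨w₁, c1⟩ : ∃ w, ν w ≠ 0 := by
    by_contra! e'
    exact a3 (ten_ext h.ten fun u w => by simp [b1, e'])
  obtain ⟨w₃, c2⟩ : ∃ w, ν w ∉ F ∙ ν w₁ := by
    by_contra! e'
    obtain ⟨φ, d1⟩ := Module.Projective.exists_dual_eq_one F c1
    obtain ⟨s, hs⟩ := E.exists_ne c1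
    obtain ⟨w, d2, d3⟩ := exists_ne_ne (φ := φ ∘ₗ ν) (x := w₁) (by simp [d1]) hs
    obtain ⟨l, hl⟩ := Submodule.mem_span_singleton.mp (e' w)
    have d4 := b3 w w
    rw [E.symm w, ← hl, eq_neg_iff_add_eq_zero, ← two_mul] at d4
    simp [E.two, d3] at d4
    simp [← hl, d4] at d2
  exact c2 (hd.2 _ _ (b5 _ _) (b5 _ _) (b5 _ _) c1)

variable (X : MX τ M e k)
include X

theorem mem_of_NN4 {w : W} (hw : ∃ w', h.NN e k (τ e w) = τ e w') : w ∈ JJ τ e k⁻¹ := by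
  by_contra h1
  obtain ⟨w', hw⟩ := hw
  exact X.ntn (h.tn_of_conj4 hM H h3 hq hd X.ne X.mem (h.tn_of_mem X (g := h.tt e k 1) (h.tt_mem hM X.mem 1)
    (h.PP_upper hM X.mem 1).2.1 (mem_JJ.mpr ⟨w + w', by simp [tt_apply, hw]⟩) h1))

theorem mem_of_cu4 {w : W} (hw : h.cu e (k.1 (τ e w)) ∈ JJ τ e k⁻¹) : w ∈ JJ τ e k := by
  simpa using h.mem_of_NN4 hM H h3 hq hd (h.mx_inv X) (mem_JJ.mp hw)

theorem mem_of_SS4 {w : W} (hw : h.SS e k w ∈ JJ τ e k⁻¹) : w ∈ JJ τ e k⁻¹ :=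
  h.mem_of_NN4 hM H h3 hq hd X (mem_JJ.mp (h.mem_of_cu4 hM H h3 hq hd X hw))

theorem SS_eq_zero4 {w : W} : h.SS e k w = 0 ↔ w ∈ JJ τ e k⁻¹ :=
  ⟨fun a => h.mem_of_SS4 hM H h3 hq hd X (a ▸ zero_mem _), fun a => by simp [SS_apply, h.NN_of_mem a]⟩

theorem SS_SS4 {w : W} (hw : h.SS e k (h.SS e k w) = 0) : h.SS e k w = 0 :=
  (h.SS_eq_zero4 hM H h3 hq hd X).mpr (h.mem_of_SS4 hM H h3 hq hd X ((h.SS_eq_zero4 hM H h3 hq hd X).mp hw))

theorem nds_JJ4 : NDS β (JJ τ e k⁻¹) := fun v hv h0 => by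
  obtain ⟨w, hw⟩ := h.sy.exists_ne h0
  have a1 : JJ τ e k⁻¹ ⊔ LinearMap.range (h.SS e k) = ⊤ := Submodule.eq_top_of_disjoint _ _ (by
    rw [← (h.SS e k).finrank_range_add_finrank_ker, add_comm,
      show LinearMap.ker (h.SS e k) = JJ τ e k⁻¹ from Submodule.ext fun _ => h.SS_eq_zero4 hM H h3 hq hd X])
    (Submodule.disjoint_def.mpr (by
      rintro _ a ⟨x, rfl⟩
      exact (h.SS_eq_zero4 hM H h3 hq hd X).mpr (h.mem_of_SS4 hM H h3 hq hd X a)))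
  obtain ⟨w₀, a2, _, ⟨x, rfl⟩, rfl⟩ := Submodule.mem_sup.mp (a1 ▸ Submodule.mem_top : w ∈ _)
  exact ⟨w₀, a2, by simpa [← h.SS_adj, (h.SS_eq_zero4 hM H h3 hq hd X).mpr hv] using hw⟩

theorem exists_PP4 {g : UG B} {A : Matrix (Fin 2) (Fin 2) F[X]} (hg : h.PP M e k g A) {x₀ : W}
    (h0 : h.SS e k x₀ ≠ 0) (h1 : A 0 1 ∈ annP (h.SS e k) (h.SS e k x₀)) :
    ∃ (a : End F U) (b : End F W) (μ : F), (∀ u w, g.1 (τ u w) = τ (a u) (b w)) ∧ a e = e ∧ μ ≠ 0 ∧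
      (∀ z, b (h.cu e z) = μ • h.cu e (g.1 z)) ∧ (JJ τ e k⁻¹ ≠ ⊥ → μ = 1) ∧
      (∀ x, aeval (h.SS e k) (A 0 1) (h.SS e k x) = 0) ∧
      (∀ x, b (h.SS e k x) = aeval (h.SS e k) (A 1 1) (h.SS e k x)) ∧
      ∀ x, b (h.SS e k x) = μ • aeval (h.SS e k) (A 0 0) (h.SS e k x) := by
  have hS := fun w => h.SS_eq_zero4 hM H h3 hq hd X (w := w)
  have a1 := fun x => hg.2.2.2 0 x
  simp only [map_zero, zero_add] at a1
  have a2 : h.SS e k x₀ ∈ JJ τ e g := mem_JJ.mpr ⟨_, by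
    rw [a1, h.NN_of_mem ((hS _).mp ((aeval_comm _ _).symm.trans h1)), zero_add]⟩
  obtain ⟨a, b, a3, a4⟩ := h.exists_norm (h.tn_of_mem X hg.1 hg.2.1 a2
    fun e' => h0 (h.SS_SS4 hM H h3 hq hd X ((hS _).mpr e'))) X.ne a2 h0
  obtain ⟨μ, a5, a6, a7⟩ := h.exists_sim hM H h3 hq X.ne hg.1 (b := b) fun w => by rw [a3, a4]
  have a8 : ∀ x, aeval (h.SS e k) (A 0 1) x ∈ JJ τ e k⁻¹ := fun x => h.mem_of_NN4 hM H h3 hq hd X
    ⟨b (h.SS e k x) - _, by rw [map_sub, eq_sub_iff_add_eq, ← a1, a3, a4]⟩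
  refine ⟨a, b, μ, a3, a4, a5, a6, fun e' => ?_, fun x => by rw [aeval_comm, hS]; exact a8 x,
    fun x => ten_right_inj h.ten X.ne ?_, fun x => ?_⟩
  · obtain ⟨w, b1, b2⟩ := (Submodule.ne_bot_iff _).mp e'
    obtain ⟨w', b3, b4⟩ := h.nds_JJ4 hM H h3 hq hd X w b1 b2
    have b5 : ∀ w ∈ JJ τ e k⁻¹, b w = w := fun w hw =>
      ten_right_inj h.ten X.ne (by rw [← hg.2.1 w hw, a3, a4])
    have := a7 w w'
    rw [b5 w b1, b5 w' b3] at this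
    exact mul_right_cancel₀ b4 (by rw [← this, one_mul])
  · have := a1 x
    rwa [h.NN_of_mem (a8 x), zero_add, a3, a4, ← aeval_comm] at this
  · have := hg.2.2.2 x 0
    simp only [map_zero, add_zero] at this
    rw [SS_apply, a6, this, ← SS_apply, aeval_comm]; simp [h.alt₁, SS_apply]

end TF

end Cfsg.Agent.H12
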