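import Mathlib
import Cfsg.Agent.H12.TgA

/-!
Tensor products of a symplectic space and a four-dimensional orthogonal space of minus type: maximality.
-/

set_option autoImplicit false

namespace Cfsg.Agent.H12

open Module Polynomial

section
variable {F V : Type*} [Field F] [AddCommGroup V] [Module F V]
  {U W : Type*} [AddCommGroup U] [Module F U] [AddCommGroup W] [Module F W] {τ : U →ₗ[F] W →ₗ[F] V}
  {B : V →ₛₗ[RingHom.id F] V →ₗ[F] F} {M : Subgroup (UG B)}
  {B₁ : U →ₛₗ[RingHom.id F] U →ₗ[F] F} {β : W →ₗ[F] W →ₗ[F] F}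

theorem SY.exists_orth [FiniteDimensional F W] (E : SY β) {P : Submodule F W} (h : NDS β P) (h2 : finrank F P = 2) :
    ∃ x ∈ P, ∃ y ∈ P, β x x ≠ 0 ∧ β y y ≠ 0 ∧ β x y = 0 ∧ ∀ w ∈ P, ∃ a b : F, w = a • x + b • y := by
  obtain ⟨x, x1, -, x2⟩ := E.exists_aniso h (Y := ⊥) fun e => by rw [le_bot_iff.mp e] at h2; simp at h2
  have := finrank_le_inf_ker P (β x)
  obtain ⟨y, ⟨y1, y2⟩, -, y3⟩ := E.exists_aniso (E.nds_perp h x1 x2) (Y := ⊥) fun e => by
    rw [le_bot_iff.mp e, finrank_bot] at this; omega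
  have a1 : LinearIndependent F ![x, y] := LinearIndependent.pair_iff.mpr fun s t e => by
    have b1 := congrArg (β x) e
    have b2 := congrArg (β y) e
    simp [show β x y = 0 from y2, E.symm y x, x2, y3] at b1 b2
    exact ⟨b1, b2⟩
  have a2 := finrank_span_eq_card a1
  rw [Matrix.range_cons, Matrix.range_cons, Matrix.range_empty, Set.union_empty, Set.singleton_union] at a2
  refine ⟨x, x1, y, y1, x2, y3, y2, fun w hw => ?_⟩
  obtain ⟨a, b, e⟩ := Submodule.mem_span_pair.mp ((Submodule.eq_of_le_of_finrank_le (S₁ := Submodule.span F {x, y})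
    (Submodule.span_le.mpr (Set.pair_subset x1 y1)) (by rw [a2, h2]; simp)).ge hw)
  exact ⟨a, b, e.symm⟩

namespace TF

variable (h : TF B B₁ β τ) {e : U} {k : UG B} [FiniteDimensional F U] [FiniteDimensional F W]
  [Finite F] (hM : ∀ g : UG B, TN τ g.1 → g ∈ M) (H : ¬ SUG B ≤ M) (h3 : 3 ≤ finrank F W)
  (hq : (∃ c : F, c ≠ 0 ∧ c * c ≠ 1) ∨ 4 ≤ finrank F W) (hd : MN β) (X : MX τ M e k)
include h hM H h3 hq hd X

theorem false_of_an {f : U} (hf : B₁ e f = 1) (d0 : ∀ u, ∃ c : F, u = c • e + B₁ e u • f)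
    (d4 : ∀ c : F, c ≠ 0 → c * c = 1) {l : F} (d5 : l ≠ 0) (e1 : ∀ x, h.SS e k (h.SS e k x) = l • h.SS e k x)
    {x₀ : W} (h0 : h.SS e k x₀ ≠ 0) (d2 : finrank F (JJ τ e k⁻¹) = 2) (an : ∀ r ∈ JJ τ e k⁻¹, β r r = 0 → r = 0)
    (e2 : ∀ r ∈ JJ τ e k⁻¹, ∀ x, B (τ f r) (h.NN e k (τ e x)) = 0) : False := by
  have E := h.sy
  have hS := fun w => h.SS_eq_zero4 hM H h3 hq hd X (w := w)
  have n1 := h.NN_NN (e := e) (k := k)
  have n2 := h.B_NN (e := e) (k := k)
  have n3 := h.tt_apply (e := e) (k := k)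
  have n4 := fun w => (h.SS_apply (e := e) (k := k) w).symm
  have n5 := fun w => h.NN_of_mem (e := e) (k := k) (w := w)
  have n6 : ∀ z w, h.NN e k z = τ e w → w ∈ JJ τ e k⁻¹ := fun z w a => mem_JJ.mpr ⟨_, UG_inv_apply_eq a⟩
  have n7 := fun c => h.tt_mem (e := e) hM X.mem c
  have n8 := h.SS_adj (e := e) (k := k)
  have n9 : ¬ TN τ (h.tt e k 1).1 := fun a => X.ntn (h.tn_of_conj4 hM H h3 hq hd X.ne X.mem a)
  have n0 := h.nds_JJ4 hM H h3 hq hd X
  generalize h.tt e k = t, h.SS e k = S, h.NN e k = N, JJ τ e k⁻¹ = J at *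
  have ll := d4 l d5
  have three : (3 : F) = 0 := by linear_combination d4 2 E.two
  have hf' : B₁ f e = -1 := by rw [h.skew₁, hf]
  have tl := fun a => hM _ (h.tn_tL a)
  have dec : ∀ v, v = τ f (h.cu e v) - τ e (h.cu f v) := fun v => LinearMap.congr_fun (ten_ext h.ten (f := 1)
    (g := τ f ∘ₗ h.cu e - τ e ∘ₗ h.cu f) fun u w => by
      obtain ⟨c, hc⟩ := d0 u
      generalize B₁ e u = d at hc
      simp [hc, hf, hf', h.alt₁, add_comm]) v
  have e0 : ∀ r ∈ J, ∀ x, β r (S x) = 0 := fun r hr x => by simp [← n8, (hS r).mpr hr]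
  have a1 : ∀ r ∈ J, ∀ x, h.cw r (N (τ e x)) = 0 := fun r hr x => h.sd₁.ext_right fun u => by
    obtain ⟨c, hc⟩ := d0 u
    rw [← h.B_cw, hc]
    simp [e2 r hr, h.B_cu, n4, e0 r hr]
  obtain ⟨φ, hφ⟩ : ∃ φ : End F W, ∀ r ∈ J, N (τ f r) = τ e (φ r) := ⟨-(h.cu f ∘ₗ N ∘ₗ τ f), fun r hr => by
    have : h.cu e (N (τ f r)) = 0 := E.ext fun x => by rw [← h.B_cu, n2, e2 r hr]; simp
    simpa [this] using dec (N (τ f r))⟩
  have a2 : ∀ r ∈ J, φ r ∈ J := fun r hr => n6 _ _ (hφ r hr)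
  have a3 : ∀ {g : UG B}, g ∈ M → (∀ w, g.1 (τ e w) = τ e w) → ∃ c : F, ∀ v, g.1 v = v + c • τ e (h.cu e v) :=
    fun hg a => (h.exists_tv hM H h3 hq X.ne hg fun v hv => by rw [dec v, hv]; simp [a]).imp fun c hc v => by
      rw [hc, h.tL_tv]
  have a4 : ∀ r ∈ J, φ r ∈ F ∙ r := fun r hr => by
    by_cases r0 : r = 0
    · simp [r0]
    have r1 := mt (an r hr) r0
    have r2 : h.sR r1 ∈ M := hM _ (h.tn_tR _ _)
    obtain ⟨c, hc⟩ := a3 (mul_mem (mul_mem (mul_mem (n7 (-1)) r2) (n7 1)) r2) fun w => by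
      simp [n3, h.sR_apply, n5 r hr, a1 r hr, n1, r1, smul_smul]
      match_scalars <;> field_simp <;> ring
    have b1 := hc (N (τ e x₀))
    simp [n3, h.sR_apply, a1 r hr, n1, n4, ten_ne_zero h.ten X.ne h0] at b1
    have b2 := hc (τ f r)
    simp [b1, n3, h.sR_apply, r1, smul_smul, hφ r hr, n5 r hr, n5 _ (a2 r hr)] at b2
    exact Submodule.mem_span_singleton.mpr ⟨β r (φ r) / β r r, ten_right_inj h.ten X.ne (smul_right_injective V E.two (by
      simp only [map_smul]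
      linear_combination (norm := (match_scalars <;> field_simp <;> ring)) b2))⟩
  obtain ⟨m, hm⟩ := exists_smul_of_mem_span (a := φ.restrict a2) fun x => by
    obtain ⟨c, hc⟩ := Submodule.mem_span_singleton.mp (a4 x x.2)
    exact Submodule.mem_span_singleton.mpr ⟨c, Subtype.ext hc⟩
  replace hφ : ∀ r ∈ J, N (τ f r) = m • τ e r := fun r hr => by
    rw [hφ r hr, show φ r = m • r from congrArg Subtype.val (hm ⟨r, hr⟩), map_smul]
  clear a2 a4 hm φ
  have a5 : ∀ w, w - l • S w ∈ J := fun w => (hS _).mp (by simp [e1, smul_smul, ll])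
  have a6 : ∀ w, N (τ e (S w)) = l • N (τ e w) := fun w => by
    have := n5 _ (a5 w)
    simp only [map_sub, map_smul, sub_eq_zero] at this
    rw [this, smul_smul, ll, one_smul]
  have jj : ∀ η : F, η ≠ 0 → ∃ j ∈ J, ∃ j' ∈ J, β j j = η ∧ β j' j' = η ∧ β j j' = 0 := fun η hη => by
    obtain ⟨j, j1, j', j2, j3, j4, j5, -⟩ := E.exists_orth n0 d2
    have b1 : β j' j' = β j j := by
      rcases mul_self_eq_mul_self_iff.mp ((d4 _ j4).trans (d4 _ j3).symm) with b | b
      · exact b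
      · simpa [j3, j5] using congrArg (β j) (an _ (add_mem j1 j2) (by simp [j5, E.symm j' j, b]))
    rcases mul_self_eq_mul_self_iff.mp ((d4 _ hη).trans (d4 _ j3).symm) with b | b
    · exact ⟨j, j1, j', j2, b.symm, b1.trans b.symm, j5⟩
    · refine ⟨_, add_mem j1 j2, _, sub_mem j1 j2, ?_, ?_, ?_⟩ <;> simp [j5, E.symm j' j, b, b1] <;>
        linear_combination β j j * three
  obtain rfl : m = -l := by
    obtain ⟨c, hc⟩ := a3 (mul_mem (mul_mem (mul_mem (mul_mem (n7 (-1)) (tl (tv B₁ e l))) (n7 1)) (tl (tv B₁ e (-l))))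
      (n7 1)) fun w => by simp [n3, h.tL_tv, h.alt₁, n1, n4, a6, smul_smul, ll]
    obtain ⟨j, j1, -, -, j2, -⟩ := jj 1 one_ne_zero
    have b1 := hc (N (τ e x₀))
    have b2 := hc (τ f j)
    simp [n3, h.tL_tv, h.alt₁, n1, n4, a6, smul_smul, ll, hf, hφ j j1, n5 j j1] at b1 b2
    rw [smul_left_injective F (ten_ne_zero h.ten X.ne (show j ≠ 0 by rintro rfl; simp at j2))
      (show m • τ e j = c • τ e j by linear_combination (norm := module) b2)]
    exact smul_left_injective F (ten_ne_zero h.ten X.ne h0) (by linear_combination (norm := module) -b1)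
  have r1 : ∀ x, (∀ r ∈ J, β r x = 0) → x ∈ LinearMap.range S := fun x hx => ⟨l • x, by
    rw [map_smul, eq_comm, ← sub_eq_zero]
    exact an _ (a5 x) (by rw [map_sub (β _), map_smul, hx _ (a5 x), e0 _ (a5 x)]; simp)⟩
  have r2 : ∀ x ∈ LinearMap.range S, S x = l • x := by rintro _ ⟨x, rfl⟩; exact e1 x
  have r3 : ∀ x ∈ LinearMap.range S, ∀ r ∈ J, β r x = 0 := by rintro _ ⟨x, rfl⟩ r hr; exact e0 r hr x
  obtain ⟨θ, t1, t2⟩ : ∃ θ : End F W, (∀ x ∈ LinearMap.range S, N (τ e x) = l • τ f x + τ e (θ x)) ∧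
      ∀ x, θ x ∈ LinearMap.range S := ⟨-(h.cu f ∘ₗ N ∘ₗ τ e), fun x hx => by
    simpa [n4, r2 x hx, sub_eq_add_neg] using dec (N (τ e x)), fun x => r1 _ fun r hr => by
      simpa [h.B_cu] using e2 r hr x⟩
  have t3 : ∀ x ∈ LinearMap.range S, N (τ f x) = -l • N (τ e (θ x)) := fun x hx => by
    have := n1 (τ e x)
    rw [t1 x hx, map_add, map_smul] at this
    linear_combination (norm := module) l • this - congrArg (· • N (τ f x)) ll
  obtain ⟨y, y1, z, z1, y2, z2, y3, y4⟩ := E.exists_orth (P := LinearMap.range S) (fun v hv v0 => by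
    obtain ⟨w, hw⟩ := E.exists_ne v0
    refine ⟨l • S w, Submodule.smul_mem _ _ ⟨w, rfl⟩, fun a => hw ?_⟩
    rw [← sub_add_cancel w (l • S w), map_add, a, E.symm, r3 v hv _ (a5 w), add_zero]) (by
      have := S.finrank_range_add_finrank_ker
      rw [show LinearMap.ker S = J from Submodule.ext hS, hd.1] at this
      omega)
  obtain ⟨j, j1, j', j2, j3, j4, j5⟩ := jj _ y2
  have y5 := E.symm z y ▸ y3
  have s1 := r3 y y1 j j1
  have s2 := r3 y y1 j' j2
  have s3 := r3 z z1 j j1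
  have s4 := r3 z z1 j' j2
  have s5 : β z z = -β y y := (mul_self_eq_mul_self_iff.mp ((d4 _ z2).trans (d4 _ y2).symm)).resolve_left fun a => by
    obtain ⟨c, hc⟩ := Submodule.mem_span_singleton.mp (hd.2 (j + j' + z) (j' - z + y)
      (by simp [E.symm j' j, E.symm z j, E.symm z j', j3, j4, j5, s3, s4, a]; linear_combination β y y * three)
      (by simp [E.symm y j', E.symm z j', j4, s2, s4, y3, y5, a]; linear_combination β y y * three)
      (by simp [E.symm z j', j4, j5, s1, s2, s3, s4, y5, a]) fun b => by simpa [j3, j5, s3, y2] using congrArg (β j) b)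
    simpa [E.symm y j, E.symm y j', s1, s2, y2, y2.symm, y3] using congrArg (β y) hc
  obtain ⟨a, b, b1⟩ := y4 _ (t2 y)
  obtain ⟨c, d, b2⟩ := y4 _ (t2 z)
  obtain rfl : b = -c := by
    have := n2 (N (τ e y)) (τ e z)
    rw [n1, t1 y y1, t1 z z1, b1, b2] at this
    simp [h.map, h.alt₁, hf, hf', y3, y5, s5] at this
    exact mul_left_cancel₀ (mul_ne_zero d5 y2) (by linear_combination -this)
  by_cases c0 : c = 0
  · have q1 : β (y - j) (y - j) ≠ 0 := by simpa [E.symm y j, s1, j3, ← two_mul, E.two] using y2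
    have q2 : h.sR q1 ∈ M := hM _ (h.tn_tR _ _)
    have q3 : (h.sR q1).1 (τ e y) = τ e j := by
      simp [h.sR_apply, E.symm y j, s1, j3, ← two_mul, smul_smul]
      match_scalars <;> field_simp [E.two] <;> ring
    have := h.perp_of_fix hM H (r := z + j') (by simp [E.symm z j', s4, s5, j4])
      (fun b => by simpa [E.symm z j', s4, z2] using congrArg (β z) b)
      (a := y) (a' := y) (by simp [y5, s2]) (by simp [y5, s2]) (mul_mem (mul_mem (mul_mem q2 (n7 (-1))) q2) (n7 1)) (fun u => by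
        have q4 : h.cw (y - j) (N (τ u (z + j'))) = 0 := by
          obtain ⟨s, hs⟩ := d0 u
          rw [hs]
          simp [n5 j' j2, hφ j' j2, t3 z z1, t1 z z1, b2, c0, y3, s3, j5, E.symm y j', s2]
        have q5 : h.cw (y - j) (τ u (z + j')) = 0 := by simp [y3, s3, j5, E.symm y j', s2]
        generalize τ u (z + j') = v at q4 q5
        simp [n3, h.sR_apply, q4, q5, n1]) e
    simp only [UG_mul_apply] at this
    rw [UG_map_right, h.sR_inv, q3, n3, map_add, map_smul, n2, n5 j j1, map_zero, smul_zero, add_zero, ← q3, UG_map,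
      n3, h.B_cu] at this
    simp [h.alt₁, n4, r2 y y1, d5, y2] at this
  have cc := d4 c c0
  by_cases ad : a = d
  · have q1 : f + (l * (a - 1)) • e ≠ 0 := fun b => by simpa [hf, h.alt₁] using congrArg (B₁ e) b
    obtain ⟨g, hg⟩ := h.sd₁.witt_one q1 (y := f + (l * (a - 1) - l) • e)
      (fun b => by simpa [hf, h.alt₁] using congrArg (B₁ e) b) (by simp only [h.alt₁])
    suffices TN τ ((h.tL g)⁻¹ * t 1).1 from n9 (by simpa using (h.tn_tL g).mul this)
    refine h.tn_of_stab hM H h3 hq q1 (mul_mem (inv_mem (tl g)) (n7 1)) fun w => ?_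
    obtain ⟨s, s', hs⟩ := y4 (l • S w) (Submodule.smul_mem _ _ ⟨w, rfl⟩)
    refine ⟨w - l • S w + s • c • z - s' • c • y, UG_inv_apply_eq (?_ : _ = (t 1).1 _)⟩
    have q2 := n5 _ (a5 w)
    have q3 := hφ _ (a5 w)
    have q4 := (sub_add_cancel w (l • S w)).symm
    generalize w - l • S w = r at q2 q3 q4 ⊢
    rw [q4, hs, tL_ten, hg, n3]
    simp only [map_add, map_smul, map_sub, LinearMap.add_apply, LinearMap.smul_apply, q2, q3, t3 y y1,
      t3 z z1, t1 y y1, t1 z z1, b1, b2, ad]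
    match_scalars <;> grind
  have q1 := d4 _ (sub_ne_zero.mpr ad)
  have q2 : y + (c * (a - d)) • z ∈ LinearMap.range S := add_mem y1 (Submodule.smul_mem _ _ z1)
  have q3 : θ (y + (c * (a - d)) • z) = (a + c * (a - d) * c) • (y + (c * (a - d)) • z) := by
    simp only [map_add, map_smul, b1, b2]
    match_scalars <;> grind
  have q4 : β (y + (c * (a - d)) • z) (y + (c * (a - d)) • z) = 0 := by simp [y3, y5, s5]; grind
  have q5 : y + (c * (a - d)) • z ≠ 0 := fun b => by simpa [y2, y3] using congrArg (β y) b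
  generalize y + (c * (a - d)) • z = p, a + c * (a - d) * c = n at q2 q3 q4 q5
  have q6 := E.symm p j ▸ r3 p q2 j j1
  have := h.perp_of_fix hM H q4 q5 q6 q6 (mul_mem (tl (tv B₁ (f + (l * n) • e) l)) (n7 1)) (fun u => by
    obtain ⟨s, hs⟩ := d0 u
    rw [hs]
    simp only [UG_mul_apply, n3, h.tL_tv, map_add, map_smul, LinearMap.add_apply, LinearMap.smul_apply, t3 p q2,
      t1 p q2, q3, cu_ten, h.alt₁, hf, hf', LinearMap.map_smulₛₗ₂, RingHom.id_apply, smul_eq_mul]
    match_scalars <;> grind) e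
  simp [n3, n5 j j1, h.tL_tv, h.map, h.alt₁, hf, hf', j3, y2, d5] at this

theorem false_of_mx4 : False := by
  have E := h.sy
  have hS := fun w => h.SS_eq_zero4 hM H h3 hq hd X (w := w)
  have hS' := fun w => h.SS_SS4 hM H h3 hq hd X (w := w)
  haveI : Finite W := Module.finite_of_finite F
  obtain ⟨f, hf⟩ := h.exists_one X.ne
  obtain ⟨x₀, h0, ⟨A, ⟨g, hg⟩, a1, a2, a3⟩, alt⟩ := dickson_poly (S := h.SS e k) E.two
    ((h.exists_notMem hM H h3 hq X).imp fun w hw => mt (hS w).mp hw) hS'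
    (p := fun A => ∃ g, h.PP M e k g A) ⟨1, h.PP_one⟩ (fun _ _ ⟨_, a⟩ ⟨_, b⟩ => ⟨_, h.PP_mul a b⟩)
    (fun c => ⟨_, h.PP_lower hM c⟩) fun c => ⟨_, h.PP_upper hM X.mem c⟩
  obtain ⟨a, b, μ, b1, b2, -, b4, -, -, b7, b8⟩ := h.exists_PP4 hM H h3 hq hd X hg h0 a1
  rw [mem_annP, map_add, map_one, LinearMap.add_apply, End.one_apply, add_eq_zero_iff_eq_neg] at a2 a3
  obtain rfl : μ = 1 := smul_left_injective F (neg_ne_zero.mpr h0) (by
    simp only [one_smul]; rw [← a2, ← b8, b7, a2, a3])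
  simp only [one_smul] at b4 b8
  have c1 : ∀ x, h.SS e k (aeval (h.SS e k) (A 0 0) x + x) = 0 → ∃ w,
      g.1 (h.NN e k (τ e x)) = τ e (h.SS e k w) - h.NN e k (τ e x) := fun x hx => by
    have d1 := hg.2.2.2 x 0
    have d2 := h.NN_of_mem ((hS _).mp hx)
    simp only [map_zero, add_zero, map_add (τ e), map_add (h.NN e k)] at d1 d2
    exact ⟨_, by rw [d1, eq_neg_of_add_eq_zero_left d2, neg_add_eq_sub]⟩
  by_cases hU : ∀ u, B₁ e u = 0 → u ∈ F ∙ e
  swap
  · have c2 : ∀ z, h.cu e z = 0 → ∃ w, g.1 z = z + τ e w := fun z hz => by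
      obtain ⟨w, w', d1⟩ := hg.2.2.1 z
      obtain ⟨w'', d2⟩ := mem_JJ.mp (h.mem_of_cu4 hM H h3 hq hd X (w := w) (by
        have := b4 z
        simp [d1, hz, h.alt₁] at this
        exact this ▸ zero_mem _))
      exact ⟨w'' + w', by simp [d1, d2, add_assoc]⟩
    push Not at hU
    obtain ⟨u, d1, d2⟩ := hU
    obtain ⟨ψ, d3, d4⟩ := exists_dual_one_zero d2
    have d5 : ∀ w, ψ (a u) • b w = w := fun w => by
      obtain ⟨w', d⟩ := c2 (τ u w) (by simp [d1])
      simpa [b1, d3, d4] using congrArg (cL h.ten ψ) d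
    have d6 : ψ (a u) = -1 := smul_left_injective F h0 (by simpa [b7, a3, neg_eq_iff_eq_neg] using d5 (h.SS e k x₀))
    have d7 : ∀ w, b w = -w := fun w => by simpa [d6, neg_eq_iff_eq_neg] using d5 w
    have d8 : ∀ w ∈ JJ τ e k⁻¹, w = 0 := fun w hw => by
      have := ten_right_inj h.ten X.ne (z := -w) (z' := w) (by rw [← hg.2.1 w hw, b1, b2, d7])
      rw [neg_eq_iff_add_eq_zero, ← two_smul F] at this
      simpa [E.two] using this
    have d9 : ∀ y z, h.cw y (g.1 z) = -a (h.cw y z) := fun y z =>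
      LinearMap.congr_fun (ten_ext h.ten (f := h.cw y ∘ₗ g.1.toLinearMap) (g := -a ∘ₗ h.cw y)
        fun u w => by simp [b1, d7]) z
    have e1 : ∀ u, a u + u ∈ Submodule.span F {e, a f + f} := fun u => by
      obtain ⟨φ, e2⟩ := Module.Projective.exists_dual_eq_one F h0
      obtain ⟨w, e3⟩ := c2 (τ (u - B₁ e u • f) (h.SS e k x₀)) (by simp [hf])
      have e4 := congrArg (cR h.ten φ) e3
      simp [b1, d7, e2] at e4
      exact Submodule.mem_span_pair.mpr ⟨-φ w, B₁ e u, by linear_combination (norm := module) e4⟩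
    have := h.le_of_cw hM H h3 hq X (finrank_span_pair_le e (a f + f)) fun y w => by
      obtain ⟨x, rfl⟩ := LinearMap.injective_iff_surjective.mp (show Function.Injective
        (h.cu e ∘ₗ k.1.symm.toLinearMap ∘ₗ τ e) from (injective_iff_map_eq_zero _).mpr fun x hx =>
          d8 _ ((hS _).mp (by simp [SS_apply, NN_apply, show h.cu e (k.1.symm (τ e x)) = 0 from hx]))) w
      obtain ⟨w, e2⟩ := c1 x (by simp [← aeval_comm, ← b8, d7])
      have e3 := d9 y (h.NN e k (τ e x))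
      rw [e2, map_sub, cw_ten] at e3
      refine (Submodule.smul_mem_iff _ E.two).mp ?_
      convert add_mem (e1 (h.cw y (h.NN e k (τ e x)))) (Submodule.smul_mem _ (β y (h.SS e k w))
        (Submodule.subset_span (Set.mem_insert _ _))) using 1
      change (2 : F) • h.cw y (h.NN e k (τ e x)) = _
      linear_combination (norm := module) -e3
    rw [← h.finrank_JJ_inv X.ne k, (Submodule.eq_bot_iff _).mpr d8, finrank_bot] at this
    omega
  have d0 : ∀ u, ∃ c : F, u = c • e + B₁ e u • f := fun u => by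
    obtain ⟨c, hc⟩ := Submodule.mem_span_singleton.mp (hU (u - B₁ e u • f) (by simp [hf]))
    exact ⟨c, by simp [hc]⟩
  have d1 : finrank F (⊤ : Submodule F U) ≤ 2 :=
    (Submodule.finrank_mono fun u _ => by
      obtain ⟨c, hc⟩ := d0 u; exact Submodule.mem_span_pair.mpr ⟨_, _, hc.symm⟩).trans (finrank_span_pair_le e f)
  have d2 := h.le_of_cw hM H h3 hq X d1 fun _ _ => trivial
  rw [← h.finrank_JJ_inv X.ne k] at d2
  rw [finrank_top] at d1
  have d3 : JJ τ e k⁻¹ ≠ ⊥ := fun e' => by rw [e', finrank_bot] at d2; omega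
  rcases alt with ⟨A', ⟨g', hg'⟩, d4, d5⟩ | ⟨d4, l, d5, d6⟩
  · obtain ⟨a', b', μ, -, -, -, -, e1, -, e2, e3⟩ := h.exists_PP4 hM H h3 hq hd X hg' h0 d4
    exact d5 (by rw [mem_annP, map_sub, LinearMap.sub_apply, ← e2, e3, e1 d3, one_smul, sub_self])
  have e1 : ∀ x, h.SS e k (h.SS e k x) = l • h.SS e k x := fun x => by
    obtain ⟨a', b', μ, -, -, -, -, -, e1, -⟩ := h.exists_PP4 hM H h3 hq hd X (h.PP_mul (h.PP_upper hM X.mem 1)
      (h.PP_mul (h.PP_lower hM (-2 / l)) (h.PP_upper hM X.mem 1))) h0 (by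
        rw [mem_annP, aeval_of_smul d6]; simp [Matrix.mul_apply]; left; field_simp; ring)
    have e2 := hS' ((2 : F) • x - (2 / l) • h.SS e k x) (by
      rw [← e1 x]; simp [Matrix.mul_apply]; module)
    rw [map_sub, map_smul, map_smul, sub_eq_zero] at e2
    refine smul_right_injective W (div_ne_zero E.two d5) ?_
    simp only [← e2, smul_smul]; rw [div_mul_cancel₀ _ d5]
  have e0' : ∀ r ∈ JJ τ e k⁻¹, ∀ x, β r (h.SS e k x) = 0 := fun r d7 x => by simp [← h.SS_adj, (hS r).mpr d7]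
  have e2' : ∀ r ∈ JJ τ e k⁻¹, ∀ x, B (τ f r) (h.NN e k (τ e x)) = 0 := fun r d7 x => by
    by_cases d8 : r = 0
    · simp [d8]
    have e3 : (A 0 0).eval l = -1 := smul_left_injective F h0 (by simpa [aeval_of_smul d6] using a2)
    obtain ⟨w, e4⟩ := c1 x (by simp [← aeval_comm, aeval_of_smul (e1 x), e3])
    have e5 : b r = r := ten_right_inj h.ten X.ne (by rw [← hg.2.1 r d7, b1, b2])
    obtain ⟨c, e6⟩ := d0 (a f)
    have e7 : B₁ e (a f) = 1 := smul_left_injective F d8 (by simpa [b1, e5, hf] using (b4 (τ f r)).symm)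
    have := UG_map g (τ f r) (h.NN e k (τ e x))
    rw [b1, e4, e5, e6, e7] at this
    simp [h.map, e0' r d7, h.B_NN (τ e r), h.NN_of_mem d7, neg_eq_iff_add_eq_zero, ← two_mul, E.two] at this
    exact this
  by_cases an : ∀ r ∈ JJ τ e k⁻¹, β r r = 0 → r = 0
  · refine h.false_of_an hM H h3 hq hd X hf d0 d4 d5 e1 h0 (le_antisymm (not_lt.mp fun e' => ?_) (by
      have := hd.1; omega)) an e2'
    obtain ⟨r, d7, d8, d9⟩ := SY.exists_iso (β := β) e'
    exact d8 (an r d7 d9)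
  push Not at an
  obtain ⟨r, d7, d9, d8⟩ := an
  have e0 := e0' r d7
  have e2 := e2' r d7
  have e3 : ∀ u, h.cu e (h.NN e k (τ u r)) = 0 := fun u => E.ext fun x => by
    obtain ⟨c, hc⟩ := d0 u
    rw [← h.B_cu, h.B_NN, hc]
    simp [e2, h.B_NN (τ e r), h.NN_of_mem d7]
  obtain ⟨x, hx⟩ := E.exists_ne h0
  have := h.perp_of_fix hM H d9 d8 (e0 x₀) (e0 x) (mul_mem (mul_mem (mul_mem (hM _ (h.tn_tL (tv B₁ e (-1))))
    (h.tt_mem (e := e) hM X.mem 1)) (hM _ (h.tn_tL (tv B₁ e 1)))) (h.tt_mem (e := e) hM X.mem (-1)))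
    (fun u => by
      simp only [UG_mul_apply, tt_apply, tL_tv]
      simp [e3, h.NN_of_mem d7, h.alt₁]; abel) e
  simp only [UG_mul_apply, tt_apply, tL_tv, h.B_cu] at this
  simp [h.alt₁, ← SS_apply, d6, d5] at this
  rw [h.SS_adj, d6] at this
  simp [d5, E.symm x, hx] at this

omit X in
theorem tn_of_mem_M4 (hk : k ∈ M) : TN τ k.1 := by
  by_contra h1
  haveI : Nontrivial U := Module.nontrivial_of_finrank_pos (R := F) (Nat.pos_of_ne_zero fun e' => by
    haveI := finrank_zero_iff.mp e'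
    exact h1 ⟨0, 0, fun u w => by simp [Subsingleton.elim u 0]⟩)
  obtain ⟨e, he⟩ := exists_ne (0 : U)
  obtain ⟨g, ⟨a1, a2⟩, a3⟩ := Set.exists_max_image {g : UG B | g ∈ M ∧ ¬ TN τ g.1}
    (fun g => finrank F (JJ τ e g)) (by
      haveI := h.fin
      haveI : Finite V := Module.finite_of_finite F
      haveI : Finite (V ≃ₗ[F] V) := Finite.of_injective _ DFunLike.coe_injective
      exact Set.toFinite _) ⟨k, hk, h1⟩
  exact h.false_of_mx4 hM H h3 hq hd ⟨he, a1, a2, fun k' a b => by_contra fun c => (a3 k' ⟨a, c⟩).not_gt b⟩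

end TF

end

open Cfsg.Geo
open scoped MatrixGroups

theorem max_sp_tensor4 {F : Type*} [Field F] [Fintype F] {m a b : ℕ} (h2 : (2 : F) ≠ 0) (hb : b = 4)
    {e : (Fin m ⊕ Fin m) ≃ Fin a × Fin b}
    {P : GL (Fin m ⊕ Fin m) F} {f₁ : (Fin a → F) → (Fin a → F) → F} {f₂ : (Fin b → F) → (Fin b → F) → F}
    (hf₁ : IsSymplecticForm f₁) (hf₂ : IsSymmetricForm f₂) (hm : 0 < m)
    (hp : ¬ IsPlusTypeOn (fun v => f₂ v v) ⊤)
    (hT : IsTensorFormStructure id (sympForm m F) f₁ f₂ e P) :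
    IsMaximalIn (spGL m F) (tensorProductSubgroup a b e P ⊓ spGL m F) := by
  have hf := tvF_sp hm F
  have a1 := Fintype.card_congr e
  have a2 := H18.even_card_of_symplectic hf₁
  simp only [Fintype.card_sum, Fintype.card_prod, Fintype.card_fin] at a1 a2
  have a3 : 2 ≤ a := by
    obtain ⟨r, rfl⟩ := a2
    by_contra h; obtain rfl : r = 0 := by omega
    omega
  have : Nonempty (Fin a) := ⟨⟨0, by omega⟩⟩
  have a4 := H18.hform_of_symmetric hf₂
  obtain ⟨c, hc, h⟩ := tensor_form_apply (σ := RingHom.id F) (tvF_of_symplectic hf₁).toSesq a4.toSesq hT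
  have T : TF (tB hf) (tB (tvF_of_symplectic hf₁)) (c • a4.toSesq.toMap) (tP e P) :=
    ⟨isTen_tP e P, sd_tB _, sd_tB _, ⟨fun x y => congrArg (c * ·) (hf₂.symm y x), fun x hx =>
      a4.nondeg x fun y => (mul_eq_zero.mp (hx y)).resolve_left hc, h2⟩, fun u w u' w' => by
        rw [tB_apply, tB_apply, h]; change _ = _ * (c * f₂ w' w); ring⟩
  rw [spGL_eq_inf hm]
  refine isMaximalIn_iso hf _ (fun _ => mem_tensor_iff (by omega) (by omega)) (fun H => ?_)
    fun M hM _ g hg hg' => by_contra fun H => hg' (T.tn_of_mem_M4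
      (fun k => hM _ (((sd_tB hf).SUG_eq_top rfl).ge trivial)) H (by simp [hb]) (Or.inr (by simp [hb]))
      ⟨by simpa, fun x y b1 b2 b3 b4 => by_contra fun b5 => hp ⟨Submodule.span F {x, y}, le_top, fun v hv => ?_, ?_⟩⟩ hg)
  · obtain ⟨g, hg, U, h1, h2, h3⟩ := (has_SU hf).exists_small
    exact H18.not_mem_tensor_of_small (by simp; omega) h1 h2 h3 a3 (by omega) e P (H hg)
  · obtain ⟨s, t, rfl⟩ := Submodule.mem_span_pair.mp hv
    refine (mul_eq_zero.mp (show (c • a4.toSesq.toMap) (s • x + t • y) (s • x + t • y) = 0 from ?_)).resolve_left hc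
    simp only [map_add, map_smul, LinearMap.add_apply, LinearMap.smul_apply (S := F) s, LinearMap.smul_apply (S := F) t,
      T.sy.symm y x, b1, b2, b3, smul_zero, add_zero]
  · have := finrank_span_eq_card (LinearIndependent.pair_iff' b4 |>.mpr fun s e => b5 (Submodule.mem_span_singleton.mpr ⟨s, e⟩))
    rw [Matrix.range_cons, Matrix.range_cons, Matrix.range_empty, Set.union_empty, Set.singleton_union] at this
    simp [this, hb]

end Cfsg.Agent.H12
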