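import Mathlib
import Cfsg.Agent.H12.DecD
import Cfsg.Agent.H12.UfA

/-!
Four-dimensional unitary groups: stabilisers of decompositions into two planes.
-/

set_option autoImplicit false

namespace Cfsg.Agent.H12

open Module

variable {F V : Type*} [Field F] [AddCommGroup V] [Module F V] {σ : F →+* F}
  {B : V →ₛₗ[σ] V →ₗ[F] F} {M : Subgroup (UG B)} {e f e' f' u : V}

theorem SP.torus_apply (h : SP B e f) (D : SD B) (a : Fˣ) (x : V) :
    (h.torus D a).1 x = x - (((a : F) - 1) * B f x) • e + (((σ a)⁻¹ - 1) * B e x) • f := by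
  obtain ⟨s, t, w, rfl⟩ := h.exists_eq D x
  rw [h.torus_comb]
  simp only [map_add, map_smul, h.ee, h.ff, h.ef, h.fe D, spp_left, spp_right, smul_eq_mul]
  module

theorem SP.torus_mul_mem [FiniteDimensional F V] (h : SP B e f) (h' : SP B e' f') (D : SD B)
    {a b : Fˣ} (H : σ (a * b) = a * b) : h.torus D a * h'.torus D b ∈ SUG B := by
  rw [SUG, MonoidHom.mem_ker, map_mul]
  refine Units.ext ?_
  have := D.σ_ne_zero a.ne_zero
  have := D.σ_ne_zero b.ne_zero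
  rw [Units.val_mul, h.det_torus, h'.det_torus, Units.val_one]
  field_simp
  rw [← H, map_mul]

theorem SP.torus_mem [FiniteDimensional F V] (h : SP B e f) (D : SD B) {a : Fˣ} (H : σ a = a) :
    h.torus D a ∈ SUG B := by
  rw [SUG, MonoidHom.mem_ker]
  exact Units.ext (by rw [h.det_torus, H]; simp)

theorem AM.smul_of_tor {K : Type*} [Field K] [Finite K] {σ₀ : K →+* K} (φ : K →+* F)
    (hφ : ∀ c, σ (φ c) = φ (σ₀ c)) (h0 : σ₀ ≠ RingHom.id K) (h1 : ∀ c, σ₀ (σ₀ c) = c) (D : SD B)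
    (h : AM M e u) (H : ∀ l : K, l ≠ 0 → ∃ k ∈ M, k.1 e = φ l • e ∧ k.1 u = (φ l)⁻¹ • u) (c : K) :
    AM M e (φ c • u) := by
  obtain ⟨_, ⟨a1, a2, -⟩, -⟩ := id h
  let A : AddSubgroup K :=
    { carrier := {c | AM M e (φ c • u)}
      add_mem' := fun h1 h2 => by simpa [add_smul] using AM.add D h1 h2
      zero_mem' := by simpa using AM.zero D a1
      neg_mem' := fun h1 => by simpa using AM.neg D h1 }
  refine eq_top_of_mu h0 h1 (A := A) (fun ε hε c hc => ?_) (c := 1) (by simpa [A] using h)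
    one_ne_zero c
  obtain ⟨l, l0, hl⟩ := exists_div_conj_eq h0 h1 (c := σ₀ ε) (by rw [h1, mul_comm, hε])
  obtain ⟨k, k1, k2, k3⟩ := H l l0
  have := AM.map D hc k1
  rw [k2, map_smul, k3] at this
  have b1 : σ₀ l ≠ 0 := by simpa using l0
  change AM M e (φ (ε * c) • u)
  convert this.of_smul_left D a1 (by simp [a2]) using 1
  rw [smul_smul, smul_smul, hφ, ← map_inv₀, ← map_mul, ← map_mul]
  congr 2
  field_simp at hl ⊢
  linear_combination c * ε * hl + c * σ₀ l * hε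

theorem IS.of_tv_tor [Finite F] (D : SD B) (he : B e e = 0)
    (H : ∀ t, σ t = t → t ≠ 0 → ∃ k ∈ M, k.1 e = t • e) {c : F} (hc : σ c = c) (c0 : c ≠ 0)
    (h : tv B e c ∈ M) : IS M e := by
  have key : ∀ t, σ t = t → tv B e (c * (t * t)) ∈ M := fun t ht => by
    by_cases t0 : t = 0
    · simp [t0, tv_zero D]
    obtain ⟨k, k1, k2⟩ := H t ht t0
    have := mul_mem (mul_mem k1 h) (inv_mem k1)
    rwa [conj_tv D, k2, tv_smul D he hc, ht] at this
  refine IS.of_fix he fun d hd => ?_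
  by_cases h2 : (2 : F) = 0
  · obtain ⟨y, hy⟩ := H13.exists_sq_eq_of_two_eq_zero h2 (d / c)
    have a1 := congrArg σ hy
    rw [map_div₀, hd, hc, map_pow, ← hy] at a1
    have a2 : σ y = y := sub_eq_zero.mp (pow_eq_zero_iff two_ne_zero |>.mp (by
      linear_combination a1 + (y ^ 2 - σ y * y) * h2))
    convert key y a2 using 2
    rw [← sq, hy]; field_simp
  · have a1 : ∀ s : F, σ s = s → σ ((d / c + s) / 2) = (d / c + s) / 2 := fun s hs => by
      simp [hd, hc, hs, map_ofNat]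
    have := mul_mem (key _ (a1 1 (map_one σ))) (inv_mem (key _ (a1 (-1) (by simp))))
    rw [tv_inv D, tv_mul D he (by simp [hd, hc, map_ofNat]) (by simp [hd, hc, map_ofNat])] at this
    convert this using 2
    field_simp; ring

variable [FiniteDimensional F V]

theorem SP.span4 (h : SP B e f) (h' : SP B e' f') (D : SD B) (h4 : finrank F V = 4)
    (a1 : B e e' = 0) (a2 : B e f' = 0) (a3 : B f e' = 0) (a4 : B f f' = 0) (x : V) :
    x = -B f x • e + B e x • f + (-B f' x • e' + B e' x • f') := by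
  have b1 : SP (res B (spp B e f)) ⟨e', mem_sperp_pair.mpr ⟨a1, a3⟩⟩ ⟨f', mem_sperp_pair.mpr ⟨a2, a4⟩⟩ :=
    ⟨h'.ee, h'.ff, h'.ef⟩
  have b2 := b1.finrank_spp (h.sd D)
  have b3 := h.finrank_spp D
  have b4 := Submodule.finrank_eq_zero.mp (show finrank F (spp (res B (spp B e f))
    ⟨e', mem_sperp_pair.mpr ⟨a1, a3⟩⟩ ⟨f', mem_sperp_pair.mpr ⟨a2, a4⟩⟩) = 0 by omega)
  have b5 := b1.proj_mem (h.sd D) ⟨_, h.proj_mem D x⟩
  rw [b4, Submodule.mem_bot, Subtype.ext_iff] at b5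
  simp only [res_apply, map_sub, map_add, map_smul, D.comm0 a1, D.comm0 a2, D.comm0 a3, D.comm0 a4,
    Submodule.coe_sub, Submodule.coe_add, Submodule.coe_smul, smul_zero, add_zero, sub_zero,
    Submodule.coe_zero] at b5
  linear_combination (norm := module) b5

theorem SP.SUG_le_of_AM4 [Finite F] (h : SP B e f) (h' : SP B e' f') (D : SD B) (h4 : finrank F V = 4)
    (a1 : B e e' = 0) (a2 : B e f' = 0) (a3 : B f e' = 0) (a4 : B f f' = 0) (b1 : IS M e)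
    (b2 : IS M f) (b3 : IS M f') (H : ∀ c : F, AM M e (c • e')) : SUG B ≤ M := by
  have c1 : ∀ c : F, AM M e (c • f') := fun c => by
    have := (H c).map D (b3.2 1)
    rw [tv_apply_of_perp D _ (D.comm0 a2), tv_apply D h'.ff (map_one σ)] at this
    simpa [h'.fe D] using (H c).sub D this
  have c2 : ES M e := ES.of_AM D b1 fun u hu => by
    rw [h.span4 h' D h4 a1 a2 a3 a4 u, hu, zero_smul, add_zero]
    exact (AM.self_smul D h.ee _).add D ((H _).add D (c1 _))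
  exact D.SUG_le_of_ES₂ D.ns c2 (c2.map D (b2.2 1)) (by
    simp [tv_apply D h.ff (map_one σ), h.ee, h.ef, h.fe D])

theorem OD.SUG_le_two [Finite F] {κ : Type*} [Finite κ] {E : κ → Submodule F V} (h : OD B E) (D : SD B)
    (hσ : σ ≠ RingHom.id F) (h4 : finrank F V = 4) (hk : ∀ i, finrank F (E i) = 2)
    (h3 : ∃ a, σ a = a ∧ a ≠ 0 ∧ a ≠ 1)
    (hM : ∀ g ∈ SUG B, (∀ i, ∃ j, ∀ x ∈ E i, g.1 x ∈ E j) → g ∈ M)
    {g : UG B} (hg : g ∈ M) (hg' : ¬ ∀ i, ∃ j, ∀ x ∈ E i, g.1 x ∈ E j) : SUG B ≤ M := by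
  have hN := D.ns
  have h2 : ∀ i, 2 ≤ finrank F (E i) := fun i => (hk i).ge
  have hM' : ∀ g ∈ SUG B, (∀ i, g ∈ stabW B (E i)) → g ∈ M := fun g hg H =>
    hM g hg fun i => ⟨i, fun x hx => (H i x).mpr hx⟩
  obtain ⟨x, hx, i, j, hij, hi, hj⟩ : ∃ x, IS M x ∧ ∃ i j, i ≠ j ∧ x ∉ sperp B (E i) ∧
      x ∉ sperp B (E j) := by
    by_contra! H
    refine hg' fun i => ?_
    have h4 : ∀ e ∈ E i, B e e = 0 → ∀ j, g.1 e ∉ sperp B (E j) → g.1 e ∈ E j :=
      fun e a1 a2 j a3 => h.mem_of_perp D fun l hl =>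
        H _ ((h.is D hM' a1 a2).map D hg) j l (Ne.symm hl) a3
    obtain ⟨e, a1, a2⟩ := (D.restrict (h.nd i)).exists_iso hN (h2 i)
    obtain ⟨j, hj⟩ : ∃ j, g.1 e ∉ sperp B (E j) := by
      by_contra! h5
      exact a1 (by simpa using h.eq_zero D h5)
    refine ⟨j, fun x hx => (D.restrict (h.nd i)).iso_induction' hN (Or.inr (h2 i))
      (p := fun x => g.1 x ∈ E j) (fun y hy => ?_) (fun y z hy hz => by
        simpa using add_mem hy hz) ⟨x, hx⟩⟩
    by_cases y0 : y = 0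
    · simp [y0]
    obtain ⟨v, b1, b2, b3⟩ := (D.restrict (h.nd i)).exists_iso_ne₂ hN (Or.inr (h2 i)) a1 y0
    have b4 := h4 v v.2 b1 j fun H => b2 (by
      rw [res_apply, ← UG_map g]; exact H _ (h4 e e.2 a2 j hj))
    exact h4 y y.2 hy j fun H => b3 (by rw [res_apply, ← UG_map g]; exact D.comm0 (H _ b4))
  obtain ⟨e, a1, e', a2, a3, a4, a5, a6, a7⟩ := h.exists_mixed D hN hM' hij hx hi hj (h2 i)
    (Or.inl ⟨h2 j, h3⟩)
  have k : ∀ i, ∀ e ∈ E i, B e e = 0 → e ≠ 0 → ∃ f ∈ E i, ∃ s : SP B e f, ∀ a j,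
      s.torus D a ∈ stabW B (E j) := fun i e b1 b2 b3 => by
    obtain ⟨f, hf⟩ := (D.restrict (h.nd i)).exists_SP (e := ⟨e, b1⟩) b2 (by simpa using b3)
    exact ⟨f, f.2, ⟨hf.ee, hf.ff, hf.ef⟩, fun a => h.loc D (j := i) fun z hz => by
      simp [SP.torus_apply, hz e b1, hz f f.2]⟩
  obtain ⟨f, b1, s, b2⟩ := k i e a1 a3 a5
  obtain ⟨f', b3, s', b4⟩ := k j e' a2 a4 a6
  have o := h.orth i j hij
  refine s.SUG_le_of_AM4 s' D h4 (o a2 e a1) (o b3 e a1) (o a2 f b1) (o b3 f b1) (h.is D hM' a1 a3)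
    (h.is D hM' b1 s.ff) (h.is D hM' b3 s'.ff) (AM.smul_of_tor (RingHom.id F) (fun _ => rfl) hσ D.invol D
      (AM.of_IS D a3 (o a2 e a1) (h.is D hM' a2 a4) a7) fun l l0 => ⟨_, hM' _
        (s.torus_mul_mem s' D (a := Units.mk0 l l0) (b := (Units.mk0 l l0)⁻¹) (by simp [l0]))
        fun i => mul_mem (b2 _ i) (b4 _ i), ?_, ?_⟩)
  · simp [s'.torus_apply, D.comm0 (o a2 e a1), D.comm0 (o b3 e a1), s.torus_e]
  · simp [s'.torus_e, s.torus_apply, o a2 e a1, o a2 f b1]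

variable {W W' : Submodule F V}

theorem TP.torus_mem (h : TP B W W') (D : SD B)
    (hM : ∀ g ∈ SUG B, (∀ w ∈ W, g.1 w ∈ W) → (∀ w ∈ W', g.1 w ∈ W') → g ∈ M) (s : SP B e f)
    (he : e ∈ W) (hf : f ∈ W') {t : Fˣ} (ht : σ t = t) : s.torus D t ∈ M :=
  hM _ (s.torus_mem D ht) (fun x hx => by
    rw [s.torus_apply, h.ti e he x hx, mul_zero, zero_smul, add_zero]
    exact sub_mem hx (W.smul_mem _ he)) fun x hx => by
    rw [s.torus_apply, h.ti' f hf x hx, mul_zero, zero_smul, sub_zero]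
    exact add_mem hx (W'.smul_mem _ hf)

theorem TP.SUG_le_two [Finite F] (h : TP B W W') (D : SD B) (hσ : σ ≠ RingHom.id F)
    (h2 : finrank F W = 2) {t : F} (t1 : σ t = t) (t0 : t ≠ 0) (t2 : t * t ≠ 1)
    (hM : ∀ g ∈ SUG B, (∀ w ∈ W, g.1 w ∈ W) → (∀ w ∈ W', g.1 w ∈ W') → g ∈ M)
    (hM' : ∀ g ∈ SUG B, (∀ w ∈ W, g.1 w ∈ W') → (∀ w ∈ W', g.1 w ∈ W) → g ∈ M) {g : UG B}
    (hg : g ∈ M) (hg1 : ¬ ((∀ w ∈ W, g.1 w ∈ W) ∧ ∀ w ∈ W', g.1 w ∈ W'))
    (hg2 : ¬ ((∀ w ∈ W, g.1 w ∈ W') ∧ ∀ w ∈ W', g.1 w ∈ W)) : SUG B ≤ M := by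
  by_contra H
  have hN := D.ns
  have htr : ∀ c, σ c = c → ∃ d, d + σ d = c := fun c hc => H13.exists_add_conj_eq hσ D.invol hc
  have h2' : finrank F W' = 2 := by rwa [h.finrank_eq D]
  obtain ⟨s, a1, a2, a3⟩ := h.exists_swap D (fun h0 => by rw [h0, finrank_bot] at h2; omega)
  have a4 := hM' s a1 a2 a3
  have k0 : ∀ w ∈ W, w ≠ 0 → ¬ IS M w := fun w hw h0 H' =>
    H (h.SUG_le_of_IS D hN hM a4 a2 hw h0 H')
  have k1 := fun {g} => h.map_mem D htr hM (g := g) k0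
  have k2 := fun {g} => h.symm.map_mem D htr (fun g hg h1 h2 => hM g hg h2 h1) (g := g) fun w hw h0 H' =>
    H (h.symm.SUG_le_of_IS D hN (fun g hg h1 h2 => hM g hg h2 h1) a4 a3 hw h0 H')
  have p1 : ∀ {W : Submodule F V}, finrank F W = 2 → ∀ x, ∃ b ∈ W, b ≠ 0 ∧ B x b = 0 := fun hW x => by
    simpa only [mem_sperp_singleton] using D.exists_perp_mem (S := F ∙ x)
      ((finrank_span_le_card _).trans_lt (by simp [hW]))
  have p2 : ∀ x ∈ W, ∀ y ∈ W, x ≠ 0 → y ∉ F ∙ x → ∀ b ∈ W', B x b = 0 → B y b = 0 → b = 0 :=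
    fun x hx y hy x0 h1 b hb h3 h4 => h.eq_zero D hb fun w hw => by
      have : Submodule.span F {x, y} = W := Submodule.eq_of_le_of_finrank_eq
        (Submodule.span_le.mpr (by simp [Set.insert_subset_iff, hx, hy])) (by
          rw [h2, ← Matrix.range_cons_cons_empty x y ![]]
          simpa using finrank_span_eq_card (li_pair_of_notMem x0 h1))
      exact (mem_sperp_pair.mpr ⟨h3, h4⟩) w (this ▸ hw)
  have key : ∀ g ∈ M, ∀ a ∈ W, a ≠ 0 → g.1 a ∈ W →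
      (∀ w ∈ W, g.1 w ∈ W) ∧ ∀ w ∈ W', g.1 w ∈ W' := fun g hg a b1 b2 b3 => by
    suffices h1 : ∀ w ∈ W', g.1 w ∈ W' from ⟨fun w hw => by
      obtain ⟨b, c1, c2, c3⟩ := p1 h2' w
      exact k2 hg c1 c2 (h1 b c1) hw (D.comm0 c3), h1⟩
    obtain ⟨b, c1, c2, c3⟩ := p1 h2' a
    have c4 := k1 hg b1 b2 b3 c1 c3
    obtain ⟨b', c5, -, c6⟩ := h.exists_perp_one D b1 (zero_mem W) (by simpa using b2)
    suffices h1 : g.1 b' ∈ W' from fun w hw => by
      have := k1 hg b1 b2 b3 (sub_mem hw (W'.smul_mem (B a w) c5)) (by simp [c6])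
      rwa [map_sub, map_smul, W'.sub_mem_iff_left (W'.smul_mem _ h1)] at this
    obtain ⟨u, d1, f, d2, d3⟩ := h.exists_add (g.1 b')
    obtain ⟨δ, rfl⟩ : ∃ δ : F, δ • g.1 a = u := Submodule.mem_span_singleton.mp (by
      by_contra d4
      refine UG_ne_zero g c2 (p2 _ b3 u d1 (UG_ne_zero g b2) d4 _ c4 (by rw [UG_map, c3]) ?_)
      rw [eq_sub_of_add_eq d3, map_sub, LinearMap.sub_apply, UG_map, h.ti' _ c5 _ c1, h.ti' _ d2 _ c4,
        sub_zero])
    have d4 := h.ti _ b3 _ b3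
    have d5 : B (g.1 a) f = 1 := by simpa [← d3, d4] using (UG_map g a b').trans c6
    have s1 : SP B a b' := ⟨h.ti _ b1 _ b1, h.ti' _ c5 _ c5, c6⟩
    have s2 : SP B (g.1 a) f := ⟨d4, h.ti' _ d2 _ d2, d5⟩
    have d6 : σ δ = δ := by
      have := (UG_map g b' b').trans s1.ff
      simp [← d3, d4, d5, s2.ff, s2.fe D] at this
      linear_combination this
    have d7 := mul_mem (mul_mem (mul_mem hg (h.torus_mem D hM s1 b1 c5 (t := Units.mk0 t t0) t1))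
      (inv_mem hg)) (inv_mem (h.torus_mem D hM s2 b3 d2 (t := Units.mk0 t t0) t1))
    have d8 : σ (δ * (1 - t * t)) = δ * (1 - t * t) := by simp [d6, t1]
    rw [mul_inv_eq_iff_eq_mul.mpr (show _ = tv B (g.1 a) (δ * (1 - t * t)) * _ from UG_ext fun z => by
      simp only [UG_mul_apply, SP.torus_apply, map_add, map_sub, map_smul, UG_apply_inv,
        ← UG_map_left, ← d3, tv_apply D d4 d8, d4, d5, Units.val_mk0, t1, LinearMap.add_apply,
        LinearMap.map_smulₛₗ, LinearMap.smul_apply, d6, smul_eq_mul]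
      match_scalars <;> field_simp <;> ring)] at d7
    by_cases d9 : δ = 0
    · simpa [← d3, d9] using d2
    exact (k0 _ b3 (UG_ne_zero g b2) (IS.of_tv_tor D d4 (fun r r1 r0 =>
      ⟨_, h.torus_mem D hM s2 b3 d2 (t := Units.mk0 r r0) r1, s2.torus_e D _⟩) d8
      (mul_ne_zero d9 (sub_ne_zero.mpr t2.symm)) d7)).elim
  have b1 : ∀ a ∈ W, g.1 a ∈ W → a = 0 := fun a ha h1 => by
    by_contra h0
    exact hg1 (key g hg a ha h0 h1)
  have b2 : ∀ a ∈ W, g.1 a ∈ W' → a = 0 := fun a ha h1 => by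
    by_contra h0
    obtain ⟨h2, h4⟩ := key _ (mul_mem a4 hg) a ha h0 (a3 _ h1)
    exact hg2 ⟨fun w hw => h.symm.mem_of_perp D fun y hy => by
        rw [← UG_map s]; exact h.ti _ (a3 y hy) _ (h2 w hw),
      fun w hw => h.mem_of_perp D fun y hy => by
        rw [← UG_map s]; exact h.ti' _ (a2 y hy) _ (h4 w hw)⟩
  obtain ⟨a, c1, w, c2, w', c3, c4, c5⟩ : ∃ a ∈ W, ∃ w ∈ W, ∃ w' ∈ W', w + w' = g.1 a ∧ B w w' ≠ 0 := by
    by_contra! H'
    obtain ⟨a, c1, c2, -⟩ := p1 h2 0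
    obtain ⟨b, c3, c4⟩ := exists_notMem_of_finrank_lt (H := F ∙ a) (W := W)
      (by rw [finrank_span_singleton c2]; omega)
    obtain ⟨x, d1, x', d2, d3⟩ := h.exists_add (g.1 a)
    obtain ⟨y, d4, y', d5, d6⟩ := h.exists_add (g.1 b)
    have d7 : ∀ c : F, B (c • x + y) (c • x' + y') = 0 := fun c =>
      H' (c • a + b) (add_mem (W.smul_mem c c1) c3) _ (add_mem (W.smul_mem c d1) d4) _
        (add_mem (W'.smul_mem c d2) d5) (by rw [map_add, map_smul, ← d3, ← d6]; module)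
    obtain ⟨θ, hθ⟩ := DFunLike.ne_iff.mp hσ
    have e1 := d7 0
    have e2 := d7 1
    have e3 := d7 θ
    simp [H' a c1 x d1 x' d2 d3] at e1 e2 e3
    refine c2 (b1 a c1 ?_)
    rw [← d3, p2 x d1 y d4 (fun e => c2 (b2 a c1 (by simpa [← d3, e] using d2))) (fun e => c4 ?_) x' d2
      (H' a c1 x d1 x' d2 d3) (mul_left_cancel₀ (sub_ne_zero.mpr hθ) (by
        simp only [RingHom.id_apply]
        linear_combination σ θ * e2 - e3 + (1 - σ θ) * e1)), add_zero]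
    · exact d1
    obtain ⟨c, rfl⟩ := Submodule.mem_span_singleton.mp e
    exact Submodule.mem_span_singleton.mpr ⟨c, (sub_eq_zero.mp (b2 _ (sub_mem c3 (W.smul_mem c c1)) (by
      rw [map_sub, map_smul, ← d3, ← d6]
      simpa [smul_add] using sub_mem d5 (W'.smul_mem c d2)))).symm⟩
  obtain ⟨e, d1, d2, d3⟩ := p1 h2 w'
  obtain ⟨f, d4, d5, d6⟩ := h.exists_perp_one D d1 c2 fun e' => by
    obtain ⟨c, rfl⟩ := Submodule.mem_span_singleton.mp e'
    simp [D.ne0 c5] at d3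
    simp [d3] at d2
  have s1 : SP B e f := ⟨h.ti _ d1 _ d1, h.ti' _ d4 _ d4, d6⟩
  have d7 := (key _ (mul_mem (inv_mem hg) (mul_mem (h.torus_mem D hM s1 d1 d4
    (t := Units.mk0 t t0) t1) hg)) a c1 (by rintro rfl; exact c5 (by
      rw [map_zero, add_eq_zero_iff_eq_neg] at c4; simp [c4, h.ti' _ c3 _ c3])) (by
      have : B e (g.1 a) = 0 ∧ B f (g.1 a) = 0 := by
        simp [← c4, D.comm0 d5, D.comm0 d3, h.ti _ d1 _ c2, h.ti' _ d4 _ c3]
      simpa [s1.torus_apply, this] using c1)).1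
  refine UG_ne_zero g⁻¹ d2 (b1 _ (h.mem_of_perp D fun y hy => ?_) (by simpa using d1))
  have e1 := sub_mem (d7 y hy) hy
  have e2 := congrArg g.1 (b2 _ (sub_mem (W.smul_mem t e1) (d7 _ e1)) (by
    convert W'.smul_mem ((t - t⁻¹) * (t⁻¹ - 1) * B e (g.1 y)) d4 using 1
    simp [s1.torus_apply, s1.ee, s1.ff, s1.ef, s1.fe D, t1]
    module))
  rw [← UG_map_left]
  refine D.comm0 (mul_left_cancel₀ (mul_ne_zero (sub_ne_zero.mpr t2) (sub_ne_zero.mpr
    (show (1 : F) ≠ t from fun e => t2 (by simp [← e])))) ?_)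
  have e3 := congrArg (B e) e2
  simp [s1.torus_apply, s1.ee, s1.ff, s1.ef, s1.fe D, t1] at e3
  field_simp at e3
  linear_combination e3

omit [FiniteDimensional F V] in
theorem exists_fix_sq_ne [Finite F] (h : 4 ≤ q0 σ) : ∃ t, σ t = t ∧ t ≠ 0 ∧ t * t ≠ 1 := by
  classical
  obtain ⟨t, h1, h2⟩ := Finset.exists_mem_notMem_of_card_lt_card (s := {0, 1, -1}) (t := fxF σ)
    (Finset.card_le_three.trans_lt (by rwa [card_fxF]))
  simp only [Finset.mem_insert, Finset.mem_singleton, not_or] at h2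
  exact ⟨t, mem_fxF.mp h1, h2.1, fun e => (mul_self_eq_one_iff.mp e).elim h2.2.1 h2.2.2⟩

section
open Cfsg.Geo
variable {F : Type*} [Field F] [Fintype F] {q : ℕ} (hF : Fintype.card F = q ^ 2)
  {D : Fin 2 → Submodule F (Fin 4 → F)}
include hF

theorem max_su4_nd (hq : 3 ≤ q) (hD : IsNondegenerateMDecomposition (hermForm 4 F q) 2 D) :
    IsMaximalIn (GU 4 F q ⊓ specialLinear (Fin 4) F)
      (decompositionStabilizer D ⊓ (GU 4 F q ⊓ specialLinear (Fin 4) F)) := by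
  obtain ⟨_, hf⟩ := exists_tvF_su hF (n := 4) (by omega)
  exact isMaximalIn_iso hf (fun g => ∀ i, ∃ j, ∀ x ∈ D i, g x ∈ D j) (fun g => perm_iff_mapsTo hD.decomp (glEq _ F g))
    ((has_SU hf).not_le_decomp hD.decomp (by omega)) fun M hM _ g hg hg' =>
      (od_of_decomp hf hD).SUG_le_two (sd_tB hf) (frobq_ne_id hF) (by simp) hD.decomp.finrank_eq
        (exists_fix_frobq hF (by omega)) hM hg hg'

theorem max_su4_pair (hq : 4 ≤ q) (hD : IsMDecomposition 2 D)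
    (hts : ∀ i, IsTotallySingularFor (hermForm 4 F q) (D i)) :
    IsMaximalIn (GU 4 F q ⊓ specialLinear (Fin 4) F)
      (decompositionStabilizer D ⊓ (GU 4 F q ⊓ specialLinear (Fin 4) F)) := by
  obtain ⟨_, hf⟩ := exists_tvF_su hF (n := 4) (by omega)
  have h1 : ∀ i, ∀ u ∈ D i, ∀ v ∈ D i, tB hf u v = 0 := fun i u hu v hv =>
    (tB_eq_zero' hf).mpr (hts i u hu v hv)
  have h : TP (tB hf) (D 0) (D 1) := ⟨h1 0, h1 1, by
    rw [eq_top_iff, ← hD.iSup_eq_top]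
    exact iSup_le (Fin.forall_fin_two.mpr ⟨le_sup_left, le_sup_right⟩)⟩
  obtain ⟨t, t1, t0, t2⟩ := exists_fix_sq_ne (σ := frobq hF) (by rwa [q0_frobq])
  exact isMaximalIn_iso hf (fun g => ∀ i, ∃ j, ∀ x ∈ D i, g x ∈ D j) (fun g => perm_iff_mapsTo hD (glEq _ F g))
    ((has_SU hf).not_le_decomp hD (by omega)) fun M hM h0 g hg hg' =>
      h.SUG_le_two (sd_tB hf) (frobq_ne_id hF) (hD.finrank_eq 0) t1 t0 t2 (fun g hg a1 a2 => hM g hg
        (Fin.forall_fin_two.mpr ⟨⟨0, a1⟩, 1, a2⟩)) (fun g hg a1 a2 => hM g hg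
        (Fin.forall_fin_two.mpr ⟨⟨1, a1⟩, 0, a2⟩)) hg
        (fun H => hg' (Fin.forall_fin_two.mpr ⟨⟨0, H.1⟩, 1, H.2⟩))
        fun H => hg' (Fin.forall_fin_two.mpr ⟨⟨1, H.1⟩, 0, H.2⟩)

end

end Cfsg.Agent.H12
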