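import Mathlib
import Cfsg.Agent.H12.U4A
import Cfsg.Agent.H12.L4A
import Cfsg.Agent.H12.SubF

/-!
Four-dimensional unitary groups: unitary and symplectic subfield subgroups.
-/

set_option autoImplicit false

namespace Cfsg.Agent.H12

open Module

variable {F V : Type*} [Field F] [AddCommGroup V] [Module F V] {σ : F →+* F}
  {B : V →ₛₗ[σ] V →ₗ[F] F} {M : Subgroup (UG B)}

theorem notMem_span_of_B' {e u x : V} (h0 : B x e = 0) (h1 : B x u ≠ 0) : u ∉ F ∙ e := fun hx => by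
  obtain ⟨t, rfl⟩ := Submodule.mem_span_singleton.mp hx
  simp [h0] at h1

theorem SD.exists_SP_pair [FiniteDimensional F V] (D : SD B) {e u : V} (he : B e e = 0)
    (hu : B u u = 0) (h : B e u = 0) (e0 : e ≠ 0) (h1 : u ∉ F ∙ e) :
    ∃ f f', SP B e f ∧ SP B u f' ∧ B f u = 0 ∧ B e f' = 0 ∧ B f f' = 0 := by
  obtain ⟨f, a1, a2, a3⟩ := D.exists_partner _ he (notMem_span_symm h1 e0) fun x hx => by
    obtain ⟨t, rfl⟩ := Submodule.mem_span_singleton.mp hx
    simp [D.comm0 h]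
  have a4 := D.comm0 (a3 u (Submodule.mem_span_singleton_self u))
  obtain ⟨f', b1, b2, b3⟩ := D.exists_partner (Submodule.span F {e, f}) hu (fun hx => by
    obtain ⟨s, t, rfl⟩ := Submodule.mem_span_pair.mp hx
    simp [he, a2] at h
    simp [h, Submodule.smul_mem _ _ (Submodule.mem_span_singleton_self e)] at h1)
    (mem_sperp_pair.mpr ⟨h, a4⟩)
  exact ⟨f, f', ⟨he, a1, a2⟩, ⟨hu, b1, b2⟩, a4, b3 e (Submodule.subset_span (by simp)),
    b3 f (Submodule.subset_span (by simp))⟩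

theorem SD.exists_map_pair [FiniteDimensional F V] (D : SD B) {e u e' u' : V} (he : B e e = 0)
    (hu : B u u = 0) (h : B e u = 0) (e0 : e ≠ 0) (h1 : u ∉ F ∙ e) (he' : B e' e' = 0)
    (hu' : B u' u' = 0) (h' : B e' u' = 0) (e0' : e' ≠ 0) (h1' : u' ∉ F ∙ e') :
    ∃ k ∈ SUG B, ∃ l : F, l ≠ 0 ∧ (σ = RingHom.id F → l = 1) ∧ k.1 e = e' ∧ k.1 u = l • u' := by
  obtain ⟨g, g1, g2⟩ := D.witt_two (li_pair_of_notMem e0 h1) (li_pair_of_notMem e0' h1')
    (he'.trans he.symm) (h'.trans h.symm) (hu'.trans hu.symm)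
  by_cases hσ : σ = RingHom.id F
  · exact ⟨g, by rw [D.SUG_eq_top hσ]; trivial, 1, one_ne_zero, fun _ => rfl, g1, by simp [g2]⟩
  obtain ⟨f, f', -, s, -, a1, -⟩ := D.exists_SP_pair he' hu' h' e0' h1'
  obtain ⟨a, a0, ha⟩ := exists_div_conj_eq hσ D.invol (mem_N1.mp (D.udet_mem_N1 g⁻¹))
  refine ⟨s.torus D (Units.mk0 a a0) * g, ?_, a, a0, fun e => (hσ e).elim, ?_, ?_⟩
  · rw [SUG, MonoidHom.mem_ker, map_mul, mul_eq_one_iff_eq_inv, ← map_inv]
    exact Units.ext ((s.det_torus D _).trans ha)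
  · simp [g1, s.torus_apply, D.comm0 a1, D.comm0 h']
  · simp [g2, s.torus_e]

variable {K U : Type*} [Field K] [AddCommGroup U] [Module K U] [Algebra K F] [Module K V]
  [IsScalarTower K F V] {j : U →ₗ[K] V} {σ₀ : K →+* K} {B₀ : U →ₛₗ[σ₀] U →ₗ[K] K}

/-- root elements with scalar `a` -/
def PF (M : Subgroup (UG B)) (B₀ : U →ₛₗ[σ₀] U →ₗ[K] K) (j : U →ₗ[K] V) (a : F) : Prop :=
  ∀ e u, B₀ e e = 0 → B₀ u u = 0 → B₀ e u = 0 → e ≠ 0 → u ∉ K ∙ e → AM M (j e) (a • j u)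

namespace BF

variable (h : BF B B₀ j) [FiniteDimensional K U] [Finite F]
  (hM : ∀ e u c, Adm B₀ e u c → rho B (j e) (j u) (algebraMap K F c) ∈ M)
include h hM

theorem pf_of {e u : U} {a : F} (H : AM M (j e) (a • j u)) (a1 : B₀ e e = 0) (a2 : B₀ u u = 0)
    (a3 : B₀ e u = 0) (a4 : e ≠ 0) (a5 : u ∉ K ∙ e) (c : K) : PF M B₀ j (algebraMap K F c * a) := by
  have D := h.sd
  have D₀ := h.sd₀
  have : Finite K := Finite.of_injective _ (algebraMap K F).injective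
  have k1 : ∀ c : K, AM M (j e) (algebraMap K F c • a • j u) := fun c => by
    by_cases hσ : σ₀ = RingHom.id K
    · by_cases c0 : c = 0
      · simpa [c0] using AM.zero D (h.zero a1)
      obtain ⟨k, b1, l, -, b2, b3, b4⟩ := D₀.exists_map_pair a1 a2 a3 a4 a5 a1 (u' := c • u)
        (by simp [a2]) (by simp [a3]) a4 (by rwa [Submodule.smul_mem_iff _ c0])
      obtain ⟨k', b5, b6⟩ := h.exists_ext hM b1
      have := H.map D b5
      rwa [map_smul, b6, b6, b3, b4, b2 hσ, one_smul, j_smul F, smul_comm] at this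
    obtain ⟨f, f', s, s', b1, b2, b3⟩ := D₀.exists_SP_pair a1 a2 a3 a4 a5
    refine AM.smul_of_tor (algebraMap K F) h.conj hσ D₀.invol D H (fun l l0 => ?_) c
    obtain ⟨k, b5, b6⟩ := h.exists_ext hM (s.torus_mul_mem s' D₀ (a := Units.mk0 l l0)
      (b := (Units.mk0 l l0)⁻¹) (by simp [l0]))
    refine ⟨k, b5, ?_, ?_⟩
    · simp [b6, s'.torus_apply, D₀.comm0 a3, D₀.comm0 b2, s.torus_e]
    · rw [map_smul, b6, smul_comm, ← map_inv₀, ← j_smul F]
      simp [s'.torus_e, s.torus_apply, a3, b1]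
  intro e' u' b1 b2 b3 b4 b5
  obtain ⟨k, c1, l, l0, -, c2, c3⟩ := D₀.exists_map_pair a1 a2 a3 a4 a5 b1 b2 b3 b4 b5
  obtain ⟨k', c4, c5⟩ := h.exists_ext hM c1
  have := (k1 (c / l)).map D c4
  rw [map_smul, map_smul, c5, c5, c2, c3, j_smul F, smul_smul, smul_smul] at this
  convert this using 2
  have : algebraMap K F l ≠ 0 := by simpa using l0
  rw [map_div₀]; field_simp

omit [FiniteDimensional K U] [Finite F] in
theorem pf_one : PF M B₀ j 1 := fun e u a1 a2 a3 _ _ =>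
  have : Adm B₀ e u 0 := ⟨a1, a3, by simp [a2]⟩
  ⟨_, by simpa using h.adm this, by simpa using hM e u 0 this⟩

omit hM [Finite F] in
theorem tv_of_pf {a : F} (H : PF M B₀ j 1) (H' : PF M B₀ j a) {e u : U} (a1 : B₀ e e = 0)
    (a2 : B₀ u u = 0) (a3 : B₀ e u = 0) (a4 : e ≠ 0) (a5 : u ∉ K ∙ e) : tv B (j e) (a + σ a) ∈ M := by
  obtain ⟨f, f', -, s, -, b1, -⟩ := h.sd₀.exists_SP_pair a1 a2 a3 a4 a5
  simpa [h.map, s.ef] using (H e u a1 a2 a3 a4 a5).tv_mem h.sd (H' e f' a1 s.ff b1 a4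
    (notMem_span_of_B' (h.sd₀.comm0 a3) (by simp [s.ef])))

theorem mem_range_of_AM4 (hσ : σ ≠ RingHom.id F) (hK : (finrank K F).Prime) (h4 : 4 ≤ finrank K U)
    (hc : σ₀ ≠ RingHom.id K ∨ finrank K F = 2) (H : ¬ SUG B ≤ M) {e : U} {y : V} (hy : AM M (j e) y)
    (a1 : B₀ e e = 0) (a2 : e ≠ 0) (u : U) (hu : B₀ e u = 0) : B (j u) y ∈ (algebraMap K F).range := by
  have D := h.sd
  have D₀ := h.sd₀
  have := Module.finite_of_finrank_pos hK.pos
  refine D₀.perp_iso_induction h.ns₀ (Or.inr h4) a2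
    (p := fun u => B (j u) y ∈ (algebraMap K F).range) (fun u b1 b2 => ?_)
    (fun x y hx hy => by simpa only [map_add, LinearMap.add_apply] using add_mem hx hy) hu
  by_contra b3
  have b4 := h.tv_mem hM b2 (map_one _)
  have b5 := (hy.map D b4).sub D (by
    rwa [tv_apply_of_perp D _ (h.zero (D₀.comm0 b1))] : AM M _ y)
  rw [tv_apply_of_perp D _ (h.zero (D₀.comm0 b1)), map_one,
    tv_apply D (h.zero b2) (map_one _), one_mul, add_sub_cancel_left] at b5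
  have b6 : u ∉ K ∙ e := fun hx => b3 (by
    obtain ⟨c, rfl⟩ := Submodule.mem_span_singleton.mp hx
    obtain ⟨_, b6, -⟩ := hy
    exact ⟨0, by rw [j_smul F, LinearMap.map_smulₛₗ, LinearMap.smul_apply, b6.eu, smul_zero, map_zero]⟩)
  have p1 := h.pf_of hM b5 a1 b2 b1 a2 b6
  generalize B (j u) y = a at b3 p1
  have p0 := h.pf_one hM
  have p2 : ∀ {a} (c : K), PF M B₀ j a → PF M B₀ j (algebraMap K F c * a) := fun c ha =>
    h.pf_of hM (ha e u a1 b2 b1 a2 b6) a1 b2 b1 a2 b6 c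
  have p3 : ∀ {a b}, PF M B₀ j a → PF M B₀ j b → PF M B₀ j (a + b) := fun ha hb e u c1 c2 c3 c4 c5 => by
    simpa [add_smul] using (ha e u c1 c2 c3 c4 c5).add D (hb e u c1 c2 c3 c4 c5)
  suffices p4 : ∀ x, PF M B₀ j x from H (h.SUG_le_of_all hM (fun x e u c1 c2 c3 c4 c5 => by
    obtain ⟨c, d1, d2⟩ := p4 x e u c1 c2 c3 c4 c5
    obtain ⟨d, rfl⟩ := H13.exists_add_conj_eq hσ D.invol (c := c)
      (by have := d1.cc; simp [h.zero c2] at this; linear_combination -this)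
    rw [rho_eq_tv_mul_rho D (c := 0) ⟨d1.ee, d1.eu, by simp [h.zero c2]⟩ d1, sub_zero] at d2
    exact (M.mul_mem_cancel_left (h.tv_of_pf p0 (p4 d) c1 c2 c3 c4 c5)).mp d2) h4)
  rcases hc with hc | hc
  swap
  · intro x
    obtain ⟨s, t, rfl⟩ := exists_add_mul_of_two hc b3 x
    exact p3 (by simpa using p2 s p0) (p1 t)
  let S : Subring F :=
    { carrier := {x | ∀ a, PF M B₀ j a → PF M B₀ j (x * a)}
      one_mem' := fun a ha => by rwa [one_mul]
      zero_mem' := fun a ha => by simpa using p2 0 ha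
      neg_mem' := fun hx a ha => by simpa using p2 (-1) (hx a ha)
      add_mem' := fun hx hy a ha => by simpa [add_mul] using p3 (hx a ha) (hy a ha)
      mul_mem' := fun hx hy a ha => by simpa [mul_assoc] using hx _ (hy a ha) }
  have p5 : ∀ c : K, algebraMap K F c * a + σ (algebraMap K F c * a) ∈ S :=
    fun c b hb e u c1 c2 c3 c4 c5 => by
      obtain ⟨f, f', -, s, -, d1, -⟩ := D₀.exists_SP_pair c1 c2 c3 c4 c5
      have d2 := hb e f' c1 s.ff d1 c4 (notMem_span_of_B' (D₀.comm0 c3) (by simp [s.ef]))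
      have d3 := d2.map D (h.tv_of_pf p0 (p1 c) c2 c1 (D₀.comm0 c3) s.ne_left (notMem_span_symm c5 c4))
      rw [tv_apply_of_perp D _ (h.zero (D₀.comm0 c3)), tv_apply D (h.zero c2)
        (by simp [D.invol, add_comm])] at d3
      simpa [h.map, s.ef] using d3.sub D d2
  by_cases p6 : ∀ c : K, algebraMap K F c * a + σ (algebraMap K F c * a) ∈ (algebraMap K F).range
  · obtain ⟨θ, hθ⟩ := DFunLike.ne_iff.mp hc
    obtain ⟨s, hs⟩ := p6 1
    obtain ⟨t, ht⟩ := p6 θ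
    have : algebraMap K F (θ - σ₀ θ) ≠ 0 := (map_ne_zero _).mpr (sub_ne_zero.mpr hθ.symm)
    refine (b3 ⟨(t - σ₀ θ * s) / (θ - σ₀ θ), ?_⟩).elim
    rw [map_div₀, div_eq_iff this]
    simp only [map_sub, map_mul, hs, ht, h.conj, map_one]
    ring
  push Not at p6
  obtain ⟨c, hc⟩ := p6
  intro x
  simpa using (eq_top_of_finrank_prime hK (S := S) (fun c a => p2 c) (p5 c) hc).ge
    (Subring.mem_top x) 1 p0

end BF

section
open Cfsg.Geo Matrix
variable {F : Type*} [Field F] [Fintype F] {n q r : ℕ} (hF : Fintype.card F = q ^ 2) {K : Subfield F}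
  {P : GL (Fin n) F}
include hF

theorem max_su4_subfield_odd (hn : 4 ≤ n) (hr : r.Prime) (hro : Odd r)
    (h : Fintype.card F = Nat.card K ^ r) (hP : IsFormRationalStructure (hermForm n F q) K 1 P) :
    IsMaximalIn (GU n F q ⊓ specialLinear (Fin n) F)
      (subfieldSubgroup K P ⊓ (GU n F q ⊓ specialLinear (Fin n) F)) := by
  obtain ⟨_, hf⟩ := exists_tvF_su hF (n := n) (by omega)
  obtain ⟨θ, h1, h2⟩ := exists_ne_of_odd (frobq_ne_id hF) (frobq_frobq hF) hro h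
  have hσ : ∀ c ∈ K, frobq hF c ∈ K := fun c hc => pow_mem hc q
  have hf' : H18.TvF (frobq hF) 1 (hermForm n F q) (θ - frobq hF θ) := ⟨hf.toHForm,
    sub_ne_zero.mpr h2.symm, by simp [frobq_frobq], hf.tr, hf.iso⟩
  obtain ⟨σ₀, B₀, h3⟩ := exists_BF (sd_tB hf') (bc_jP K P) hσ (fun x y => mul_mem
    (sub_mem h1 (hσ _ h1)) (by
      have := hP _ _ (fun i => (y i).2) fun i => (x i).2
      rwa [one_mul, ← jP_apply, ← jP_apply] at this))
    (Or.inl ⟨θ, h1, h2⟩)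
  exact max_iso_subfield' hf' (by simpa) hr h P h3 fun M H hM _ _ =>
    h3.mem_range_of_AM4 hM (frobq_ne_id hF) (by rwa [finrank_of_card_eq_pow h]) (by simpa)
      (Or.inl fun e => h2 ((h3.conj ⟨θ, h1⟩).trans (by rw [e]; rfl))) H

theorem max_su4_subfield_sp (hn : 4 ≤ n) (h : Fintype.card F = Nat.card K ^ 2) {ζ : F} (h0 : ζ ≠ 0)
    (hζ : ζ + ζ ^ q = 0) (hP : IsFormRationalStructure (hermForm n F q) K ζ P)
    (halt : ∀ u : Fin n → F, (∀ i, u i ∈ K) →
      hermForm n F q ((P : Matrix _ _ F) *ᵥ u) ((P : Matrix _ _ F) *ᵥ u) = 0) :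
    IsMaximalIn (GU n F q ⊓ specialLinear (Fin n) F)
      (subfieldSubgroup K P ⊓ (GU n F q ⊓ specialLinear (Fin n) F)) := by
  obtain ⟨_, hf⟩ := exists_tvF_su hF (n := n) (by omega)
  have hf' : H18.TvF (frobq hF) 1 (hermForm n F q) ζ := ⟨hf.toHForm, h0, by rwa [mul_one], hf.tr, hf.iso⟩
  obtain ⟨σ₀, B₀, h3⟩ := exists_BF (sd_tB hf') (bc_jP K P) (fun c hc => pow_mem hc q)
    (fun x y => hP _ _ (fun i => (y i).2) fun i => (x i).2)
    (Or.inr fun x => (tB_eq_zero hf').mpr (halt _ fun i => (x i).2))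
  exact max_iso_subfield' hf' (by simpa) Nat.prime_two h P h3 fun M H hM _ _ =>
    h3.mem_range_of_AM4 hM (frobq_ne_id hF) (by rw [finrank_of_card_eq_pow h]; exact Nat.prime_two)
      (by simpa) (Or.inr (finrank_of_card_eq_pow h)) H

end

end Cfsg.Agent.H12
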