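import Mathlib
import Cfsg.Agent.H12.UfE
import Cfsg.Agent.H12.L4D

/-!
Four-dimensional unitary groups: stabilisers of orthonormal frames.
-/

set_option autoImplicit false

namespace Cfsg.Agent.H12

open Module

variable {F V : Type*} [Field F] [AddCommGroup V] [Module F V] {σ : F →+* F}
  {B : V →ₛₗ[σ] V →ₗ[F] F} {M : Subgroup (UG B)} {b : Basis (Fin 4) F V} {κ s : F}

theorem eq_smul_basis {ι : Type*} [DecidableEq ι] {b : Basis ι F V} {v : V} {j : ι}
    (h : ∀ l, l ≠ j → b.repr v l = 0) : v = b.repr v j • b j := b.ext_elem fun l => by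
  by_cases e : l = j
  · simp [e]
  · simp [e, h l e]

namespace OB
variable (h : OB B b κ) (hM : ∀ g ∈ SUG B, Mon b g.1 → g ∈ M)
include h hM

theorem hm4 (hs : σ s * s = 1) (j : Fin 4) : ∃ d ∈ M, ∀ x,
    d.1 x = σ s • x + ((s ^ 3 - σ s) * b.repr x j) • b j := by
  obtain ⟨d, a1, a2⟩ := h.diag_mem hM (c := fun l => if l = j then s ^ 3 else σ s) (fun l => by
    split_ifs
    · rw [map_pow, ← mul_pow, hs, one_pow]
    · exact h.mu_conj hs) (by
    fin_cases j <;> simp [Fin.prod_univ_four] <;>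
      linear_combination ((σ s * s) ^ 2 + σ s * s + 1) * hs)
  refine ⟨d, a1, fun x => b.ext_elem fun l => ?_⟩
  by_cases e : l = j
  · simp [a2, e]; ring
  · simp [a2, e]

variable (NF : ∀ g ∈ M, ∀ (i j : Fin 4) (c : F), g.1 (b i) = c • b j → Mon b g.1)
include NF

theorem nf_supp (hs : σ s * s = 1) (h4 : s ^ 4 ≠ 1) {g : UG B} (hg : g ∈ M) (hg' : ¬ Mon b g.1)
    {i j : Fin 4} (H : b.repr (g.1 (b i)) j = 0) : ∃ l l', (∀ m, m ≠ l → m ≠ l' →
      b.repr ((g⁻¹).1 (b j)) m = 0) ∧ ∃ n, σ n = n ∧ 1 + (s ^ 4 - 1) * n = 0 := by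
  obtain ⟨d, a1, a2⟩ := h.hm4 hM hs j
  obtain ⟨l, hl⟩ : ∃ l, b.repr (g.1 (b l)) j ≠ 0 :=
    exists_basis_ne (χ := b.coord j ∘ₗ g.1.toLinearMap) fun e => by
      simpa using LinearMap.congr_fun e (g.1.symm (b j))
  obtain ⟨l', c, hc⟩ := NF _ (mul_mem (mul_mem (inv_mem hg) a1) hg) i i (σ s) (by simp [a2, H]) l
  have a4 : s ^ 3 - σ s ≠ 0 := fun e => h4 (by linear_combination s * e + hs)
  have a5 : ∀ m, m ≠ l → m ≠ l' → b.repr ((g⁻¹).1 (b j)) m = 0 := fun m m1 m2 => by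
    simpa [a2, m1, m2, a4, hl] using congrArg (b.repr · m) hc
  refine ⟨l, l', a5, b.repr (g.1 (b l)) j * σ (b.repr (g.1 (b l)) j), by
    rw [map_mul, h.sd.invol, mul_comm], ?_⟩
  by_cases e : l' = l
  · exact (hg' (by simpa using (NF _ (inv_mem hg) j l _
      (eq_smul_basis fun m hm => a5 m hm (e ▸ hm))).inv)).elim
  have := congrArg (b.repr · l) hc
  simp [a2, h.adj, Ne.symm e] at this
  linear_combination s * this + (b.repr (g.1 (b l)) j * σ (b.repr (g.1 (b l)) j) - 1) * hs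

theorem nf_one8 (hs : σ s * s = 1) (h8 : s ^ 8 ≠ 1) {g : UG B} (hg : g ∈ M) {i j : Fin 4}
    (H : b.repr (g.1 (b i)) j = 0) : Mon b g.1 := by
  by_contra hg'
  obtain ⟨-, -, -, n, a1, a2⟩ := h.nf_supp hM NF hs (fun e => h8 (by linear_combination (s ^ 4 + 1) * e))
    hg hg' H
  have a3 := congrArg σ a2
  simp only [map_add, map_mul, map_sub, map_pow, map_one, a1, map_zero] at a3
  have a4 : σ s ^ 4 * s ^ 4 = 1 := by rw [← mul_pow, hs, one_pow]
  exact h8 (by linear_combination (s ^ 4 - 1) * (a2 + s ^ 4 * a3 - n * a4))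

theorem mon8 [Finite F] (hS : M ≤ SUG B) (hs : σ s * s = 1) (h8 : s ^ 8 ≠ 1) {g : UG B} (hg : g ∈ M) :
    Mon b g.1 := by
  by_contra hg'
  haveI := Module.Finite.of_basis b
  haveI := finite_UG (B := B)
  have D := h.sd
  have k0 := h.ne
  obtain ⟨v, hv⟩ : ∃ v, g.1 (b 0) = v := ⟨_, rfl⟩
  have v0 : ∀ l, σ (b.repr v l) ≠ 0 := fun l => D.σ_ne_zero fun e => hg' (h.nf_one8 hM NF hs h8 hg (hv ▸ e))
  have s0 : σ s ≠ 0 := left_ne_zero_of_mul_eq_one hs
  have s2 : σ (s ^ 2) * s ^ 2 = 1 := by rw [map_pow, ← mul_pow, hs, one_pow]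
  have s3 : s ^ 3 - σ s ≠ 0 := fun e => h8 (by linear_combination (s ^ 4 + 1) * (s * e + hs))
  have s4 : (s ^ 2) ^ 3 - σ (s ^ 2) ≠ 0 := fun e => h8 (by linear_combination s ^ 2 * e + s2)
  obtain ⟨d, d1, d2⟩ := h.hm4 hM s2 3
  obtain ⟨d', d3, d4⟩ := h.hm4 hM hs 3
  obtain ⟨d'', d5, d6⟩ := h.hm4 hM hs 0
  let G : Subgroup (UG B) :=
    { carrier := {k | k ∈ M ∧ ∀ y, b.repr y 3 = 0 → B v y = 0 → k.1 y = y}
      one_mem' := ⟨one_mem _, fun _ _ _ => rfl⟩
      mul_mem' := fun h1 h2 => ⟨mul_mem h1.1 h2.1, fun y a1 a2 => by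
        rw [UG_mul_apply, h2.2 y a1 a2, h1.2 y a1 a2]⟩
      inv_mem' := fun h1 => ⟨inv_mem h1.1, fun y a1 a2 => UG_inv_apply_eq (h1.2 y a1 a2)⟩ }
  have d7 : ∀ y, b.repr y 3 = 0 → (d⁻¹).1 y = s ^ 2 • y := fun y hy => UG_inv_apply_eq (by
    simp [d2, hy, smul_smul, -map_pow, mul_comm (s ^ 2), s2])
  have a1 : ∀ k ∈ G, k * d = d * k → k = 1 := fun k hk e => by
    have b1 : k.1 (b 3) = _ := eq_smul_basis (b := b) (j := 3) fun l hl => by
      have := congrArg (fun k : UG B => b.repr (k.1 (b 3)) l) e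
      simpa [d2, hl, -map_pow, s4] using this
    have b2 := NF k hk.1 _ _ _ b1
    have b3 : ∀ l m, l ≠ 3 → m ≠ 3 → σ (b.repr v m) • (k.1 (b l) - b l) =
        σ (b.repr v l) • (k.1 (b m) - b m) := fun l m hl hm => by
      have := hk.2 (σ (b.repr v m) • b l - σ (b.repr v l) • b m) (by simp [hl.symm, hm.symm])
        (by simp [h.right]; ring)
      rw [map_sub, map_smul, map_smul] at this
      linear_combination (norm := module) this
    have b4 : ∀ l, l ≠ 3 → k.1 (b l) = b l := fun l hl => sub_eq_zero.mp (b.ext_elem fun m => by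
      by_contra c1
      have c2 : ∀ r, r ≠ 3 → r ≠ m → ∃ c : F, k.1 (b r) = c • b m := fun r r1 r2 => by
        obtain ⟨r', c, c3⟩ := b2 r
        obtain rfl : r' = m := by
          by_contra c4
          have := congrArg (b.repr · m) (b3 l r hl r1)
          simp only [c3, map_smul, Finsupp.smul_apply, map_sub, Finsupp.sub_apply, Basis.repr_self,
            Finsupp.single_eq_of_ne (Ne.symm c4), Finsupp.single_eq_of_ne r2.symm, smul_eq_mul,
            mul_zero, sub_zero, mul_eq_zero, v0, false_or] at this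
          exact c1 (by simpa using this)
        exact ⟨c, c3⟩
      obtain ⟨r, r1, r2, -⟩ := exists_ne₃' (by simp) 3 m m
      obtain ⟨r', r3, r4, r5⟩ := exists_ne₃' (by simp) 3 m r
      obtain ⟨c, c3⟩ := c2 r r1 r2
      obtain ⟨c', c4⟩ := c2 r' r3 r4
      have c5 := congrArg (b.repr · r) (k.1.injective (show k.1 (c' • b r) = k.1 (c • b r') by
        simp [c3, c4, smul_smul, mul_comm]))
      simp [r5.symm] at c5
      exact UG_ne_zero k (b.ne_zero r') (by simp [c4, c5]))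
    have b5 := mem_SUG.mp (hS hk.1)
    rw [← LinearMap.det_toMatrix b, show LinearMap.toMatrix b b (k.1 : V →ₗ[F] V) =
      Matrix.diagonal fun l => if l = 3 then b.repr (k.1 (b 3)) 3 else 1 from Matrix.ext fun l m => by
        by_cases c1 : m = 3
        · rw [LinearMap.toMatrix_apply, c1, LinearEquiv.coe_coe, b1]
          by_cases c2 : l = 3 <;> simp [c2]
        · by_cases c2 : l = m <;> simp [LinearMap.toMatrix_apply, b4 m c1, c1, c2],
      Matrix.det_diagonal] at b5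
    refine Subtype.ext (LinearEquiv.toLinearMap_injective (b.ext fun l => ?_))
    by_cases c1 : l = 3
    · rw [c1, LinearEquiv.coe_coe, b1, show b.repr (k.1 (b 3)) 3 = 1 by simpa using b5]; simp
    · exact b4 l c1
  let φ : G → G := fun k => ⟨k.1 * d * k.1⁻¹ * d⁻¹, mul_mem (mul_mem (mul_mem k.2.1 d1) (inv_mem k.2.1))
    (inv_mem d1), fun y a1 a2 => by
      rw [UG_mul_apply, UG_mul_apply, UG_mul_apply, d7 y a1, map_smul,
        UG_inv_apply_eq (k.2.2 y a1 a2), ← d7 y a1, UG_apply_inv, k.2.2 y a1 a2]⟩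
  have a2 : Function.Injective φ := fun k k' e => by
    have b1 : k.1 * d * k.1⁻¹ = k'.1 * d * k'.1⁻¹ := mul_right_cancel (congrArg Subtype.val e)
    exact Subtype.ext (inv_mul_eq_one.mp (a1 (k'.1⁻¹ * k.1) (mul_mem (inv_mem k'.2) k.2) (by
      calc _ = k'.1⁻¹ * (k.1 * d * k.1⁻¹) * k.1 := by group
        _ = _ := by rw [b1]; group))).symm
  have a3 : ∀ x, (g * d'' * g⁻¹).1 x = σ s • x + ((s ^ 3 - σ s) * (B v x / κ)) • v := fun x => by
    rw [UG_mul_apply, UG_mul_apply, d6, map_add, map_smul, map_smul, UG_apply_inv, hv, ← hv,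
      UG_map_left, h.left, mul_div_cancel_left₀ _ k0]
  obtain ⟨k, hk⟩ := Finite.injective_iff_surjective.mp a2 ⟨d' * (g * d'' * g⁻¹) * d⁻¹,
    mul_mem (mul_mem d3 (mul_mem (mul_mem hg d5) (inv_mem hg))) (inv_mem d1), fun y a1 a2 => by
      rw [UG_mul_apply, UG_mul_apply, d7 y a1, a3, d4]
      simp only [map_smul, a2, map_add, Finsupp.add_apply, Finsupp.smul_apply, a1, smul_eq_mul,
        mul_zero, zero_div, zero_smul, add_zero, smul_smul]
      rw [show σ s * (σ s * s ^ 2) = 1 by linear_combination (σ s * s + 1) * hs, one_smul]⟩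
  have a4 : ∀ x, σ (s ^ 2) • x + (((s ^ 2) ^ 3 - σ (s ^ 2)) * b.repr ((k.1⁻¹).1 x) 3) • k.1.1 (b 3) =
      d'.1 (σ s • x + ((s ^ 3 - σ s) * (B v x / κ)) • v) := fun x => by
    rw [← a3, ← UG_mul_apply d', ← mul_right_cancel (congrArg Subtype.val hk :
      k.1 * d * k.1⁻¹ * d⁻¹ = d' * (g * d'' * g⁻¹) * d⁻¹), UG_mul_apply, UG_mul_apply, d2, map_add,
      map_smul, map_smul, UG_apply_inv]
  have a5 := a4 (σ (b.repr v 0) • b 3 - σ (b.repr v 3) • b 0)
  rw [show B v (σ (b.repr v 0) • b 3 - σ (b.repr v 3) • b 0) = 0 by simp [h.right]; ring] at a5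
  have a6 := congrArg (b.repr · 0) (a4 (b 0))
  generalize ((s ^ 2) ^ 3 - σ (s ^ 2)) * _ = A at a5
  generalize ((s ^ 2) ^ 3 - σ (s ^ 2)) * _ = A' at a6
  have a7 := congrArg (b.repr · 0) a5
  have a8 := congrArg (b.repr · 3) a5
  simp [d4, h.right, k0, sq] at a6 a7 a8
  have a9 : A ≠ 0 := by
    rintro rfl
    exact mul_ne_zero (mul_ne_zero s3 s0) (v0 0) (by linear_combination -a8)
  have a10 : b.repr (k.1.1 (b 3)) 0 = 0 := mul_left_cancel₀ a9 (by linear_combination a7)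
  exact mul_ne_zero (mul_ne_zero (mul_ne_zero s3 s0) (v0 0)) (D.σ_eq_zero.not.mp (v0 0))
    (by rw [a10] at a6; linear_combination -a6)

theorem nf_two7 (hs : σ s * s = 1) (h4 : s ^ 4 = -1) (h2 : (2 : F) ≠ 0) {g : UG B} (hg : g ∈ M)
    {a j k : Fin 4} (hjk : j ≠ k) (h1 : b.repr (g.1 (b a)) j = 0) (h3 : b.repr (g.1 (b a)) k = 0) :
    Mon b g.1 := by
  by_contra hg'
  obtain ⟨i, hi⟩ : ∃ i, b.repr (g.1 (b i)) j ≠ 0 :=
    exists_basis_ne (χ := b.coord j ∘ₗ g.1.toLinearMap) fun e => by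
      simpa using LinearMap.congr_fun e (g.1.symm (b j))
  have key : ∀ ε, σ ε * ε = 1 → ε ^ 4 = -1 → 1 + (ε - 1) * (b.repr (g.1 (b i)) j * σ (b.repr (g.1 (b i)) j)) +
      (σ ε - 1) * (b.repr (g.1 (b i)) k * σ (b.repr (g.1 (b i)) k)) = 0 := fun ε e1 e2 => by
    have e3 : ε - σ ε ≠ 0 := fun e => h2 (by linear_combination e2 - (ε ^ 2 + 1) * (ε * e + e1))
    have e4 : ε - 1 ≠ 0 := fun e => h2 (by linear_combination e2 - (ε ^ 2 + 1) * (ε + 1) * e)
    obtain ⟨d, a1, a2⟩ := h.dd_mem hM hjk e1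
    obtain ⟨i', c, hc⟩ := NF _ (mul_mem (mul_mem (inv_mem hg) a1) hg) a a 1 (by simp [a2, h1, h3]) i
    by_cases e : i' = i
    · subst e
      have b1 : d.1 (g.1 (b i')) = c • g.1 (b i') := by simpa [g.1.symm_apply_eq] using hc
      have b3 := congrArg (b.repr · j) b1
      simp [a2, hjk] at b3
      obtain rfl : c = ε := mul_right_cancel₀ hi (by linear_combination -b3)
      refine (hg' (NF g hg i' j _ (eq_smul_basis fun l h4 => ?_))).elim
      have b2 := congrArg (b.repr · l) b1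
      by_cases h6 : l = k
      · simp [a2, h6, hjk.symm] at b2
        exact mul_left_cancel₀ e3 (by rw [h6]; linear_combination -b2)
      · simp [a2, h4, h6] at b2
        exact mul_left_cancel₀ e4 (by linear_combination -b2)
    · have b1 := congrArg (b.repr · i) hc
      simp [a2, Ne.symm e, h.adj] at b1
      linear_combination b1
  have a1 := key s hs h4
  have a2 := key (-s) (by simpa using hs) (by linear_combination h4)
  have a3 := key (σ s) (h.mu_conj hs) (by rw [← map_pow, h4, map_neg, map_one])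
  rw [map_neg] at a2
  rw [h.sd.invol] at a3
  generalize b.repr (g.1 (b i)) j * _ = A at a1 a2 a3
  generalize b.repr (g.1 (b i)) k * _ = C at a1 a2 a3
  have e3 : s - σ s ≠ 0 := fun e => h2 (by linear_combination h4 - (s ^ 2 + 1) * (s * e + hs))
  have e4 : s + σ s ≠ 0 := fun e => h2 (by linear_combination h4 - (s ^ 2 - 1) * (s * e - hs))
  obtain rfl : A = C := mul_left_cancel₀ e3 (by linear_combination a1 - a3)
  obtain rfl : A = 0 := mul_left_cancel₀ (mul_ne_zero h2 e4) (by linear_combination a1 - a2)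
  simp at a1

theorem mon7 (hs : σ s * s = 1) (h4 : s ^ 4 = -1) (h7 : (7 : F) = 0) (hf : ∀ n, σ n = n → n ^ 7 = n)
    {g : UG B} (hg : g ∈ M) : Mon b g.1 := by
  have D := h.sd
  have k0 := h.ne
  have h2 : (2 : F) ≠ 0 := fun e => one_ne_zero (by linear_combination h7 - 3 * e : (1 : F) = 0)
  have n1 : ∀ k ∈ M, ∀ i j, b.repr (k.1 (b i)) j = 0 → Mon b k.1 := fun k hk i j H => by
    by_contra hk'
    obtain ⟨l, l', a5, -⟩ := h.nf_supp hM NF hs (fun e => h2 (by linear_combination h4 - e)) hk hk' H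
    obtain ⟨m, m1, m2, -⟩ := exists_ne₃' (by simp) l l' l
    obtain ⟨m', m3, m4, m5⟩ := exists_ne₃' (by simp) l l' m
    exact hk' (by simpa using (h.nf_two7 hM NF hs h4 h2 (inv_mem hk) m5 (a5 m' m3 m4) (a5 m m1 m2)).inv)
  let O : V → Prop := fun v => ∃ k ∈ M, ∃ (i : Fin 4) (c : F), σ c * c = 1 ∧ v = c • k.1 (b i)
  have o0 : ∀ v, O v → B v v = κ := by
    rintro _ ⟨k, -, i, c, a1, rfl⟩
    simp [UG_map, h.map]; linear_combination κ * a1
  have o1 : ∀ v x, O v → O x → O (x - (2 * B v x / κ) • v) := by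
    rintro _ _ ⟨k, a1, i, c, a2, rfl⟩ ⟨k', a3, i', c', a4, rfl⟩
    obtain ⟨d, d1, d2⟩ := h.hm4 hM hs i
    refine ⟨k * d * k⁻¹ * k', mul_mem (mul_mem (mul_mem a1 d1) (inv_mem a1)) a3, i', s * c', by
      rw [map_mul]; linear_combination σ c' * c' * hs + a4, ?_⟩
    simp only [UG_mul_apply, d2, map_add, map_smul, UG_apply_inv, LinearMap.map_smulₛₗ,
      LinearMap.smul_apply, UG_map_left, h.left, smul_eq_mul]
    generalize b.repr _ i = t
    match_scalars
    · linear_combination -c' * hs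
    · field_simp
      linear_combination -2 * c' * t * a2 - c' * t * h4 + c' * t * hs
  have o2 : ∀ v, O v → ∀ l m, l ≠ m → b.repr v l ≠ 0 → b.repr v m ≠ 0 → ∀ j, b.repr v j ≠ 0 := by
    rintro _ ⟨k, a1, i, c, a2, rfl⟩ l m a3 a4 a5 j a6
    obtain ⟨r, t, e⟩ := n1 k a1 i j (by simpa [right_ne_zero_of_mul_eq_one a2] using a6) i
    exact ne_smul_basis a3 a4 a5 r (c * t) (by rw [e, smul_smul])
  have o3 : ∀ j, O (b j) := fun j => ⟨1, one_mem _, j, 1, by simp, by simp⟩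
  have o4 : ∀ v, O v → (∀ l, b.repr v l ≠ 0) → ∀ j, O (b j - (2 * σ (b.repr v j)) • v) ∧
      ∀ l, b.repr (b j - (2 * σ (b.repr v j)) • v) l ≠ 0 := fun v a1 a2 j => by
    have a3 := o1 v _ a1 (o3 j)
    rw [h.right, mul_left_comm, mul_div_cancel_left₀ _ k0] at a3
    obtain ⟨l, l1, -⟩ := exists_ne₃' (by simp) j j j
    obtain ⟨m, m1, m2, -⟩ := exists_ne₃' (by simp) j l l
    exact ⟨a3, o2 _ a3 l m m2.symm (by simp [l1, a2, h2]) (by simp [m1, a2, h2])⟩
  have o5 : ∀ v, O v → (∀ l, b.repr v l ≠ 0) → ∀ j, σ (b.repr v j) * b.repr v j - 4 ≠ 0 :=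
    fun v a1 a2 j e => (o4 v a1 a2 j).2 j (by simp; linear_combination -2 * e - h7)
  have o6 : ∀ v, O v → (∀ l, b.repr v l ≠ 0) → ∀ j, σ (b.repr v j) * b.repr v j = 1 ∨
      σ (b.repr v j) * b.repr v j = 2 := fun v a1 a2 j => by
    obtain ⟨a3, a4⟩ := o4 v a1 a2 j
    have a5 := o5 _ a3 a4 j
    have a6 := o1 _ v a3 a1
    rw [show 2 * B (b j - (2 * σ (b.repr v j)) • v) v / κ = -(2 * b.repr v j) by
      simp [h.left, o0 v a1, D.invol, map_ofNat]; field_simp; ring] at a6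
    have a7 := o5 v a1 a2 j
    have a8 := hf (σ (b.repr v j) * b.repr v j) (by rw [map_mul, D.invol, mul_comm])
    have a9 := mul_ne_zero (D.σ_ne_zero (a2 j)) (a2 j)
    have a10 : σ (b.repr v j) * b.repr v j - 6 ≠ 0 := fun e => by
      obtain ⟨l, l1, -⟩ := exists_ne₃' (by simp) j j j
      obtain ⟨m, m1, m2, -⟩ := exists_ne₃' (by simp) j l l
      have b1 : ∀ l, l ≠ j → b.repr (v - -(2 * b.repr v j) • (b j - (2 * σ (b.repr v j)) • v)) l ≠ 0 :=
        fun l hl e' => mul_ne_zero h2 (a2 l) (by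
          simp [hl] at e'
          linear_combination -e' - 4 * b.repr v l * e - 3 * b.repr v l * h7)
      exact o2 _ a6 l m m2.symm (b1 l l1) (b1 m m1) j (by
        simp; linear_combination -4 * b.repr v j * e - 3 * b.repr v j * h7)
    simp [D.invol, map_ofNat] at a5
    generalize hn : σ (b.repr v j) * b.repr v j = n at a7 a8 a9 a10 ⊢
    have a11 : (n - 3) * (n - 5) ≠ 0 := fun e => a5 (by
      rw [← hn] at e
      linear_combination 4 * e + (4 * (σ (b.repr v j) * b.repr v j) - 9) * h7)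
    have : (n - 1) * (n - 2) = 0 := mul_left_cancel₀ (mul_ne_zero (mul_ne_zero a9 a11) (mul_ne_zero a7 a10))
      (by linear_combination a8 + (-3 * n ^ 6 + 25 * n ^ 5 - 105 * n ^ 4 + 232 * n ^ 3 - 252 * n ^ 2 +
        103 * n) * h7)
    simpa [sub_eq_zero] using this
  have o7 : ∀ k ∈ M, ¬ Mon b k.1 → ∀ j, σ (b.repr (k.1 (b 0)) j) * b.repr (k.1 (b 0)) j = 2 :=
    fun k hk hk' j => by
      have a1 : O (k.1 (b 0)) := ⟨k, hk, 0, 1, by simp, by simp⟩
      have a2 := o6 _ a1 fun l e => hk' (n1 k hk 0 l e)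
      have a3 := o0 _ a1
      rw [h.sum, mul_eq_left₀ k0, Fin.sum_univ_four] at a3
      have a4 : ∀ n : ℕ, n < 7 → (n : F) = 0 → n = 0 := fun n h1 h2 => by
        interval_cases n <;> simp at h2 ⊢ <;> grind
      have := a4 3; have := a4 4; have := a4 5; have := a4 6
      have := a2 0; have := a2 1; have := a2 2; have := a2 3
      fin_cases j <;> simp at * <;> grind
  by_contra hg'
  obtain ⟨ε, e1, e2⟩ : ∃ ε, σ ε * ε = 1 ∧ ε + σ ε = 4 := by
    have a1 : (s + σ s - 3) * (s + σ s - 4) = 0 := by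
      linear_combination σ s ^ 2 * h4 + (2 - s - σ s) * h7 - (s ^ 2 * (σ s * s + 1) - 2) * hs
    rcases mul_eq_zero.mp a1 with e | e
    · exact ⟨-s, by simpa using hs, by rw [map_neg]; linear_combination -e - h7⟩
    · exact ⟨s, hs, by linear_combination e⟩
  obtain ⟨d, d1, d2⟩ := h.dd_mem hM (show (0 : Fin 4) ≠ 1 by simp) e1
  have a1 : b.repr ((g⁻¹ * d * g).1 (b 0)) 0 = 5 := by
    have b1 := o7 g hg hg' 0
    have b2 := o7 g hg hg' 1
    simp [d2, h.adj]
    linear_combination (ε - 1) * b1 + (σ ε - 1) * b2 + 2 * e2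
  by_cases a2 : Mon b (g⁻¹ * d * g).1
  · obtain ⟨r, t, e⟩ := a2 0
    have b1 := h.norm_of_map e
    rw [e] at a1
    by_cases b2 : r = 0
    · simp [b2] at a1
      simp [a1, map_ofNat] at b1
      exact h2 (by linear_combination 3 * b1 - 10 * h7)
    · simp [Ne.symm b2] at a1
      exact h2 (by linear_combination h7 + a1)
  · have := o7 _ (mul_mem (mul_mem (inv_mem hg) d1) hg) a2 0
    rw [a1, map_ofNat] at this
    exact h2 (by linear_combination this - 3 * h7)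

end OB

open Geo in
theorem max_su4_frame {F : Type*} [Field F] [Fintype F] {q : ℕ} (hF : Fintype.card F = q ^ 2)
    (hq : q ≠ 3) {D : Fin 4 → Submodule F (Fin 4 → F)}
    (hD : IsNondegenerateMDecomposition (hermForm 4 F q) 1 D) :
    IsMaximalIn (GU 4 F q ⊓ specialLinear (Fin 4) F)
      (decompositionStabilizer D ⊓ (GU 4 F q ⊓ specialLinear (Fin 4) F)) := by
  obtain ⟨a, hf⟩ := exists_tvF_su hF (n := 4) (by omega)
  obtain ⟨b, hb⟩ := exists_basis_of_dec hD.decomp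
  have D' := sd_tB hf
  have a1 := od_of_decomp hf hD
  have hσ := frobq_ne_id hF
  have a2 : ∀ i, tB hf (b i) (b i) ≠ 0 := fun i e => b.ne_zero i (Submodule.disjoint_def.mp (a1.nd i) _
    (hb i ▸ Submodule.mem_span_singleton_self _) (hb i ▸ mem_sperp_singleton.mpr e))
  choose c hc using fun i => D'.ns.resolve_left hσ (tB hf (b 0) (b 0) / tB hf (b i) (b i))
    (D'.σ_div_self (D'.σ_map _ _) (D'.σ_map _ _))
  have c0 : ∀ i, c i ≠ 0 := fun i e => div_ne_zero (a2 0) (a2 i) (by simp [← hc, e])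
  let b' := b.unitsSMul fun i => Units.mk0 (c i) (c0 i)
  have b1 : ∀ i, b' i = c i • b i := fun i => b.unitsSMul_apply i
  have hb' : ∀ i, D i = F ∙ b' i := fun i => by
    rw [b1, Submodule.span_singleton_smul_eq (c0 i).isUnit, hb]
  have h : OB (tB hf) b' (tB hf (b 0) (b 0)) := ⟨D', a2 _, fun i j => by
    split_ifs with e
    · simp only [e, b1, LinearMap.map_smulₛₗ, LinearMap.smul_apply, map_smul, smul_eq_mul]
      rw [← mul_assoc, mul_comm (c j), hc, div_mul_cancel₀ _ (a2 j)]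
    · exact a1.orth i j e (hb' j ▸ Submodule.mem_span_singleton_self _) _
        (hb' i ▸ Submodule.mem_span_singleton_self _), hσ⟩
  refine isMaximalIn_iso hf (Mon b') (fun g => (perm_iff_mapsTo hD.decomp (glEq _ F g)).trans
    (mapsTo_iff_mon hb' _)) (fun e => ?_) fun M hM hS g hg hg' => ?_
  · obtain ⟨g, g1, g2⟩ := h.exists_not_mon (by simp)
    exact g2 (glEq_toGL g ▸ (mapsTo_iff_mon hb' _).mp ((perm_iff_mapsTo hD.decomp _).mp
      (e (map_SUG hf ▸ Subgroup.mem_map_of_mem _ g1))))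
  by_contra H
  have NF : ∀ g ∈ M, ∀ (i j : Fin 4) (c : F), g.1 (b' i) = c • b' j → Mon b' g.1 := fun g hg i j c e => by
    by_contra e'; exact H (h.le_of_fix hM (by simp) hg e' e)
  by_cases h8 : ∃ s, frobq hF s * s = 1 ∧ s ^ 8 ≠ 1
  · obtain ⟨s, s1, s2⟩ := h8
    exact hg' (h.mon8 hM NF hS s1 s2 hg)
  push Not at h8
  have q1 : ∀ n, 0 < n → n ≤ q → ¬ ∀ s, frobq hF s * s = 1 → s ^ n = 1 := fun n n1 n2 e => by
    obtain ⟨s, s1, s2⟩ := exists_mu_pow hσ D'.invol n1 (by rwa [q0_frobq])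
    exact s2 (e s s1)
  have q2 := two_le_of_card_eq_sq hF
  have q3 : q < 8 := by by_contra e; exact q1 8 (by omega) (by omega) h8
  have q4 : Nat.gcd 8 (q + 1) = q + 1 := by
    by_contra e
    refine q1 _ (Nat.gcd_pos_of_pos_left (q + 1) (by omega : 0 < 8))
      (Nat.le_of_lt_succ ((Nat.gcd_le_right 8 (by omega)).lt_of_ne e)) fun s hs => ?_
    exact pow_gcd_eq_one.mpr ⟨h8 s hs, by rwa [pow_succ, ← frobq_apply hF]⟩
  obtain rfl : q = 7 := by interval_cases q <;> simp_all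
  obtain ⟨s, s1, s2⟩ := exists_mu_pow hσ D'.invol (n := 4) (by omega) (by rw [q0_frobq]; omega)
  refine hg' (h.mon7 hM NF s1 (mul_left_cancel₀ (sub_ne_zero.mpr s2) (by linear_combination h8 s s1))
    (pow_eq_zero_iff two_ne_zero |>.mp ?_) (fun n hn => by rwa [frobq_apply] at hn) hg)
  exact_mod_cast hF ▸ FiniteField.cast_card_eq_zero F

end Cfsg.Agent.H12
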