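import Mathlib
import Cfsg.Agent.H12.SubO
import Cfsg.Agent.H12.U4A

/-!
Four-dimensional unitary groups: orthogonal subfield subgroups, first steps.
-/

set_option autoImplicit false

namespace Cfsg.Agent.H12

open Module QuadraticMap H13

variable {F V : Type*} [Field F] [AddCommGroup V] [Module F V]
  {K U : Type*} [Field K] [AddCommGroup U] [Module K U] [Algebra K F] [Module K V]
  [IsScalarTower K F V] {j : U →ₗ[K] V}
  {σ : F →+* F} {B : V →ₛₗ[σ] V →ₗ[F] F} {M : Subgroup (UG B)} {Q : QuadraticForm K U} {a : F}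

/-- A proper overgroup of the orthogonal subfield subgroup in dimension at least three. -/
structure O4 (B : V →ₛₗ[σ] V →ₗ[F] F) (Q : QuadraticForm K U) (j : U →ₗ[K] V) (a : F)
    (M : Subgroup (UG B)) : Prop extends BO B Q j a where
  rt : ∀ g ∈ SUG B, RT j g.1 → g ∈ M
  le : M ≤ SUG B
  nle : ¬ SUG B ≤ M
  dim : finrank K U = 4

namespace O4

variable (h : O4 B Q j a M)
include h

theorem rat : ∀ g ∈ SUG B, (∀ x, ∃ y, g.1 (j x) = j y) → g ∈ M := fun g h1 h2 =>
  h.rt g h1 ⟨1, one_ne_zero, by simpa using h2⟩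

theorem sg {e b : U} (he : Q e = 0) (hb : polar Q e b = 0) : sgB B Q j a e b ∈ M :=
  h.toBO.sg_mem h.rat he hb

theorem am {e b : U} (he : Q e = 0) (hb : polar Q e b = 0) : AM M (j e) (-a⁻¹ • j b) :=
  ⟨_, h.toBO.adm he hb, h.sg he hb⟩

variable [FiniteDimensional K U] [Finite F]

theorem exists_partner {e : U} (he : Q e = 0) (e0 : e ≠ 0) :
    ∃ k ∈ M, ∃ f, HP Q e f ∧ ∃ t : F, t ≠ 0 ∧ k.1 (j e) = t • j f := by
  obtain ⟨f, hf⟩ := h.nd.exists_hp he e0
  obtain ⟨r, c1, c2⟩ := h.nd.exists_nonsingular_perp (K ∙ f) (by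
    rw [finrank_span_singleton hf.ne_right, h.dim]; omega)
  rw [mem_perp_singleton] at c1
  refine ⟨_, h.sg hf.Qv c1, (-Q r)⁻¹ • (sieg Q f r).1 e, ⟨he, by simp [Q_smul, he], ?_⟩,
    algebraMap K F (-Q r), by simpa, ?_⟩
  · simp [sieg_apply hf.Qv c1, hf.uv, hf.vu, he, polar_comm Q e r, c2]
  · rw [h.toBO.sg_j hf.Qv c1, ← j_smul F, smul_inv_smul₀ (neg_ne_zero.mpr c2)]

theorem eq_zero_of_tv {e : U} {c : F} (he : Q e = 0) (e0 : e ≠ 0) (hc : σ c = c)
    (h1 : tv B (j e) c ∈ M) : c = 0 := by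
  have D := h.sd
  have a0 := h.ne
  have := bc_finite h.bc
  by_contra c0
  obtain ⟨k, k1, f, hf, t, t0, k2⟩ := h.exists_partner he e0
  have s : SP B (j e) (a⁻¹ • j f) := ⟨h.toBO.self he, by simp [h.toBO.self hf.Qv],
    by simp [h.map, hf.uv, a0]⟩
  have b1 : IS M (j e) := IS.of_tv_tor D s.ee (fun l l1 l0 => by
    obtain ⟨l, rfl⟩ := (h.fix l).mp l1
    have b2 : ∀ x, (s.torus D (Units.mk0 _ l0)).1 (j x) =
        j (x + ((l - 1) * polar Q f x) • e + ((l⁻¹ - 1) * polar Q e x) • f) := fun x => by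
      simp only [s.torus_apply D, Units.val_mk0, l1, LinearMap.map_smulₛₗ, LinearMap.smul_apply, h.map,
        map_inv₀, h.skew, map_add, j_smul F, map_mul, map_sub, map_one, smul_eq_mul]
      match_scalars <;> field_simp
    refine ⟨_, h.rat _ (s.torus_mem D (a := Units.mk0 _ l0) l1) fun x => ⟨_, b2 x⟩, ?_⟩
    rw [b2, ← j_smul F]
    simp [hf.vu, he, sub_smul]) hc c0 h1
  have b2 : IS M (j f) := IS.of_smul D (k2 ▸ b1.map D k1) t0
  obtain ⟨κ, hκ⟩ := (h.fix (a * a)).mp (by simp [h.skew])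
  have b3 : ∀ b, polar Q e b = 0 → AM M (j e) (j b) := fun b hb => by
    have c1 : polar Q f (b - polar Q f b • e) = 0 := by simp [hf.vu]
    have c2 : polar Q e (b - polar Q f b • e) = 0 := by simp [hb, he]
    have c3 := (h.am hf.Qv c1).map D (mul_mem (b2.2 (-(a * a)⁻¹)) (b1.2 1))
    have c4 : σ (-(a * a)⁻¹) = -(a * a)⁻¹ := by simp [h.skew]
    rw [UG_mul_apply, UG_mul_apply, map_smul, map_smul, tv_apply_of_perp D _ (h.toBO.zero c2),
      tv_apply_of_perp D _ (h.toBO.zero c1), show (tv B (j f) (-(a * a)⁻¹)).1 ((tv B (j e) 1).1 (j f)) =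
        a • j e by
          rw [tv_apply D s.ee (map_one σ), tv_apply D b2.1 c4]
          simp only [map_add, map_smul, b2.1, h.map e f, h.map f e, hf.uv, hf.vu, smul_eq_mul, map_one]
          match_scalars <;> field_simp <;> ring] at c3
    convert (c3.of_smul_left D s.ee (by rw [map_smul, h.toBO.zero c2, smul_zero])).add D
      (AM.self_smul D s.ee (algebraMap K F (polar Q f b))) using 1
    simp [h.skew, smul_smul, a0, j_smul F]
  have b4 : ES M (j e) := ES.of_AM D b1 fun y hy => by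
    obtain ⟨x, z, rfl⟩ := h.toBO.exists_add y
    have c1 : polar Q e z = 0 := by
      by_contra c1
      refine h.toBO.notMem ⟨-polar Q e x / polar Q e z, ?_⟩
      simp only [map_add, map_smul, h.map, smul_eq_mul] at hy
      rw [map_div₀, div_eq_iff (by simpa using c1), _root_.map_neg]
      exact mul_left_cancel₀ a0 (by linear_combination -hy)
    have c2 : polar Q e x = 0 := by simpa [h.map, c1, a0] using hy
    convert (b3 x c2).add D (h.am he (b := -κ • z) (by simp [c1])) using 2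
    rw [j_smul F, _root_.map_neg, hκ]
    match_scalars; field_simp
  exact h.nle (D.SUG_le_of_ES₂ D.ns b4 (b4.map D k1) (by simp [k2, h.map, hf.uv, a0, t0]))

theorem mem_range {e u : U} {y : V} (hy : AM M (j e) y) (he : Q e = 0) (e0 : e ≠ 0)
    (hu : polar Q e u = 0) : B (j u) y ∈ (algebraMap K F).range := by
  have := h.eq_zero_of_tv he e0 (by simp [h.sd.invol, add_comm]) ((h.am he hu).tv_mem h.sd hy)
  refine (h.fix _).mp (mul_left_cancel₀ (inv_ne_zero h.ne) ?_)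
  simp [h.skew] at this
  linear_combination -this

theorem rat_perp {e e' : U} (he : Q e = 0) (he' : Q e' = 0) (e0 : e ≠ 0) {s : UG B} (hs : s ∈ M)
    {l : F} (h1 : s.1 (j e) = l • j e') {b : U} (hb : polar Q e b = 0) :
    ∃ y, σ l • s.1 (j b) = j y := by
  have D := h.sd
  have a0 := h.ne
  have l0 := h1 ▸ UG_ne_zero s (bc_ne_zero h.bc e0)
  have e1 : e' ≠ 0 := by rintro rfl; simp at l0
  replace l0 := left_ne_zero_of_smul l0
  have a1 := mul_mem (mul_mem hs (h.sg he hb)) (inv_mem hs)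
  have a2 := (adm_conj s).mpr (h.toBO.adm he hb)
  rw [sgB, conj_rho D, h1] at a1
  rw [h1] at a2
  have a3 : Adm B (j e') _ _ := ⟨h.toBO.self he', by simpa [D.σ_eq_zero, l0] using a2.eu, a2.cc⟩
  have a4 := a3.smul_right D (σ l)
  rw [rho_smul D a3, map_smul, smul_comm] at a1
  rw [D.invol, mul_comm (σ l), map_smul, smul_comm] at a4
  have a5 : B (σ l • s.1 (j b)) (σ l • s.1 (j b)) = a * (2 * (algebraMap K F (Q b) * (l * σ l))) := by
    simp [UG_map, h.map, D.invol, map_ofNat]; ring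
  generalize σ l • s.1 (j b) = w at a1 a4 a5
  obtain ⟨y, m, rfl⟩ := h.toBO.exists_eq_add (e := e') (w := w) fun u hu => by
    obtain ⟨c, hc⟩ := h.mem_range ⟨_, a4, a1⟩ he' e1 hu
    exact ⟨-c, by rw [_root_.map_neg, hc]; simp [a0]⟩
  have b4 : polar Q e' y = 0 := by simpa [h.map, he', a0] using a4.eu
  have b5 : -algebraMap K F (Q b) / a * (l * σ l) = -algebraMap K F (Q y) / a := by
    simp [h.map, he', b4, polar_comm Q y e', a0, h.two, map_ofNat] at a5
    rw [a5]; ring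
  rw [smul_add, smul_smul, b5, rho_add_smul D (h.toBO.adm he' b4), rho_eq_tv_mul_rho D (h.toBO.adm he' b4)
    ⟨h.toBO.self he', (h.toBO.adm he' b4).eu, by
      rw [← (h.toBO.adm he' b4).cc]; simp [D.invol]; ring⟩] at a1
  have a6 := h.eq_zero_of_tv he' e1 (by simp [D.invol, add_comm])
    ((M.mul_mem_cancel_right (h.sg he' b4)).mp a1)
  obtain ⟨m, rfl⟩ := (h.fix m).mp (mul_left_cancel₀ (inv_ne_zero a0) (by
    simp [h.skew] at a6; linear_combination a6))
  exact ⟨y + m • e', by rw [map_add, j_smul F]⟩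

theorem rat_of_map {e e' : U} (he : Q e = 0) (he' : Q e' = 0) (e0 : e ≠ 0) {s : UG B} (hs : s ∈ M)
    {l : F} (h1 : s.1 (j e) = l • j e') (x : U) : ∃ y, σ l • s.1 (j x) = j y := by
  have D := h.sd
  have a0 := h.ne
  have l0 := h1 ▸ UG_ne_zero s (bc_ne_zero h.bc e0)
  have e1 : e' ≠ 0 := by rintro rfl; simp at l0
  replace l0 := left_ne_zero_of_smul l0
  have l1 := D.σ_ne_zero l0
  obtain ⟨n, hn⟩ := (h.fix (σ l * l)).mp (by rw [map_mul, D.invol, mul_comm])
  obtain ⟨f, hf⟩ := h.nd.exists_hp he e0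
  obtain ⟨y, m, a1⟩ := h.toBO.exists_eq_add (e := e') (w := σ l • s.1 (j f)) fun u hu => by
    obtain ⟨y, hy⟩ := h.rat_perp he' he e1 (inv_mem hs) (l := l⁻¹)
      (UG_inv_apply_eq (by rw [map_smul, h1, inv_smul_smul₀ l0])) hu
    rw [map_inv₀, inv_smul_eq_iff₀ l1] at hy
    exact ⟨n * polar Q y f, by rw [map_smul, UG_map_right, hy]; simp [h.map, hn, D.invol]; ring⟩
  obtain ⟨m, c, rfl⟩ := h.toBO.exists_add_mul h.toBO.notMem m
  have a2 : ∀ v, σ l * B (j e') (s.1 v) = B (j e) v := fun v => by rw [← UG_map s (j e) v, h1]; simp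
  have a3 : ∀ x, ∃ y, σ l • (tv B (j e') (-algebraMap K F c) * s).1 (j x) = j y := fun x => by
    obtain ⟨z, hz⟩ := h.rat_perp he he' e0 hs h1 (b := x - polar Q e x • f) (by simp [hf.uv])
    refine ⟨z + polar Q e x • (y + m • e'), ?_⟩
    rw [map_sub, map_sub, j_smul F, map_smul, smul_sub, smul_comm, sub_eq_iff_eq_add] at hz
    rw [UG_mul_apply, tv_apply D (h.toBO.self he') (by simp [h.toBO.conj]), smul_add, smul_smul,
      mul_left_comm, a2, hz, a1, h.map]
    simp only [map_add, j_smul F]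
    module
  have a4 := h.eq_zero_of_tv he' e1 (by simp [h.toBO.conj]) ((M.mul_mem_cancel_right hs).mp
    (h.rt _ (mul_mem (tv_mem_SUG D _ _) (h.le hs)) ⟨_, l1, a3⟩))
  simpa [a4, tv_zero D] using a3 x

theorem rat_of_fix {e : U} (he : Q e = 0) (e0 : e ≠ 0) {g d : UG B} (hg : g ∈ M) (hd : d ∈ M) {l : F}
    (h1 : d.1 (g.1 (j e)) = l • g.1 (j e)) (x : U) : ∃ y, σ l • d.1 (g.1 (j x)) = g.1 (j y) := by
  obtain ⟨y, hy⟩ := h.rat_of_map he he e0 (mul_mem (mul_mem (inv_mem hg) hd) hg) (l := l)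
    (by simp [h1]) x
  exact ⟨y, by simp [← hy]⟩

theorem RT_of_map {e e' : U} (he : Q e = 0) (e0 : e ≠ 0) {g : UG B} (hg : g ∈ M) {l : F}
    (h1 : g.1 (j e) = l • j e') : RT j g.1 := by
  have l0 := left_ne_zero_of_smul (h1 ▸ UG_ne_zero g (bc_ne_zero h.bc e0))
  refine ⟨_, h.sd.σ_ne_zero l0, h.rat_of_map he ?_ e0 hg h1⟩
  have := UG_map g (j e) (j e)
  simpa [h1, h.map, he, l0, h.sd.σ_eq_zero, h.ne, h.two, map_ofNat] using this

omit [Finite F] in
theorem exists_rf {c : U} (hc : Q c ≠ 0) : ∃ r : UG B, LinearMap.det (r.1 : V →ₗ[F] V) = -1 ∧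
    ∀ v, r.1 v = v - (B (j c) v / (a * algebraMap K F (Q c))) • j c := by
  have := bc_finite h.bc
  have a0 := h.ne
  have a1 : algebraMap K F (Q c) ≠ 0 := by simpa
  have a2 : 1 + B (j c) (-(a * algebraMap K F (Q c))⁻¹ • j c) = -1 := by
    simp [h.map, map_ofNat]; field_simp; ring
  obtain ⟨k, k1, k2⟩ := exists_dil (a2.trans_ne (neg_ne_zero.mpr one_ne_zero))
  have k3 : ∀ v, k v = v - (B (j c) v / (a * algebraMap K F (Q c))) • j c := fun v => by
    rw [k1]; match_scalars <;> field_simp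
  refine ⟨⟨k, fun x y => ?_⟩, k2.trans a2, k3⟩
  simp only [k3, map_sub, LinearMap.sub_apply, LinearMap.map_smulₛₗ, LinearMap.smul_apply, map_smul,
    h.map, smul_eq_mul, map_div₀, map_mul, h.skew, h.toBO.conj, h.sd.σ_map, polar_self', map_ofNat,
    RingHom.id_apply]
  field_simp; ring

omit [Finite F] in
theorem exists_rr {c c' : U} (hc : Q c ≠ 0) (hc' : Q c' ≠ 0) : ∃ d ∈ M, ∀ v, d.1 v =
    v - (B (j c') v / (a * algebraMap K F (Q c'))) • j c' - ((B (j c) v - B (j c') v *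
      algebraMap K F (polar Q c c' / Q c')) / (a * algebraMap K F (Q c))) • j c := by
  obtain ⟨r, r1, r2⟩ := h.exists_rf hc
  obtain ⟨r', r3, r4⟩ := h.exists_rf hc'
  have a0 := h.ne
  have k : ∀ {c} {r : UG B}, (∀ v, r.1 v = v - (B (j c) v / (a * algebraMap K F (Q c))) • j c) →
      ∀ x, ∃ y, r.1 (j x) = j y := fun {c r} H x => ⟨x - (polar Q c x / Q c) • c, by
    rw [H, h.map, map_sub, j_smul F, map_div₀, mul_div_mul_left _ _ a0]⟩
  refine ⟨r * r', h.rat _ (mem_SUG.mpr ?_) fun x => ?_, fun v => ?_⟩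
  · rw [← coe_udet, map_mul, Units.val_mul, coe_udet, coe_udet, r1, r3]; simp
  · obtain ⟨y, hy⟩ := k r4 x
    rw [UG_mul_apply, hy]; exact k r2 y
  · rw [UG_mul_apply, r2, r4, map_sub, map_smul, h.map, map_div₀]
    congr 2
    simp only [smul_eq_mul]; field_simp

end O4

end Cfsg.Agent.H12
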