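import Mathlib
import Cfsg.Agent.H12.U4D

/-!
Four-dimensional quadratic spaces: orthogonal frames adapted to a plane.
-/

set_option autoImplicit false

namespace Cfsg.Agent.H12

open Module QuadraticMap H13

variable {K U : Type*} [Field K] [AddCommGroup U] [Module K U] {Q : QuadraticForm K U}
  {x y c d e z : U}

theorem exists_not_isSquare_sub [Finite K] (h2 : (2 : K) ≠ 0) {δ : K} (hδ : ¬ IsSquare δ) (u₀ : K) :
    ∃ u, u ≠ u₀ ∧ ¬ IsSquare (u ^ 2 - δ) := by
  classical
  by_contra! H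
  choose! v hv using H
  have d0 : δ ≠ 0 := by rintro rfl; simp at hδ
  have a1 : ∀ u, u ≠ u₀ → (u + v u) * (u - v u) = δ := fun u hu => by linear_combination hv u hu
  have a2 : ∀ u, u ≠ u₀ → u + v u ≠ 0 := fun u hu e => d0 (by rw [← a1 u hu, e, zero_mul])
  have a3 : Function.Injective fun u => if u = u₀ then 0 else u + v u := fun u u' e => by
    by_cases b1 : u = u₀ <;> by_cases b2 : u' = u₀ <;> simp only [b1, b2, if_true, if_false] at e
    · rw [b1, b2]
    · exact (a2 _ b2 e.symm).elim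
    · exact (a2 _ b1 e).elim
    · have := mul_left_cancel₀ (a2 _ b1) ((a1 _ b1).trans (e ▸ (a1 _ b2).symm))
      exact mul_left_cancel₀ h2 (by linear_combination e + this)
  obtain ⟨u, hu⟩ := exists_ne u₀
  obtain ⟨w, hw⟩ := Finite.injective_iff_surjective.mp a3 (u - v u)
  have a4 : u - v u ≠ 0 := fun e => d0 (by rw [← a1 u hu, e, mul_zero])
  by_cases b1 : w = u₀ <;> simp only [b1, if_true, if_false] at hw
  · exact a4 hw.symm
  have a5 := mul_left_cancel₀ a4 ((hw ▸ a1 _ b1).trans ((a1 _ hu).symm.trans (mul_comm _ _)))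
  obtain rfl : w = u := mul_left_cancel₀ h2 (by linear_combination hw + a5)
  exact hδ ⟨w, by
    have : v w = 0 := mul_left_cancel₀ h2 (by linear_combination hw)
    rw [← a1 _ hu, this]; ring⟩

theorem isSquare_mul_of_not [Finite K] {a b : K} (ha : ¬ IsSquare a) (hb : ¬ IsSquare b) :
    IsSquare (a * b) := by
  classical
  cases nonempty_fintype K
  have a0 : a ≠ 0 := by rintro rfl; simp at ha
  have b0 : b ≠ 0 := by rintro rfl; simp at hb
  rw [← quadraticChar_one_iff_isSquare (mul_ne_zero a0 b0), map_mul,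
    quadraticChar_neg_one_iff_not_isSquare.mpr ha, quadraticChar_neg_one_iff_not_isSquare.mpr hb]
  simp

/-- The discriminant of a pair of vectors. -/
def dsc (Q : QuadraticForm K U) (x y : U) : K := polar Q x y ^ 2 - 4 * Q x * Q y

theorem eq_zero_of_dsc (h : dsc Q x y ≠ 0) {s t : K} (h1 : polar Q x (s • x + t • y) = 0)
    (h2 : polar Q y (s • x + t • y) = 0) : s = 0 ∧ t = 0 := by
  simp only [polar_add_right, polar_smul_right, polar_self', smul_eq_mul, polar_comm Q y x] at h1 h2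
  exact ⟨mul_left_cancel₀ h (by unfold dsc; linear_combination polar Q x y * h2 - 2 * Q y * h1),
    mul_left_cancel₀ h (by unfold dsc; linear_combination polar Q x y * h1 - 2 * Q x * h2)⟩

/-- A plane together with an orthogonal basis of its complement. -/
structure OF (Q : QuadraticForm K U) (x y c d : U) : Prop where
  ds : dsc Q x y ≠ 0
  xc : polar Q x c = 0
  yc : polar Q y c = 0
  xd : polar Q x d = 0
  yd : polar Q y d = 0
  cd : polar Q c d = 0
  qc : Q c ≠ 0
  qd : Q d ≠ 0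

variable [FiniteDimensional K U] (hQ : ND Q) (h4 : finrank K U = 4) (h2 : (2 : K) ≠ 0)
include hQ

theorem exists_nonsing {S : Submodule K U} (hS : ∀ z ∈ S, (∀ w ∈ S, polar Q w z = 0) → z = 0)
    (h : finrank K S < finrank K U) : ∃ c ∈ perp Q S, Q c ≠ 0 := by
  by_contra! H
  have a1 := le_perp_of_singular H
  rw [hQ.perp_perp] at a1
  have a2 := hQ.finrank_perp S
  rw [(Submodule.eq_bot_iff _).mpr fun z hz => hS z (a1 hz) (mem_perp.mp hz), finrank_bot] at a2
  omega

include h4 h2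

theorem exists_OF (h : dsc Q x y ≠ 0) : ∃ c d, OF Q x y c d := by
  obtain ⟨c, c1, c2⟩ := exists_nonsing hQ (S := Submodule.span K {x, y}) (fun z hz H => by
    obtain ⟨s, t, rfl⟩ := Submodule.mem_span_pair.mp hz
    obtain ⟨rfl, rfl⟩ := eq_zero_of_dsc h (H x (Submodule.subset_span (by simp)))
      (H y (Submodule.subset_span (by simp)))
    simp) ((H13.finrank_span_pair_le x y).trans_lt (by omega))
  rw [mem_perp_pair] at c1
  obtain ⟨d, d1, d2⟩ := exists_nonsing hQ (S := Submodule.span K {x, y, c}) (fun z hz H => by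
    obtain ⟨s, t, u, rfl⟩ := Submodule.mem_span_triple.mp hz
    obtain ⟨rfl, rfl⟩ := eq_zero_of_dsc h (s := s) (t := t)
      (by simpa [c1.1] using H x (Submodule.subset_span (by simp)))
      (by simpa [c1.2] using H y (Submodule.subset_span (by simp)))
    have := H c (Submodule.subset_span (by simp))
    simp [c2, h2] at this
    simp [this]) ((H13.finrank_span_triple_le x y c).trans_lt (by omega))
  simp only [mem_perp_span, Set.mem_insert_iff, Set.mem_singleton_iff, forall_eq_or_imp,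
    forall_eq] at d1
  exact ⟨c, d, h, c1.1, c1.2, d1.1, d1.2.1, d1.2.2, c2, d2⟩

theorem OF.eq_zero (h : OF Q x y c d) (a1 : polar Q x z = 0) (a2 : polar Q y z = 0)
    (a3 : polar Q c z = 0) (a4 : polar Q d z = 0) : z = 0 := by
  have b1 : LinearIndependent K ![x, y, c, d] := Fintype.linearIndependent_iff.mpr fun g hg => by
    simp only [Fin.sum_univ_four, Matrix.cons_val_zero, Matrix.cons_val_one, Matrix.cons_val] at hg
    obtain ⟨c1, c2⟩ := eq_zero_of_dsc h.ds (s := g 0) (t := g 1)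
      (by simpa [h.xc, h.xd] using congrArg (polar Q x) hg)
      (by simpa [h.yc, h.yd] using congrArg (polar Q y) hg)
    have c3 := congrArg (polar Q c) hg
    have c4 := congrArg (polar Q d) hg
    simp [c1, c2, h.cd, polar_comm Q d c, h.qc, h.qd, h2] at c3 c4
    intro i; fin_cases i <;> simpa
  have b2 := hQ.finrank_perp (Submodule.span K (Set.range ![x, y, c, d]))
  rw [finrank_span_eq_card b1, h4, Fintype.card_fin, add_eq_right, Submodule.finrank_eq_zero,
    Submodule.eq_bot_iff] at b2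
  refine b2 z (mem_perp_span.mpr ?_)
  rintro _ ⟨i, rfl⟩
  fin_cases i <;> simpa

theorem OF.eq_add (h : OF Q x y c d) (a1 : polar Q x z = 0) (a2 : polar Q y z = 0) :
    z = (polar Q c z / (2 * Q c)) • c + (polar Q d z / (2 * Q d)) • d := by
  have := h.qc
  have := h.qd
  refine sub_eq_zero.mp (h.eq_zero hQ h4 h2 ?_ ?_ ?_ ?_) <;>
    simp [a1, a2, h.xc, h.xd, h.yc, h.yd, h.cd, polar_comm Q d c] <;> field_simp <;> ring

theorem mem_span_of_aniso (he : Q e = 0) (e0 : e ≠ 0) (a1 : polar Q e c = 0) (a2 : polar Q e d = 0)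
    (a3 : polar Q c d = 0) (H : ∀ s t : K, s ^ 2 * Q c + t ^ 2 * Q d = 0 → s = 0 ∧ t = 0)
    (hz : Q z = 0) (a4 : polar Q e z = 0) : z ∈ K ∙ e := by
  have c0 : Q c ≠ 0 := fun k => one_ne_zero (H 1 0 (by simp [k])).1
  have d0 : Q d ≠ 0 := fun k => one_ne_zero (H 0 1 (by simp [k])).2
  obtain ⟨f, hf⟩ := hQ.exists_hp he e0
  obtain ⟨g, g1, g2, g3⟩ : ∃ g, polar Q e g = 1 ∧ polar Q g c = 0 ∧ polar Q g d = 0 :=
    ⟨f - (polar Q f c / (2 * Q c)) • c - (polar Q f d / (2 * Q d)) • d, by simp [hf.uv, a1, a2],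
      by simp [polar_comm Q d c, a3]; field_simp; ring, by simp [a3]; field_simp; ring⟩
  have h : OF Q e g c d := ⟨by simp [dsc, g1, he], a1, g2, a2, g3, a3, c0, d0⟩
  have b1 := h.eq_add hQ h4 h2 (z := z - polar Q g z • e) (by simp [a4, he])
    (by simp [polar_comm Q g e, g1])
  have b2 := congrArg Q b1
  rw [Q_sub, Q_add, Q_smul, Q_smul, Q_smul] at b2
  simp only [polar_smul_left, polar_smul_right, a3, he, hz, polar_comm Q z e, a4, smul_zero, mul_zero,
    add_zero, sub_zero] at b2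
  obtain ⟨b3, b4⟩ := H _ _ b2.symm
  rw [b3, b4, zero_smul, zero_smul, add_zero, sub_eq_zero] at b1
  exact b1 ▸ Submodule.smul_mem _ _ (Submodule.mem_span_singleton_self e)

omit hQ h4 [FiniteDimensional K U] in
theorem OF.isSquare [Finite K] (h : OF Q x y c d) (hy : Q y = 0 → Q x = 0)
    (H : ∀ s t : K, s ^ 2 * Q c + t ^ 2 * Q d = 0 → s = 0 ∧ t = 0)
    (H' : ∀ z, Q z = 0 → polar Q e z = 0 → z ∈ K ∙ e) : IsSquare (dsc Q x y) := by
  by_contra a1
  have y0 : Q y ≠ 0 := fun k => a1 ⟨polar Q x y, by simp [dsc, k, pow_two]⟩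
  have a2 : ¬ IsSquare (-(Q c * Q d)) := fun ⟨ρ, k⟩ => h.qc (H ρ (Q c) (by linear_combination -Q c * k)).2
  obtain ⟨ρ, a3⟩ := isSquare_mul_of_not a1 a2
  obtain ⟨s, t, a4⟩ := exists_mul_sq_add_mul_sq_eq h.qc h.qd (-Q y)
  have := h.qc
  have := h.qd
  obtain ⟨z, z1, z2, z', z3, z4, z5, z6⟩ : ∃ z, Q z = 0 ∧ polar Q y z ≠ 0 ∧ ∃ z', Q z' = 0 ∧
      polar Q y z' = 0 ∧ polar Q x z' ≠ 0 ∧ polar Q z z' = 0 := by
    refine ⟨y + (s • c + t • d), ?_, by simp [h.yc, h.yd, y0, h2], ((2 * Q y) • x - polar Q x y • y) +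
      (ρ / (Q c * Q d)) • ((t * Q d) • c - (s * Q c) • d), ?_, ?_, fun k => h.ds ?_, ?_⟩
    · simp [Q_add, Q_smul, h.yc, h.yd, h.cd]; linear_combination a4
    · simp only [Q_add, Q_sub, Q_smul, polar_smul_left, polar_smul_right, polar_sub_left,
        polar_sub_right, h.xc, h.xd, h.yc, h.yd, h.cd, smul_eq_mul]
      unfold dsc at a3
      field_simp
      linear_combination ρ ^ 2 * a4 + Q y * a3
    · simp [h.yc, h.yd, polar_comm Q y x]; ring
    · simp [h.xc, h.xd] at k
      unfold dsc; linear_combination -k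
    · simp [h.xc, h.xd, h.yc, h.yd, h.cd, polar_comm Q y x, polar_comm Q c x, polar_comm Q c y,
        polar_comm Q d c, polar_comm Q d x, polar_comm Q d y]
      ring
  have b1 : ∀ p q : K, polar Q e (p • z + q • z') = 0 → (p ≠ 0 ∨ q ≠ 0) →
      ∃ p' q' : K, e = p' • z + q' • z' := fun p q k1 k2 => by
    obtain ⟨m, k3⟩ := Submodule.mem_span_singleton.mp (H' _ (by simp [Q_add, Q_smul, z1, z3, z6]) k1)
    have m0 : m ≠ 0 := by
      rintro rfl
      have k4 : p = 0 := by simpa [z2, z4] using congrArg (polar Q y) k3.symm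
      have k5 : q = 0 := by simpa [k4, z5] using congrArg (polar Q x) k3.symm
      simp [k4, k5] at k2
    exact ⟨m⁻¹ * p, m⁻¹ * q, by rw [mul_smul, mul_smul, ← smul_add, ← k3, inv_smul_smul₀ m0]⟩
  have b2 : polar Q e z = 0 ∧ polar Q e z' = 0 := by
    by_contra k
    obtain ⟨p, q, k1⟩ := b1 (polar Q e z') (-polar Q e z) (by simp; ring) (by
      rw [neg_ne_zero]; tauto)
    exact k (by rw [k1]; simp [z1, z3, z6, polar_comm Q z' z])
  obtain ⟨m, k1⟩ := Submodule.mem_span_singleton.mp (H' _ z1 b2.1)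
  obtain ⟨m', k2⟩ := Submodule.mem_span_singleton.mp (H' _ z3 b2.2)
  rw [← k1] at z2
  rw [← k2] at z4 z5
  simp at z2 z4 z5
  tauto

omit hQ h4 [FiniteDimensional K U] in
theorem exists_HP_of_dsc (h : dsc Q x y ≠ 0) (hs : IsSquare (dsc Q x y)) (hy : Q y = 0 → Q x = 0) :
    ∃ r r', HP Q r r' ∧ ∃ s t s' t' : K, x = s • r + t • r' ∧ y = s' • r + t' • r' := by
  obtain ⟨δ, hδ⟩ := hs
  have d0 : δ ≠ 0 := by rintro rfl; simp [hδ] at h
  unfold dsc at h hδ
  by_cases y0 : Q y = 0
  · have b0 : polar Q x y ≠ 0 := fun k => h (by simp [k, y0])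
    exact ⟨x, (polar Q x y)⁻¹ • y, ⟨hy y0, by simp [Q_smul, y0], by simp [b0]⟩, 1, 0, 0, polar Q x y,
      by simp, by simp [b0]⟩
  have h4 : (4 : K) ≠ 0 := fun k => mul_ne_zero h2 h2 (by linear_combination k)
  refine ⟨(2 * Q y) • x + (δ - polar Q x y) • y, (-(4 * Q y * δ ^ 2)⁻¹) • ((2 * Q y) • x -
    (δ + polar Q x y) • y), ⟨?_, ?_, ?_⟩, (δ + polar Q x y) / (4 * Q y * δ), -δ * (δ - polar Q x y),
    (2 * δ)⁻¹, 2 * Q y * δ, ?_, ?_⟩
  · simp [Q_add, Q_smul]; linear_combination -Q y * hδ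
  · simp only [Q_smul, Q_sub, polar_smul_left, polar_smul_right, smul_eq_mul]
    refine mul_eq_zero_of_right _ ?_
    linear_combination -Q y * hδ
  · simp only [polar_smul_left, polar_smul_right, polar_add_left, polar_sub_right, smul_eq_mul,
      polar_self', polar_comm Q y x]
    field_simp
    linear_combination 2 * hδ
  · match_scalars <;> field_simp <;> ring
  · match_scalars <;> field_simp <;> ring

end Cfsg.Agent.H12
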