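import Mathlib
import Cfsg.Agent.H12.U4E

/-!
Four-dimensional unitary groups: orthogonal subfield subgroups are maximal.
-/

set_option autoImplicit false

namespace Cfsg.Agent.H12

open Module QuadraticMap H13

variable {F V : Type*} [Field F] [AddCommGroup V] [Module F V]
  {K U : Type*} [Field K] [AddCommGroup U] [Module K U] [Algebra K F] [Module K V]
  [IsScalarTower K F V] {j : U →ₗ[K] V}
  {σ : F →+* F} {B : V →ₛₗ[σ] V →ₗ[F] F} {M : Subgroup (UG B)} {Q : QuadraticForm K U} {a : F}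
  {x y c d e : U} {g : UG B}

theorem RP.of_eq_smul {v : V} {l : F} (h : v = l • j y) : RP F j v := by
  by_cases l0 : l = 0
  · exact ⟨1, one_ne_zero, 0, by simp [h, l0]⟩
  · exact ⟨l⁻¹, inv_ne_zero l0, y, by rw [h, inv_smul_smul₀ l0]⟩

namespace BO

variable (h : BO B Q j a)
include h

theorem two' : (2 : K) ≠ 0 := fun H => h.two (by rw [← map_ofNat (algebraMap K F), H, map_zero])

theorem add_inj {x' y' : U} (H : j x + a • j y = j x' + a • j y') : x = x' ∧ y = y' := by
  have a1 : y = y' := by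
    by_contra e
    exact h.notMem (mem_range_of_smul h.bc (e := x' - x) (by
      simp only [map_sub, smul_sub]; linear_combination (norm := module) H) (sub_ne_zero.mpr e))
  exact ⟨bc_injective h.bc (by simpa [a1] using H), a1⟩

theorem exists_sq : ∃ κ : K, algebraMap K F κ = a * a ∧ ¬ IsSquare κ := by
  obtain ⟨κ, hκ⟩ := (h.fix (a * a)).mp (by simp [h.skew])
  refine ⟨κ, hκ, fun ⟨ρ, e⟩ => h.notMem ?_⟩
  rw [e, map_mul, mul_self_eq_mul_self_iff] at hκ
  rcases hκ with e | e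
  · exact ⟨ρ, e⟩
  · exact ⟨-ρ, by simp [e]⟩

theorem iso_rel {κ : K} (hκ : algebraMap K F κ = a * a)
    (H : B (j x + a • j y) (j x + a • j y) = 0) : Q x = κ * Q y := (algebraMap K F).injective <|
  mul_left_cancel₀ (mul_ne_zero h.ne h.two) (by
    simp [h.map, h.skew, polar_comm Q y x, map_ofNat] at H
    rw [map_mul, hκ]; linear_combination H)

theorem dsc_eq_zero (H : RP F j (j x + a • j y)) : dsc Q x y = 0 := by
  obtain ⟨ζ, z0, z, H⟩ := H
  obtain ⟨s, t, e⟩ := h.exists_add_mul h.notMem ζ⁻¹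
  obtain ⟨rfl, rfl⟩ := h.add_inj (x' := s • z) (y' := t • z) (by
    rw [← inv_smul_smul₀ z0 (j x + a • j y), H, e, j_smul F, j_smul F]; module)
  simp [dsc, Q_smul]; ring

theorem exists_norm {ζ : F} (z0 : ζ ≠ 0) : ∃ n : K, n ≠ 0 ∧ algebraMap K F n = σ ζ * ζ ∧
    (∀ {b b' u u'}, g.1 (j b') = ζ • j b → g.1 (j u') = ζ • j u → polar Q b' u' = n * polar Q b u) ∧
    ∀ {b b'}, g.1 (j b') = ζ • j b → Q b' = n * Q b := by
  obtain ⟨n, hn⟩ := (h.fix (σ ζ * ζ)).mp (by rw [map_mul, h.sd.invol, mul_comm])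
  have k : ∀ {b b' u u'}, g.1 (j b') = ζ • j b → g.1 (j u') = ζ • j u →
      polar Q b' u' = n * polar Q b u := fun {b b' u u'} h1 h2 => (algebraMap K F).injective <|
    mul_left_cancel₀ h.ne (by rw [← h.map, ← UG_map g, h1, h2]; simp [h.map, hn]; ring)
  refine ⟨n, ?_, hn, k, fun h1 => mul_left_cancel₀ h.two' ?_⟩
  · rintro rfl
    exact mul_ne_zero (h.sd.σ_ne_zero z0) z0 (by simpa using hn.symm)
  · rw [← polar_self', k h1 h1, polar_self']; ring

end BO

namespace O4

variable (h : O4 B Q j a M) [FiniteDimensional K U] [Finite F] (hq : 4 ≤ q0 σ)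
  (he : Q e = 0) (e0 : e ≠ 0) (hg : g ∈ M) (h1 : g.1 (j e) = j x + a • j y)
include h hq he e0 hg h1

theorem RP_of_ts (hx : Q x = 0) (hy : Q y = 0) (hxy : polar Q x y = 0) : RP F j (j x + a • j y) := by
  have D := h.sd
  have a0 := h.ne
  by_contra H
  have a1 : x ∉ K ∙ y := fun k => by
    obtain ⟨s, rfl⟩ := Submodule.mem_span_singleton.mp k
    exact H (RP.of_eq_smul (l := algebraMap K F s + a) (y := y) (by rw [j_smul F]; module))
  have a2 : y ∉ K ∙ x := fun k => by
    obtain ⟨s, rfl⟩ := Submodule.mem_span_singleton.mp k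
    exact H (RP.of_eq_smul (l := 1 + a * algebraMap K F s) (y := x) (by rw [j_smul F]; module))
  obtain ⟨x', b1, b2⟩ := h.nd.exists_perp_one _ a1
  obtain ⟨y', b3, b4⟩ := h.nd.exists_perp_one _ a2
  replace b1 := b1 y (Submodule.mem_span_singleton_self y)
  replace b3 := b3 x (Submodule.mem_span_singleton_self x)
  obtain ⟨μ, m1, m2⟩ := exists_mu_pow (fun e => h.toBO.notMem ((h.fix a).mp (by simp [e]))) D.invol
    (n := 4) (by omega) hq
  have m3 : σ μ ^ 2 ∉ (algebraMap K F).range := fun k => m2 (by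
    have := (h.fix _).mpr k
    rw [map_pow, D.invol] at this
    linear_combination μ ^ 2 * this + (σ μ * μ + 1) * m1)
  obtain ⟨κ, hκ, k0⟩ := h.toBO.exists_sq
  replace k0 : κ ≠ 0 := by rintro rfl; simp at k0
  obtain ⟨p, q, rfl⟩ := h.toBO.exists_add_mul h.toBO.notMem μ
  have hσ : σ (algebraMap K F p + algebraMap K F q * a) = algebraMap K F p + algebraMap K F q * -a := by
    simp [h.toBO.conj, h.skew]
  rw [hσ] at m1 m3
  have m4 : p ^ 2 - κ * q ^ 2 = 1 := (algebraMap K F).injective (by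
    simp only [map_sub, map_pow, map_mul, hκ, map_one]; linear_combination m1)
  have m5 : q ≠ 0 := by rintro rfl; exact m3 ⟨p ^ 2, by simp⟩
  obtain ⟨d, d1, d2, d3⟩ : ∃ d ∈ M, d.1 (j x) = j (p • x + (κ * q) • y) ∧ d.1 (j y) = j (q • x + p • y) := by
    have c1 : polar Q x (((p - 1) / (κ * q)) • y') = 0 := by simp [polar_comm Q x, b3]
    have c2 : polar Q y ((κ * q) • x') = 0 := by simp [polar_comm Q y, b1]
    have c3 := sieg_apply_self (Q := Q) x (((p - 1) / (κ * q)) • y')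
    have c4 := sieg_apply_self (Q := Q) y ((κ * q) • x')
    have c5 := sieg_apply_of_perp hx c1 hxy
    have c6 := sieg_apply_of_perp hy c2 ((polar_comm _ _ _).trans hxy)
    rw [polar_smul_left, b4, smul_eq_mul, mul_one] at c5
    rw [polar_smul_left, b2, smul_eq_mul, mul_one] at c6
    refine ⟨_, mul_mem (mul_mem (h.sg hx c1) (h.sg hy c2)) (h.sg hx c1), ?_, ?_⟩ <;>
      simp only [UG_mul_apply, h.toBO.sg_j hx c1, h.toBO.sg_j hy c2, c3, c4, c5, c6, map_add (sieg Q _ _).1,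
        map_smul (sieg Q _ _).1] <;> congr 1 <;> match_scalars <;> field_simp
    · ring
    · ring
    · linear_combination m4
  simp only [map_add, j_smul F, map_mul, hκ] at d2 d3
  generalize algebraMap K F p = P at *
  replace m5 : algebraMap K F q ≠ 0 := by simpa
  generalize algebraMap K F q = R at *
  have d4 := h.rat_of_fix he e0 hg d1 (l := P + R * a) (by
    rw [h1, map_add, map_smul, d2, d3]; module)
  have n1 := h.rat_of_fix he e0 hg (h.sg hx hxy) (l := 1) (by
    rw [h1, map_add, map_smul, h.toBO.sg_j hx hxy, h.toBO.sg_j hx hxy, sieg_apply_self,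
      sieg_apply_of_perp_perp hxy (by simp [hy]), one_smul])
  obtain ⟨u, hu⟩ : ∃ u, B (j x - a • j y) (g.1 (j u)) ≠ 0 := by
    by_contra! k
    have := D.sep (j x - a • j y) fun v => by
      rw [← UG_apply_inv g v]
      exact bc_induction h.bc (p := fun v => B (j x - a • j y) (g.1 v) = 0)
        (fun c u => by rw [map_smul, map_smul, k, smul_zero])
        (fun v w h1 h2 => by rw [map_add, map_add, h1, h2, add_zero]) _
    exact a1 ((h.toBO.add_inj (y := -y) (x' := 0) (y' := 0) (by simpa [sub_eq_add_neg] using this)).1 ▸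
      zero_mem _)
  obtain ⟨u', n2⟩ := n1 u
  have n3 := h.toBO.sg_sub hx hxy (g.1 (j u))
  rw [map_one, one_smul] at n2
  rw [n2, ← map_sub, ← map_sub] at n3
  simp only [map_sub, LinearMap.sub_apply, LinearMap.map_smulₛₗ, LinearMap.smul_apply, h.skew,
    smul_eq_mul] at hu
  generalize B (j x) _ = S at n3 hu
  generalize B (j y) _ = T at n3 hu
  obtain ⟨z, n4⟩ := d4 (u' - u)
  rw [hσ] at n4 d4
  have n5 : g.1 (j (u' - u - z)) = ((P + R * -a) * R * a⁻¹ * (S - -a * T)) • (j x - a • j y) := by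
    rw [map_sub, map_sub, ← n4, n3]
    simp only [hy, map_zero, map_add, map_smul, d2, d3]
    match_scalars <;> field_simp
    · linear_combination S * m1
    · linear_combination -T * m1
  obtain ⟨z', n6⟩ := d4 (u' - u - z)
  refine m3 (mem_range_of_smul h.bc (e := z') (a := u' - u - z) (g.1.injective ?_) fun k => ?_)
  · rw [← n6, map_smul, n5]
    simp only [map_sub, map_smul, d2, d3]
    module
  · rw [k, map_zero, map_zero, eq_comm, smul_eq_zero] at n5
    refine n5.elim (mul_ne_zero (mul_ne_zero (mul_ne_zero (left_ne_zero_of_mul_eq_one m1) m5)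
      (inv_ne_zero a0)) hu) fun k => a1 ?_
    exact (h.toBO.add_inj (y := -y) (x' := 0) (y' := 0) (by simpa [sub_eq_add_neg] using k)).1 ▸ zero_mem _

theorem exists_scalar (o : OF Q x y c d) : ∃ ζ : F, ζ ≠ 0 ∧ ∀ b, polar Q x b = 0 → polar Q y b = 0 →
    ∃ b', g.1 (j b') = ζ • j b := by
  have D := h.sd
  have a0 := h.ne
  have h2 := h.toBO.two'
  have c0 : algebraMap K F (Q c) ≠ 0 := by simpa using o.qc
  have d0 : algebraMap K F (Q d) ≠ 0 := by simpa using o.qd
  have k0 : ∀ {c c' : U}, Q c ≠ 0 → Q c' ≠ 0 → polar Q x c = 0 → polar Q y c = 0 → polar Q x c' = 0 →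
      polar Q y c' = 0 → ∀ u, ∃ u', ∃ k : UG B, k.1 (g.1 (j u)) = g.1 (j u') ∧ ∀ v, k.1 v =
      v - (B (j c') v / (a * algebraMap K F (Q c'))) • j c' - ((B (j c) v - B (j c') v *
        algebraMap K F (polar Q c c' / Q c')) / (a * algebraMap K F (Q c))) • j c :=
    fun {c c'} a1 a2 a3 a4 a5 a6 u => by
      obtain ⟨k, b1, b2⟩ := h.exists_rr a1 a2
      obtain ⟨u', b3⟩ := h.rat_of_fix he e0 hg b1 (l := 1) (by
        simp [b2, h1, h.map, polar_comm Q c x, polar_comm Q c' x, polar_comm Q c y, polar_comm Q c' y,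
          a3, a4, a5, a6]) u
      exact ⟨u', k, by simpa using b3, b2⟩
  have k1 : ∀ u, ∃ u', g.1 (j u') = (B (j c) (g.1 (j u)) / (a * algebraMap K F (Q c))) • j c +
      (B (j d) (g.1 (j u)) / (a * algebraMap K F (Q d))) • j d := fun u => by
    obtain ⟨u', k, b1, b2⟩ := k0 o.qc o.qd o.xc o.yc o.xd o.yd u
    refine ⟨u - u', ?_⟩
    rw [map_sub, map_sub, ← b1, b2, o.cd]
    simp only [zero_div, map_zero, mul_zero, sub_zero]; abel
  obtain ⟨t, t0, t1⟩ : ∃ t : K, t ≠ 0 ∧ Q (c + t • d) ≠ 0 := by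
    obtain ⟨t, t1, t2, t3⟩ := exists_fix_sq_ne hq
    obtain ⟨t, rfl⟩ := (h.fix t).mp t1
    by_cases k : Q c + Q d = 0
    · refine ⟨t, by simpa using t2, fun k' => t3 ?_⟩
      simp [Q_add, Q_smul, o.cd] at k'
      rw [← map_mul, show t * t = 1 from mul_left_cancel₀ o.qd (by linear_combination k' - k), map_one]
    · exact ⟨1, one_ne_zero, by simpa [Q_add, o.cd] using k⟩
  have k2 : ∀ u, B (j c) (g.1 (j u)) * σ (B (j d) (g.1 (j u))) =
      σ (B (j c) (g.1 (j u))) * B (j d) (g.1 (j u)) := fun u => by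
    obtain ⟨u', k, b1, b2⟩ := k0 o.qc t1 o.xc o.yc (by simp [o.xc, o.xd]) (by simp [o.yc, o.yd]) u
    have b3 : σ (B (g.1 (j u)) (k.1 (g.1 (j u)))) = -B (g.1 (j u)) (k.1 (g.1 (j u))) := by
      rw [b1, UG_map, h.map, map_mul, h.skew, h.toBO.conj, neg_mul]
    have b4 : algebraMap K F (Q (c + t • d)) ≠ 0 := by simpa using t1
    have b5 : algebraMap K F t ≠ 0 := by simpa using t0
    generalize g.1 (j u) = v at b3 ⊢
    have b6 := D.σ_map v v
    rw [b2, show polar Q c (c + t • d) = 2 * Q c by simp [o.cd]] at b3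
    generalize Q (c + t • d) = n at b3 b4
    rw [map_add j, j_smul F] at b3
    simp only [map_sub, map_smul, smul_eq_mul, map_add, LinearMap.add_apply,
      LinearMap.map_smulₛₗ, LinearMap.smul_apply, D.skew (j c) v, D.skew (j d) v, map_mul, map_div₀,
      _root_.map_neg, D.invol, h.skew, h.toBO.conj, b6, map_ofNat, RingHom.id_apply] at b3
    field_simp at b3
    exact mul_left_cancel₀ (mul_ne_zero (mul_ne_zero h.two b5) c0) (by linear_combination b3)
  have k3 : ∀ b, polar Q x b = 0 → polar Q y b = 0 → RP F j ((g⁻¹).1 (j b)) := fun b b1 b2 => by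
    obtain ⟨u, v, b3⟩ := h.toBO.exists_add ((g⁻¹).1 (j b))
    have b4 : j b = g.1 (j u) + a • g.1 (j v) := by rw [← map_smul, ← map_add, ← b3, UG_apply_inv]
    have b5 := congrArg (B (j c)) b4
    have b6 := congrArg (B (j d)) b4
    have b7 := k2 (u + v)
    have b8 := k2 u
    have b9 := k2 v
    obtain ⟨u', c1⟩ := k1 u
    obtain ⟨v', c2⟩ := k1 v
    simp only [map_add, map_smul, smul_eq_mul, h.map c b, h.map d b] at b5 b6 b7
    generalize B (j c) (g.1 (j u)) = A at *
    generalize B (j d) (g.1 (j u)) = C at *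
    generalize B (j c) (g.1 (j v)) = A' at *
    generalize B (j d) (g.1 (j v)) = C' at *
    have c3 := congrArg σ b5
    have c4 := congrArg σ b6
    simp only [map_add, map_mul, h.skew, h.toBO.conj] at c3 c4
    have c5 : A * σ C' = σ A' * C := mul_left_cancel₀ (mul_ne_zero h.two a0) (by
      linear_combination a * b7 + (1 - a) * b8 - (a + a ^ 2) * b9 + (σ C - a * σ C') * b5 -
        (σ A - a * σ A') * b6 + a * algebraMap K F (polar Q c b) * c4 - a * algebraMap K F (polar Q d b) * c3)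
    have c6 : A * C' = A' * C := by
      by_cases k : C' = 0
      · rw [k, map_zero, mul_zero, eq_comm, mul_eq_zero, D.σ_eq_zero] at c5
        rw [k, mul_zero, eq_comm, mul_eq_zero]; exact c5
      · exact mul_left_cancel₀ (D.σ_ne_zero k) (by linear_combination C' * c5 - C * b9)
    have c7 : (g⁻¹).1 (j b) = (2 : F)⁻¹ • (j u' + a • j v') := UG_inv_apply_eq (by
      have := h.two
      rw [map_smul, map_add, map_smul, c1, c2, o.eq_add h.nd h.dim h2 b1 b2]
      simp only [map_add, j_smul F, map_div₀, map_mul, map_ofNat]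
      match_scalars <;> field_simp
      · linear_combination -b5
      · linear_combination -b6)
    have c8 : ∀ l : F, A = l * A' → C = l * C' → RP F j ((g⁻¹).1 (j b)) := fun l e1 e2 =>
      RP.of_eq_smul (l := 2⁻¹ * (l + a)) (y := v') (by
        rw [c7, show j u' = l • j v' from g.1.injective (by rw [map_smul, c1, c2, e1, e2]; module)]
        module)
    by_cases k : A' = 0
    · by_cases k' : C' = 0
      · exact RP.of_eq_smul (l := 2⁻¹) (y := u') (by
          rw [c7, show j v' = 0 from g.1.injective (by simp [c2, k, k']), smul_zero, add_zero])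
      · exact c8 (C / C') (by field_simp; linear_combination c6) (by field_simp)
    · exact c8 (A / A') (by field_simp) (by field_simp; linear_combination -c6)
  obtain ⟨ζ, z0, c', z1⟩ := k3 c o.xc o.yc
  refine ⟨ζ, z0, fun b b1 b2 => ?_⟩
  obtain ⟨b', z2⟩ := exists_eq_of_RP h.bc z0 z1 (by rintro rfl; simpa using o.qc) (k3 b b1 b2)
    (k3 _ (by simp [b1, o.xc]) (by simp [b2, o.yc]))
  exact ⟨b', by simp [← z2]⟩

omit hq he e0 h1 in
theorem aniso (o : OF Q x y c d) (H : ¬ RT j g.1) {ζ : F} (z0 : ζ ≠ 0) (hζ : ∀ b, polar Q x b = 0 →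
    polar Q y b = 0 → ∃ b', g.1 (j b') = ζ • j b) (s t : K) (k : s ^ 2 * Q c + t ^ 2 * Q d = 0) :
    s = 0 ∧ t = 0 := by
  obtain ⟨b', b1⟩ := hζ (s • c + t • d) (by simp [o.xc, o.xd]) (by simp [o.yc, o.yd])
  obtain ⟨n, -, -, -, b2⟩ := h.toBO.exists_norm (g := g) z0
  have b3 : s • c + t • d = 0 := by
    by_contra b3
    refine H (h.RT_of_map (by rw [b2 b1]; simp [Q_add, Q_smul, o.cd, k]) ?_ hg b1)
    rintro rfl
    exact smul_ne_zero z0 (bc_ne_zero h.bc b3) (by simpa using b1.symm)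
  exact ⟨by simpa [o.cd, o.qc, h.toBO.two'] using congrArg (polar Q c) b3,
    by simpa [o.cd, o.qd, h.toBO.two', polar_comm Q d c] using congrArg (polar Q d) b3⟩

theorem isSquare : IsSquare (dsc Q x y) := by
  have : Finite K := Finite.of_injective _ (algebraMap K F).injective
  by_contra H
  have a1 : dsc Q x y ≠ 0 := fun k => H (by simp [k])
  have a2 : ¬ RT j g.1 := fun ⟨ζ, z0, k⟩ => a1 (h.toBO.dsc_eq_zero ⟨ζ, z0, h1 ▸ k e⟩)
  obtain ⟨c, d, o⟩ := exists_OF h.nd h.dim h.toBO.two' a1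
  obtain ⟨ζ, z0, hζ⟩ := h.exists_scalar hq he e0 hg h1 o
  have a3 := h.aniso hg o a2 z0 hζ
  obtain ⟨n, n0, -, b1, b2⟩ := h.toBO.exists_norm (g := g) z0
  obtain ⟨c', c1⟩ := hζ c o.xc o.yc
  obtain ⟨d', d1⟩ := hζ d o.xd o.yd
  obtain ⟨κ, hκ, -⟩ := h.toBO.exists_sq
  have a4 := h.toBO.iso_rel hκ (by rw [← h1, UG_map, h.toBO.self he])
  have a5 : ∀ {b b'}, polar Q x b = 0 → polar Q y b = 0 → g.1 (j b') = ζ • j b → polar Q e b' = 0 :=
    fun {b b'} k1 k2 k3 => by
      simpa [h1, k3, h.map, k1, k2, h.ne] using (UG_map g (j e) (j b')).symm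
  exact H (o.isSquare h.toBO.two' (fun k => by simp [a4, k]) a3 (e := e) fun z =>
    mem_span_of_aniso h.nd h.dim h.toBO.two' he e0 (a5 o.xc o.yc c1) (a5 o.xd o.yd d1)
      (by simp [b1 c1 d1, o.cd]) fun s t k => a3 s t (mul_left_cancel₀ n0 (by
        rw [b2 c1, b2 d1] at k; linear_combination k)))

omit h1 in
theorem false_of_HP {r r' : U} (hr : HP Q r r') {α γ ζ : F} (h1 : g.1 (j e) = α • j r + γ • j r')
    (z0 : ζ ≠ 0) (hζ : ∀ k : K, ∃ b b', polar Q r b = 0 ∧ polar Q r' b = 0 ∧ Q b = k ∧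
      g.1 (j b') = ζ • j b) (a1 : α ≠ 0) (a2 : σ ζ * γ ∉ (algebraMap K F).range) : False := by
  have : Finite K := Finite.of_injective _ (algebraMap K F).injective
  have D := h.sd
  have a0 := h.ne
  have h2 := h.toBO.two'
  obtain ⟨κ, hκ, k0⟩ := h.toBO.exists_sq
  obtain ⟨n, -, n1, -, n2⟩ := h.toBO.exists_norm (g := g) z0
  obtain ⟨p, q, b1⟩ := h.toBO.exists_add_mul h.toBO.notMem (σ ζ * γ)
  have q0 : q ≠ 0 := by rintro rfl; exact a2 ⟨p, by simp [b1]⟩
  have b2 : ζ * σ γ = algebraMap K F p - algebraMap K F q * a := by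
    simpa [D.invol, h.toBO.conj, h.skew, sub_eq_add_neg] using congrArg σ b1
  have b3 : σ α * γ + σ γ * α = 0 := mul_left_cancel₀ a0 (by
    have := UG_map g (j e) (j e)
    simp [h1, h.map, hr.uv, hr.vu, hr.Qu, hr.Qv, he] at this
    linear_combination this)
  obtain ⟨s, hs⟩ := (h.fix (σ ζ * ζ * (σ γ * α) / a)).mp (by
    simp only [map_div₀, map_mul, D.invol, h.skew]; field_simp; linear_combination -σ ζ * b3)
  have g0 : γ ≠ 0 := by rintro rfl; exact a2 (by simp)
  have s0 : s ≠ 0 := by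
    rintro rfl
    exact div_ne_zero (mul_ne_zero (mul_ne_zero (D.σ_ne_zero z0) z0) (mul_ne_zero (D.σ_ne_zero g0) a1)) a0
      (by simpa using hs.symm)
  have N0 : p ^ 2 - κ * q ^ 2 ≠ 0 := fun k => k0 ⟨p / q, by field_simp; linear_combination -k⟩
  obtain ⟨u, u1, u2⟩ := exists_not_isSquare_sub h2 (δ := κ * (2 * q ^ 2) ^ 2) (fun ⟨ρ, k⟩ =>
    k0 ⟨ρ / (2 * q ^ 2), by field_simp; linear_combination k⟩) (-(2 * p * q))
  obtain ⟨k, k1, rfl⟩ : ∃ k, k ≠ 0 ∧ u = k * (p ^ 2 - κ * q ^ 2) * s - 2 * p * q :=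
    ⟨(u + 2 * p * q) / ((p ^ 2 - κ * q ^ 2) * s), div_ne_zero (fun k => u1 (by linear_combination k))
      (mul_ne_zero N0 s0), by rw [mul_assoc, div_mul_cancel₀ _ (mul_ne_zero N0 s0)]; ring⟩
  obtain ⟨b, b', c1, c2, rfl, c3⟩ := hζ k
  have c4 : polar Q e b' = 0 := by
    simpa [h1, c3, h.map, c1, c2, h.ne] using (UG_map g (j e) (j b')).symm
  obtain ⟨ρ, c5⟩ := h.isSquare hq hr.Qu hr.ne_left (mul_mem (mul_mem hg (h.sg he c4)) (inv_mem hg))
    (x := r - p • b - (Q b * (p ^ 2 - κ * q ^ 2)) • r') (y := q • b - (Q b * s) • r) (by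
      rw [sgB, conj_rho D, rho_apply D ((adm_conj g).mpr (h.toBO.adm he c4)), map_smul, c3, h1, n2 c3]
      simp only [map_add, LinearMap.add_apply, LinearMap.map_smulₛₗ, LinearMap.smul_apply, h.map, hr.uu,
        hr.vu, polar_comm Q b, c1, map_sub, j_smul F, map_mul, map_pow, n1, hs, hκ, map_zero, map_one,
        smul_eq_mul]
      match_scalars <;> field_simp
      · ring
      · linear_combination -b2
      · linear_combination -algebraMap K F (Q b) * (σ ζ * γ * b2 + (algebraMap K F p - algebraMap K F q * a) * b1))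
  refine u2 ⟨ρ / Q b, ?_⟩
  simp [dsc, Q_sub, Q_smul, hr.uv, hr.vu, hr.Qu, hr.Qv, c1, c2, polar_comm Q b] at c5
  field_simp
  linear_combination c5

omit he e0 h1 in
theorem RT_of_mem : RT j g.1 := by
  have : Finite K := Finite.of_injective _ (algebraMap K F).injective
  have h2 := h.toBO.two'
  by_contra H
  obtain ⟨e, e0, he⟩ := exists_singular Q (by rw [h.dim]; omega)
  obtain ⟨x, y, h1⟩ := h.toBO.exists_add (g.1 (j e))
  have a1 : ¬ RP F j (g.1 (j e)) := fun ⟨ζ, z0, z, k⟩ =>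
    H (h.RT_of_map he e0 hg (l := ζ⁻¹) (by rw [← k, inv_smul_smul₀ z0]))
  obtain ⟨κ, hκ, k0⟩ := h.toBO.exists_sq
  have a2 := h.toBO.iso_rel hκ (by rw [← h1, UG_map, h.toBO.self he])
  have a3 : dsc Q x y ≠ 0 := fun k => by
    have b1 : Q y = 0 := by
      by_contra b1
      exact k0 ⟨polar Q x y / (2 * Q y), by
        rw [dsc, a2] at k; field_simp; linear_combination -k⟩
    exact a1 (h1 ▸ h.RP_of_ts hq he e0 hg h1 (by simp [a2, b1]) b1 (by simpa [dsc, b1] using k))
  obtain ⟨r, r', hr, s, t, s', t', b1, b2⟩ := exists_HP_of_dsc h2 a3 (h.isSquare hq he e0 hg h1)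
    fun k => by simp [a2, k]
  obtain ⟨c, d, o⟩ := exists_OF h.nd h.dim h2 a3
  obtain ⟨ζ, z0, hζ⟩ := h.exists_scalar hq he e0 hg h1 o
  have a4 : ∀ k : K, ∃ b b', polar Q r b = 0 ∧ polar Q r' b = 0 ∧ Q b = k ∧ g.1 (j b') = ζ • j b :=
    fun k => by
      obtain ⟨u, v, c1⟩ := exists_mul_sq_add_mul_sq_eq o.qc o.qd k
      have c2 : polar Q x (u • c + v • d) = 0 := by simp [o.xc, o.xd]
      have c3 : polar Q y (u • c + v • d) = 0 := by simp [o.yc, o.yd]
      obtain ⟨b', c4⟩ := hζ _ c2 c3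
      have c5 : s * t' - t * s' ≠ 0 := fun k => a3 (by
        simp [dsc, b1, b2, Q_add, Q_smul, hr.uv, hr.vu, hr.Qu, hr.Qv]
        linear_combination (s * t' - t * s') * k)
      refine ⟨_, b', ?_, ?_, by simp [Q_add, Q_smul, o.cd]; linear_combination c1, c4⟩ <;>
        rw [b1] at c2 <;> rw [b2] at c3 <;> generalize u • c + v • d = b at c2 c3 ⊢ <;>
        simp only [polar_add_left, polar_smul_left, smul_eq_mul] at c2 c3 <;>
        refine mul_left_cancel₀ c5 ?_
      · linear_combination t' * c2 - t * c3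
      · linear_combination s * c3 - s' * c2
  obtain ⟨α, γ, h3⟩ : ∃ α γ : F, g.1 (j e) = α • j r + γ • j r' :=
    ⟨algebraMap K F s + a * algebraMap K F s', algebraMap K F t + a * algebraMap K F t', by
      rw [h1, b1, b2]; simp only [map_add, j_smul F]; module⟩
  have a5 : α ≠ 0 := by rintro rfl; exact a1 (RP.of_eq_smul (by simpa using h3))
  have a6 : γ ≠ 0 := by rintro rfl; exact a1 (RP.of_eq_smul (by simpa using h3))
  by_cases a7 : σ ζ * γ ∈ (algebraMap K F).range
  · refine h.false_of_HP hq he e0 hg hr.symm (h3.trans (add_comm _ _)) z0 (fun k => ?_) a6 fun a8 => ?_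
    · obtain ⟨b, b', c1, c2, c3⟩ := a4 k
      exact ⟨b, b', c2, c1, c3⟩
    · obtain ⟨u, a7⟩ := a7
      obtain ⟨v, a8⟩ := a8
      exact a1 ⟨_, h.sd.σ_ne_zero z0, v • r + u • r', by
        rw [h3, map_add, j_smul F, j_smul F, a7, a8]; module⟩
  · exact h.false_of_HP hq he e0 hg hr h3 z0 a4 a5 a7

end O4

open Cfsg.Geo Matrix in
theorem max_su4_subfield_orth {F : Type*} [Field F] [Fintype F] {K : Subfield F} {q : ℕ}
    (hF : Fintype.card F = q ^ 2) (hq : Odd q) (h5 : 4 ≤ q) (h : Fintype.card F = Nat.card K ^ 2)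
    {P : GL (Fin 4) F} (hP : IsFormRationalStructure (hermForm 4 F q) K 1 P) :
    IsMaximalIn (GU 4 F q ⊓ specialLinear (Fin 4) F)
      (subfieldSubgroup K P ⊓ (GU 4 F q ⊓ specialLinear (Fin 4) F)) := by
  obtain ⟨a, hf⟩ := exists_tvF_su hF (n := 4) (by omega)
  have h1 : Nat.card K = q := Nat.pow_left_injective two_ne_zero (h.symm.trans hF)
  have h2 : ∀ c : K, frobq hF c = c := fun c => by
    have := Fintype.ofFinite K
    rw [frobq_apply, ← h1, Nat.card_eq_fintype_card, ← SubmonoidClass.coe_pow, FiniteField.pow_card]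
  obtain ⟨Q, hQ⟩ := exists_BO (sd_tB hf) (bc_jP K P) (fun c => ⟨fun hc => by
      by_contra h3
      have := eq_top_of_finrank_prime (by rw [finrank_of_card_eq_pow h]; exact Nat.prime_two)
        (S := (frobq hF).eqLocus (RingHom.id F)) h2 hc h3
      exact frobq_ne_id hF (RingHom.ext fun x => (this ▸ Subring.mem_top x :
        x ∈ (frobq hF).eqLocus (RingHom.id F))), by rintro ⟨c, rfl⟩; exact h2 c⟩)
    (by linear_combination hf.tr0) hf.ne (H18.two_ne_zero_iff_odd.mpr (hF ▸ hq.pow))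
    fun x y => ⟨⟨_, hP _ _ (fun i => (y i).2) fun i => (x i).2⟩, by
      rw [tB_apply, jP_apply, jP_apply]; exact congrArg _ (one_mul _).symm⟩
  refine isMaximalIn_iso hf _ (fun _ => mem_subfield_iff) ((has_SU hf).not_le_subfield (by simp)
    (H18.ne_top_of_card_eq_pow Nat.prime_two h) P) fun M hM hS g hg hg' => ?_
  by_contra H
  exact hg' (O4.RT_of_mem ⟨hQ, hM, hS, H, by simp⟩ (by rwa [q0_frobq]) hg)

end Cfsg.Agent.H12
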