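import Mathlib
import Cfsg.Agent.H12.CfC
import Cfsg.Agent.H12.UfA

/-!
Linear algebra over a field extension of prime degree.
-/

set_option autoImplicit false

namespace Cfsg.Agent.H12

open Module

open MvPolynomial in
theorem exists_zero_of_biadd {K : Type*} [Field K] [Finite K] (f : K →+ K →+ K) (Z : AddSubgroup K)
    (hf : ∀ x, f x x ∈ Z) (h : Nat.card Z ^ 2 < Nat.card K) : ∃ x, x ≠ 0 ∧ f x x = 0 := by
  classical
  have := Fintype.ofFinite K
  obtain ⟨p, hp⟩ := CharP.exists K
  haveI : Fact p.Prime := ⟨CharP.char_is_prime K p⟩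
  letI := ZMod.algebra K p
  let Z' := AddSubgroup.toZModSubmodule p Z
  obtain ⟨π, hπ⟩ := LinearMap.exists_leftInverse_of_injective Z'.subtype Z'.ker_subtype
  let b := finBasis (ZMod p) K
  let c := finBasis (ZMod p) Z'
  let P : Fin (finrank (ZMod p) Z') → MvPolynomial (Fin (finrank (ZMod p) K)) (ZMod p) :=
    fun k => ∑ i, ∑ j, C (c.repr (π (f (b i) (b j))) k) * (X i * X j)
  have hP : ∀ k, (P k).totalDegree ≤ 2 := fun k =>
    totalDegree_finsetSum_le fun i _ => totalDegree_finsetSum_le fun j _ =>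
      (totalDegree_mul _ _).trans (by
        rw [totalDegree_C, zero_add]
        exact (totalDegree_mul _ _).trans (by rw [totalDegree_X, totalDegree_X]))
  have he : ∀ x k, eval x (P k) = c.repr (π (f (b.equivFun.symm x) (b.equivFun.symm x))) k := fun x k => by
    have e1 : ∀ (a : ZMod p) (u v : K), f (a • u) v = a • f u v := fun a u v => ZMod.map_smul (f.flip v) a u
    rw [Basis.equivFun_symm_apply, map_sum f, AddMonoidHom.finsetSum_apply]
    simp only [e1]
    simp only [P, map_sum, map_mul, eval_C, eval_X, ZMod.map_smul, map_smul, Finsupp.coe_finsetSum,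
      Finset.sum_apply, Finsupp.smul_apply, smul_eq_mul, Finset.mul_sum]
    exact Finset.sum_congr rfl fun i _ => Finset.sum_congr rfl fun j _ => by ring
  have h1 : ∑ k, (P k).totalDegree < Fintype.card (Fin (finrank (ZMod p) K)) := by
    refine (Finset.sum_le_card_nsmul _ _ 2 fun k _ => hP k).trans_lt ?_
    rw [natCard_eq_pow_finrank (K := ZMod p) (V := K), show Nat.card Z = Nat.card Z' from rfl,
      natCard_eq_pow_finrank (K := ZMod p) (V := Z'), Nat.card_zmod, ← pow_mul] at h
    rw [Finset.card_univ, Fintype.card_fin, Fintype.card_fin, smul_eq_mul]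
    exact (Nat.pow_lt_pow_iff_right (Fact.out : p.Prime).one_lt).1 h
  have h2 : p ∣ Nat.card {x : _ → ZMod p // ∀ k, eval x (P k) = 0} := by
    convert char_dvd_card_solutions_of_fintype_sum_lt p h1 using 1
    convert Nat.card_eq_fintype_card
  by_contra! H
  rw [(Nat.card_eq_one_iff_exists).mpr ⟨⟨0, fun k => by rw [he]; simp⟩,
    fun x => Subtype.ext (by_contra fun e => H (b.equivFun.symm x.1) (b.equivFun.symm.map_ne_zero_iff.mpr e) ?_)⟩] at h2
  · exact (Fact.out : p.Prime).not_dvd_one h2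
  have h3 := LinearMap.congr_fun hπ ⟨_, hf (b.equivFun.symm x.1)⟩
  have h4 : π (f (b.equivFun.symm x.1) (b.equivFun.symm x.1)) = 0 :=
    c.repr.injective (by ext k; simpa [he] using x.2 k)
  exact congrArg Subtype.val (h3.symm.trans h4)

theorem exists_mem_inter {K : Type*} [AddCommGroup K] [Finite K] {A C : AddSubgroup K}
    (h : Nat.card K < Nat.card A * Nat.card C) : ∃ x ∈ A, x ∈ C ∧ x ≠ 0 := by
  by_contra! H
  refine h.not_ge ?_
  rw [← Nat.card_prod]
  refine Nat.card_le_card_of_injective (A.subtype.coprod C.subtype) ((injective_iff_map_eq_zero _).mpr ?_)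
  rintro ⟨a, c⟩ e
  have e1 : (a : K) = -c := eq_neg_of_add_eq_zero_left e
  have e2 := H a a.2 (e1 ▸ neg_mem c.2)
  exact Prod.ext (Subtype.ext e2) (Subtype.ext (neg_eq_zero.mp (e1.symm.trans e2)))

variable {F K : Type*} [Field F] [Field K] [Algebra F K] (hr : (finrank F K).Prime)

section prime
include hr

theorem lin_of_comm {α : End F K} {z : K} (hz : z ∉ (algebraMap F K).range) (h : ∀ x, α (z * x) = z * α x)
    (x : K) : α x = x * α 1 := by
  let S : Subring K :=
    { carrier := {c | ∀ x, α (c * x) = c * α x}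
      mul_mem' := fun ha hb x => by rw [mul_assoc, ha, hb, mul_assoc]
      one_mem' := fun x => by simp
      add_mem' := fun ha hb x => by rw [add_mul, map_add, ha, hb, add_mul]
      zero_mem' := fun x => by simp
      neg_mem' := fun ha x => by rw [neg_mul, map_neg, ha, neg_mul] }
  simpa using (eq_top_of_finrank_prime hr (S := S) (fun c x => by simp [← Algebra.smul_def]) h hz).ge
    (Subring.mem_top x) 1

theorem subalg_eq_top [Finite K] {A : Subalgebra F (End F K)} (h : ∀ k, Algebra.lmul F K k ∈ A) {α : End F K}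
    (hα : α ∈ A) (h' : ¬ ∀ x, α x = x * α 1) : A = ⊤ := by
  classical
  have := Fintype.ofFinite K
  have e : ∀ (a : A) (x : K), a • x = a.1 x := fun _ _ => rfl
  haveI : IsSimpleModule A K := isSimpleModule_iff_toSpanSingleton_surjective.mpr ⟨inferInstance,
    fun x hx y => ⟨⟨_, h (y / x)⟩, by simp [e, hx]⟩⟩
  refine eq_top_iff.mpr fun θ _ => ?_
  obtain ⟨a, ha⟩ := jacobson_density (R := A) (M := K) ⟨θ.toAddHom, fun φ x => by
    have b1 : ∀ x, φ x = x * φ 1 := fun x => by simpa [e] using φ.map_smul ⟨_, h x⟩ 1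
    obtain ⟨c, hc⟩ : φ 1 ∈ (algebraMap F K).range := by_contra fun H => h' (lin_of_comm hr H fun x => by
      simpa [e, b1 x, b1 (α x), mul_comm] using (φ.map_smul ⟨α, hα⟩ x).symm)
    simp [b1 x, b1 (θ x), ← hc, mul_comm _ (algebraMap F K c), ← Algebra.smul_def]⟩ Finset.univ
  exact (LinearMap.ext fun x => ha x (Finset.mem_univ x) : θ = a) ▸ a.2

theorem eq_one_of_sq (h3 : 3 ≤ finrank F K) {A : End F K} (h : ∀ x, A (A x - x) = A x - x)
    (H : ∀ a, ∃ b, ∀ x, A (a * x) = b * A x) (x : K) : A x = x := by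
  haveI : FiniteDimensional F K := Module.finite_of_finrank_pos (by omega)
  have a1 := (A - 1).finrank_range_add_finrank_ker
  have a2 : finrank F (A - 1).range ≤ finrank F (A - 1).ker := Submodule.finrank_mono (by
    rintro _ ⟨x, rfl⟩; simpa [sub_eq_zero] using h x)
  obtain ⟨a₀, b1⟩ := exists_notMem_span (V := (A - 1).ker) (K := F) (by omega) 0
  obtain ⟨a₁, b2⟩ := exists_notMem_span (V := (A - 1).ker) (K := F) (by omega) a₀
  have c0 : (a₀ : K) ≠ 0 := by simpa using b1
  have c1 : A a₀ = a₀ := sub_eq_zero.mp a₀.2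
  have c2 : A a₁ = a₁ := sub_eq_zero.mp a₁.2
  obtain ⟨b, hb⟩ := H (a₁ / a₀)
  have c3 := hb a₀
  rw [div_mul_cancel₀ _ c0, c1, c2, eq_comm, ← eq_div_iff c0] at c3
  have c4 := lin_of_comm hr (α := A) (z := a₁ / a₀) (fun ⟨c, hc⟩ => b2 (Submodule.mem_span_singleton.mpr
    ⟨c, Subtype.ext (by simp [Algebra.smul_def, hc, c0])⟩)) (c3 ▸ hb)
  rw [c4, mul_left_cancel₀ c0 ((c4 a₀).symm.trans (c1.trans (mul_one _).symm)), mul_one]

end prime

variable {σ : F →+* F} {τ : K →+* K} (hσ : σ ≠ RingHom.id F) (hτ : ∀ a, τ (τ a) = a)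
  (hc : ∀ c, τ (algebraMap F K c) = algebraMap F K (σ c))
include hσ hτ hc

theorem fix_induction {p : K → Prop} (h1 : ∀ (c : F) x, τ x = x → p (c • x)) (h2 : ∀ x y, p x → p y → p (x + y))
    (x : K) : p x := by
  obtain ⟨o, ho⟩ := DFunLike.ne_iff.mp hσ
  have a1 : algebraMap F K o - algebraMap F K (σ o) ≠ 0 := by
    rw [← map_sub, map_ne_zero, sub_ne_zero]; exact Ne.symm ho
  have a0 : algebraMap F K (σ (σ o)) = algebraMap F K o := by rw [← hc, ← hc, hτ]
  have a2 : τ ((x - τ x) / (algebraMap F K o - algebraMap F K (σ o))) =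
      (x - τ x) / (algebraMap F K o - algebraMap F K (σ o)) := by
    rw [map_div₀, map_sub, map_sub, hτ, hc, hc, a0, ← neg_div_neg_eq, neg_sub, neg_sub]
  simpa using h2 _ _ (h1 1 (x - o • ((x - τ x) / (algebraMap F K o - algebraMap F K (σ o)))) (by
    rw [Algebra.smul_def, map_sub, map_mul, a2, hc]; field_simp; ring)) (h1 o _ a2)

theorem alt_of_fix {X : Type*} [AddCommGroup X] [Module F X] {Ψ : K →ₗ[F] K →ₗ[F] X}
    (h : ∀ c, τ c = c → Ψ c c = 0) (x : K) : Ψ x x = 0 := by
  have a1 : ∀ x y, Ψ x y + Ψ y x = 0 := fun x y =>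
    fix_induction hσ hτ hc (p := fun x => Ψ x y + Ψ y x = 0) (fun c x hx => fix_induction hσ hτ hc
      (p := fun y => Ψ (c • x) y + Ψ y (c • x) = 0) (fun d y hy => by
        have := h (x + y) (by simp [hx, hy])
        simp only [map_add, LinearMap.add_apply, h x hx, h y hy, map_smul, LinearMap.smul_apply] at this ⊢
        linear_combination (norm := module) (c * d) • this)
      (fun _ _ a b => by simp only [map_add, LinearMap.add_apply]; linear_combination (norm := module) a + b) y)
      (fun _ _ a b => by simp only [map_add, LinearMap.add_apply]; linear_combination (norm := module) a + b) x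
  refine fix_induction hσ hτ hc (p := fun x => Ψ x x = 0) (fun c x hx => by simp [h x hx]) (fun x y a b => ?_) x
  simp only [map_add, LinearMap.add_apply]
  linear_combination (norm := module) a + b + a1 x y

include hr in
theorem bilin_eq_zero [Finite K] {X : Type*} [AddCommGroup X] [Module F X] {Ψ : K →ₗ[F] K →ₗ[F] X} {a : K}
    (ha : a ≠ 0) (ha' : a / τ a ∉ (algebraMap F K).range) (h : ∀ c, τ c = c → Ψ c c = 0)
    (h' : ∀ c, τ c = c → Ψ (c * a) (c * τ a) = 0) (x y : K) : Ψ x y = 0 := by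
  have a0 : τ a ≠ 0 := by simpa
  have a1 := alt_of_fix hσ hτ hc h
  have a2 := alt_of_fix hσ hτ hc (Ψ := Ψ.compl₁₂ (LinearMap.mulRight F a) (LinearMap.mulRight F (τ a))) h'
  have a3 : ∀ y, Ψ (a / τ a * y) y = 0 := fun y => by
    convert a2 (y / τ a) using 1
    simp only [LinearMap.compl₁₂_apply, LinearMap.mulRight_apply]
    congr 2 <;> field_simp
  have a4 : ∀ x y, Ψ x y = -Ψ y x := fun x y => by
    have := a1 (x + y)
    simp only [map_add, LinearMap.add_apply, a1 x, a1 y] at this
    linear_combination (norm := module) this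
  let S : Subring K :=
    { carrier := {c | ∀ x y, Ψ (c * x) y = Ψ x (c * y)}
      mul_mem' := fun {a b} ha hb x y => by rw [mul_assoc, ha, hb, mul_left_comm, mul_assoc]
      one_mem' := fun x => by simp
      add_mem' := fun ha hb x y => by simp [add_mul, ha x y, hb x y]
      zero_mem' := fun x => by simp
      neg_mem' := fun ha x y => by simp [ha x y] }
  have a5 := (eq_top_of_finrank_prime hr (S := S) (fun c x => by simp [← Algebra.smul_def]) (fun x y => by
    have := a3 (x + y)
    simp only [mul_add, map_add, LinearMap.add_apply, a3 x, a3 y, a4 (a / τ a * y) x] at this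
    linear_combination (norm := module) this) ha').ge
  have a6 : ∀ x y, Ψ x y = Ψ 1 (x * y) := fun x y => by simpa using a5 (Subring.mem_top x) 1 y
  rw [a6]
  exact AddSubgroup.eq_top_of_sq (S := (Ψ 1).toAddMonoidHom.ker) one_ne_zero (fun a => by
    simpa [a6 a] using a1 a) _

omit hσ in
theorem norm_conj (x : K) : Algebra.norm F (τ x) = σ (Algebra.norm F x) := by
  have h2 : ∀ a, σ (σ a) = a := fun a => (algebraMap F K).injective (by rw [← hc, ← hc, hτ])
  have := Algebra.norm_eq_of_equiv_equiv (RingEquiv.ofBijective σ (Function.Involutive.bijective h2))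
    (RingEquiv.ofBijective τ (Function.Involutive.bijective hτ)) (RingHom.ext fun c => (hc c).symm) x
  rw [this]; exact ((RingEquiv.ofBijective σ _).apply_symm_apply _).symm

theorem conj_ne_id : τ ≠ RingHom.id K := fun e => hσ (RingHom.ext fun c => (algebraMap F K).injective (by
  rw [← hc, e]; rfl))

variable [Finite K]

theorem q0_eq_pow : q0 τ = q0 σ ^ finrank F K := by
  haveI : Finite F := Finite.of_injective _ (algebraMap F K).injective
  have h2 : ∀ a, σ (σ a) = a := fun a => (algebraMap F K).injective (by rw [← hc, ← hc, hτ])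
  refine Nat.pow_left_injective two_ne_zero ?_
  simp only
  rw [← card_eq_q0_sq (conj_ne_id hσ hτ hc) hτ, natCard_eq_pow_finrank (K := F), card_eq_q0_sq hσ h2,
    ← pow_mul, ← pow_mul, mul_comm]

theorem exists_mu_norm (h : (q0 σ + 1) * finrank F K ≤ q0 σ ^ finrank F K) :
    ∃ μ : K, τ μ * μ = 1 ∧ Algebra.norm F μ = 1 ∧ μ ∉ (algebraMap F K).range := by
  haveI : Finite F := Finite.of_injective _ (algebraMap F K).injective
  haveI := Module.Finite.of_finite (R := F) (M := K)
  have h2 : ∀ a, σ (σ a) = a := fun a => (algebraMap F K).injective (by rw [← hc, ← hc, hτ])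
  obtain ⟨ν, a1, a2⟩ := exists_mu_pow (conj_ne_id hσ hτ hc) hτ (n := (q0 σ + 1) * finrank F K)
    (Nat.mul_pos (by omega) finrank_pos) (q0_eq_pow hσ hτ hc ▸ h)
  have a3 : σ (Algebra.norm F ν) * Algebra.norm F ν = 1 := by rw [← norm_conj hτ hc, ← map_mul, a1, map_one]
  have a4 : Algebra.norm F (ν ^ (q0 σ + 1)) = 1 := by
    have := pow_card_eq_one' (G := N1 σ) (x := ⟨Units.mk0 _ (right_ne_zero_of_mul_eq_one a3), a3⟩)
    rw [card_N1 hσ h2] at this
    simpa using congrArg (fun x : N1 σ => ((x : Fˣ) : F)) this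
  refine ⟨_, by rw [map_pow, ← mul_pow, a1, one_pow], a4, fun ⟨c, e⟩ => a2 ?_⟩
  rw [← e, Algebra.norm_algebraMap] at a4
  rw [pow_mul, ← e, ← map_pow, a4, map_one]

theorem exists_mu_notMem (h : 2 ≤ finrank F K) : ∃ μ : K, τ μ * μ = 1 ∧ μ ∉ (algebraMap F K).range := by
  haveI : Finite F := Finite.of_injective _ (algebraMap F K).injective
  have h2 : ∀ a, σ (σ a) = a := fun a => (algebraMap F K).injective (by rw [← hc, ← hc, hτ])
  have := two_le_q0 (σ := σ)
  obtain ⟨ν, a1, a2⟩ := exists_mu_pow (conj_ne_id hσ hτ hc) hτ (n := q0 σ + 1) (by omega) (by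
    rw [q0_eq_pow hσ hτ hc]; nlinarith [Nat.pow_le_pow_right (by omega : 0 < q0 σ) h])
  refine ⟨ν, a1, fun ⟨c, e⟩ => a2 ?_⟩
  have a3 : σ c * c = 1 := (algebraMap F K).injective (by rw [map_mul, ← hc, e, a1, map_one])
  have := pow_card_eq_one' (G := N1 σ) (x := ⟨Units.mk0 _ (right_ne_zero_of_mul_eq_one a3), a3⟩)
  rw [card_N1 hσ h2] at this
  rw [← e, ← map_pow, show c ^ (q0 σ + 1) = 1 by simpa using congrArg (fun x : N1 σ => ((x : Fˣ) : F)) this, map_one]

end Cfsg.Agent.H12
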