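import Mathlib
import Cfsg.Agent.H12.UcA
import Cfsg.Agent.H12.UtA

/-!
Overgroups of unitary groups over extension fields in unitary groups.
-/

set_option autoImplicit false

namespace Cfsg.Agent.H12

open Module

variable {F V : Type*} [Field F] [AddCommGroup V] [Module F V] {σ : F →+* F}
  {B : V →ₛₗ[σ] V →ₗ[F] F} {M : Subgroup (UG B)}
  {K : Type*} [Field K] [Algebra F K] [Module K V] [IsScalarTower F K V] {τ : K →+* K}
  {β : V →ₛₗ[τ] V →ₗ[K] K} {l : Dual F K} {w : V}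

theorem AddSubgroup.fix_of_sq [Finite F] {S : AddSubgroup F} (h : ∀ a, σ a = a → a * a ∈ S) {x : F}
    (hx : σ x = x) : x ∈ S :=
  AddSubgroup.eq_top_of_sq (F := σ.eqLocusField (RingHom.id F))
    (S := S.comap (σ.eqLocusField (RingHom.id F)).subtype.toAddMonoidHom) one_ne_zero
    (fun a => by simpa using h a a.2) ⟨x, hx⟩

/-- The group `M` contains all isometries with commutator in the line of `w` over the large field. -/
def PFc (M : Subgroup (UG B)) (β : V →ₛₗ[τ] V →ₗ[K] K) (w : V) : Prop :=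
  ∀ (k : UG B) (θ : End F K), (∀ v, k.1 v = v + θ (β w v) • w) → k ∈ M

/-- The endomorphisms that give elements of `M` with commutator in the line of `w`. -/
def JFc (M : Subgroup (UG B)) (hw : β w w = 0) : AddSubgroup (End F K) where
  carrier := {θ | ∃ k ∈ M, ∀ v, k.1 v = v + θ (β w v) • w}
  add_mem' := fun ⟨k, a1, a2⟩ ⟨k', a3, a4⟩ => ⟨k * k', mul_mem a1 a3, fun v => by
    simp [a2, a4, hw, add_smul]; abel⟩
  zero_mem' := ⟨1, one_mem _, by simp⟩
  neg_mem' := fun ⟨k, a1, a2⟩ => ⟨k⁻¹, inv_mem a1, fun v => UG_inv_apply_eq (by simp [a2, hw])⟩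

theorem PFc.smul (H : PFc M β w) (a : K) : PFc M β (a • w) := fun k θ hk =>
  H k (LinearMap.mulRight F a * θ * LinearMap.mulLeft F (τ a)) fun v => by simp [hk, mul_smul]

theorem jf_conj (hw : β w w = 0) {θ A A' : End F K} (H : θ ∈ JFc M hw) {t : UG B} (ht : t ∈ M)
    (h1 : ∀ a : K, t.1 (a • w) = A a • w) (h2 : ∀ v, β w ((t⁻¹).1 v) = A' (β w v)) : A * θ * A' ∈ JFc M hw := by
  obtain ⟨k, a1, a2⟩ := H
  exact ⟨t * k * t⁻¹, mul_mem (mul_mem ht a1) (inv_mem ht), fun v => by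
    rw [UG_mul_apply, UG_mul_apply, a2, map_add, UG_apply_inv, h1, h2]; rfl⟩

theorem sf_conj (hw : β w w = 0) {θ A A' : End F K} (H : θ ∈ Submodule.span F (JFc M hw : Set (End F K)))
    {t : UG B} (ht : t ∈ M) (h1 : ∀ a : K, t.1 (a • w) = A a • w) (h2 : ∀ v, β w ((t⁻¹).1 v) = A' (β w v)) :
    A * θ * A' ∈ Submodule.span F (JFc M hw : Set (End F K)) := by
  induction H using Submodule.span_induction with
  | mem θ H => exact Submodule.subset_span (jf_conj hw H ht h1 h2)
  | zero => simp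
  | add _ _ _ _ a b => rw [mul_add, add_mul]; exact add_mem a b
  | smul c _ _ a => rw [mul_smul_comm, smul_mul_assoc]; exact Submodule.smul_mem _ c a

namespace CF
variable (h : CF B β l)
include h

theorem eq_of_l {x y : K} (H : ∀ k, l (k * x) = l (k * y)) : x = y := by
  by_contra e
  obtain ⟨a, ha⟩ := h.exists_eq (sub_ne_zero.mpr e) 1
  simp [mul_sub, H] at ha

theorem pf_is (H : PFc M β w) (hw : β w w = 0) (a : K) : IS M (a • w) := by
  have e : B (a • w) (a • w) = 0 := h.zero (by simp [hw])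
  exact IS.of_fix e fun c hc => H _ (c • (l ∘ₗ LinearMap.mulLeft F (τ a)).smulRight a) fun v => by
    simp [tv_apply h.sd e hc, h.smul_left, mul_smul]

theorem pf_am (H : PFc M β w) (hw : β w w = 0) (a : K) : AM M w (a • w) := by
  have e : Adm B w (a • w) 0 := ⟨h.zero hw, h.zero (by simp [hw]), by simpa using (h.zero (by simp [hw])).symm⟩
  exact ⟨0, e, H _ (l.smulRight a + (l ∘ₗ LinearMap.mulLeft F (τ a)).smulRight 1) fun v => by
    simp [rho_apply h.sd e, h.smul_left, h.map w v, add_smul, add_assoc]⟩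

theorem pf_map (H : PFc M β w) {k : UG β} (hk : h.res k ∈ M) : PFc M β (k.1 w) := fun g θ hg => by
  simpa [mul_assoc] using mul_mem (mul_mem hk (H ((h.res k)⁻¹ * g * h.res k) θ fun v => by
    rw [← map_inv, UG_mul_apply, UG_mul_apply, res_apply, res_apply, hg, UG_map, ← map_smul, ← map_add,
      UG_inv_apply_apply])) (inv_mem hk)

theorem jf_adj {k : UG B} {θ : End F K} {w' : V} (hw : SP β w w') (hk : ∀ v, k.1 v = v + θ (β w v) • w) (x y : K) :
    l (τ (θ x) * y) = l (τ x * θ y) := by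
  have := UG_map k (x • w') (y • w')
  simp only [hk, h.map, map_add, LinearMap.add_apply, map_smul, LinearMap.map_smulₛₗ₂, smul_eq_mul, hw.ef, hw.ee,
    hw.ff, hw.fe h.sdK, mul_one, mul_zero, map_zero, add_zero, zero_add, mul_neg, map_neg] at this
  rw [mul_comm, mul_comm (τ x)]; linear_combination this

theorem exists_adj {w' : V} (hw : SP β w w') {t : UG B} {A : End F K} (h1 : ∀ a : K, t.1 (a • w) = A a • w) :
    ∃ A' : End F K, ∀ v, β w ((t⁻¹).1 v) = A' (β w v) := by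
  refine ⟨(β w).restrictScalars F ∘ₗ (t⁻¹).1.toLinearMap ∘ₗ (LinearMap.toSpanSingleton K V w').restrictScalars F,
    fun v => h.eq_of_l fun k => ?_⟩
  have : ∀ x, l (k * β w ((t⁻¹).1 x)) = l (τ (A (τ k)) * β w x) := fun x => by
    rw [← h.smul_left, ← h1, UG_map_left, h.smul_left, h.sdK.invol]
  exact (this v).trans (Eq.trans (by simp [hw.ef]) (this (β w v • w')).symm)

variable [FiniteDimensional K V] [Finite K] (hσ : σ ≠ RingHom.id F) (hr : (finrank F K).Prime)
  (hM : ∀ k : UG β, Algebra.norm F (udet β k : K) = 1 → h.res k ∈ M)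
include hM

theorem su_mem {k : UG β} (hk : k ∈ SUG β) : h.res k ∈ M := hM k (by rw [show udet β k = 1 from hk]; simp)

theorem pf_all (H : PFc M β w) (hw : β w w = 0) (h0 : w ≠ 0) {x : V} (hx : β x x = 0) (x0 : x ≠ 0) :
    PFc M β x := by
  obtain ⟨w', a1⟩ := h.sdK.exists_SP hw h0
  obtain ⟨a, -, g, a2, a3⟩ := a1.exists_erel h.sdK hx x0
  exact UG_inv_apply_eq a3 ▸ h.pf_map (H.smul a) (h.su_mem hM (inv_mem (h.sdK.EG_le_SUG a2)))

include hr in
theorem pf_es (H : ∀ x, β x x = 0 → x ≠ 0 → PFc M β x) (hw : β w w = 0) (h0 : w ≠ 0) : ES M w := by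
  haveI := Module.Finite.of_finite (R := F) (M := K)
  have D := h.sd
  have E := h.sdK
  obtain ⟨w', a1⟩ := E.exists_SP hw h0
  have a2 := h.pf_am (H w hw h0) hw
  have a3 : ∀ a : K, l a = 0 → AM M w (a • w') := fun a ha => by
    by_cases a0 : a = 0
    · simpa [a0] using AM.zero D (h.zero hw)
    obtain ⟨b, hb⟩ := h.exists_eq (neg_ne_zero.mpr (E.σ_ne_zero a0)) 1
    have b1 := h.pf_is (H w' a1.ff a1.ne_right) a1.ff a
    have b2 : B (a • w') w = 0 := D.comm0 (by rw [h.smul_right, a1.ef, mul_one, ha])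
    have := (a2 b).diff D (b1.2 1) (tv_apply_of_perp D _ b2)
    rwa [tv_apply D b1.1 (map_one σ), add_sub_cancel_left, h.smul_left, map_smul, a1.fe E,
      smul_eq_mul, mul_left_comm, mul_neg_one, hb, mul_one, one_smul] at this
  refine ES.of_AM D (by simpa using h.pf_is (H w hw h0) hw 1) fun u hu => ?_
  obtain ⟨b, a, s, rfl⟩ := a1.exists_eq E u
  refine ((a2 b).add D (a3 a (by simpa [h.map, hw, a1.ef, spp_left] using hu))).add D ?_
  obtain ⟨o, b2, b1⟩ := Submodule.exists_mem_ne_zero_of_ne_bot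
    (LinearMap.ker_ne_bot_of_finrank_lt (f := l) (by simpa using hr.one_lt))
  obtain ⟨c, hc⟩ := exists_adm E hw (u := o⁻¹ • (s : V)) (by simp [spp_left])
  have := ((a3 o b2).diff D (h.su_mem hM (rho_mem_SUG E w (o⁻¹ • (s : V)) c)) (rho_apply_self E _ _ _)).sub D (a2 (c * o))
  simpa [rho_apply E hc, a1.ef, E.spp_right', b1, add_assoc] using this

include hr in
theorem le_of_pf (H : PFc M β w) (hw : β w w = 0) (h0 : w ≠ 0) : SUG B ≤ M := by
  haveI : Finite F := Finite.of_injective _ (algebraMap F K).injective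
  haveI := Module.Finite.of_finite (R := F) (M := K)
  haveI := Module.Finite.trans (R := F) K V
  have a0 := fun x => h.pf_es (w := x) hr hM fun x => h.pf_all hM H hw h0
  obtain ⟨w', a1⟩ := h.sdK.exists_SP hw h0
  obtain ⟨a, ha⟩ := h.exists_eq one_ne_zero 1
  exact h.sd.SUG_le_of_ES₂ h.sd.ns (a0 w hw h0) (a0 (a • w') (by simp [a1.ff])
    (smul_ne_zero (by rintro rfl; simp at ha) a1.ne_right)) (by rw [h.smul_right, a1.ef, ha]; exact one_ne_zero)

theorem jf_lmul (hw : β w w = 0) {c : K} (hc : τ c = c) : Algebra.lmul F K c ∈ JFc M hw :=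
  ⟨_, h.su_mem hM (tv_mem_SUG h.sdK w c), fun v => by simp [tv_apply h.sdK hw hc]⟩

theorem exists_torus {w' : V} (hw : SP β w w') {a : K} (ha : a ≠ 0) (H : Algebra.norm F (a * (τ a)⁻¹) = 1) :
    ∃ k : UG β, h.res k ∈ M ∧ k.1 w = a • w :=
  ⟨_, hM (hw.torus h.sdK (Units.mk0 a ha)) (by rwa [hw.det_torus]), hw.torus_e h.sdK _⟩

omit hM [FiniteDimensional K V] [Finite K] in
theorem res_adj {k : UG β} {a : K} (hk : k.1 w = a • w) : (∀ x : K, (h.res k).1 (x • w) = Algebra.lmul F K a x • w) ∧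
    ∀ v, β w (((h.res k)⁻¹).1 v) = Algebra.lmul F K (τ a) (β w v) :=
  ⟨fun x => by simp [hk, smul_smul, mul_comm], fun v => by
    rw [← map_inv, res_apply, ← UG_map_left, hk]; simp⟩

include hσ in
theorem pf_of_top (hw : β w w = 0) (h0 : w ≠ 0) (H : Submodule.span F (JFc M hw : Set (End F K)) = ⊤) :
    PFc M β w := fun k θ hk => by
  haveI : Finite F := Finite.of_injective _ (algebraMap F K).injective
  obtain ⟨w', a1⟩ := h.sdK.exists_SP hw h0
  have a2 : ∀ θ ∈ JFc M hw, ∀ c : F, σ c = c → c • θ ∈ JFc M hw := fun θ hθ c hc =>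
    AddSubgroup.fix_of_sq (S := (JFc M hw).comap (LinearMap.toSpanSingleton F _ θ).toAddMonoidHom) (fun a ha => by
      by_cases a0 : a = 0
      · simp [a0]
      have b0 : τ (algebraMap F K a) = algebraMap F K a := by rw [h.conj, ha]
      obtain ⟨t, b1, b2⟩ := h.exists_torus hM a1 (a := algebraMap F K a) (by simpa) (by simp [b0, a0])
      have := jf_conj hw hθ b1 (h.res_adj b2).1 (h.res_adj b2).2
      rw [b0] at this
      change (a * a) • θ ∈ JFc M hw
      convert this using 1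
      ext x; simp [← Algebra.smul_def, mul_smul]) hc
  let T : Submodule F (End F K) :=
    { carrier := {θ | ∃ θ' : End F K, (∀ x y, l (τ (θ x) * y) = l (τ x * θ' y)) ∧ ∀ c : F, c • θ + σ c • θ' ∈ JFc M hw}
      add_mem' := fun ⟨θ₁, b1, b2⟩ ⟨θ₂, b3, b4⟩ => ⟨θ₁ + θ₂, fun x y => by simp [add_mul, mul_add, b1, b3],
        fun c => by convert add_mem (b2 c) (b4 c) using 1; module⟩
      zero_mem' := ⟨0, by simp, by simp⟩
      smul_mem' := fun d θ ⟨θ', b1, b2⟩ => ⟨σ d • θ', fun x y => by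
        simp only [LinearMap.smul_apply, mul_smul_comm, map_smul, ← b1]
        rw [Algebra.smul_def, map_mul τ, h.conj, mul_assoc, ← Algebra.smul_def, map_smul],
        fun c => by simpa [mul_smul] using b2 (c * d)⟩ }
  obtain ⟨θ', b1, b2⟩ : θ ∈ T := (Submodule.span_le (p := T)).mpr (fun θ hθ => ⟨θ, by
    obtain ⟨k, -, hk⟩ := hθ; exact h.jf_adj a1 hk, fun c => by
      rw [← add_smul]; exact a2 θ hθ _ (by simp [h.sd.invol, add_comm])⟩) (H.ge Submodule.mem_top)
  obtain rfl : θ' = θ := LinearMap.ext fun y => h.eq_of_l fun x => by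
    rw [← h.sdK.invol x, ← b1, h.jf_adj a1 hk]
  obtain ⟨c, hc⟩ := H13.exists_add_conj_eq hσ h.sd.invol (map_one σ)
  obtain ⟨k', b3, b4⟩ := (by rw [← add_smul, hc, one_smul] : c • θ' + σ c • θ' = θ') ▸ b2 c
  exact (UG_ext fun v => (b4 v).trans (hk v).symm : k' = k) ▸ b3

variable (hx : 3 ≤ finrank K V ∨ ∃ μ : K, τ μ * μ = 1 ∧ Algebra.norm F μ = 1 ∧ μ ∉ (algebraMap F K).range)
include hσ hr hx

theorem sf_lmul (hw : β w w = 0) (h0 : w ≠ 0) {θ : End F K} (H : θ ∈ Submodule.span F (JFc M hw : Set (End F K)))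
    (x : K) : Algebra.lmul F K x * θ ∈ Submodule.span F (JFc M hw : Set (End F K)) := by
  have E := h.sdK
  obtain ⟨w', a1⟩ := E.exists_SP hw h0
  obtain ⟨a, a0, a2, k, a3, a4⟩ : ∃ a : K, a ≠ 0 ∧ a / τ a ∉ (algebraMap F K).range ∧
      ∃ k : UG β, h.res k ∈ M ∧ k.1 w = a • w := by
    rcases hx with hx | ⟨μ, b1, b2, b3⟩
    · obtain ⟨μ, b1, b3⟩ := exists_mu_notMem hσ E.invol h.conj hr.two_le
      obtain ⟨a, a0, rfl⟩ := exists_div_conj_eq (conj_ne_id hσ E.invol h.conj) E.invol b1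
      obtain ⟨k, b4, b5⟩ := E.erel E.ns (Or.inr hx) hw h0 (y := a • w) (by simp [hw]) (smul_ne_zero a0 h0)
      exact ⟨a, a0, by rwa [div_eq_mul_inv], k, h.su_mem hM (E.EG_le_SUG b4), b5⟩
    · obtain ⟨a, a0, rfl⟩ := exists_div_conj_eq (conj_ne_id hσ E.invol h.conj) E.invol b1
      exact ⟨a, a0, by rwa [div_eq_mul_inv], h.exists_torus hM a1 a0 b2⟩
  have a5 : ∀ c, τ c = c → ∀ θ ∈ Submodule.span F (JFc M hw : Set (End F K)),
      Algebra.lmul F K c * θ * Algebra.lmul F K c ∈ Submodule.span F (JFc M hw : Set (End F K)) := fun c hc θ hθ => by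
    by_cases c0 : c = 0
    · simp [c0]
    obtain ⟨t, b1, b2⟩ := h.exists_torus hM a1 c0 (by simp [hc, c0])
    simpa only [hc] using sf_conj hw hθ b1 (h.res_adj b2).1 (h.res_adj b2).2
  have := bilin_eq_zero hr hσ E.invol h.conj (Ψ := (((LinearMap.mul F (End F K)).compl₁₂
    (LinearMap.mulRight F θ ∘ₗ (Algebra.lmul F K).toLinearMap) (Algebra.lmul F K).toLinearMap).compr₂
    (Submodule.span F (JFc M hw : Set (End F K))).mkQ)) a0 a2
    (fun c hc => (Submodule.Quotient.mk_eq_zero _).mpr (a5 c hc θ H)) (fun c hc => (Submodule.Quotient.mk_eq_zero _).mpr (by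
      convert a5 c hc _ (sf_conj hw H a3 (h.res_adj a4).1 (h.res_adj a4).2) using 1
      ext x; simp [mul_assoc, mul_left_comm])) x 1
  exact mul_one (Algebra.lmul F K x * θ) ▸ map_one (Algebra.lmul F K) ▸ (Submodule.Quotient.mk_eq_zero _).mp this

theorem le_of_stab (h3 : 3 ≤ finrank F K) (hw : β w w = 0) (h0 : w ≠ 0) {t : UG B} (ht : t ∈ M) {A : End F K}
    (h1 : ∀ a : K, t.1 (a • w) = A a • w) (h2 : ∀ x, A (A x - x) = A x - x) {x : K} (hA : A x ≠ x) : SUG B ≤ M := by
  by_contra H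
  obtain ⟨w', a1⟩ := h.sdK.exists_SP hw h0
  have a2 : ∀ x, A ((2 - A) x) = x := fun x => by
    have := h2 x
    simp only [LinearMap.sub_apply, map_sub, End.ofNat_apply, two_nsmul, map_add] at this ⊢
    linear_combination -this
  have a3 : ∀ x, (2 - A) (A x) = x := fun x => by
    have := h2 x
    simp only [LinearMap.sub_apply, map_sub, End.ofNat_apply, nsmul_eq_mul] at this ⊢
    push_cast; linear_combination -this
  have a4 : ∀ a : K, (t⁻¹).1 (a • w) = (2 - A) a • w := fun a => UG_inv_apply_eq (by rw [h1, a2])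
  obtain ⟨A', a5⟩ := h.exists_adj a1 h1
  obtain ⟨A'', a6⟩ := h.exists_adj a1 a4
  have a7 : A'' * A' = 1 := LinearMap.ext fun x => by
    have := (congrArg A'' (a5 (x • w'))).symm.trans (a6 _).symm
    rwa [inv_inv, UG_apply_inv, map_smul, a1.ef, smul_eq_mul, mul_one] at this
  let R : Subalgebra F (End F K) :=
    { carrier := {α | ∀ θ ∈ Submodule.span F (JFc M hw : Set (End F K)),
        α * θ ∈ Submodule.span F (JFc M hw : Set (End F K))}
      mul_mem' := fun ha hb θ hθ => by rw [mul_assoc]; exact ha _ (hb θ hθ)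
      add_mem' := fun ha hb θ hθ => by rw [add_mul]; exact add_mem (ha θ hθ) (hb θ hθ)
      algebraMap_mem' := fun c θ hθ => by rw [← Algebra.smul_def]; exact Submodule.smul_mem _ c hθ }
  refine hA (eq_one_of_sq hr h3 h2 (fun a => ?_) x)
  by_cases e : ∀ x, (A * Algebra.lmul F K a * (2 - A)) x = x * (A * Algebra.lmul F K a * (2 - A)) 1
  · exact ⟨_, fun x => by simpa only [End.mul_apply, a3, mul_comm (A x), Algebra.coe_lmul_eq_mul,
      LinearMap.mul_apply'] using e (A x)⟩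
  have a8 := subalg_eq_top hr (A := R) (fun k θ hθ => h.sf_lmul hσ hr hM hx hw h0 hθ k) (fun θ hθ => by
    simpa only [mul_assoc, a7, mul_one] using sf_conj hw (h.sf_lmul hσ hr hM hx hw h0
      (sf_conj hw hθ (inv_mem ht) a4 a6) a) ht h1 a5) e
  refine (H (h.le_of_pf hr hM (h.pf_of_top hσ hM hw h0 (eq_top_iff.mpr fun θ _ => ?_)) hw h0)).elim
  simpa only [map_one, mul_one] using
    a8.ge (Algebra.mem_top (x := θ)) _ (Submodule.subset_span (h.jf_lmul hM hw (map_one τ)))

end CF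

end Cfsg.Agent.H12
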