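import Mathlib
import Cfsg.Agent.H12.UcB
import Cfsg.Agent.H12.CfD

/-!
Normalisers of field subalgebras in unitary groups are maximal.
-/

set_option autoImplicit false

namespace Cfsg.Agent.H12

open Module

section form
variable {F V : Type*} [Field F] [AddCommGroup V] [Module F V] {σ : F →+* F}
  {B : V →ₛₗ[σ] V →ₗ[F] F} {M : Subgroup (UG B)}
  {K : Type*} [Field K] [Algebra F K] [Module K V] [IsScalarTower F K V] {τ : K →+* K}
  {β : V →ₛₗ[τ] V →ₗ[K] K} {l : Dual F K}

namespace CF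
variable (h : CF B β l) [Finite K] (hσ : σ ≠ RingHom.id F)
include h hσ

theorem exists_iso_map (g : UG B) {y : V} (hy : β y y = 0) :
    ∃ a : K, a ≠ 0 ∧ β (g.1 (a • y)) (g.1 (a • y)) = 0 := by
  have E := h.sdK
  have a0 := conj_ne_id hσ E.invol h.conj
  let Z : AddSubgroup K :=
    { carrier := {z | τ z = -z ∧ l z = 0}
      add_mem' := fun ha hb => ⟨by simp [ha.1, hb.1, add_comm], by simp [ha.2, hb.2]⟩
      zero_mem' := by simp
      neg_mem' := fun ha => ⟨by simp [ha.1], by simp [ha.2]⟩ }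
  refine exists_zero_of_biadd (AddMonoidHom.mk' (fun a => AddMonoidHom.mk' (fun b : K => β (g.1 (a • y)) (g.1 (b • y)))
    fun _ _ => by simp [add_smul]) fun _ _ => AddMonoidHom.ext fun _ => by simp [add_smul]) Z
    (fun a => ⟨E.σ_map _ _, (h.map _ _).symm.trans ((UG_map g _ _).trans (h.zero (by simp [hy])))⟩) ?_
  rw [card_eq_q0_sq a0 E.invol, ← card_skew a0 E.invol]
  refine Nat.pow_lt_pow_left (Set.ncard_lt_ncard (s := (Z : Set K)) (t := {z | τ z = -z})
    ⟨fun _ hz => hz.1, fun H => h.ne (LinearMap.ext fun x => ?_)⟩) two_ne_zero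
  obtain ⟨d, d0, hd⟩ := H12.exists_skew hσ h.sd.invol
  refine fix_induction hσ E.invol h.conj (p := fun x => l x = 0) (fun c x hx => ?_) (fun x y a b => by simp [a, b]) x
  have := (H (show τ (d • x) = -(d • x) by simp [Algebra.smul_def, h.conj, hd, hx])).2
  simpa [d0] using Or.inr (by simpa [d0] using this)

theorem exists_fix_mul {A : Submodule F K} (hA : finrank F K < 2 * finrank F A) {i : K} (hi : i ≠ 0) :
    ∃ c, τ c = c ∧ c ≠ 0 ∧ c * i ∈ A := by
  haveI : Finite F := Finite.of_injective _ (algebraMap F K).injective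
  have E := h.sdK
  obtain ⟨_, a1, ⟨c, a2, rfl⟩, a3⟩ := exists_mem_inter (A := A.toAddSubgroup)
    (C := (τ.eqLocusField (RingHom.id K)).toAddSubgroup.map (AddMonoidHom.mulRight i)) (by
      rw [AddSubgroup.card_map_of_injective (mul_left_injective₀ hi), card_eq_q0_sq (conj_ne_id hσ E.invol h.conj)
        E.invol, show Nat.card (τ.eqLocusField (RingHom.id K)).toAddSubgroup = q0 τ from rfl, sq,
        show Nat.card A.toAddSubgroup = Nat.card A from rfl, natCard_eq_pow_finrank (K := F) (V := A),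
        card_eq_q0_sq hσ h.sd.invol, ← pow_mul]
      refine Nat.mul_lt_mul_of_pos_right ?_ (by have := two_le_q0 (σ := τ); omega)
      rw [q0_eq_pow hσ E.invol h.conj]
      exact Nat.pow_lt_pow_right two_le_q0 hA)
  exact ⟨c, a2, left_ne_zero_of_mul a3, a1⟩

theorem nk_of_iso [FiniteDimensional K V] (hm : 2 ≤ finrank K V) {g : V ≃ₗ[F] V}
    (H : ∀ (k : K) v, β v v = 0 → g (k • v) ∈ K ∙ g v) : NK K g := fun k => by
  haveI := Module.Finite.of_finite (R := F) (M := K)
  have E := h.sdK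
  have a1 : ∀ x z, β x x = 0 → β z z = 0 → β x z ≠ 0 → ∀ a : K, g (k • x) = a • g x → g (k • z) = a • g z :=
    fun x z hx hz e a ha => by
    have b0 : x ≠ 0 := by rintro rfl; simp at e
    have := fix_induction hσ E.invol h.conj (p := fun c => g (k • (c / β x z) • z) = a • g ((c / β x z) • z))
      (fun d c hc => ?_) (fun _ _ a b => by simp only [add_div, add_smul, smul_add, map_add, a, b]) (β x z)
    · rwa [div_self e, one_smul] at this
    rw [smul_div_assoc, smul_assoc, smul_comm k d, map_smul g, map_smul g, smul_comm a d]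
    by_cases c0 : c = 0
    · simp [c0]
    obtain ⟨b, hb⟩ := Submodule.mem_span_singleton.mp (H k ((c / β x z) • z) (by simp [hz]))
    obtain ⟨i, hi⟩ := Submodule.mem_span_singleton.mp (H k (x + (c / β x z) • z) (by
      simp [hx, hz, E.skew x z, hc, e, E.σ_ne_zero e]))
    obtain ⟨φ, b1, b2⟩ := exists_dual_one_zero (F := K) (v := g ((c / β x z) • z)) (w := g x) fun e' => by
      obtain ⟨j, hj⟩ := Submodule.mem_span_singleton.mp (mem_span_of_map_line b0 (H · x hx) e')
      simpa [hx, e, Ne.symm c0] using congrArg (β x) hj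
    rw [smul_add k, map_add, map_add, ha, ← hb] at hi
    obtain rfl : i = b := by simpa [b1, b2] using congrArg φ hi
    rw [smul_add, add_left_inj] at hi
    rw [← hb, smul_left_injective K (g.map_ne_zero_iff.mpr b0) hi]
  obtain ⟨x, x0, hx⟩ := E.exists_iso E.ns hm
  obtain ⟨a, ha⟩ := Submodule.mem_span_singleton.mp (H k x hx)
  refine ⟨a, E.iso_induction' E.ns (Or.inr hm) (fun z hz => ?_) fun y z h1 h2 => by simp [h1, h2]⟩
  by_cases z0 : z = 0
  · simp [z0]
  obtain ⟨t, b1, b2, b3⟩ := E.exists_iso_ne₂ E.ns (Or.inr hm) x0 z0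
  exact a1 _ _ b1 hz (E.ne0 b3) a (a1 _ _ hx b1 b2 a ha.symm)

variable [FiniteDimensional K V] (hr : (finrank F K).Prime) (hro : Odd (finrank F K))
  (hM : ∀ k : UG β, Algebra.norm F (udet β k : K) = 1 → h.res k ∈ M)
  (hx : 3 ≤ finrank K V ∨ ∃ μ : K, τ μ * μ = 1 ∧ Algebra.norm F μ = 1 ∧ μ ∉ (algebraMap F K).range)
include hr hro hM hx

theorem su_line (H : ¬ SUG B ≤ M) {g : UG B} (hg : g ∈ M) (k : K) (y : V) (hy : β y y = 0) :
    g.1 (k • y) ∈ K ∙ g.1 y := by
  haveI := Module.Finite.of_finite (R := F) (M := K)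
  have E := h.sdK
  have h3 : 3 ≤ finrank F K := by have := hr.two_le; obtain ⟨_, _⟩ := hro; omega
  by_cases y0 : y = 0
  · simp [y0]
  let T : UG B → V → Submodule F K := fun g w => ((K ∙ w).restrictScalars F).comap
    (g.1.toLinearMap ∘ₗ (LinearMap.toSpanSingleton K V y).restrictScalars F)
  have hT : ∀ g w k, k ∈ T g w ↔ g.1 (k • y) ∈ K ∙ w := fun _ _ _ => Iff.rfl
  by_contra h0
  obtain ⟨_, ⟨a1, ⟨a, a0, ha⟩, g, hg, w, hw, w0, rfl⟩, a2⟩ := (wellFounded_gt (α := Submodule F K)).has_min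
    {E | E ≠ ⊤ ∧ (∃ a, a ≠ 0 ∧ a ∈ E) ∧ ∃ g ∈ M, ∃ w, β w w = 0 ∧ w ≠ 0 ∧ E = T g w} (by
      obtain ⟨a, a0, ha⟩ := h.exists_iso_map hσ g hy
      refine ⟨T g (g.1 (a • y)), fun e => h0 ?_, ⟨a, a0, Submodule.mem_span_singleton_self _⟩, g, hg, _, ha,
        UG_ne_zero g (smul_ne_zero a0 y0), rfl⟩
      obtain ⟨i, hi⟩ := Submodule.mem_span_singleton.mp ((hT _ _ _).mp (e.ge (Submodule.mem_top (x := 1))))
      rw [one_smul] at hi
      rw [← hi, Submodule.span_singleton_smul_eq (Ne.isUnit (by rintro rfl; exact UG_ne_zero g y0 (by simp [← hi])))]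
      exact e.ge Submodule.mem_top)
  obtain ⟨y', b1⟩ := E.exists_SP hy y0
  obtain ⟨w', b2⟩ := E.exists_SP hw w0
  have key : ∀ t ∈ M, (∀ j : K, t.1 (j • w) = j • w) → (∀ x : K, t.1 (g.1 (x • y)) - g.1 (x • y) ∈ K ∙ w) →
      ∀ x, x ∉ T g w → (∃ i : K, t.1 (g.1 (x • y)) = g.1 (i • y)) → ∀ x : K, t.1 (g.1 (x • y)) = g.1 (x • y) := by
    rintro t ht c1 c2 x c3 ⟨i, c4⟩ x'
    have c5 := mul_mem (mul_mem (inv_mem hg) ht) hg
    have c6 : T g w ≤ T (g⁻¹ * t * g) y := fun c hc => by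
      obtain ⟨e, he⟩ := Submodule.mem_span_singleton.mp ((hT _ _ _).mp hc)
      rw [hT, UG_mul_apply, UG_mul_apply, ← he, c1, he, UG_inv_apply_apply]
      exact Submodule.smul_mem _ c (Submodule.mem_span_singleton_self y)
    have c7 : T (g⁻¹ * t * g) y = ⊤ := by_contra fun c7 => a2 _ ⟨c7, ⟨a, a0, c6 ha⟩, _, c5, y, hy, y0, rfl⟩
      ⟨c6, fun e => c3 (e (by
        rw [hT, UG_mul_apply, UG_mul_apply, c4, UG_inv_apply_apply]
        exact Submodule.smul_mem _ i (Submodule.mem_span_singleton_self y)))⟩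
    let A : End F K := -(β y').restrictScalars F ∘ₗ (g⁻¹ * t * g).1.toLinearMap ∘ₗ
      (LinearMap.toSpanSingleton K V y).restrictScalars F
    have c8 : ∀ x : K, (g⁻¹ * t * g).1 (x • y) = A x • y := fun x => by
      obtain ⟨e, he⟩ := Submodule.mem_span_singleton.mp ((hT _ _ _).mp (c7.ge (Submodule.mem_top (x := x))))
      have : A x = -β y' ((g⁻¹ * t * g).1 (x • y)) := rfl
      rw [this, ← he]; simp [b1.fe E]
    have c9 : ∀ x : K, t.1 (g.1 (x • y)) = g.1 (A x • y) := fun x => by rw [← c8]; simp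
    by_contra c
    refine H (h.le_of_stab hσ hr hM hx h3 hy y0 c5 c8 (fun x => smul_left_injective K y0 (g.1.injective ?_))
      (x := x') fun e => c (by rw [c9, e]))
    obtain ⟨e, he⟩ := Submodule.mem_span_singleton.mp (c2 x)
    simp only
    rw [← c9, sub_smul, map_sub, ← c9, ← he, c1]
  obtain ⟨b, hb⟩ := Submodule.mem_span_singleton.mp ((hT _ _ _).mp ha)
  have b0 : b ≠ 0 := by rintro rfl; exact UG_ne_zero g (smul_ne_zero a0 y0) (by simp [← hb])
  let φ : End F K := (β w).restrictScalars F ∘ₗ g.1.toLinearMap ∘ₗ (LinearMap.toSpanSingleton K V y).restrictScalars F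
  have hφ : ∀ x, φ x = β w (g.1 (x • y)) := fun _ => rfl
  have b3 : ∀ x, φ x ≠ 0 → x ∉ T g w := fun x e e' => by
    obtain ⟨i, hi⟩ := Submodule.mem_span_singleton.mp ((hT _ _ _).mp e')
    simp [hφ, ← hi, hw] at e
  by_cases e : ∀ x, φ x = 0
  · obtain ⟨x, c1⟩ : ∃ x, x ∉ T g w := by simpa [Submodule.eq_top_iff'] using a1
    obtain ⟨u, c2, c3⟩ := E.exists_perp_one (K ∙ w) (x := g.1 (x • y)) c1
    have c4 : β w (-τ b • u) = 0 := by simp [c2 w (Submodule.mem_span_singleton_self w)]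
    obtain ⟨c, c5⟩ := exists_adm E hw c4
    have c6 : ∀ x : K, (rho β w (-τ b • u) c).1 (g.1 (x • y)) = g.1 (x • y) + β (-τ b • u) (g.1 (x • y)) • w :=
      fun x => by rw [rho_apply E c5, ← hφ, e]; simp
    have c7 : β (-τ b • u) (g.1 (x • y)) = b := by simp [E.skew _ u, c3, E.invol]
    have := key _ (h.su_mem hM (rho_mem_SUG E w (-τ b • u) c)) (fun j => by simp [rho_apply_self E])
      (fun x => by rw [res_apply, c6]; simp [Submodule.smul_mem]) x c1
      ⟨x + a, by rw [res_apply, c6, c7, hb, add_smul, map_add]⟩ x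
    rw [res_apply, c6, c7] at this
    simp [b0, w0] at this
  push Not at e
  obtain ⟨x₂, e⟩ := e
  obtain ⟨c, x, c1, c0, c2, i, c3⟩ : ∃ c x, τ c = c ∧ c ≠ 0 ∧ x ∉ T g w ∧ ∃ i : K, (c * φ x) • w = g.1 (i • y) := by
    have d1 := φ.finrank_range_add_finrank_ker
    by_cases d2 : finrank F K < 2 * finrank F φ.range
    · obtain ⟨c, d3, d4, x, d5⟩ := h.exists_fix_mul hσ d2 b0
      exact ⟨c⁻¹, x, by simp [d3], inv_ne_zero d4, b3 x (d5 ▸ mul_ne_zero d4 b0), a, by
        rw [d5, inv_mul_cancel_left₀ d4, hb]⟩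
    by_cases d3 : φ.ker ≤ T g w
    swap
    · obtain ⟨x, d4, d5⟩ := SetLike.not_le_iff_exists.mp d3
      exact ⟨1, x, map_one τ, one_ne_zero, d5, 0, by simp [show φ x = 0 from d4]⟩
    let ψ : φ.ker →ₗ[F] K := -(β w').restrictScalars F ∘ₗ g.1.toLinearMap ∘ₗ
      (LinearMap.toSpanSingleton K V y).restrictScalars F ∘ₗ φ.ker.subtype
    have d4 : ∀ x, ψ x • w = g.1 ((x : K) • y) := fun x => by
      obtain ⟨e, he⟩ := Submodule.mem_span_singleton.mp ((hT _ _ _).mp (d3 x.2))
      have : ψ x = -β w' (g.1 ((x : K) • y)) := rfl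
      rw [this, ← he]; simp [b2.fe E]
    obtain ⟨c, d5, d6, x, d7⟩ := h.exists_fix_mul hσ (A := ψ.range) (by
      rw [LinearMap.finrank_range_of_inj fun x x' e => Subtype.ext (smul_left_injective K y0
        (g.1.injective (by simp only [← d4, e])))]
      obtain ⟨_, _⟩ := hro; omega) e
    exact ⟨c, x₂, d5, d6, b3 _ e, x, by rw [← d7, d4]⟩
  have := key _ (h.su_mem hM (tv_mem_SUG E w c)) (fun j => by simp [tv_apply_of_perp E _ hw])
    (fun x => by simp [tv_apply E hw c1, Submodule.smul_mem]) x c2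
    ⟨x + i, by rw [res_apply, tv_apply E hw c1, ← hφ, c3, add_smul, map_add]⟩ x₂
  simp [tv_apply E hw c1, ← hφ, c0, e, w0] at this

theorem su_le_su (hm : 2 ≤ finrank K V) {g : UG B} (hg : g ∈ M) (hg' : ¬ NK K g.1) : SUG B ≤ M := by
  by_contra H
  exact hg' (h.nk_of_iso hσ hm (h.su_line hσ hr hro hM hx H hg))

end CF

end form

open Geo Matrix

theorem max_su_field {F : Type*} [Field F] [Fintype F] {n q r : ℕ} (hF : Fintype.card F = q ^ 2)
    {K : Subalgebra F (Matrix (Fin n) (Fin n) F)} (hr : r.Prime) (hro : Odd r) (hK : IsFieldSubalgebra r K)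
    (hac : IsAdjointClosedFor (hermForm n F q) K) (hlt : r < n) (hx : ¬ (n = 6 ∧ q = 2)) :
    IsMaximalIn (GU n F q ⊓ specialLinear (Fin n) F)
      (subalgebraNormalizer K ⊓ (GU n F q ⊓ specialLinear (Fin n) F)) := by
  have h3 : 3 ≤ r := by have := hr.two_le; obtain ⟨_, _⟩ := hro; omega
  have : Nonempty (Fin n) := ⟨⟨0, by omega⟩⟩
  obtain ⟨t, hf⟩ := exists_tvF_su hF (n := n) (by omega)
  have ha := hf.adjClosed_iff.mp hac
  let := (H18.isField_of_inv K hK.comm hK.inv).toField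
  have h1 := finrank_mul_finrank F K (Fin n → F)
  rw [hK.finrank_eq, finrank_fintype_fun_eq_card, Fintype.card_fin] at h1
  have h2 : 2 ≤ finrank K (Fin n → F) := by by_contra h; nlinarith
  obtain ⟨β, h⟩ := exists_CF_adj hf hK ha (Or.inl fun e => frobq_ne_id hF (RingHom.ext fun c =>
    (algebraMap F (Matrix (Fin n) (Fin n) F)).injective (by
      have := congrArg Subtype.val (RingHom.congr_fun e (algebraMap F K c))
      change H18.adj _ _ (algebraMap F _ c) = algebraMap F _ c at this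
      rwa [Algebra.algebraMap_eq_smul_one, hf.adj_smul, hf.adj_one, ← Algebra.algebraMap_eq_smul_one,
        ← Algebra.algebraMap_eq_smul_one] at this)))
  refine isMaximalIn_iso hf _ (fun _ => mem_normalizer_iff) (iso_not_le_field hf hr.two_le hK (by simp; omega))
    fun M hM _ g hg hg' => h.su_le_su (frobq_ne_id hF) (hK.finrank_eq ▸ hr) (hK.finrank_eq ▸ hro)
      (fun k hk => hM _ (mem_SUG.mpr ?_) fun c => ⟨c, k.1.map_smul c⟩) (or_iff_not_imp_left.mpr fun h4 =>
        exists_mu_norm (frobq_ne_id hF) h.sdK.invol h.conj ?_) h2 hg hg'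
  · refine Eq.trans ?_ hk
    rw [coe_udet, ← LinearMap.det_restrictScalars]; rfl
  rw [hK.finrank_eq, q0_frobq]
  have h5 := two_le_of_card_eq_sq hF
  obtain ⟨s, rfl⟩ : ∃ s, r = s + 3 := ⟨r - 3, by omega⟩
  have h6 : s + 3 ≤ q ^ (s + 1) := by
    rcases s with _ | s
    · rw [show finrank K (Fin n → F) = 2 by omega] at h1
      simp only [zero_add, pow_one]; omega
    · have := Nat.lt_two_pow_self (n := s)
      have := Nat.pow_le_pow_left h5 (s + 1 + 1)
      rw [pow_succ, pow_succ] at this; omega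
  rw [show q ^ (s + 3) = q * q * q ^ (s + 1) by ring]
  exact Nat.mul_le_mul (by nlinarith) h6

end Cfsg.Agent.H12
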