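import Mathlib
import Cfsg.Agent.H12.UfE

/-!
Maximality of unitary frame stabilisers in dimension eight.
-/

set_option autoImplicit false

namespace Cfsg.Agent.H12

open Module

variable {F V : Type*} [Field F] [AddCommGroup V] [Module F V] {σ : F →+* F}
  {B : V →ₛₗ[σ] V →ₗ[F] F} {M : Subgroup (UG B)} {ι : Type*} [Fintype ι] [DecidableEq ι]
  {b : Basis ι F V} {κ : F}

theorem fix_of_odd {π : Equiv.Perm ι} {m : ℕ} (h : π ^ (2 * m + 1) = 1) {a : ι} (H : π (π a) = a) : π a = a := by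
  have : ∀ n : ℕ, (π ^ (2 * n)) a = a := fun n => by
    induction' n with n ih
    · simp
    · rw [mul_add, mul_one, pow_add, sq, Equiv.Perm.mul_apply, Equiv.Perm.mul_apply, H, ih]
  simpa [pow_succ', this] using congrArg (· a) h

theorem MPe.exists_fix {x : V ≃ₗ[F] V} {π : Equiv.Perm ι} (h : MPe b x π) (hn : 8 ≤ Fintype.card ι) {U : Submodule F V}
    (h1 : finrank F U ≤ 4) (h2 : ∀ v, x v - v ∈ U) {k : ι} (h3 : π (π k) ≠ k) : ∃ i, x (b i) = b i := by
  by_contra! H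
  have a : ∀ s : Finset ι, s.card ≤ 7 → ∃ i, i ∉ s := fun s hs =>
    (Finset.exists_mem_notMem_of_card_lt_card (t := Finset.univ) (s := s) (by simp; omega)).imp fun _ => And.right
  obtain ⟨p, hp⟩ := a {k, π k, π (π k)} (Finset.card_le_three.trans (by omega))
  obtain ⟨q, hq⟩ := a {k, π k, π (π k), p, π p} (Finset.card_le_five.trans (by omega))
  obtain ⟨r, hr⟩ := a (insert q (insert (π q) {k, π k, π (π k), p, π p})) ((Finset.card_insert_le _ _).trans
    (Nat.succ_le_succ ((Finset.card_insert_le _ _).trans (Nat.succ_le_succ Finset.card_le_five))))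
  have := h.tri h2 [r, q, p, k, π k] (fun i _ => H i) (by simp at hp hq hr ⊢; grind)
  simp at this; omega

namespace OB
variable (h : OB B b κ) (hM : ∀ g ∈ SUG B, Mon b g.1 → g ∈ M)
  (NF : ∀ g ∈ M, ∀ (i j : ι) (c : F), g.1 (b i) = c • b j → Mon b g.1) [Finite F]
  (h8 : Fintype.card ι = 8) (h2 : (2 : F) ≠ 0)
include h hM NF h8 h2

theorem ca_odd8 {c c' : UG B} (H : CA M b c) (H' : ¬ Mon b c.1) (Hc : CA M b c') (h0 : c ≠ c')
    (h1 : Mon b (c * c').1) : (∃ m, (c * c') ^ (2 * m + 1) = 1) ∨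
      (c * c') ^ 2 = 1 ∧ ∀ i (t : F), (c * c').1 (b i) ≠ t • b i := by
  have hn : 7 ≤ Fintype.card ι ∨ 6 ≤ Fintype.card ι ∧ 3 ≤ q0 σ := Or.inl (by omega)
  obtain ⟨k, c1, a, c2, P, c3, c4, rfl⟩ := Hc
  have a1 := H.conj (inv_mem c1)
  rw [inv_inv] at a1
  have a2 : c * (k * a * k⁻¹) = k⁻¹⁻¹ * (k⁻¹ * c * k * a) * k⁻¹ := by group
  by_cases e : Mon b (k⁻¹ * c * k).1
  · obtain ⟨Q, b1, b2⟩ := h.ca_dg hM NF hn h2 a1 e
    have b3 := b2.mul c4
    rw [sgn_mul] at b3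
    have b4 : (symmDiff Q P).card = 2 ∨ (symmDiff Q P).card = 4 := by
      have d1 := Finset.card_sdiff_add_card_inter Q P
      have d2 := Finset.card_sdiff_add_card_inter P Q
      have d3 : (Q ∩ P).card ≠ 2 := fun e' => h0 (by
        obtain rfl := Finset.eq_of_subset_of_card_le (Finset.inter_eq_left.mp
          (Finset.eq_of_subset_of_card_le (Finset.inter_subset_left (s₂ := P)) (b1.trans e'.symm).le)) (c3.trans b1.symm).le
        rw [← b2.ext c4]; group)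
      rw [Finset.inter_comm] at d2
      rw [symmDiff_def, Finset.sup_eq_union, Finset.card_union_of_disjoint disjoint_sdiff_sdiff]; omega
    have b5 : ¬ Mon b (k⁻¹).1 := fun b5 => H' (by
      rw [show c = k⁻¹⁻¹ * (k⁻¹ * c * k) * k⁻¹ by group]
      exact (b5.inv.mul e).mul b5)
    refine Or.inr ⟨?_, fun i t ht => b5 ?_⟩
    · have : k⁻¹ * c * k * a * (k⁻¹ * c * k * a) = 1 := (b3.mul b3).ext fun x i => by rw [sgn_mul]; simp [sgn]
      rw [a2, inv_inv, conj_pow, sq, this]; simp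
    rcases b4 with b4 | b4
    · exact h.nf_sgn hM NF hn h2 (inv_mem c1) b3 (by omega) (by omega) (a2 ▸ h1)
    have d1 : ∀ l, sgn F (symmDiff Q P) l * b.repr ((k⁻¹).1 (b i)) l = t * b.repr ((k⁻¹).1 (b i)) l := fun l => by
      rw [← b3, ← smul_eq_mul t, ← Finsupp.smul_apply, ← map_smul, ← map_smul, ← ht, a2]; simp
    generalize symmDiff Q P = S at b4 d1
    by_cases d2 : t = 1
    · exact h.nf_four hM NF (inv_mem c1) b4.ge fun l hl => mul_left_cancel₀ h2 (by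
        have := d1 l
        simp only [sgn, hl, if_true, d2] at this
        linear_combination -this)
    · exact h.nf_four hM NF (inv_mem c1) (R := Sᶜ) (by rw [Finset.card_compl]; omega) fun l hl =>
        mul_left_cancel₀ (sub_ne_zero.mpr d2) (by
          have := d1 l
          simp only [sgn, Finset.mem_compl.mp hl, if_false] at this
          linear_combination -this)
  obtain ⟨m, hm⟩ := h.ca_odd hM NF hn h2 a1 e ⟨1, one_mem _, a, c2, P, c3, c4, by simp⟩ c4.mon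
  exact Or.inl ⟨m, by rw [a2, inv_inv, conj_pow, hm]; simp⟩

theorem mon_odd8 {g : UG B} (hg : g ∈ M) : Mon b g.1 := by
  have hn : 7 ≤ Fintype.card ι ∨ 6 ≤ Fintype.card ι ∧ 3 ≤ q0 σ := Or.inl (by omega)
  by_contra hg'
  have a0 : ∀ P : Finset ι, P.card = 2 → ∃ a ∈ M, Dg b a (sgn F P) := fun P hP =>
    h.diag_mem hM (fun i => by simp only [sgn]; split_ifs <;> simp) (by simp [sgn, Finset.prod_ite, hP])
  obtain ⟨P₀, -, p0⟩ := Finset.exists_subset_card_eq (s := (Finset.univ : Finset ι)) (n := 2) (by simp; omega)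
  obtain ⟨a₀, a1, a2⟩ := a0 P₀ p0
  have a3 : CA M b (g⁻¹ * a₀ * g) := ⟨g⁻¹, inv_mem hg, a₀, a1, P₀, p0, a2, by simp⟩
  have a4 : ¬ Mon b (g⁻¹ * a₀ * g).1 := fun e => hg' (h.nf_sgn hM NF hn h2 hg a2 p0.ge (by omega) e)
  generalize g⁻¹ * a₀ * g = s at a3 a4
  have a5 : ∀ P : Finset ι, ∃ a c, P.card = 2 → Dg b a (sgn F P) ∧ CA M b c ∧ ¬ Mon b c.1 ∧ c * a * c = s :=
    fun P => by
      by_cases hP : P.card = 2
      · obtain ⟨a, b1, b2⟩ := a0 P hP
        have b3 : CA M b a := ⟨1, one_mem _, a, b1, P, hP, b2, by simp⟩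
        obtain ⟨m, hm⟩ := h.ca_odd hM NF hn h2 a3 a4 b3 b2.mon
        have b4 := a3.pow b3 m
        have b5 : (s * a) ^ m * s * a * ((s * a) ^ m * s) = s := by
          rw [← pow_succ_mul_aux, hm, one_mul]
        exact ⟨a, _, fun _ => ⟨b2, b4, fun e => a4 (b5 ▸ (e.mul b2.mon).mul e), b5⟩⟩
      · exact ⟨1, 1, fun e => (hP e).elim⟩
  choose a c hc using a5
  have a6 : ∀ P Q : Finset ι, P.card = 2 → Q.card = 2 → ∃ π, MPe b (c P * c Q).1 π ∧ ∀ i ∈ Q, π i ∈ P :=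
    fun P Q hP hQ => by
      obtain ⟨b1, b2, -, b4⟩ := hc P hP
      obtain ⟨d1, d2, -, d4⟩ := hc Q hQ
      have e1 : a P * (c P * c Q) = c P * c Q * a Q := by
        have f1 : a P * c P = c P * s := by rw [← b4, ← mul_assoc, ← mul_assoc, b2.sq, one_mul]
        have f2 : c Q * a Q = s * c Q := by rw [← d4, mul_assoc, d2.sq, mul_one]
        rw [← mul_assoc, f1, mul_assoc, mul_assoc, f2]
      obtain ⟨π, hπ⟩ := (h.nf_sgn hM NF hn h2 (mul_mem b2.mem d2.mem) b1 hP.ge (by omega) (by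
        rw [mul_assoc, e1, inv_mul_cancel_left]; exact d1.mon)).mp
      refine ⟨π, hπ, fun i hi => ?_⟩
      obtain ⟨t, t0, ht⟩ := hπ i
      have := congrArg (fun g : UG B => b.repr (g.1 (b i)) (π i)) e1
      simp only [UG_mul_apply _ (a Q), UG_mul_apply (a P), d1.apply, map_smul, ht, b1.apply] at this
      by_contra e
      simp [sgn, hi, e] at this
      exact mul_ne_zero h2 t0 (by linear_combination this)
  have a7 : ∀ P Q : Finset ι, P.card = 2 → Q.card = 2 → ∀ π, MPe b (c P * c Q).1 π → ∀ r, π r ≠ r →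
      ((∃ m, π ^ (2 * m + 1) = 1) ∧ ∃ U : Submodule F V, finrank F U ≤ 2 ∧ ∀ v, (c P * c Q).1 v - v ∈ U) ∨
        (∀ i, π (π i) = i) ∧ ∀ i, π i ≠ i := fun P Q hP hQ π hπ r hr => by
    have e : c P ≠ c Q := fun e => hr (by
      simpa using congrArg (· r) (hπ.pow_eq (n := 1) (by rw [e, (hc Q hQ).2.1.sq]; rfl)))
    obtain ⟨⟨U, b4, b5⟩, b6⟩ := h.ca_rank NF h2 (hc P hP).2.1 (hc P hP).2.2.1 (hc Q hQ).2.1
    refine (h.ca_odd8 hM NF h8 h2 (hc P hP).2.1 (hc P hP).2.2.1 (hc Q hQ).2.1 e hπ.mon).imp (fun ⟨m, hm⟩ => ?_)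
      fun ⟨b1, b2⟩ => ⟨fun i => ?_, fun i hi => ?_⟩
    · have b1 := hπ.pow_eq (n := 2 * m + 1) (by rw [← Subgroup.coe_pow, hm]; rfl)
      exact ⟨⟨m, b1⟩, (hπ.exists_fix h8.ge b4 b5 fun e => hr (fix_of_odd b1 e)).elim b6⟩
    · simpa [sq] using congrArg (· i) (hπ.pow_eq (n := 2) (by rw [← Subgroup.coe_pow, b1]; rfl))
    · obtain ⟨t, -, ht⟩ := hπ i
      exact b2 i t (by rw [ht, hi])
  have a8 : ∀ i j k l : ι, i ≠ j ∧ i ≠ k ∧ i ≠ l ∧ j ≠ k ∧ j ≠ l ∧ k ≠ l → ∃ π, MPe b (c {i, j} * c {k, l}).1 π ∧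
      (∀ r ∈ ({k, l} : Finset ι), π r ∈ ({i, j} : Finset ι)) ∧ (∀ i, π (π i) = i) ∧ ∀ i, π i ≠ i := fun i j k l H => by
    obtain ⟨π, b1, b2⟩ := a6 _ _ (Finset.card_pair H.1) (Finset.card_pair H.2.2.2.2.2)
    refine ⟨π, b1, b2, (a7 _ _ (Finset.card_pair H.1) (Finset.card_pair H.2.2.2.2.2) π b1 k (by
      have := b2 k (by simp); grind)).resolve_left fun ⟨⟨m, b3⟩, U, b4, b5⟩ => b1.four b4 b5 H b2 b3⟩
  obtain ⟨i, j, k, l, H, -⟩ := exists_four (fun _ : ι => ()) (by omega)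
  obtain ⟨r, -, hr⟩ := Finset.exists_mem_notMem_of_card_lt_card (t := Finset.univ) (s := {i, j, k, l})
    (Finset.card_le_four.trans_lt (by simp [h8]))
  obtain ⟨τ, b1, b2, b3, b4⟩ := a8 k l i j (by grind)
  obtain ⟨υ, d1, d2, d3, d4⟩ := a8 i j k r (by grind)
  have e1 : MPe b (c {k, l} * c {k, r}).1 (τ * υ) := by
    convert b1.mul d1 using 1
    rw [← Subgroup.coe_mul, mul_assoc, ← mul_assoc (c {i, j}), (hc _ (Finset.card_pair H.1)).2.1.sq, one_mul]
  have e2 := b2 i (by simp); have e3 := b2 j (by simp); have e4 := d2 k (by simp); have e5 := d2 r (by simp)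
  simp only [Finset.mem_insert, Finset.mem_singleton, not_or] at e2 e3 e4 e5 hr
  have f1 := b3 i; have f2 := b3 j; have f3 := d3 k; have f4 := d3 r; have f5 := b3 r; have f6 := b4 r
  rcases a7 _ _ (Finset.card_pair H.2.2.2.2.2) (Finset.card_pair (Ne.symm hr.2.2.1)) _ e1 r (by
    rw [Equiv.Perm.mul_apply]; grind) with ⟨⟨m, g1⟩, U, g2, g3⟩ | ⟨g1, g2⟩
  · have g4 := @fix_of_odd _ _ _ _ _ g1 r
    have g5 := (τ * υ).injective.ne_iff (x := l) (y := r)
    by_cases g6 : τ (υ k) = k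
    · have := e1.tri g3 [r, l, υ r] (fun x hx => e1.ne (by simp at hx g5 ⊢; grind)) (by simp at g4 ⊢; grind)
      simp at this; omega
    · have := e1.tri g3 [r, k, υ k] (fun x hx => e1.ne (by simp at hx ⊢; grind)) (by simp; grind)
      simp at this; omega
  · have := g1 r; have := g2 k
    simp only [Equiv.Perm.mul_apply] at *
    grind

omit NF h2 in
theorem SUG_le8 {g : UG B} (hg : g ∈ M) (hg' : ¬ Mon b g.1) : SUG B ≤ M := by
  by_contra H
  have NF : ∀ g ∈ M, ∀ (i j : ι) (c : F), g.1 (b i) = c • b j → Mon b g.1 := fun g hg i j c e => by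
    by_contra e'; exact H (h.le_of_fix hM (by omega) hg e' e)
  by_cases h2 : (2 : F) = 0
  · exact hg' (h.mon_even hM NF (by omega) h2 hg)
  · exact hg' (h.mon_odd8 hM NF h8 h2 hg)

end OB

open Geo in
theorem max_su_frame8 {F : Type*} [Field F] [Fintype F] {n q : ℕ} (hF : Fintype.card F = q ^ 2)
    (hn : n = 8) {t : ℕ} {D : Fin t → Submodule F (Fin n → F)}
    (hD : IsNondegenerateMDecomposition (hermForm n F q) 1 D) : IsMaximalIn (GU n F q ⊓ specialLinear (Fin n) F)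
      (decompositionStabilizer D ⊓ (GU n F q ⊓ specialLinear (Fin n) F)) := by
  obtain ⟨a, hf⟩ := exists_tvF_su hF (n := n) (by omega)
  obtain ⟨b, hb⟩ := exists_basis_of_dec hD.decomp
  have D' := sd_tB hf
  have a1 := od_of_decomp hf hD
  have a0 : t = n := by simpa using (finrank_eq_card_basis b).symm
  subst a0
  have a2 : ∀ i, tB hf (b i) (b i) ≠ 0 := fun i e => b.ne_zero i (Submodule.disjoint_def.mp (a1.nd i) _
    (hb i ▸ Submodule.mem_span_singleton_self _) (hb i ▸ mem_sperp_singleton.mpr e))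
  let i₀ : Fin t := ⟨0, by omega⟩
  choose c hc using fun i => D'.ns.resolve_left (frobq_ne_id hF) (tB hf (b i₀) (b i₀) / tB hf (b i) (b i))
    (D'.σ_div_self (D'.σ_map _ _) (D'.σ_map _ _))
  have c0 : ∀ i, c i ≠ 0 := fun i e => div_ne_zero (a2 i₀) (a2 i) (by simp [← hc, e])
  let b' := b.unitsSMul fun i => Units.mk0 (c i) (c0 i)
  have b1 : ∀ i, b' i = c i • b i := fun i => b.unitsSMul_apply i
  have hb' : ∀ i, D i = F ∙ b' i := fun i => by
    rw [b1, Submodule.span_singleton_smul_eq (c0 i).isUnit, hb]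
  have h : OB (tB hf) b' (tB hf (b i₀) (b i₀)) := ⟨D', a2 _, fun i j => by
    split_ifs with e
    · simp only [e, b1, LinearMap.map_smulₛₗ, LinearMap.smul_apply, map_smul, smul_eq_mul]
      rw [← mul_assoc, mul_comm (c j), hc, div_mul_cancel₀ _ (a2 j)]
    · exact a1.orth i j e (hb' j ▸ Submodule.mem_span_singleton_self _) _
        (hb' i ▸ Submodule.mem_span_singleton_self _), frobq_ne_id hF⟩
  refine isMaximalIn_iso hf (Mon b') (fun g => (perm_iff_mapsTo hD.decomp (glEq _ F g)).trans (mapsTo_iff_mon hb' _))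
    (fun e => ?_) fun M hM _ g hg hg' => h.SUG_le8 hM (by simpa using hn) hg hg'
  obtain ⟨g, g1, g2⟩ := h.exists_not_mon (by simp; omega)
  exact g2 (glEq_toGL g ▸ (mapsTo_iff_mon hb' _).mp ((perm_iff_mapsTo hD.decomp _).mp
    (e (map_SUG hf ▸ Subgroup.mem_map_of_mem _ g1))))

end Cfsg.Agent.H12
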