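import Mathlib
import Cfsg.Agent.H12.UtD
import Cfsg.Agent.H12.MaxV
import Cfsg.Agent.H6.Mazurov

/-!
The unitary tensor decomposition of type `2 ⊗ 3`.
-/

set_option autoImplicit false

namespace Cfsg.Agent.H12

open Module

theorem eq_top_of_quad {F V G : Type*} [Field F] [Finite F] [AddCommGroup V] [Module F V] [FiniteDimensional F V]
    [Group G] [Finite G] (ρ : G →* V ≃ₗ[F] V) (hρ : Function.Injective ρ) (H : Subgroup G) (K : Subfield F)
    {c₀ : F} (hK : c₀ ∈ K) (c0 : c₀ ≠ 0) (c1 : c₀ ≠ 1) {N : V → V} {v₀ : V} (hN : N v₀ ≠ 0)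
    (h1 : ∀ g ∈ H, ∃ c ∈ K, ∀ v, ρ g v = v + c • N v) (h2 : ∀ c ∈ K, ∃ g ∈ H, ∀ v, ρ g v = v + c • N v)
    (hTI : ∀ g : G, g ∉ H → ∀ x ∈ H, g * x * g⁻¹ ∈ H → x = 1) : H = ⊤ := by
  classical
  have := Fintype.ofFinite H
  have := Fintype.ofFinite K
  have := Module.finite_of_finite F (M := V)
  obtain ⟨p, hp⟩ := CharP.exists F
  have : Fact p.Prime := ⟨CharP.char_is_prime F p⟩
  obtain ⟨A, hA, a1, -⟩ := H4.frobenius_kernel H hTI
  have a2 : ∀ y ∈ H, y ≠ 1 → ∀ f ∈ A, f * y = y * f → f = 1 := fun y hy h1 f hf e =>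
    Subgroup.disjoint_def.mp a1.disjoint hf (by_contra fun c => h1 (hTI f c y hy (by rw [e]; simpa)))
  choose! g g1 g2 using h2
  have a3 : Function.Bijective fun c : K => (⟨g c, g1 c c.2⟩ : H) := ⟨fun c d e => Subtype.ext (by
      have := (g2 c c.2 v₀).symm.trans ((congrArg (fun x : H => ρ x v₀) e).trans (g2 d d.2 v₀))
      exact smul_left_injective F hN (add_left_cancel this)), fun x => by
    obtain ⟨c, b1, b2⟩ := h1 x x.2
    exact ⟨⟨c, b1⟩, Subtype.ext (hρ (LinearEquiv.ext fun v => (g2 c b1 v).trans (b2 v).symm))⟩⟩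
  have a4 : ∑ c : K, c = 0 := mul_left_cancel₀ (a := (⟨c₀, hK⟩ : K) - 1)
    (sub_ne_zero.mpr fun e => c1 (congrArg Subtype.val e)) (by
      rw [sub_mul, Finset.mul_sum, one_mul, mul_zero, sub_eq_zero]
      exact Equiv.sum_comp (Equiv.mulLeft₀ (⟨c₀, hK⟩ : K) fun e => c0 (congrArg Subtype.val e)) id)
  have a5 : (Fintype.card K : F) = 0 := by
    rw [← map_natCast K.subtype, FiniteField.cast_card_eq_zero, map_zero]
  have a6 : H ≤ Subgroup.normalizer (A : Set G) := A.normalizer_eq_top ▸ le_top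
  have a7 := H1.coprime_card_of_fpf a6 fun y hy h1 => eq_bot_iff.mpr fun f hf =>
    a2 y hy h1 f hf.1 (Subgroup.mem_centralizer_singleton_iff.mp hf.2)
  obtain ⟨n, hn⟩ := IsPGroup.exists_card_eq (p := p) (G := Multiplicative V) fun v => ⟨1, by
    rw [pow_one, ← ofAdd_toAdd v, ← ofAdd_nsmul, ← Nat.cast_smul_eq_nsmul F]; simp⟩
  have a8 : ∀ f ∈ A, f = 1 := fun f hf => hρ (LinearEquiv.ext fun v => by
    rw [map_one]
    exact H6.frob_norm_fix (V := Multiplicative V)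
      ⟨⟨fun x => AddMonoidHom.toMultiplicative (ρ x).toLinearMap.toAddMonoidHom, by ext; simp; rfl⟩,
        by intros; ext; simp; rfl⟩
      a6 a2 (fun v => by
        change ∏ y : H, Multiplicative.ofAdd (ρ y v.toAdd) = 1
        rw [← ofAdd_sum, ← a3.sum_comp, ofAdd_eq_one]
        simp only [g2 _ (Subtype.prop _), Finset.sum_add_distrib, ← Finset.sum_smul, Finset.sum_const,
          Finset.card_univ, ← Nat.cast_smul_eq_nsmul F, a5]
        rw [← AddSubmonoidClass.coe_finsetSum, a4]; simp)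
      (hn ▸ ((a7.coprime_dvd_left (by
        rw [← Nat.card_congr (Equiv.ofBijective _ a3), Nat.card_eq_fintype_card]
        exact (CharP.cast_eq_zero_iff F p _).mp a5)).symm.pow_right n)) hf (Multiplicative.ofAdd v))
  rw [(Subgroup.eq_bot_iff_forall _).mpr a8] at a1
  exact Subgroup.isComplement'_bot_left.mp a1

variable {F V : Type*} [Field F] [AddCommGroup V] [Module F V] {σ : F →+* F}
  {B : V →ₛₗ[σ] V →ₗ[F] F} {M : Subgroup (UG B)}

theorem exists_eq_pair [FiniteDimensional F V] {P : Submodule F V} (h : finrank F P ≤ 2) {x y v : V} (hx : x ∈ P)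
    (hy : y ∈ P) (hv : v ∈ P) (h0 : x ≠ 0) (h1 : y ∉ F ∙ x) : ∃ a b : F, v = a • x + b • y := by
  obtain ⟨χ, a1, a2⟩ := exists_dual_one_zero h1
  obtain ⟨a, ha⟩ := Submodule.mem_span_singleton.mp (mem_span_of_ker (K := F) (V := P) h (χ := χ ∘ₗ P.subtype)
    (x := ⟨v - χ v • y, sub_mem hv (P.smul_mem _ hy)⟩) (y := ⟨x, hx⟩)
    (fun e => by simpa [a1] using LinearMap.congr_fun e ⟨y, hy⟩) (by simpa) a2 (by simp [a1]))
  exact ⟨a, χ v, sub_eq_iff_eq_add.mp (congrArg Subtype.val ha).symm⟩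

variable {U W : Type*} [AddCommGroup U] [Module F U] [AddCommGroup W] [Module F W]
  {B₁ : U →ₛₗ[σ] U →ₗ[F] F} {β : W →ₛₗ[σ] W →ₗ[F] F} {τ : U →ₗ[F] W →ₗ[F] V} {ζ : F}
  [FiniteDimensional F U] [FiniteDimensional F W]

namespace UT
variable (h : UT B B₁ β τ ζ) [Finite F] (hM : ∀ g ∈ SUG B, TN τ g.1 → g ∈ M) (hS : M ≤ SUG B) (H : ¬ SUG B ≤ M)
  (h2 : finrank F U = 2) (h3 : finrank F W = 3) (hq : 3 ≤ q0 σ)
  {y z : W} (hy : β y y = 0) (hy0 : y ≠ 0) (hz : β z z = 0) (hz0 : z ≠ 0) {k : UG B}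
include h hM hS H h2 h3 hq

include hy hy0 hz hz0 in
theorem perp_of_inj (hk : k ∈ M) (hk' : ¬ TN τ k.1) (hT : ∀ u, h.cw z (k.1 (τ u y)) = 0 → u = 0) :
    ∃ r, r ≠ 0 ∧ β z r = 0 ∧ ∀ u, h.cw r (k.1 (τ u y)) = 0 := by
  haveI := h.fin
  have := finite_UG (B := B)
  by_contra! C
  obtain ⟨f, hf⟩ := h.sd₂.exists_SP hz hz0
  obtain ⟨s, -, s0, s1, s2⟩ := h.sd₂.exists_perp_mem₂ (W := ⊤) (by simp [h3]) z f
  have s3 : ∀ w, β z w = 0 → ∃ a b : F, w = a • z + b • s := fun w hw =>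
    exists_eq_pair (P := LinearMap.ker (β z)) (by
      have := Dual.finrank_ker_add_one_of_ne_zero (f := β z) fun e => by simpa [e] using hf.ef
      omega) hz s1 hw hz0 fun e => by
      obtain ⟨c, rfl⟩ := Submodule.mem_span_singleton.mp e
      simp [show c = 0 by simpa [hf.fe h.sd₂] using s2] at s0
  have s4 : β s s ≠ 0 := fun e => s0 (h.sd₂.sep s fun w => by
    obtain ⟨a, b, e'⟩ := s3 (w - β z w • f) (by simp [hf.ef])
    rw [sub_eq_iff_eq_add.mp e']; simp [e, h.sd₂.comm0 s1, h.sd₂.comm0 s2])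
  let E := LinearEquiv.ofInjectiveEndo (h.cw z ∘ₗ k.1.toLinearMap ∘ₗ τ.flip y) ((injective_iff_map_eq_zero _).mpr hT)
  choose θ hθ using fun u => h.sd₁.exists_repr (-(B₁ u ∘ₗ h.cw s ∘ₗ k.1.toLinearMap ∘ₗ τ.flip y ∘ₗ E.symm.toLinearMap))
  have a1 : ∀ u x, B (τ u s + τ (θ u) z) (k.1 (τ x y)) = 0 := fun u x => by
    have := hθ u (E x)
    simp only [LinearMap.neg_apply, LinearMap.comp_apply, LinearEquiv.coe_coe, E.symm_apply_apply] at this
    rw [map_add, LinearMap.add_apply, h.B_cw, h.B_cw, show h.cw z (k.1 (τ x y)) = E x from rfl, this]; simp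
  have a2 : ∀ c : F, ¬ ∀ u, θ u = c • u := fun c e => by
    obtain ⟨x, hx⟩ := C (s + c • z) (fun e => s4 (by simpa [h.sd₂.comm0 s1] using congrArg (β s) e)) (by simp [s1, hz])
    exact hx (h.sd₁.ext_right fun u => mul_left_cancel₀ h.ne (by simpa [← h.B_cw, e] using a1 u x))
  let G₀ : Subgroup (UG B) :=
    { carrier := {c | c ∈ M ∧ ∀ u, c.1 (τ u s + τ (θ u) z) = τ u s + τ (θ u) z}
      mul_mem' := fun a b => ⟨mul_mem a.1 b.1, fun u => by rw [UG_mul_apply, b.2, a.2]⟩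
      one_mem' := ⟨one_mem _, fun _ => rfl⟩
      inv_mem' := fun a => ⟨inv_mem a.1, fun u => UG_inv_apply_eq (a.2 u)⟩ }
  obtain ⟨e, e0, e1⟩ := h.sd₁.exists_iso h.sd₁.ns h2.ge
  obtain ⟨e', he⟩ := h.sd₁.exists_SP e1 e0
  have a3 : ∀ g ∈ G₀, TN τ g.1 → ∃ c, σ c = c ∧ g = h.tt 1 (tv β z c) := fun g hg ⟨a, b, hab⟩ => by
    have b0 := h.surj_of_map hz0 (hab · z)
    have b1 : ∀ u, a u = 0 → u = 0 := (injective_iff_map_eq_zero a).mp (LinearMap.injective_iff_surjective.mpr b0)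
    have b2 : ∀ w u, β w (b s) • a u + β w (b z) • a (θ u) = β w s • u + β w z • θ u := fun w u => by
      simpa [hab] using congrArg (h.cw w) (hg.2 u)
    have b3 : β z (b z) = 0 := by_contra fun c => a2 (-β z (b s) / β z (b z)) fun u => sub_eq_zero.mp (b1 _ (by
      have := b2 z u
      simp only [s1, hz, zero_smul, add_zero] at this
      refine smul_right_injective _ c ?_
      simp only [map_sub, map_smul, smul_sub, smul_smul, mul_div_cancel₀ _ c, smul_zero]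
      linear_combination (norm := module) this))
    have b4 : β z (b s) = 0 := by_contra fun c => e0 (b1 _ (by simpa [s1, hz, b3, c] using b2 z e))
    obtain ⟨l, l', d1⟩ := s3 _ b3
    obtain ⟨ν, μ, d2⟩ := s3 _ b4
    obtain rfl : l' = 0 := by
      obtain ⟨u, hu⟩ := b0 e
      obtain ⟨u', hu'⟩ := b0 e'
      have := UG_map g (τ u z) (τ u' z)
      simpa [hab, h.map, hu, hu', he.ef, he.ee, h.ne, d1, hz, s1, h.sd₂.comm0 s1, s4, or_comm] using this
    have b5 : ∀ u, μ • a u = u := fun u => smul_right_injective _ s4 (by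
      simpa [d1, d2, h.sd₂.comm0 s1, mul_smul, smul_comm μ] using b2 s u)
    have b6 : ∀ u, ν • u + l • θ u = μ • θ u := fun u => by
      have := b2 f u
      simp only [d1, d2, map_add, map_smul, hf.fe h.sd₂, s2, smul_eq_mul, mul_zero, add_zero, zero_smul, zero_add,
        mul_neg, mul_one, neg_smul, one_smul] at this
      linear_combination (norm := module) -μ • this - ν • b5 u - l • b5 (θ u)
    obtain rfl : μ = l := by_contra fun c => a2 (ν / (μ - l)) fun u => smul_right_injective _ (sub_ne_zero.mpr c) (by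
      simp only [smul_smul, mul_div_cancel₀ _ (sub_ne_zero.mpr c)]
      linear_combination (norm := module) -b6 u)
    obtain rfl : ν = 0 := by simpa [e0] using b6 e
    refine h.eq_tv hM h3.ge hz hz0 H h2.ge (Or.inl hq) hg.1 fun v hv => h.eq_of_cw hf.ef (p := fun v => g.1 v = v)
      (map_zero _) (fun u w hw => ?_) (fun _ _ a b => by rw [map_add, a, b]) hv
    obtain ⟨c, d, rfl⟩ := s3 w hw
    have : ∀ w, μ • τ (a u) w = τ u w := fun w => by rw [← LinearMap.smul_apply, ← map_smul, b5]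
    simp [hab, d1, d2, this]
  obtain ⟨c₀, c1, c2, c3⟩ := exists_fix_ne_of_three_le hq
  have a4 := eq_top_of_quad (F := F) ((UG B).subtype.comp G₀.subtype) (Subtype.val_injective.comp Subtype.val_injective)
    (h.HT.subgroupOf G₀) (σ.eqLocusField (RingHom.id F)) c1 c2 c3 (N := fun v => τ (h.cw z v) z) (v₀ := τ e f)
    (by simpa [hf.ef] using ten_ne_zero h.ten e0 hz0)
    (fun g hg => (a3 g g.2 hg).imp fun c ⟨b1, b2⟩ => ⟨b1, fun v => by simp [b2, h.tt_tv hz b1]⟩)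
    (fun c hc => ⟨⟨_, h.right_mem hM (tv_mem_SUG h.sd₂ z c), fun u => by rw [h.tt_tv hz hc]; simp [s1, hz]⟩,
      h.tn_tt _ _, h.tt_tv hz hc⟩) fun g hg x hx e => by_contra fun c => by
      obtain ⟨d, b1, b2⟩ := a3 x x.2 hx
      refine hg (h.tn_of_conj hM hS H h2.ge (by omega) (Or.inl hq) hz hz0 g.2.1 b1 ?_ (b2 ▸ e))
      rintro rfl
      exact c (Subtype.ext (b2.trans (h.ext fun _ _ => by simp [tv_zero h.sd₂])))
  refine hk' (h.tn_of_conj hM hS H h2.ge (by omega) (Or.inl hq) hy hy0 hk (map_one σ) one_ne_zero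
    (a4.ge (Subgroup.mem_top ⟨_, mul_mem (mul_mem hk (h.right_mem hM (tv_mem_SUG h.sd₂ y 1))) (inv_mem hk),
      fun u => ?_⟩)))
  have : h.cw y (k.1.symm (τ u s + τ (θ u) z)) = 0 := h.sd₁.ext_right fun x => mul_left_cancel₀ h.ne (by
    rw [← h.B_cw, ← UG_map k]; simp [h.sd.comm0 (a1 u x), -map_add])
  simp [h.tt_tv hy (map_one σ), this, -map_add]

theorem tn_of_three (hk : k ∈ M) : TN τ k.1 := by
  by_contra hk'
  obtain ⟨y, hy0, hy⟩ := h.sd₂.exists_iso h.sd₂.ns (by omega)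
  have a0 : ∀ {u}, k.1 (τ u y) = 0 → u = 0 := fun e => ten_left_inj h.ten hy0 (k.1.injective (by simp [e]))
  have a1 : ∀ z, β z z = 0 → z ≠ 0 → (∃ r, r ≠ 0 ∧ β z r = 0 ∧ ∀ u, h.cw r (k.1 (τ u y)) = 0) ∨
      ∃ u u', u ≠ 0 ∧ k.1 (τ u y) = τ u' z := fun z hz hz0 => by
    by_cases e : ∀ u, h.cw z (k.1 (τ u y)) = 0 → u = 0
    · exact Or.inl (h.perp_of_inj hM hS H h2 h3 hq hy hy0 hz hz0 hk hk' e)
    push Not at e
    obtain ⟨u, e, u0⟩ := e
    rcases h.plane_or_swap hM hS H h2.ge (by omega) (Or.inl hq) hy hy0 hz hz0 hk with ⟨z', b⟩ | ⟨c, -, b1, b2⟩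
    · obtain ⟨r, -, r0, r1, r2⟩ := h.sd₂.exists_perp_mem₂ (W := ⊤) (by simp [h3]) z z'
      exact Or.inl ⟨r, r0, r1, fun u => by
        obtain ⟨u₁, u₂, e'⟩ := b u; simp [e', h.sd₂.comm0 r1, h.sd₂.comm0 r2]⟩
    · exact Or.inr ⟨u, (b2 u).imp fun u' e' =>
        ⟨u0, by rwa [b1 (k.1 (τ u y)) (fun u' => by simp [UG_map, h.map, hy]) e] at e'⟩⟩
  obtain ⟨f, hf⟩ := h.sd₂.exists_SP hy hy0
  obtain ⟨r, r0, hr⟩ : ∃ r, r ≠ 0 ∧ ∀ u, h.cw r (k.1 (τ u y)) = 0 := by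
    rcases a1 y hy hy0 with ⟨r, a, -, b⟩ | ⟨u₁, u₁', b1, b2⟩
    · exact ⟨r, a, b⟩
    rcases a1 f hf.ff hf.ne_right with ⟨r, a, -, b⟩ | ⟨u₂, u₂', b3, b4⟩
    · exact ⟨r, a, b⟩
    obtain ⟨r, -, r0, r1, r2⟩ := h.sd₂.exists_perp_mem₂ (W := ⊤) (by simp [h3]) y f
    refine ⟨r, r0, fun u => ?_⟩
    obtain ⟨a, b, rfl⟩ := exists_eq_pair (F := F) (P := ⊤) (by simp [h2]) (v := u) trivial trivial trivial b1 (y := u₂) fun e => by
      obtain ⟨c, rfl⟩ := Submodule.mem_span_singleton.mp e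
      have : u₂' = 0 := by simpa [b2, hy, hf.ef] using (congrArg (h.cw y) b4).symm
      exact b3 (a0 (by rw [b4, this]; simp))
    simp [b2, b4, h.sd₂.comm0 r1, h.sd₂.comm0 r2]
  obtain ⟨z, hz, b1⟩ := h.sd₂.exists_iso_ne h.sd₂.ns (Or.inr (by omega)) r0
  rcases a1 z hz (by rintro rfl; simp at b1) with ⟨r', b2, b3, b4⟩ | ⟨u, u', b2, b3⟩
  · obtain ⟨w, -, w0, w1, w2⟩ := h.sd₂.exists_perp_mem₂ (W := ⊤) (by simp [h3]) r r'
    obtain ⟨s, hs⟩ := h.sd₂.exists_repr (Module.Projective.exists_dual_eq_one F w0).choose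
    replace hs := (hs w).trans (Module.Projective.exists_dual_eq_one F w0).choose_spec
    have b5 : ∀ u, k.1 (τ u y) = τ ((h.cw s ∘ₗ k.1.toLinearMap ∘ₗ τ.flip y) u) w := fun u =>
      h.eq_right hs fun w' hw => by
        obtain ⟨a, b, rfl⟩ := exists_eq_pair (P := LinearMap.ker (β w)) (by
          have := Dual.finrank_ker_add_one_of_ne_zero (f := β w) fun e => w0 (h.sd₂.sep w fun x => by simp [e])
          omega) (h.sd₂.comm0 w2) (h.sd₂.comm0 w1) hw b2 fun e => by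
          obtain ⟨c, rfl⟩ := Submodule.mem_span_singleton.mp e
          simp [b3] at b1
        simp [h.cw_add, h.cw_smul, hr, b4]
    obtain ⟨e, e0, e1⟩ := h.sd₁.exists_iso h.sd₁.ns h2.ge
    obtain ⟨e', he⟩ := h.sd₁.exists_SP e1 e0
    obtain ⟨u, hu⟩ := h.surj_of_map hy0 b5 e
    obtain ⟨u', hu'⟩ := h.surj_of_map hy0 b5 e'
    have := UG_map k (τ u y) (τ u' y)
    rw [b5, b5, hu, hu'] at this
    exact hk' (h.tn_of_map hM hS H h2.ge (by omega) (Or.inl hq) hy hy0 (by simpa [h.map, hy, he.ef, h.ne] using this)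
      w0 hk fun u => ⟨_, b5 u⟩)
  · have : u' = 0 := by simpa [b3, h.sd₂.ne0 b1] using hr u
    exact b2 (a0 (by simp [b3, this]))

end UT

theorem max_su_tensor_three {F : Type*} [Field F] [Fintype F] {n q : ℕ} (hF : Fintype.card F = q ^ 2) (hq : 3 ≤ q)
    {e : Fin n ≃ Fin 2 × Fin 3} {P : GL (Fin n) F} {f₁ : (Fin 2 → F) → (Fin 2 → F) → F}
    {f₂ : (Fin 3 → F) → (Fin 3 → F) → F} (hf₁ : Geo.IsUnitaryFormPow q f₁) (hf₂ : Geo.IsUnitaryFormPow q f₂)
    (hT : Geo.IsTensorFormStructure (fun x : F => x ^ q) (hermForm n F q) f₁ f₂ e P) :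
    Geo.IsMaximalIn (GU n F q ⊓ Geo.specialLinear (Fin n) F)
      (Geo.tensorProductSubgroup 2 3 e P ⊓ (GU n F q ⊓ Geo.specialLinear (Fin n) F)) :=
  max_su_tensor_of hF le_rfl (by omega) hf₁ hf₂ hT fun _ _ _ _ T _ hM hS H _ hk =>
    T.tn_of_three hM hS H (by simp) (by simp) (by simpa [q0_frobq]) hk

end Cfsg.Agent.H12
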